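import Cfsg.Agent.NilType.Matrix
import Cfsg.Agent.SubElusive.Count

/-!
Invariant complementary pairs of unipotent maps, and counting complementary pairs.
-/

set_option autoImplicit false
set_option linter.style.haveILetI false

namespace CfsgLib.SubElusive

open Module CfsgLib.NilType

theorem exists_finset_map {α : Type*} [DecidableEq α] (k : α → ℕ) (ν : Multiset ℕ) :
    ∀ s : Finset α, ν ≤ s.val.map k → ∃ T ⊆ s, T.val.map k = ν := by
  induction ν using Multiset.induction with
  | empty => exact fun s _ => ⟨∅, Finset.empty_subset s, rfl⟩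
  | cons a ν ih =>
    intro s hs
    obtain ⟨i, hi, rfl⟩ := Multiset.mem_map.mp (Multiset.mem_of_le hs (Multiset.mem_cons_self a ν))
    have he : s.val.map k = k i ::ₘ (s.erase i).val.map k := by
      rw [← Multiset.map_cons k i, Finset.erase_val, Multiset.cons_erase hi]
    rw [he, Multiset.cons_le_cons_iff] at hs
    obtain ⟨T, hT, hTν⟩ := ih (s.erase i) hs
    have hiT : i ∉ T := fun h => (Finset.notMem_erase i s) (hT h)
    refine ⟨insert i T, Finset.insert_subset hi (hT.trans (Finset.erase_subset i s)), ?_⟩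
    rw [Finset.insert_val_of_notMem hiT, Multiset.map_cons, hTν]

variable {F : Type*} [Field F] {n : ℕ}

/-- Complementary invariant subspaces from a part of the chains. -/
theorem pair_of_chain {V : Type*} [AddCommGroup V] [Module F V] [FiniteDimensional F V] (N : Module.End F V)
    {t : ℕ} {k : Fin t → ℕ} {b : Basis (Σ i, Fin (k i)) F V} (hb : IsChain N k b) (T : Finset (Fin t)) :
    ∃ U W : Submodule F V, IsCompl U W ∧ Module.finrank F U = ∑ i ∈ T, k i ∧ U.map N ≤ U ∧ W.map N ≤ W := by
  classical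
  have inv : ∀ S : Set (Fin t), (Submodule.span F (b '' {x | x.1 ∈ S})).map N ≤ Submodule.span F (b '' {x | x.1 ∈ S}) := by
    intro S
    rw [Submodule.map_span_le]
    rintro _ ⟨x, hx, rfl⟩
    rw [hb x]
    split_ifs with h
    · exact Submodule.subset_span ⟨⟨x.1, ⟨x.2.val + 1, h⟩⟩, hx, rfl⟩
    · exact zero_mem _
  refine ⟨_, _, ?_, ?_, inv (T : Set (Fin t)), inv (T : Set (Fin t))ᶜ⟩
  · constructor
    · exact b.linearIndependent.disjoint_span_image (Set.disjoint_left.mpr fun x h1 h2 => h2 h1)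
    · rw [codisjoint_iff, ← Submodule.span_union, ← Set.image_union]
      have e : {x : Σ i, Fin (k i) | x.1 ∈ (T : Set (Fin t))} ∪ {x | x.1 ∈ (T : Set (Fin t))ᶜ} = Set.univ :=
        Set.eq_univ_of_forall fun x => em _
      rw [e, Set.image_univ, b.span_eq]
  · have hset : {x : Σ i, Fin (k i) | x.1 ∈ (T : Set (Fin t))} = ↑(T.sigma fun i => (Finset.univ : Finset (Fin (k i)))) := by
      ext x; simp
    rw [hset, show b '' ↑(T.sigma fun i => (Finset.univ : Finset (Fin (k i)))) =
        Set.range (fun x : ↥(T.sigma fun i => (Finset.univ : Finset (Fin (k i)))) => b x) by ext; simp]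
    refine (finrank_span_eq_card (b.linearIndependent.comp
      (fun x : ↥(T.sigma fun i => (Finset.univ : Finset (Fin (k i)))) => x.1) Subtype.val_injective)).trans ?_
    rw [Fintype.card_coe, Finset.card_sigma]
    simp

/-- A matrix killed by the `p`-th power after subtracting the identity has a pair when every type does. -/
theorem pair_of_nilpotent {p m : ℕ} (A : Matrix (Fin n) (Fin n) F) (hA : A ^ p = 0) (hp : 0 < p)
    (hμ : ∀ μ : Multiset ℕ, (∀ a ∈ μ, 0 < a ∧ a ≤ p) → μ.sum = n → ∃ ν : Multiset ℕ, ν ≤ μ ∧ ν.sum = m) :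
    ∃ U W : Submodule F (Fin n → F), IsCompl U W ∧ Module.finrank F U = m ∧
      U.map (Matrix.toLin' A) ≤ U ∧ W.map (Matrix.toLin' A) ≤ W := by
  classical
  let N : Module.End F (Fin n → F) := Matrix.toLinAlgEquiv' A
  have hN : N ^ p = 0 := by rw [← map_pow, hA, map_zero]
  obtain ⟨t, k, b, hk, hb⟩ := exists_chain N ⟨p, hN⟩
  have hle : ∀ i, k i ≤ p := by
    intro i
    by_contra h
    push Not at h
    have h1 := chain_pow hb p ⟨i, ⟨0, hk i⟩⟩
    rw [hN, LinearMap.zero_apply, dif_pos (show 0 + p < k i by omega)] at h1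
    exact b.ne_zero _ h1.symm
  have hsum : (Finset.univ.val.map k).sum = n := by
    have h := (finrank_eq_card_basis b).symm
    rw [Module.finrank_fin_fun] at h
    simpa [Finset.sum] using h
  obtain ⟨ν, hν, hνm⟩ := hμ _ (fun a ha => by
    obtain ⟨i, -, rfl⟩ := Multiset.mem_map.mp ha
    exact ⟨hk i, hle i⟩) hsum
  obtain ⟨T, -, hT⟩ := exists_finset_map k ν Finset.univ hν
  obtain ⟨U, W, h1, h2, h3, h4⟩ := pair_of_chain N hb T
  exact ⟨U, W, h1, by rw [h2, Finset.sum_eq_multiset_sum, hT, hνm], h3, h4⟩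

/-- The type splits along complementary invariant subspaces. -/
theorem type_split {m : ℕ} (A : Matrix (Fin n) (Fin n) F) (hA : IsNilpotent A) {μ : Nat.Partition n} (hμ : HasType A μ)
    (U W : Submodule F (Fin n → F)) (hc : IsCompl U W) (hU : Module.finrank F U = m)
    (hUi : U.map (Matrix.toLin' A) ≤ U) (hWi : W.map (Matrix.toLin' A) ≤ W) :
    ∃ ν : Multiset ℕ, ν ≤ μ.parts ∧ ν.sum = m := by
  classical
  obtain ⟨N, hN⟩ : ∃ N : Module.End F (Fin n → F), N = Matrix.toLinAlgEquiv' A := ⟨_, rfl⟩
  have part : ∀ U : Submodule F (Fin n → F), U.map (Matrix.toLin' A) ≤ U → ∃ (t : ℕ) (k : Fin t → ℕ), (∀ i, 0 < k i) ∧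
      (∑ i, k i = Module.finrank F U) ∧ ∀ j, (U.map (N ^ j) ≤ U) ∧ ∑ i, (k i - j) = Module.finrank F (U.map (N ^ j)) := by
    intro U hUi
    have hU' : ∀ x ∈ U, N x ∈ U := fun x hx => by rw [hN]; exact hUi ⟨x, hx, rfl⟩
    let R : Module.End F U := N.restrict hU'
    have hR : IsNilpotent R := by
      obtain ⟨a, ha⟩ := hA
      refine ⟨a, LinearMap.ext fun x => Subtype.ext ?_⟩
      rw [Module.End.pow_restrict a hU', LinearMap.restrict_coe_apply, hN, ← map_pow, ha, map_zero]
      rfl
    obtain ⟨t, k, b, hk, hb⟩ := exists_chain R hR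
    refine ⟨t, k, hk, ?_, fun j => ?_⟩
    · rw [finrank_eq_card_basis b, Fintype.card_sigma]; simp
    · have hmap : (LinearMap.range (R ^ j)).map U.subtype = U.map (N ^ j) := by
        ext y
        constructor
        · rintro ⟨_, ⟨x, rfl⟩, rfl⟩
          exact ⟨x.1, x.2, by rw [Module.End.pow_restrict j hU']; rfl⟩
        · rintro ⟨x, hx, rfl⟩
          exact ⟨_, ⟨⟨x, hx⟩, rfl⟩, by rw [Module.End.pow_restrict j hU']; rfl⟩
      exact ⟨hmap ▸ Submodule.map_subtype_le _ _, by
        rw [← finrank_range_pow hb, ← hmap, Submodule.finrank_map_subtype_eq]⟩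
  obtain ⟨t1, k1, hk1, hs1, hr1⟩ := part U hUi
  obtain ⟨t2, k2, hk2, hs2, hr2⟩ := part W hWi
  let ρ : Nat.Partition n :=
    { parts := Finset.univ.val.map k1 + Finset.univ.val.map k2
      parts_pos := fun {a} ha => by
        rcases Multiset.mem_add.mp ha with h | h <;> obtain ⟨i, -, rfl⟩ := Multiset.mem_map.mp h
        exacts [hk1 i, hk2 i]
      parts_sum := by
        have := Submodule.finrank_add_eq_of_isCompl hc
        rw [Module.finrank_fin_fun, ← hs1, ← hs2] at this
        rw [Multiset.sum_add]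
        exact this }
  have hρ : HasType A ρ := fun j => by
    rw [rank_pow_eq, ← hN, LinearMap.range_eq_map, ← hc.sup_eq_top, Submodule.map_sup]
    have h := Submodule.finrank_sup_add_finrank_inf_eq (U.map (N ^ j)) (W.map (N ^ j))
    rw [(hc.disjoint.mono (hr1 j).1 (hr2 j).1).eq_bot, finrank_bot, add_zero] at h
    rw [h, ← (hr1 j).2, ← (hr2 j).2, prank]
    simp only [ρ, Multiset.map_add, Multiset.sum_add, Multiset.map_map]
    rfl
  refine ⟨Finset.univ.val.map k1, ?_, ?_⟩
  · rw [hμ.unique hρ]; exact Multiset.le_add_right _ _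
  · rw [← hU, ← hs1]; rfl

variable [Fintype F] {V : Type*} [AddCommGroup V] [Module F V] [Finite V]

theorem dvd_of_dvd_card_compl_pairs {r m : ℕ} (hr : r.Prime) (hrq : ¬ r ∣ Fintype.card F)
    (h : r ∣ Nat.card {P : Submodule F V × Submodule F V // IsCompl P.1 P.2 ∧ Module.finrank F P.1 = m}) :
    r ∣ Nat.card {W : Submodule F V // Module.finrank F W = m} := by
  classical
  haveI : Fintype {W : Submodule F V // Module.finrank F W = m} := Fintype.ofFinite _
  let e : {P : Submodule F V × Submodule F V // IsCompl P.1 P.2 ∧ Module.finrank F P.1 = m} ≃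
      Σ U : {W : Submodule F V // Module.finrank F W = m}, {W : Submodule F V // IsCompl U.1 W} :=
    { toFun := fun P => ⟨⟨P.1.1, P.2.2⟩, ⟨P.1.2, P.2.1⟩⟩
      invFun := fun x => ⟨(x.1.1, x.2.1), x.2.2, x.1.2⟩
      left_inv := fun _ => rfl
      right_inv := fun _ => rfl }
  have key : ∃ c, ∀ U : {W : Submodule F V // Module.finrank F W = m},
      Nat.card {W : Submodule F V // IsCompl U.1 W} = Fintype.card F ^ c := by
    refine ⟨m * (Module.finrank F V - m), fun U => ?_⟩
    obtain ⟨W0, h0⟩ := Submodule.exists_isCompl U.1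
    let e : {f : V →ₗ[F] U.1 // ∀ x : U.1, f x = x} ≃ (W0 →ₗ[F] U.1) :=
      { toFun := fun f => f.1.comp W0.subtype
        invFun := fun g => ⟨LinearMap.ofIsCompl h0 LinearMap.id g, fun x => by simp⟩
        left_inv := fun f => Subtype.ext (LinearMap.ofIsCompl_eq h0 (fun u => (f.2 u).symm) fun w => rfl)
        right_inv := fun g => LinearMap.ext fun x => by simp }
    haveI : Finite (W0 →ₗ[F] U.1) := Module.finite_of_finite F
    have := Submodule.finrank_add_eq_of_isCompl h0
    rw [U.2] at this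
    rw [Nat.card_congr ((Submodule.isComplEquivProj U.1).trans e), Module.natCard_eq_pow_finrank (K := F),
      Nat.card_eq_fintype_card, Module.finrank_linearMap, U.2, mul_comm]
    congr 1
    rw [show Module.finrank F W0 = Module.finrank F V - m by omega]
  obtain ⟨c, hc⟩ := key
  rw [Nat.card_congr e, Nat.card_sigma] at h
  simp only [hc, Finset.sum_const, Finset.card_univ, smul_eq_mul] at h
  rw [Nat.card_eq_fintype_card]
  exact ((Nat.Prime.dvd_mul hr).mp h).resolve_right fun h' => hrq (hr.dvd_of_dvd_pow h')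

end CfsgLib.SubElusive
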