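import Cfsg.Agent.SubElusive.Cases
import Cfsg.Agent.SubElusive.Unipotent

/-!
Complements in the semisimple case and the binary partition criterion.
-/

set_option autoImplicit false
set_option linter.style.haveILetI false

namespace CfsgLib.SubElusive

open Polynomial

/-- An invariant subspace of a root of `X ^ r - c` has an invariant complement. -/
theorem exists_compl {F : Type*} [Field F] {n r : ℕ} (hr : (r : F) ≠ 0) (M : Matrix (Fin n) (Fin n) F) {c : F}
    (hc : c ≠ 0) (hM : M ^ r = c • (1 : Matrix (Fin n) (Fin n) F)) (U : Submodule F (Fin n → F))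
    (hU : U.map (Matrix.toLin' M) ≤ U) :
    ∃ W : Submodule F (Fin n → F), IsCompl U W ∧ W.map (Matrix.toLin' M) ≤ W := by
  obtain ⟨f, hf⟩ : ∃ f : Module.End F (Fin n → F), f = Matrix.toLinAlgEquiv' M := ⟨_, rfl⟩
  have hz : aeval f (X ^ r - C c) = 0 := by
    rw [map_sub, map_pow, aeval_X, aeval_C, hf, ← map_pow, hM, map_smul, map_one, Algebra.algebraMap_eq_smul_one, sub_self]
  have hss : f.IsSemisimple :=
    Module.End.isSemisimple_of_squarefree_aeval_eq_zero (separable_X_pow_sub_C c hr hc).squarefree hz
  have hU' : U ∈ Module.End.invtSubmodule f := by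
    rw [Module.End.mem_invtSubmodule, ← Submodule.map_le_iff_le_comap, hf]
    exact hU
  obtain ⟨W, hW, hUW⟩ := Module.End.isSemisimple_iff.mp hss U hU'
  rw [Module.End.mem_invtSubmodule, ← Submodule.map_le_iff_le_comap, hf] at hW
  exact ⟨W, hUW, hW⟩

theorem binary_parts {n m : ℕ} (hm : m ≤ n) :
    (∀ μ : Multiset ℕ, (∀ a ∈ μ, 0 < a ∧ a ≤ 2) → μ.sum = n → ∃ ν : Multiset ℕ, ν ≤ μ ∧ ν.sum = m) ↔
      (Odd n ∨ Even m) := by
  constructor
  · intro h
    by_contra hne
    push Not at hne
    obtain ⟨hn, hm'⟩ := hne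
    obtain ⟨a, ha⟩ : Even n := Nat.not_odd_iff_even.mp hn
    obtain ⟨ν, hν, hs⟩ := h (Multiset.replicate a 2) (fun x hx => by
      rw [Multiset.eq_of_mem_replicate hx]; omega) (by simp [ha]; omega)
    rw [Multiset.eq_replicate_card.mpr fun x hx => Multiset.eq_of_mem_replicate (Multiset.mem_of_le hν hx)] at hs
    exact hm' ⟨Multiset.card ν, by simp at hs; omega⟩
  · intro h μ hμ hs
    have hdec : μ = Multiset.replicate (μ.count 1) 1 + Multiset.replicate (μ.count 2) 2 := by
      ext x
      rw [Multiset.count_add, Multiset.count_replicate, Multiset.count_replicate]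
      by_cases h1 : x = 1
      · subst h1; simp
      by_cases h2 : x = 2
      · subst h2; simp
      rw [if_neg (Ne.symm h1), if_neg (Ne.symm h2), Multiset.count_eq_zero.mpr fun hx => by have := hμ x hx; omega]
    set a := μ.count 1
    set b := μ.count 2
    have hsum : a + 2 * b = n := by
      rw [hdec, Multiset.sum_add, Multiset.sum_replicate, Multiset.sum_replicate] at hs
      simp at hs; omega
    set j := min b (m / 2) with hj
    refine ⟨Multiset.replicate (m - 2 * j) 1 + Multiset.replicate j 2, ?_, ?_⟩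
    · rw [hdec]
      refine add_le_add ((Multiset.replicate_le_replicate _).mpr ?_) ((Multiset.replicate_le_replicate _).mpr (min_le_left _ _))
      rcases h with ⟨c, hc⟩ | ⟨c, hc⟩ <;> omega
    · simp; omega

end CfsgLib.SubElusive
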