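import Cfsg.Agent.SubElusive.UnitND
import Cfsg.Agent.UGeom.Parabolic

/-!
Elements of prime order of the unitary group and totally isotropic invariant subspaces.
-/

set_option autoImplicit false
set_option linter.style.haveILetI false

namespace CfsgLib.SubElusive

open Matrix CfsgLib.FormConj CfsgLib.FormConj.Semi CfsgLib.SemiClasses

section Basic

variable {F : Type*} [Field F] {θ : F →+* F} {n : ℕ}

/-- The matrix has a totally isotropic invariant subspace of dimension `m`. -/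
def HasTI (θ : F →+* F) (m : ℕ) (x : Matrix (Fin n) (Fin n) F) : Prop :=
  ∃ W : Submodule F (Fin n → F), Module.finrank F W = m ∧
    (∀ u ∈ W, ∀ v ∈ W, herm θ u v = 0) ∧ ∀ v ∈ W, x *ᵥ v ∈ W

/-- Every element of order `r` up to scalars has a totally isotropic invariant subspace of dimension `m`. -/
def AllTI (θ : F →+* F) (n m r : ℕ) : Prop :=
  ∀ x : Matrix (Fin n) (Fin n) F, x.det = 1 → dag θ x * x = 1 → (∃ z : F, x ^ r = z • 1) →
    (∀ z : F, x ≠ z • 1) → HasTI θ m x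

theorem HasTI.of_smul {m : ℕ} {x : Matrix (Fin n) (Fin n) F} {w : F} (hw : w ≠ 0) (h : HasTI θ m (w • x)) :
    HasTI θ m x := by
  obtain ⟨W, h1, h2, h3⟩ := h
  refine ⟨W, h1, h2, fun v hv => ?_⟩
  have := W.smul_mem w⁻¹ (h3 v hv)
  rwa [Matrix.smul_mulVec, smul_smul, inv_mul_cancel₀ hw, one_smul] at this

theorem fromBlocks_smul_one {ι κ : Type*} [DecidableEq ι] [DecidableEq κ] (z : F) :
    Matrix.fromBlocks (z • (1 : Matrix ι ι F)) 0 0 (z • (1 : Matrix κ κ F)) = z • (1 : Matrix (ι ⊕ κ) (ι ⊕ κ) F) := by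
  rw [← Matrix.fromBlocks_one, Matrix.fromBlocks_smul, smul_zero, smul_zero]

/-- Powers of a block matrix of three parts. -/
theorem tri_pow {m k : ℕ} (e : (Fin m ⊕ Fin m) ⊕ Fin k ≃ Fin n) {A D : Matrix (Fin m) (Fin m) F}
    {R : Matrix (Fin k) (Fin k) F} {r : ℕ} {z : F} (hA : A ^ r = z • 1) (hD : D ^ r = z • 1) (hR : R ^ r = z • 1) :
    Matrix.reindex e e (Matrix.fromBlocks (Matrix.fromBlocks A 0 0 D) 0 0 R) ^ r = z • 1 := by
  show Matrix.reindexAlgEquiv F F e _ ^ r = _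
  rw [← map_pow, CfsgLib.NilType.blocks_pow, CfsgLib.NilType.blocks_pow, hA, hD, hR]
  rw [fromBlocks_smul_one, fromBlocks_smul_one, map_smul, map_one]

variable [Finite F] (hθ : ∀ a, θ (θ a) = a) (hne : θ ≠ RingHom.id F)

include hθ hne in
/-- A unitary matrix similar to a hyperbolic block sum has a totally isotropic invariant subspace. -/
theorem exists_ti_of_blocks {m k : ℕ} (e : (Fin m ⊕ Fin m) ⊕ Fin k ≃ Fin n) {x : Matrix (Fin n) (Fin n) F}
    (hx : dag θ x * x = 1) {A D : Matrix (Fin m) (Fin m) F} {R : Matrix (Fin k) (Fin k) F}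
    (hD : dag θ A * D = 1) (hR : SelfDual θ R) {Q : Matrix (Fin n) (Fin n) F} (hQ : IsUnit Q.det)
    (hQx : Q * reindex e e (fromBlocks (fromBlocks A 0 0 D) 0 0 R) = x * Q) : HasTI θ m x := by
  obtain ⟨C, hC, R', hR', hCR⟩ := hR.exists_unitary hθ hne
  obtain ⟨H, hH⟩ : ∃ H : Matrix (Fin m ⊕ Fin m) (Fin m ⊕ Fin m) F, H = fromBlocks 0 1 1 0 := ⟨_, rfl⟩
  have hH2 : H * H = 1 := by
    rw [hH, Matrix.fromBlocks_multiply]; simp [Matrix.fromBlocks_one]
  have hHd : dag θ H = H := by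
    rw [hH, dag, Matrix.fromBlocks_map, Matrix.fromBlocks_transpose]; simp
  have hHu : IsUnit H.det := Matrix.isUnit_det_of_left_inverse hH2
  obtain ⟨P, hP⟩ := CfsgLib.Unitary.exists_congr θ hθ hne (m + m) (reindex finSumFinEquiv finSumFinEquiv H)
    (show dag θ _ = _ by rw [dag_reindex, hHd]) (by rw [Matrix.det_reindex_self]; exact hHu.ne_zero)
  obtain ⟨P', hP'⟩ : ∃ P', P' = reindex finSumFinEquiv.symm finSumFinEquiv.symm P := ⟨_, rfl⟩
  have hPP : dag θ P' * P' = H := by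
    rw [hP', dag_reindex, reindex_mul', show dag θ P = CfsgLib.Unitary.adj θ P from rfl, hP]
    simp [Matrix.reindex_apply]
  obtain ⟨G, hG⟩ : ∃ G, G = reindex e e (fromBlocks P' 0 0 C) := ⟨_, rfl⟩
  obtain ⟨M, hM⟩ : ∃ M, M = reindex e e (fromBlocks (fromBlocks A 0 0 D) 0 0 R) := ⟨_, rfl⟩
  have hGG : dag θ G * G = reindex e e (fromBlocks H 0 0 (dag θ C * C)) := by
    rw [hG, dag_reindex, reindex_mul', dag_blocks, Matrix.fromBlocks_multiply]; simp [hPP]
  have hAD : dag θ D * A = 1 := by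
    have := congrArg (dag θ) hD
    rwa [dag_mul, dag_dag θ hθ, dag_one] at this
  have hMG : dag θ M * (dag θ G * G) * M = dag θ G * G := by
    rw [hGG, hM, dag_reindex, reindex_mul', reindex_mul', dag_blocks, Matrix.fromBlocks_multiply,
      Matrix.fromBlocks_multiply]
    congr 1
    simp only [Matrix.mul_zero, Matrix.zero_mul, add_zero, zero_add, Matrix.fromBlocks_inj, true_and]
    refine ⟨?_, ?_⟩
    · rw [hH, dag_blocks, Matrix.fromBlocks_multiply, Matrix.fromBlocks_multiply]; simp [hD, hAD]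
    · calc dag θ R * (dag θ C * C) * R = dag θ (C * R) * (C * R) := by rw [dag_mul]; simp only [Matrix.mul_assoc]
        _ = dag θ C * (dag θ R' * R') * C := by rw [hCR, dag_mul]; simp only [Matrix.mul_assoc]
        _ = dag θ C * C := by rw [hR', Matrix.mul_one]
  have hGu : IsUnit G.det := by
    rw [hG, Matrix.det_reindex_self, Matrix.det_fromBlocks_zero₂₁]
    refine IsUnit.mul ?_ hC
    rw [← hPP, Matrix.det_mul] at hHu
    exact isUnit_of_mul_isUnit_right hHu
  obtain ⟨U, hU⟩ : ∃ U, U = G * M * G⁻¹ := ⟨_, rfl⟩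
  have hUu : dag θ U * U = 1 := by
    calc dag θ U * U = dag θ G⁻¹ * (dag θ M * (dag θ G * G) * M) * G⁻¹ := by
          rw [hU]; simp only [dag_mul, Matrix.mul_assoc]
      _ = dag θ (G * G⁻¹) * (G * G⁻¹) := by rw [hMG, dag_mul]; simp only [Matrix.mul_assoc]
      _ = 1 := by rw [Matrix.mul_nonsing_inv _ hGu, dag_one, Matrix.one_mul]
  have hsim : Q * G⁻¹ * U = x * (Q * G⁻¹) := by
    rw [hU, ← Matrix.mul_assoc, ← Matrix.mul_assoc, Matrix.nonsing_inv_mul_cancel_right _ _ hGu, hM, hQx,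
      Matrix.mul_assoc]
  obtain ⟨g, hg, hgU⟩ := exists_unitary_conj hθ hne hUu hx
    (by rw [Matrix.det_mul]; exact hQ.mul (Matrix.isUnit_nonsing_inv_det _ hGu)) hsim
  let ι₀ : (Fin m → F) →ₗ[F] (Fin n → F) :=
    { toFun := fun a => (g * G) *ᵥ (Sum.elim (Sum.elim a 0) 0 ∘ e.symm)
      map_add' := fun a b => by
        rw [← Matrix.mulVec_add]; congr 1; funext i
        simp only [Function.comp_apply, Pi.add_apply]; rcases e.symm i with (j | j) | j <;> simp
      map_smul' := fun c a => by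
        rw [RingHom.id_apply, ← Matrix.mulVec_smul]; congr 1; funext i
        simp only [Function.comp_apply, Pi.smul_apply]; rcases e.symm i with (j | j) | j <;> simp }
  refine ⟨LinearMap.range ι₀, ?_, ?_, ?_⟩
  · rw [LinearMap.finrank_range_of_inj, Module.finrank_fin_fun]
    intro a b hab
    have hgu : IsUnit (g * G) := by
      rw [Matrix.isUnit_iff_isUnit_det, Matrix.det_mul]
      exact (Matrix.isUnit_det_of_left_inverse hg).mul hGu
    have h1 := (Matrix.mulVec_injective_iff_isUnit.mpr hgu) hab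
    funext j
    simpa using congrFun h1 (e (Sum.inl (Sum.inl j)))
  · rintro _ ⟨a, rfl⟩ _ ⟨b, rfl⟩
    show herm θ ((g * G) *ᵥ _) ((g * G) *ᵥ _) = 0
    rw [herm_mulVec hθ, Matrix.mulVec_mulVec, dag_mul, Matrix.mul_assoc, ← Matrix.mul_assoc (dag θ g), hg,
      Matrix.one_mul, hGG, Matrix.reindex_apply, Matrix.submatrix_mulVec_equiv, hH]
    show dotProduct _ _ = 0
    rw [dotProduct, ← e.sum_comp, Fintype.sum_sum_type, Fintype.sum_sum_type]
    simp [Matrix.fromBlocks_mulVec, Function.comp_assoc]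
  · rintro _ ⟨a, rfl⟩
    refine ⟨A *ᵥ a, ?_⟩
    show (g * G) *ᵥ (Sum.elim (Sum.elim (A *ᵥ a) 0) 0 ∘ e.symm) = x *ᵥ ((g * G) *ᵥ (Sum.elim (Sum.elim a 0) 0 ∘ e.symm))
    rw [Matrix.mulVec_mulVec, ← Matrix.mul_assoc, ← hgU, hU, Matrix.mul_assoc, Matrix.mul_assoc, Matrix.mul_assoc,
      Matrix.nonsing_inv_mul _ hGu, Matrix.mul_one, ← Matrix.mul_assoc, ← Matrix.mulVec_mulVec (M := g * G) (N := M)]
    congr 1
    rw [hM, Matrix.reindex_apply, Matrix.submatrix_mulVec_equiv]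
    funext i
    rcases h : e.symm i with (j | j) | j <;>
      simp [h, Matrix.fromBlocks_mulVec, Function.comp_def, ← Pi.zero_def]

include hθ in
/-- The characteristic polynomial splits along a totally isotropic invariant subspace. -/
theorem ti_split {x : Matrix (Fin n) (Fin n) F} (hx : dag θ x * x = 1) (W : Submodule F (Fin n → F)) {m : ℕ}
    (hm : Module.finrank F W = m) (hiso : ∀ u ∈ W, ∀ v ∈ W, herm θ u v = 0) (hW : ∀ v ∈ W, x *ᵥ v ∈ W) :
    ∃ (A : Matrix (Fin m) (Fin m) F) (R : Polynomial F), IsUnit (dag θ A).det ∧ R.Monic ∧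
      x.charpoly = A.charpoly * R * (dag θ A)⁻¹.charpoly ∧ ∀ (r : ℕ) (z : F), x ^ r = z • 1 → A ^ r = z • 1 := by
  classical
  obtain ⟨f, hfdef⟩ : ∃ f : Module.End F (Fin n → F), f = Matrix.toLinAlgEquiv' x := ⟨_, rfl⟩
  have hfx : ∀ v, f v = x.mulVec v := fun v => by rw [hfdef]; rfl
  have hW' : ∀ v ∈ W, f v ∈ W := fun v hv => by rw [hfx]; exact hW v hv
  let b := Module.finBasisOfFinrankEq F W hm
  obtain ⟨A, hA⟩ : ∃ A : Matrix (Fin m) (Fin m) F, A = LinearMap.toMatrixAlgEquiv b (f.restrict hW') := ⟨_, rfl⟩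
  have hpow : ∀ (r : ℕ) (z : F), x ^ r = z • 1 → A ^ r = z • 1 := fun r z hz => by
    have hfr : f ^ r = z • 1 := by rw [hfdef, ← map_pow, hz, map_smul, map_one]
    have hres : (f.restrict hW' : Module.End F W) ^ r = z • 1 := by
      rw [Module.End.pow_restrict r hW']; ext v; simp [hfr]
    rw [hA, ← map_pow, hres, map_smul, map_one]
  have hAb : ∀ i, f (b i : Fin n → F) = ∑ k, A k i • (b k : Fin n → F) := fun i => by
    have h1 : (f.restrict hW' : Module.End F W) (b i) = ∑ k, A k i • b k := by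
      conv_lhs => rw [← b.sum_repr ((f.restrict hW' : Module.End F W) (b i))]
      refine Finset.sum_congr rfl fun k _ => ?_
      rw [hA, LinearMap.toMatrixAlgEquiv_apply]
    have h2 := congrArg Subtype.val h1
    rw [LinearMap.coe_restrict_apply, AddSubmonoidClass.coe_finsetSum] at h2
    exact h2
  obtain ⟨B, hB⟩ : ∃ B : Matrix (Fin m) (Fin n) F, ∀ i l, B i l = θ ((b i).1 l) :=
    ⟨Matrix.of fun i l => θ ((b i).1 l), fun _ _ => rfl⟩
  have hφ : ∀ v i, B.mulVecLin v i = herm θ (b i).1 v := fun v i => by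
    rw [Matrix.mulVecLin_apply]
    show ∑ l, B i l * v l = _
    simp only [hB]
    rfl
  have hφW : W ≤ LinearMap.ker B.mulVecLin := fun v hv =>
    LinearMap.mem_ker.mpr (funext fun i => by rw [hφ]; exact hiso _ (b i).2 _ hv)
  have hφs : Function.Surjective B.mulVecLin := by
    rw [← LinearMap.range_eq_top]
    refine Submodule.eq_top_of_finrank_eq ?_
    rw [Module.finrank_fin_fun]
    show B.rank = m
    rw [← Matrix.rank_transpose]
    have hli : LinearIndependent F B.transpose.col := by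
      have h1 : LinearIndependent F fun i => (b i).1 := b.linearIndependent.map' W.subtype W.ker_subtype
      rw [Fintype.linearIndependent_iff] at h1 ⊢
      intro c hc i
      have h2 := h1 (fun k => θ (c k)) (funext fun l => by
        have h3 := congrArg θ (congrFun hc l)
        simp only [Matrix.col_apply, Matrix.transpose_apply, Finset.sum_apply, Pi.smul_apply, smul_eq_mul, map_sum,
          map_mul, hB, hθ, Pi.zero_apply, map_zero] at h3
        simpa using h3) i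
      rw [← hθ (c i), h2, map_zero]
    rw [Matrix.rank_eq_finrank_span_cols, finrank_span_eq_card hli, Fintype.card_fin]
  have hdag : ∀ v, (dag θ A).mulVec (B.mulVecLin (f v)) = B.mulVecLin v := fun v => by
    funext i
    rw [hφ v i]
    have h2 : herm θ (f (b i).1) (f v) = herm θ (b i).1 v := by
      rw [hfx, hfx, herm_mulVec hθ, Matrix.mulVec_mulVec, hx, Matrix.one_mulVec]
    rw [← h2, hAb]
    show ∑ k, dag θ A i k * B.mulVecLin (f v) k = _
    simp only [hφ, dag, Matrix.transpose_apply, Matrix.map_apply, herm, dotProduct, Function.comp_apply,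
      Finset.sum_apply, Pi.smul_apply, smul_eq_mul, map_sum, map_mul, Finset.mul_sum, Finset.sum_mul]
    rw [Finset.sum_comm]
    exact Finset.sum_congr rfl fun l _ => Finset.sum_congr rfl fun k _ => by ring
  have hAu : IsUnit (dag θ A).det := by
    rw [← Matrix.isUnit_iff_isUnit_det, ← Matrix.mulVec_surjective_iff_isUnit]
    intro c
    obtain ⟨v, rfl⟩ := hφs c
    exact ⟨_, hdag v⟩
  obtain ⟨C, hC⟩ : ∃ C, C = (dag θ A)⁻¹ := ⟨_, rfl⟩
  have hequi : ∀ v, B.mulVecLin (f v) = C.mulVec (B.mulVecLin v) := fun v => by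
    rw [← hdag v, hC, Matrix.mulVec_mulVec, Matrix.nonsing_inv_mul _ hAu, Matrix.one_mulVec]
  have hWc : W ≤ W.comap f := fun v hv => hW' v hv
  let ψ : ((Fin n → F) ⧸ W) →ₗ[F] (Fin m → F) := W.liftQ B.mulVecLin hφW
  have hψs : Function.Surjective ψ := fun c => by
    obtain ⟨v, rfl⟩ := hφs c
    exact ⟨W.mkQ v, rfl⟩
  let g := W.mapQ W f hWc
  have hψ : ∀ v, ψ (g v) = C.mulVec (ψ v) := fun v => by
    obtain ⟨v, rfl⟩ := W.mkQ_surjective v
    exact hequi v
  have hK : LinearMap.ker ψ ≤ (LinearMap.ker ψ).comap g := fun v hv => by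
    rw [Submodule.mem_comap, LinearMap.mem_ker, hψ, LinearMap.mem_ker.mp hv, Matrix.mulVec_zero]
  let e := ψ.quotKerEquivOfSurjective hψs
  have hconj : e.conj ((LinearMap.ker ψ).mapQ (LinearMap.ker ψ) g hK) = Matrix.toLin' C := by
    refine LinearMap.ext fun c => ?_
    obtain ⟨v, rfl⟩ := hψs c
    rw [LinearEquiv.conj_apply_apply, show e.symm (ψ v) = Submodule.Quotient.mk v from
      e.symm_apply_eq.mpr (ψ.quotKerEquivOfSurjective_apply_mk hψs v).symm, Submodule.mapQ_apply,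
      Matrix.toLin'_apply, ← hψ]
    exact ψ.quotKerEquivOfSurjective_apply_mk hψs (g v)
  have hcA : LinearMap.charpoly (f.restrict hW') = A.charpoly := by
    rw [hA]; exact (LinearMap.charpoly_toMatrix _ b).symm
  have hcC : LinearMap.charpoly (Matrix.toLin' C) = C.charpoly := by
    rw [← LinearMap.charpoly_toMatrix (Matrix.toLin' C) (Pi.basisFun F (Fin m)), LinearMap.toMatrix_eq_toMatrix',
      LinearMap.toMatrix'_toLin']
  have hcx : LinearMap.charpoly f = x.charpoly := by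
    rw [← LinearMap.charpoly_toMatrix f (Pi.basisFun F (Fin n)), LinearMap.toMatrix_eq_toMatrix', hfdef]
    exact congrArg Matrix.charpoly (LinearMap.toMatrix'_toLin' x)
  refine ⟨A, (g.restrict hK).charpoly, hAu, LinearMap.charpoly_monic _, ?_, hpow⟩
  rw [← hC, ← hcx, charpoly_eq_mul W f hWc, mul_assoc, charpoly_eq_mul (LinearMap.ker ψ) g hK, ← hcC, ← hconj,
    LinearEquiv.charpoly_conj]
  exact congrArg (· * _) hcA

end Basic

section Semi

variable {F : Type*} [Field F] [Fintype F] {θ : F →+* F} {L : Type*} [Field L] [Finite L] [Algebra F L] {p r q : ℕ}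
  [Fact p.Prime] [CharP F p] [hr : Fact r.Prime] {ζ : L} {n m : ℕ}

/-- The multiplicities on a totally isotropic invariant subspace and on its dual fit into those of the space. -/
theorem ti_mult (hζ : IsPrimitiveRoot ζ r) (hrp : r ≠ p) (hq2 : Fintype.card F = q ^ 2) (hq : ∀ a, θ a = a ^ q)
    (hθ : ∀ a, θ (θ a) = a) {h : (ZMod r)ˣ} (hh : (h : ZMod r) = -(q : ZMod r)) {y : Matrix (Fin n) (Fin n) F}
    (hy : dag θ y * y = 1) (hyr : y ^ r = 1) (hW : HasTI θ m y) :
    ∃ g : ZMod r → ℕ, (∀ x, g (x * ((h * h : (ZMod r)ˣ) : ZMod r)) = g x) ∧ ∑ x, g x = m ∧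
      ∀ x, g x + g (x * (h : ZMod r)) ≤ mult ζ y x := by
  obtain ⟨W, hWd, hWi, hWy⟩ := hW
  obtain ⟨A, R, hAu, hRm, hchar, hpow⟩ := ti_split hθ hy W hWd hWi hWy
  have hAr : A ^ r = 1 := by simpa using hpow r 1 (by rw [one_smul, hyr])
  refine ⟨mult ζ A, fun x => ?_, by rw [sum_mult hζ hAr, Fintype.card_fin], fun x => ?_⟩
  · rw [show ((h * h : (ZMod r)ˣ) : ZMod r) = (Fintype.card F : ZMod r) by
      rw [Units.val_mul, hh, hq2, Nat.cast_pow]; ring]
    exact mult_frob hζ A x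
  have h1 := (mult_contragredient hζ hrp hq2 hq hAr (Matrix.mul_nonsing_inv _ hAu) x).2
  rw [← hh] at h1
  rw [← (SelfDual.of_unitary hy).mult_inv hζ hrp hq2 hq hyr hh x]
  have hAm := ((Matrix.charpoly_monic A).map (algebraMap F L))
  have hCm := ((Matrix.charpoly_monic (dag θ A)⁻¹).map (algebraMap F L))
  have hRm' := hRm.map (algebraMap F L)
  have h2 : mult ζ y (x * (h : ZMod r)) ≥ mult ζ A (x * (h : ZMod r)) + mult ζ (dag θ A)⁻¹ (x * (h : ZMod r)) := by
    simp only [mult, hchar, Polynomial.map_mul]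
    rw [Polynomial.rootMultiplicity_mul ((hAm.mul hRm').mul hCm).ne_zero,
      Polynomial.rootMultiplicity_mul (hAm.mul hRm').ne_zero]
    omega
  omega

/-- Semisimple elements fix a totally isotropic subspace when the multiplicities allow it. -/
theorem hasTI_of_mult (hζ : IsPrimitiveRoot ζ r) (hrp : r ≠ p) (hq2 : Fintype.card F = q ^ 2)
    (hq : ∀ a, θ a = a ^ q) (hθ : ∀ a, θ (θ a) = a) (hne : θ ≠ RingHom.id F) {h : (ZMod r)ˣ}
    (hh : (h : ZMod r) = -(q : ZMod r)) (h2m : 2 * m ≤ n) {y : Matrix (Fin n) (Fin n) F}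
    (hy : dag θ y * y = 1) (hyr : y ^ r = 1) (g : ZMod r → ℕ)
    (hg : ∀ x, g (x * ((h * h : (ZMod r)ˣ) : ZMod r)) = g x) (hgs : ∑ x, g x = m)
    (hle : ∀ x, g x + g (x * (h : ZMod r)) ≤ mult ζ y x) : HasTI θ m y := by
  classical
  obtain ⟨f, hfdef⟩ : ∃ f : ZMod r → ℕ, f = mult ζ y := ⟨_, rfl⟩
  have hfh : ∀ w, f (w * (h : ZMod r)) = f w := fun w => by
    rw [hfdef]; exact (SelfDual.of_unitary hy).mult_inv hζ hrp hq2 hq hyr hh w
  obtain ⟨f₂, hf₂⟩ : ∃ f₂ : ZMod r → ℕ, f₂ = fun x => f x - (g x + g (x * (h : ZMod r))) := ⟨_, rfl⟩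
  have hgh : ∀ x, g (x * (h : ZMod r) * (h : ZMod r)) = g x := fun x => by
    rw [mul_assoc, ← Units.val_mul, hg]
  have hgs' : ∑ x, g (x * (h : ZMod r)) = m := by
    rw [← hgs]
    exact Fintype.sum_bijective _ (Units.mulRight_bijective h) _ _ fun x => rfl
  have hs₂ : ∑ x, f₂ x = n - (m + m) := by
    rw [hf₂, Finset.sum_tsub_distrib _ fun x _ => hfdef ▸ hle x, hfdef, sum_mult hζ hyr, Fintype.card_fin,
      Finset.sum_add_distrib, hgs, hgs']
  obtain ⟨R, hR, hRr, hRm⟩ := exists_selfDual_mult (F := F) hζ hrp hq2 hq hh f₂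
    (fun x => by simp only [hf₂, hfh, hgh]; rw [add_comm (g (x * (h : ZMod r)))]) hs₂
  obtain ⟨A, hA, hAm⟩ := exists_of_mult (F := F) hζ hrp g (fun x => by
    rw [show (Fintype.card F : ZMod r) = ((h * h : (ZMod r)ˣ) : ZMod r) by
      rw [Units.val_mul, hh, hq2, Nat.cast_pow]; ring]
    exact hg x) hgs
  have hAr : A.1 ^ r = 1 := by rw [← Units.val_pow_eq_pow_val, hA, Units.val_one]
  have hAu : IsUnit (dag θ A.1).det := isUnit_det_dag θ (Matrix.isUnits_det_units A)
  obtain ⟨hDr, -⟩ := mult_contragredient hζ hrp hq2 hq hAr (Matrix.mul_nonsing_inv _ hAu) 0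
  let e : (Fin m ⊕ Fin m) ⊕ Fin (n - (m + m)) ≃ Fin n :=
    (Equiv.sumCongr finSumFinEquiv (Equiv.refl _)).trans (finSumFinEquiv.trans (finCongr (by omega)))
  obtain ⟨Q, hQ, hQy⟩ := exists_similar (F := F) hζ hrp (Equiv.refl (Fin n))
    (A := Matrix.reindex e e (Matrix.fromBlocks (Matrix.fromBlocks A.1 0 0 (dag θ A.1)⁻¹) 0 0 R)) (B := y)
    (by simpa using tri_pow e (z := (1 : F)) (by simpa using hAr) (by simpa using hDr) (by simpa using hRr)) hyr
    fun w => by
      rw [mult_reindex, mult_blocks, mult_blocks, hAm, hRm, hf₂]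
      have h1 := (mult_contragredient hζ hrp hq2 hq hAr (Matrix.mul_nonsing_inv _ hAu) (w * (h⁻¹ : (ZMod r)ˣ))).2
      rw [← hh, mul_assoc, Units.inv_mul, mul_one, hAm] at h1
      rw [h1, ← hgh (w * (h⁻¹ : (ZMod r)ˣ)), mul_assoc w, Units.inv_mul, mul_one]
      have := hle w
      simp only [hfdef]
      omega
  rw [Matrix.reindex_refl_refl] at hQy
  exact exists_ti_of_blocks hθ hne e hy (Matrix.mul_nonsing_inv _ hAu) hR hQ hQy

omit [Finite L] [Algebra F L] in
/-- Elements whose scalar power is not a power, and totally isotropic subspaces. -/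
theorem hasTI_of_nonpower (hrp : r ≠ p) (hθ : ∀ a, θ (θ a) = a) (hne : θ ≠ RingHom.id F) {z : F}
    (hz : ∀ w : F, w ^ r ≠ z) (hzz : θ z * z = 1) {x : Matrix (Fin n) (Fin n) F} (hx : dag θ x * x = 1)
    (hxz : x ^ r = z • 1) (hmn : 2 * m ≤ n) (hrm : r ∣ m) : HasTI θ m x := by
  obtain ⟨s, hs, -⟩ := charpoly_of_nonpower hr.out hz hxz
  rw [Fintype.card_fin] at hs
  subst hs
  obtain ⟨a, rfl⟩ := hrm
  obtain ⟨b, rfl⟩ : ∃ b, s = a + a + b :=
    ⟨s - (a + a), by have := Nat.le_of_mul_le_mul_left (show r * (2 * a) ≤ r * s by rw [mul_left_comm]; exact hmn) hr.out.pos; omega⟩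
  have hz0 : z ≠ 0 := fun h => one_ne_zero (α := F) (by rw [← hzz, h, mul_zero])
  obtain ⟨A, hA⟩ := exists_nonpower hr.out z a
  obtain ⟨R, hR⟩ := exists_nonpower hr.out z b
  have hAu : IsUnit (dag θ A).det := isUnit_det_dag θ (selfDual_of_nonpower hr.out hrp hz hzz hA).isUnit_det
  have hDr : (dag θ A)⁻¹ ^ r = z • 1 := dag_pow_scalar hzz hA (Matrix.mul_nonsing_inv _ hAu)
  let e : (Fin (r * a) ⊕ Fin (r * a)) ⊕ Fin (r * b) ≃ Fin (r * (a + a + b)) :=
    (Equiv.sumCongr finSumFinEquiv (Equiv.refl _)).trans (finSumFinEquiv.trans (finCongr (by ring)))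
  obtain ⟨Q, hQ, hQx⟩ := similar_of_nonpower hr.out hrp hz hz0 (tri_pow e hA hDr hR) hxz
  exact exists_ti_of_blocks hθ hne e hx (Matrix.mul_nonsing_inv _ hAu)
    (selfDual_of_nonpower hr.out hrp hz hzz hR) hQ hQx

omit [Finite L] [Algebra F L] in
/-- A witness whose scalar power is not a power, for totally isotropic subspaces. -/
theorem dvd_of_allTI_nonpower (hrp : r ≠ p) (hr2 : r ≠ 2) (hθ : ∀ a, θ (θ a) = a)
    (hne : θ ≠ RingHom.id F) {z : F} (hz : ∀ w : F, w ^ r ≠ z) (hzz : θ z * z = 1) {s : ℕ} (hzs : z ^ s = 1)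
    (hs : 0 < s) (hall : AllTI θ (r * s) m r) : r ∣ m := by
  obtain ⟨M, hM⟩ := exists_nonpower hr.out z s
  obtain ⟨B, C, hC, hCM, hB, hBr, hBd, -⟩ := exists_unitary_pow hθ hne (selfDual_of_nonpower hr.out hrp hz hzz hM) hM
  have hdet : B.det = 1 := by rw [hBd, det_of_nonpower hr.out hr2 hz hM (Fintype.card_fin _), hzs]
  have hn0 : 0 < r * s := Nat.mul_pos hr.out.pos hs
  obtain ⟨W, hWd, hWi, hWB⟩ := hall B hdet hB ⟨z, hBr⟩ fun t ht => hz t (by
    have := congrFun (congrFun (ht ▸ hBr) ⟨0, hn0⟩) ⟨0, hn0⟩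
    simpa [_root_.smul_pow] using this)
  obtain ⟨A, R, -, -, -, hpow⟩ := ti_split hθ hB W hWd hWi hWB
  obtain ⟨a, ha, -⟩ := charpoly_of_nonpower hr.out hz (hpow r z hBr)
  exact ⟨a, by rw [← ha, Fintype.card_fin]⟩

omit [CharP F p] [Fact p.Prime] in
/-- The determinant from the multiplicities. -/
theorem det_of_mult (hζ : IsPrimitiveRoot ζ r) {M : Matrix (Fin n) (Fin n) F} (hM : M ^ r = 1) :
    algebraMap F L M.det = ∏ x : ZMod r, (ζ ^ x.val) ^ mult ζ M x := by
  have hsum := sum_mult hζ hM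
  rw [Fintype.card_fin] at hsum
  rw [Matrix.det_eq_sign_charpoly_coeff, Fintype.card_fin, map_mul, map_pow, map_neg, map_one, ← Polynomial.coeff_map,
    charpoly_map_eq hζ hM, Polynomial.coeff_zero_eq_eval_zero, Polynomial.eval_prod]
  simp only [Polynomial.eval_pow, Polynomial.eval_sub, Polynomial.eval_X, Polynomial.eval_C, zero_sub, neg_pow (ζ ^ _)]
  rw [Finset.prod_mul_distrib, Finset.prod_pow_eq_pow_sum, hsum, ← mul_assoc, ← mul_pow, neg_one_mul, neg_neg, one_pow,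
    one_mul]

end Semi

section Comb

variable {r : ℕ} [hr : Fact r.Prime] {h : (ZMod r)ˣ}

/-- A choice of one half of every orbit, when the multiplier has even order. -/
theorem exists_sel_two (hh : h ∉ Subgroup.zpowers (h * h)) :
    ∃ sel : ZMod r → Prop, (∀ x, sel (x * ((h * h : (ZMod r)ˣ) : ZMod r)) ↔ sel x) ∧
      ∀ x, x ≠ 0 → (sel x ↔ ¬ sel (x * (h : ZMod r))) := by
  classical
  obtain ⟨v, hv⟩ : ∃ v : (ZMod r)ˣ, v = h * h := ⟨_, rfl⟩
  rw [← hv] at hh ⊢
  haveI := Fintype.ofFinite ((ZMod r)ˣ ⧸ Subgroup.zpowers v)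
  let e := Fintype.equivFin ((ZMod r)ˣ ⧸ Subgroup.zpowers v)
  have hne : ∀ a : (ZMod r)ˣ, e (QuotientGroup.mk a) ≠ e (QuotientGroup.mk (a * h)) := fun a he => by
    have h2 : a⁻¹ * (a * h) ∈ Subgroup.zpowers v := QuotientGroup.eq.mp (e.injective he)
    rw [inv_mul_cancel_left] at h2
    exact hh h2
  have hmk : ∀ a : (ZMod r)ˣ, (QuotientGroup.mk (a * v) : (ZMod r)ˣ ⧸ Subgroup.zpowers v) = QuotientGroup.mk a :=
    fun a => by rw [QuotientGroup.mk_mul, (QuotientGroup.eq_one_iff v).mpr (Subgroup.mem_zpowers v), mul_one]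
  refine ⟨fun x => ∃ a : (ZMod r)ˣ, (a : ZMod r) = x ∧ e (QuotientGroup.mk a) < e (QuotientGroup.mk (a * h)),
    fun x => ⟨?_, ?_⟩, fun x hx => ?_⟩
  · rintro ⟨a, ha, hlt⟩
    refine ⟨a * v⁻¹, by rw [Units.val_mul, ha, Units.mul_inv_cancel_right], ?_⟩
    rw [← hmk (a * v⁻¹), ← hmk (a * v⁻¹ * h), mul_right_comm _ h v, inv_mul_cancel_right]
    exact hlt
  · rintro ⟨a, ha, hlt⟩
    refine ⟨a * v, by rw [Units.val_mul, ha], ?_⟩
    rw [hmk, mul_right_comm, hmk]
    exact hlt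
  · lift x to (ZMod r)ˣ using Ne.isUnit hx
    have hback : (QuotientGroup.mk (x * h * h) : (ZMod r)ˣ ⧸ Subgroup.zpowers v) = QuotientGroup.mk x := by
      rw [mul_assoc, ← hv, hmk]
    constructor
    · rintro ⟨a, ha, hlt⟩ ⟨b, hb, hlt'⟩
      rw [Units.ext ha] at hlt
      rw [Units.ext (hb.trans (Units.val_mul x h).symm), hback] at hlt'
      exact lt_asymm hlt hlt'
    · intro hn
      exact ⟨x, rfl, lt_of_le_of_ne (not_lt.mp fun h' => hn ⟨x * h, Units.val_mul x h, by rwa [hback]⟩) (hne x)⟩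

/-- An invariant function fitting twice below a given one, of the prescribed total. -/
theorem exists_half_two (f : ZMod r → ℕ) (hf : ∀ x, f (x * (h : ZMod r)) = f x) {n m : ℕ} (hsum : ∑ x, f x = n)
    (h2m : 2 * m ≤ n) (hℓ : 2 * (m % orderOf (h * h)) ≤ f 0)
    (hodd : h ∈ Subgroup.zpowers (h * h) → (∀ x ≠ 0, Even (f x)) ∧ 2 * m ≤ 2 * (f 0 / 2) + ∑ x, (if x = 0 then 0 else f x) ∨
      2 * m + (r - 1) ≤ n) :
    ∃ g : ZMod r → ℕ, (∀ x, g (x * ((h * h : (ZMod r)ˣ) : ZMod r)) = g x) ∧ ∑ x, g x = m ∧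
      ∀ x, g x + g (x * (h : ZMod r)) ≤ f x := by
  classical
  have hf2 : ∀ x, f (x * ((h * h : (ZMod r)ˣ) : ZMod r)) = f x := fun x => by
    rw [Units.val_mul, ← mul_assoc, hf, hf]
  obtain ⟨G, hG, hGle, hG0, hGs⟩ : ∃ G : ZMod r → ℕ, (∀ x, G (x * ((h * h : (ZMod r)ˣ) : ZMod r)) = G x) ∧
      (∀ x, G x + G (x * (h : ZMod r)) ≤ f x) ∧ G 0 = f 0 / 2 ∧ m ≤ ∑ x, G x := by
    by_cases he : h ∈ Subgroup.zpowers (h * h)
    · refine ⟨fun x => f x / 2, fun x => by simp only [hf2], fun x => by simp only [hf]; omega, rfl, ?_⟩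
      show m ≤ ∑ x, f x / 2
      rcases hodd he with ⟨hev, hm⟩ | hm
      · have h1 : 2 * ∑ x, f x / 2 = 2 * (f 0 / 2) + ∑ x, (if x = 0 then 0 else f x) := by
          rw [Finset.mul_sum, ← Finset.add_sum_erase _ _ (Finset.mem_univ (0 : ZMod r)),
            ← Finset.add_sum_erase _ (fun x => if x = 0 then 0 else f x) (Finset.mem_univ (0 : ZMod r)), if_pos rfl,
            zero_add]
          congr 1
          refine Finset.sum_congr rfl fun x hx => ?_
          have hx0 := (Finset.mem_erase.mp hx).1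
          rw [if_neg hx0, Nat.two_mul_div_two_of_even (hev x hx0)]
        omega
      · have h1 : ∑ x, f x ≤ ∑ x, (2 * (f x / 2) + 1) := Finset.sum_le_sum fun x _ => by omega
        rw [Finset.sum_add_distrib, ← Finset.mul_sum, Finset.sum_const, Finset.card_univ, ZMod.card, smul_eq_mul,
          mul_one, hsum] at h1
        have := hr.out.two_le
        omega
    · obtain ⟨sel, hsel, hsn⟩ := exists_sel_two he
      obtain ⟨G, hG⟩ : ∃ G : ZMod r → ℕ, G = fun x => if x = 0 then f 0 / 2 else if sel x then f x else 0 := ⟨_, rfl⟩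
      have hGf : ∀ x, x ≠ 0 → G x + G (x * (h : ZMod r)) = f x := fun x hx => by
        simp only [hG, hx, mul_eq_zero, h.ne_zero, or_false, if_false, hf]
        by_cases hs : sel x
        · rw [if_pos hs, if_neg ((hsn x hx).mp hs), add_zero]
        · rw [if_neg hs, if_pos (not_not.mp fun hh => hs ((hsn x hx).mpr hh)), zero_add]
      refine ⟨G, fun x => by simp only [hG, mul_eq_zero, Units.ne_zero, or_false, hsel, hf2], fun x => ?_,
        by simp only [hG, if_true], ?_⟩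
      · by_cases hx : x = 0
        · subst hx; simp only [hG, zero_mul, if_true]; omega
        · exact (hGf x hx).le
      · have h1 : ∑ x, G (x * (h : ZMod r)) = ∑ x, G x :=
          Fintype.sum_bijective _ (Units.mulRight_bijective h) _ _ fun x => rfl
        have h2 : ∑ x, f x ≤ ∑ x, (G x + G (x * (h : ZMod r)) + if x = 0 then 1 else 0) :=
          Finset.sum_le_sum fun x _ => by
            by_cases hx : x = 0
            · subst hx; simp only [hG, zero_mul, if_true]; omega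
            · rw [hGf x hx]; exact Nat.le_add_right _ _
        rw [Finset.sum_add_distrib, Finset.sum_add_distrib, h1, Finset.sum_ite_eq' Finset.univ 0,
          if_pos (Finset.mem_univ _), hsum] at h2
        omega
  obtain ⟨K, hK, hsub⟩ := orbit_data (h * h) G hG
  obtain ⟨β, hβ, hβm, hα⟩ : ∃ β, β ≤ K ∧ orderOf (h * h) * β ≤ m ∧ m - orderOf (h * h) * β ≤ G 0 := by
    have hdiv := Nat.mod_add_div m (orderOf (h * h))
    rcases le_or_gt (m / orderOf (h * h)) K with hle | hlt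
    · exact ⟨_, hle, by omega, by omega⟩
    · have h2 : orderOf (h * h) * K ≤ orderOf (h * h) * (m / orderOf (h * h)) := Nat.mul_le_mul_left _ hlt.le
      exact ⟨K, le_rfl, by omega, by omega⟩
  obtain ⟨g, hg, -, hgle, hgs⟩ := hsub (m - orderOf (h * h) * β) hα β hβ
  exact ⟨g, hg, by rw [hgs]; omega, fun x => (Nat.add_le_add (hgle x) (hgle _)).trans (hGle x)⟩

end Comb

section Count

variable {F : Type*} [Field F] [Fintype F] {θ : F →+* F} {p q n m r : ℕ} [Fact p.Prime] [CharP F p]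

/-- A prime dividing the number of totally isotropic subspaces. -/
theorem ti_count_data (hF : Fintype.card F = q ^ 2) (hm : 2 * m ≤ n) (hr : r.Prime)
    (h : r ∣ Nat.card {W : Submodule F (Fin n → F) // Module.finrank F W = m ∧
        ∀ u ∈ W, ∀ v ∈ W, Cfsg.hermForm n F q u v = 0}) :
    r ≠ p ∧ ∃ j, n - 2 * m < j ∧ j ≤ n ∧ (-(q : ZMod r)) ^ j = 1 := by
  classical
  obtain ⟨C⟩ := CfsgLib.UGeom.nonempty_conj hF
  obtain ⟨k, rfl⟩ : ∃ k, n = k + 2 * m := ⟨n - 2 * m, by omega⟩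
  let Ω := {W : Submodule F (Fin (k + 2 * m) → F) // Module.finrank F W = m ∧
    ∀ u ∈ W, ∀ v ∈ W, Cfsg.hermForm (k + 2 * m) F q u v = 0}
  let Φ : CfsgLib.UGeom.IsoFrame (k + 2 * m) q m F → Ω := fun w =>
    ⟨Submodule.span F (Set.range w.1), by rw [finrank_span_eq_card w.2.1, Fintype.card_fin], fun u hu v hv => by
      obtain ⟨c, rfl⟩ := (Submodule.mem_span_range_iff_exists_fun F).mp hu
      obtain ⟨d, rfl⟩ := (Submodule.mem_span_range_iff_exists_fun F).mp hv
      exact CfsgLib.UGeom.form_span_zero C c d w.1 w.2.2⟩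
  have hfib : ∀ W : Ω, Nat.card {w // Φ w = W} = ∏ i : Fin m, ((q ^ 2) ^ m - (q ^ 2) ^ (i : ℕ)) := by
    intro W
    haveI := Fintype.ofFinite W.1
    have h1 := card_linearIndependent (K := F) (V := W.1) (k := m) W.2.1.ge
    rw [W.2.1, hF] at h1
    rw [← h1]
    refine Nat.card_congr (Equiv.ofBijective
      (fun w => (⟨fun i => ⟨w.1.1 i, (congrArg Subtype.val w.2).le (Submodule.subset_span ⟨i, rfl⟩)⟩,
        LinearIndependent.of_comp W.1.subtype w.1.2.1⟩ : {v : Fin m → W.1 // LinearIndependent F v})) ⟨?_, ?_⟩)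
    · intro w w' e
      exact Subtype.ext (Subtype.ext (funext fun i => congrArg Subtype.val (congrFun (congrArg Subtype.val e) i)))
    · rintro ⟨v, hv⟩
      have hv' : LinearIndependent F fun i => (v i : Fin (k + 2 * m) → F) := hv.map' W.1.subtype W.1.ker_subtype
      refine ⟨⟨⟨fun i => v i, hv', fun a b => W.2.2 _ (v a).2 _ (v b).2⟩, Subtype.ext ?_⟩, rfl⟩
      refine Submodule.eq_of_le_of_finrank_eq (Submodule.span_le.mpr ?_) ?_
      · rintro _ ⟨i, rfl⟩; exact (v i).2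
      · rw [finrank_span_eq_card hv', Fintype.card_fin, W.2.1]
  haveI : Fintype Ω := Fintype.ofFinite _
  have hc := CfsgLib.UGeom.card_isoFrame (F := F) C m hm
  rw [← Nat.card_congr (Equiv.sigmaFiberEquiv Φ), Nat.card_sigma, Finset.sum_congr rfl fun W _ => hfib W,
    Finset.sum_const, smul_eq_mul, Finset.card_univ, ← Nat.card_eq_fintype_card,
    Fin.prod_univ_eq_prod_range (fun i => (q ^ 2) ^ m - (q ^ 2) ^ i) m, CfsgLib.UGeom.guOrd, CfsgLib.UGeom.guOrd,
    Nat.add_sub_cancel, Finset.prod_range_add] at hc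
  have e1 : ∀ i ∈ Finset.range m, (q ^ 2) ^ m - (q ^ 2) ^ i = (q ^ 2) ^ i * ((q ^ 2) ^ (m - i) - 1) := fun i hi => by
    rw [Nat.mul_sub, mul_one, ← pow_add, Nat.add_sub_cancel' (Finset.mem_range.mp hi).le]
  rw [Finset.prod_congr rfl e1, Finset.prod_mul_distrib, Finset.prod_pow_eq_pow_sum, ← pow_mul] at hc
  obtain ⟨P, hP⟩ : ∃ P, P = ∏ i ∈ Finset.range k, (if Even i then q ^ (i + 1) + 1 else q ^ (i + 1) - 1) := ⟨_, rfl⟩
  have hPpos : 0 < P := hP ▸ Finset.prod_pos fun i _ => by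
    have := Nat.one_lt_pow (show i + 1 ≠ 0 by omega) C.two_le
    split_ifs <;> omega
  rw [← hP] at hc
  obtain ⟨P', hP'⟩ : ∃ P', P' = ∏ i ∈ Finset.range m, ((q ^ 2) ^ (m - i) - 1) := ⟨_, rfl⟩
  rw [← hP'] at hc
  obtain ⟨Q, hQ⟩ : ∃ Q, Q = ∏ i ∈ Finset.range (2 * m),
    (if Even (k + i) then q ^ (k + i + 1) + 1 else q ^ (k + i + 1) - 1) := ⟨_, rfl⟩
  rw [← hQ] at hc
  have hexp : 2 * (∑ i ∈ Finset.range m, i) + (m * (2 * (k + 2 * m) - 3 * m) + k * (k - 1) / 2) =
      (k + 2 * m) * (k + 2 * m - 1) / 2 := by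
    obtain ⟨s, hs⟩ : ∃ s, s = ∑ i ∈ Finset.range m, i := ⟨_, rfl⟩
    obtain ⟨t, ht⟩ : ∃ t, t = ∑ i ∈ Finset.range k, i := ⟨_, rfl⟩
    rw [← Finset.sum_range_id k, ← Finset.sum_range_id (k + 2 * m), Finset.sum_range_add, ← hs, ← ht,
      Finset.sum_add_distrib, Finset.sum_const, Finset.card_range, smul_eq_mul,
      show 2 * (k + 2 * m) - 3 * m = 2 * k + m by omega]
    have h2 := Finset.sum_range_id_mul_two (2 * m)
    have h3 := Finset.sum_range_id_mul_two m
    rw [← hs] at h3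
    rcases Nat.eq_zero_or_pos m with hm0 | hm0
    · subst hm0; simp at hs ⊢; omega
    · zify [show 1 ≤ m by omega, show 1 ≤ 2 * m by omega] at h2 h3 ⊢
      linarith [h2, h3]
  obtain ⟨N, hN⟩ : ∃ N, N = (k + 2 * m) * (k + 2 * m - 1) / 2 := ⟨_, rfl⟩
  rw [← hN] at hc hexp
  have hmain : Nat.card Ω * P' = Q := by
    have hq0 : 0 < q ^ N * P := Nat.mul_pos (pow_pos (by have := C.two_le; omega) _) hPpos
    refine Nat.eq_of_mul_eq_mul_left hq0 ?_
    rw [show q ^ N * P * Q = q ^ N * (P * Q) by ring, ← hc, ← hexp, pow_add, pow_add]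
    ring
  have h2 : r ∣ Q := hmain ▸ h.mul_right _
  obtain ⟨i, hi, hid⟩ := hr.prime.exists_mem_finset_dvd (hQ ▸ h2)
  rw [Finset.mem_range] at hi
  refine ⟨?_, k + i + 1, by omega, by omega, ?_⟩
  · rintro rfl
    obtain ⟨e, he⟩ := card_eq_pow (p := r) hF
    have hqe : r ∣ q ^ (k + i + 1) := (he ▸ dvd_pow_self r (fun h0 => by
      have := C.two_le; rw [he, h0] at this; simp at this)).trans (dvd_pow_self q (Nat.succ_ne_zero _))
    split_ifs at hid
    · exact hr.one_lt.ne' (Nat.dvd_one.mp ((Nat.dvd_add_right hqe).mp hid))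
    · have := Nat.dvd_sub hqe hid
      rw [Nat.sub_sub_self (Nat.one_le_pow _ _ (by have := C.two_le; omega))] at this
      exact hr.one_lt.ne' (Nat.dvd_one.mp this)
  rw [← ZMod.natCast_eq_zero_iff] at hid
  rcases Nat.even_or_odd (k + i) with he | ho
  · rw [if_pos he, Nat.cast_add, Nat.cast_pow, Nat.cast_one] at hid
    rw [he.add_one.neg_pow]
    linear_combination -hid
  · rw [if_neg (Nat.not_even_iff_odd.mpr ho), Nat.cast_sub (Nat.one_le_pow _ _ (by have := C.two_le; omega)),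
      Nat.cast_pow, Nat.cast_one] at hid
    rw [ho.add_one.neg_pow]
    linear_combination hid

end Count

end CfsgLib.SubElusive
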