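import Cfsg.Agent.NilType.Combine
import Cfsg.Agent.PolarPair.Count

/-!
Nondegenerate invariant subspaces of symplectic unipotent elements, by their block sizes.
-/

set_option autoImplicit false

namespace CfsgLib.SubElusive

open Module

section

variable {F : Type*} [Field F] {V : Type*} [AddCommGroup V] [Module F V] [FiniteDimensional F V]

/-- The restriction of `B` to `S` is nondegenerate. -/
def NDOn (B : LinearMap.BilinForm F V) (S : Submodule F V) : Prop := ∀ u ∈ S, (∀ w ∈ S, B u w = 0) → u = 0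

/-- The multiset `μ` gives the sizes of the blocks of `N` on `S`. -/
def SizesOn (N : Module.End F V) (S : Submodule F V) (μ : Multiset ℕ) : Prop :=
  ∀ j, finrank F ↥(S.map (N ^ j)) = (μ.map fun a => a - j).sum

/-- Sizes are determined by the ranks of the powers. -/
theorem sizes_unique {μ ν : Multiset ℕ} (hμ : ∀ a ∈ μ, 0 < a) (hν : ∀ a ∈ ν, 0 < a)
    (h : ∀ j, (μ.map fun a => a - j).sum = (ν.map fun a => a - j).sum) : μ = ν := by
  refine Multiset.ext.mpr fun a => ?_
  rcases Nat.eq_zero_or_pos a with rfl | ha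
  · rw [Multiset.count_eq_zero.mpr fun h0 => lt_irrefl 0 (hμ 0 h0),
      Multiset.count_eq_zero.mpr fun h0 => lt_irrefl 0 (hν 0 h0)]
  obtain ⟨i, rfl⟩ : ∃ i, a = i + 1 := ⟨a - 1, by omega⟩
  have h1 := CfsgLib.NilType.count_identity μ i
  have h2 := CfsgLib.NilType.count_identity ν i
  rw [h i, h (i + 1), h (i + 2)] at h1
  omega

omit [FiniteDimensional F V] in
theorem pow_mem_of_invariant {N : Module.End F V} {S : Submodule F V} (hS : ∀ v ∈ S, N v ∈ S) :
    ∀ (j : ℕ), ∀ v ∈ S, (N ^ j) v ∈ S := by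
  intro j
  induction j with
  | zero => exact fun v hv => hv
  | succ j ih => intro v hv; rw [pow_succ', Module.End.mul_apply]; exact hS _ (ih v hv)

/-- Sizes add over disjoint invariant subspaces. -/
theorem finrank_map_sup {N : Module.End F V} {R S : Submodule F V} (hd : R ⊓ S = ⊥) (hR : ∀ v ∈ R, N v ∈ R)
    (hS : ∀ v ∈ S, N v ∈ S) (j : ℕ) :
    finrank F ↥((R ⊔ S).map (N ^ j)) = finrank F ↥(R.map (N ^ j)) + finrank F ↥(S.map (N ^ j)) := by
  have h : R.map (N ^ j) ⊓ S.map (N ^ j) = ⊥ := by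
    rw [eq_bot_iff, ← hd]
    refine inf_le_inf ?_ ?_
    · exact Submodule.map_le_iff_le_comap.mpr (pow_mem_of_invariant hR j)
    · exact Submodule.map_le_iff_le_comap.mpr (pow_mem_of_invariant hS j)
  have := Submodule.finrank_sup_add_finrank_inf_eq (R.map (N ^ j)) (S.map (N ^ j))
  rw [h, finrank_bot, add_zero, ← Submodule.map_sup] at this
  exact this

theorem SizesOn.finrank_eq {N : Module.End F V} {S : Submodule F V} {μ : Multiset ℕ} (h : SizesOn N S μ) :
    finrank F S = μ.sum := by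
  have h0 := h 0
  rw [pow_zero, show (1 : Module.End F V) = LinearMap.id from rfl, Submodule.map_id,
    Multiset.map_congr rfl (fun a _ => Nat.sub_zero a), Multiset.map_id'] at h0
  exact h0

variable {B : LinearMap.BilinForm F V} {N : Module.End F V}
  (halt : ∀ v, B v v = 0) (hiso : ∀ a b, B (a + N a) (b + N b) = B a b)

include halt in
theorem alt_skew (u v : V) : B v u = -B u v := by
  have := halt (u + v)
  simp only [map_add, LinearMap.add_apply, halt, zero_add, add_zero] at this
  linear_combination this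

include halt in
theorem alt_refl : B.IsRefl := fun u v huv => by rw [alt_skew halt, huv, neg_zero]

include halt in
/-- An orthogonal sum of nondegenerate subspaces. -/
theorem ndOn_sup {R S : Submodule F V} (hR : NDOn B R) (hS : NDOn B S) (hp : ∀ a ∈ R, ∀ b ∈ S, B a b = 0) :
    NDOn B (R ⊔ S) ∧ R ⊓ S = ⊥ := by
  refine ⟨fun u hu h => ?_, (Submodule.eq_bot_iff _).mpr fun u hu => hR u hu.1 fun w hw =>
    alt_refl halt _ _ (hp w hw u hu.2)⟩
  obtain ⟨a, ha, b, hb, rfl⟩ := Submodule.mem_sup.mp hu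
  have ha0 : a = 0 := hR a ha fun x hx => by
    have := h x (Submodule.mem_sup_left hx)
    rwa [map_add, LinearMap.add_apply, alt_refl halt _ _ (hp x hx b hb), add_zero] at this
  have hb0 : b = 0 := hS b hb fun x hx => by
    have := h x (Submodule.mem_sup_right hx)
    rwa [map_add, LinearMap.add_apply, hp a ha x hx, zero_add] at this
  rw [ha0, hb0, add_zero]

include halt hiso in
/-- An invariant nondegenerate part splits off. -/
theorem split_part {R S : Submodule F V} (hR : NDOn B R) (hS : NDOn B S) (hRS : R ≤ S) (hNR : ∀ v ∈ R, N v ∈ R)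
    (hNS : ∀ v ∈ S, N v ∈ S) :
    ∃ S' ≤ S, (∀ v ∈ S', N v ∈ S') ∧ NDOn B S' ∧ R ⊔ S' = S ∧ R ⊓ S' = ⊥ ∧ ∀ a ∈ R, ∀ b ∈ S', B a b = 0 := by
  have hrefl := alt_refl halt
  have hc : IsCompl R (B.orthogonal R) := by
    refine LinearMap.BilinForm.isCompl_orthogonal_of_restrict_nondegenerate hrefl ?_
    refine ⟨fun u hu => Subtype.ext (hR u u.2 fun w hw => hu ⟨w, hw⟩), fun u hu => Subtype.ext (hR u u.2 fun w hw => ?_)⟩
    exact hrefl _ _ (hu ⟨w, hw⟩)
  have hsup : R ⊔ S ⊓ B.orthogonal R = S := by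
    rw [inf_comm, ← sup_inf_assoc_of_le _ hRS, hc.sup_eq_top, top_inf_eq]
  refine ⟨S ⊓ B.orthogonal R, inf_le_left, fun v hv => ⟨hNS v hv.1, fun a ha => ?_⟩, fun u hu hperp => ?_, hsup, ?_,
    fun a ha b hb => hb.2 a ha⟩
  · -- the map `1 + N` is onto `R`
    let g : R →ₗ[F] R := LinearMap.id + (LinearMap.codRestrict R (N.comp R.subtype) fun v => hNR v.1 v.2)
    have hg : Function.Injective g := by
      rw [← LinearMap.ker_eq_bot, LinearMap.ker_eq_bot']
      intro v hv
      refine Subtype.ext (hR v.1 v.2 fun w hw => ?_)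
      have h1 : v.1 + N v.1 = 0 := congrArg Subtype.val hv
      rw [← hiso v.1 w, h1, map_zero, LinearMap.zero_apply]
    obtain ⟨b, hb⟩ := LinearMap.injective_iff_surjective.mp hg ⟨a, ha⟩
    have hb' : b.1 + N b.1 = a := congrArg Subtype.val hb
    have h2 : B a (v + N v) = 0 := by rw [← hb', hiso]; exact hv.2 b.1 b.2
    rw [map_add, hv.2 a ha, zero_add] at h2
    exact h2
  · refine hS u hu.1 fun w hw => ?_
    rw [← hsup, Submodule.mem_sup] at hw
    obtain ⟨a, ha, b, hb, rfl⟩ := hw
    rw [map_add, hperp b hb, add_zero]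
    exact hrefl _ _ (hu.2 a ha)
  · exact eq_bot_iff.mpr (le_trans (inf_le_inf_left R inf_le_right) hc.inf_eq_bot.le)

include hiso in
/-- Moving powers of `N` across the form. -/
theorem form_pow {k : ℕ} (i : ℕ) : ∀ (a b : V), (N ^ k) b = 0 →
    (∀ j, k ≤ i + j → B ((N ^ i) a) ((N ^ j) b) = 0) ∧
      ∀ j, i + j + 1 = k → B ((N ^ i) a) ((N ^ j) b) = (-1) ^ i * B a ((N ^ (k - 1)) b) := by
  induction i with
  | zero =>
    intro a b hb
    refine ⟨fun j hj => ?_, fun j hj => ?_⟩
    · rw [show j = (j - k) + k by omega, pow_add, Module.End.mul_apply, hb, map_zero, map_zero]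
    · rw [show k - 1 = j by omega]; simp
  | succ i ih =>
    intro a b hb
    have step : ∀ x y : V, B (N x) y = -B x (N y) - B (N x) (N y) := fun x y => by
      have := hiso x y
      simp only [map_add, LinearMap.add_apply] at this
      linear_combination this
    have van : ∀ s j, k ≤ i + 1 + j → k ≤ j + s → B ((N ^ (i + 1)) a) ((N ^ j) b) = 0 := by
      intro s
      induction s with
      | zero =>
        intro j _ hj
        have h0 : (N ^ j) b = 0 := by
          rw [show j = (j - k) + k by omega, pow_add, Module.End.mul_apply, hb, map_zero]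
        rw [h0, map_zero]
      | succ s ihs =>
        intro j hj hjs
        have h1 := ihs (j + 1) (by omega) (by omega)
        rw [pow_succ' N i, Module.End.mul_apply, pow_succ' N j, Module.End.mul_apply] at h1
        rw [pow_succ' N i, Module.End.mul_apply, step, h1, ← Module.End.mul_apply, ← pow_succ',
          (ih a b hb).1 (j + 1) (by omega), neg_zero, sub_zero]
    refine ⟨fun j hj => van k j hj (by omega), fun j hj => ?_⟩
    have h1 := van k (j + 1) (by omega) (by omega)
    rw [pow_succ' N i, Module.End.mul_apply, pow_succ' N j, Module.End.mul_apply] at h1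
    rw [pow_succ' N i, Module.End.mul_apply, step, h1, ← Module.End.mul_apply, ← pow_succ',
      (ih a b hb).2 (j + 1) (by omega), sub_zero, pow_succ]
    ring

include halt hiso in
/-- The nondegenerate part spanned by chains of top length with invertible pairing. -/
theorem exists_piece {S : Submodule F V} (hNS : ∀ v ∈ S, N v ∈ S) {k c : ℕ} (hk : ∀ v ∈ S, (N ^ k) v = 0)
    (u : Fin c → V) (hu : ∀ s, u s ∈ S)
    (hG : ∀ a : Fin c → F, (∀ t, ∑ s, a s * B (u s) ((N ^ (k - 1)) (u t)) = 0) → a = 0) :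
    ∃ R ≤ S, (∀ v ∈ R, N v ∈ R) ∧ NDOn B R ∧ SizesOn N R (Multiset.replicate c k) := by
  classical
  let b : Fin c × Fin k → V := fun si => (N ^ (si.2 : ℕ)) (u si.1)
  have key : ∀ a : Fin c × Fin k → F, (∀ t (j : Fin k), B (∑ si, a si • b si) ((N ^ (j : ℕ)) (u t)) = 0) → a = 0 := by
    intro a ha
    have hl : ∀ l (hl : l < k) s, a (s, ⟨l, hl⟩) = 0 := by
      intro l
      induction l using Nat.strong_induction_on with
      | _ l ih =>
        intro hl s
        refine congrFun (hG (fun s => a (s, ⟨l, hl⟩)) fun t => ?_) s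
        have h1 := ha t ⟨k - 1 - l, by omega⟩
        rw [map_sum, LinearMap.sum_apply, Fintype.sum_prod_type] at h1
        have h2 : ∀ s, ∑ i : Fin k, (B (a (s, i) • b (s, i))) ((N ^ (k - 1 - l)) (u t)) =
            (-1) ^ l * (a (s, ⟨l, hl⟩) * B (u s) ((N ^ (k - 1)) (u t))) := fun s => by
          rw [Finset.sum_eq_single ⟨l, hl⟩ (fun i _ hi => ?_) (fun h => absurd (Finset.mem_univ _) h)]
          · rw [map_smul, LinearMap.smul_apply, smul_eq_mul,
              (form_pow hiso l (u s) (u t) (hk _ (hu t))).2 _ (by omega)]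
            ring
          · rcases lt_or_gt_of_ne (fun e => hi (Fin.ext e) : (i : ℕ) ≠ l) with h3 | h3
            · rw [ih _ h3 i.isLt s, zero_smul, map_zero, LinearMap.zero_apply]
            · rw [map_smul, LinearMap.smul_apply, smul_eq_mul,
                (form_pow hiso (i : ℕ) (u s) (u t) (hk _ (hu t))).1 _ (by omega), mul_zero]
        simp only [h2, ← Finset.mul_sum] at h1
        exact (mul_eq_zero.mp h1).resolve_left (pow_ne_zero _ (neg_ne_zero.mpr one_ne_zero))
    funext ⟨s, i⟩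
    exact hl i.1 i.2 s
  have hli : LinearIndependent F b := Fintype.linearIndependent_iff.mpr fun a ha si => by
    refine congrFun (key a fun t j => ?_) si
    rw [ha, map_zero, LinearMap.zero_apply]
  obtain ⟨R, hR⟩ : ∃ R, R = Submodule.span F (Set.range b) := ⟨_, rfl⟩
  have hbR : ∀ si, b si ∈ R := fun si => hR ▸ Submodule.subset_span ⟨si, rfl⟩
  have hpow : ∀ s j, (N ^ j) (u s) ∈ R := fun s j => by
    rcases lt_or_ge j k with hj | hj
    · exact hbR (s, ⟨j, hj⟩)
    · rw [show j = (j - k) + k by omega, pow_add, Module.End.mul_apply, hk _ (hu s), map_zero]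
      exact R.zero_mem
  refine ⟨R, ?_, ?_, ?_, fun j => ?_⟩
  · rw [hR, Submodule.span_le]
    rintro _ ⟨si, rfl⟩
    exact pow_mem_of_invariant hNS _ _ (hu _)
  · have hle : R.map N ≤ R := by
      conv_lhs => rw [hR, Submodule.map_span]
      rw [Submodule.span_le]
      rintro _ ⟨_, ⟨si, rfl⟩, rfl⟩
      show N ((N ^ (si.2 : ℕ)) (u si.1)) ∈ R
      rw [← Module.End.mul_apply, ← pow_succ']
      exact hpow _ _
    exact fun v hv => hle ⟨v, hv, rfl⟩
  · intro v hv hperp
    rw [hR, Submodule.mem_span_range_iff_exists_fun] at hv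
    obtain ⟨a, rfl⟩ := hv
    rw [key a fun t j => hperp _ (hpow t j)]
    simp
  · let em : Fin c × Fin (k - j) → Fin c × Fin k := fun si => (si.1, ⟨si.2 + j, by omega⟩)
    have hem : Function.Injective em := fun x y e => by
      simp only [em, Prod.ext_iff, Fin.ext_iff] at e ⊢
      exact ⟨e.1, by omega⟩
    have himg : R.map (N ^ j) = Submodule.span F (Set.range (b ∘ em)) := by
      rw [hR, Submodule.map_span]
      refine le_antisymm (Submodule.span_le.mpr ?_) (Submodule.span_le.mpr ?_)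
      · rintro _ ⟨_, ⟨⟨s, i⟩, rfl⟩, rfl⟩
        show (N ^ j) ((N ^ (i : ℕ)) (u s)) ∈ Submodule.span F (Set.range (b ∘ em))
        rw [← Module.End.mul_apply, ← pow_add]
        rcases lt_or_ge (i : ℕ) (k - j) with hi | hi
        · refine Submodule.subset_span ⟨(s, ⟨i, hi⟩), ?_⟩
          show (N ^ ((i : ℕ) + j)) (u s) = _
          rw [add_comm]
        · rw [show j + (i : ℕ) = (j + i - k) + k by omega, pow_add, Module.End.mul_apply, hk _ (hu s), map_zero]
          exact Submodule.zero_mem _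
      · rintro _ ⟨⟨s, i⟩, rfl⟩
        refine Submodule.subset_span ⟨_, ⟨(s, ⟨i, by omega⟩), rfl⟩, ?_⟩
        show (N ^ j) ((N ^ (i : ℕ)) (u s)) = (N ^ ((i : ℕ) + j)) (u s)
        rw [← Module.End.mul_apply, ← pow_add, add_comm]
    rw [himg, finrank_span_eq_card (hli.comp em hem), Multiset.map_replicate, Multiset.sum_replicate, smul_eq_mul,
      Fintype.card_prod, Fintype.card_fin, Fintype.card_fin]

include halt hiso in
/-- In odd characteristic every admissible subfamily of the sizes occurs on a nondegenerate invariant subspace. -/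
theorem exists_sub_of_sizes (h2 : (2 : F) ≠ 0) : ∀ (μ : Multiset ℕ), (∀ a ∈ μ, 0 < a) →
    (∀ a, Odd a → Even (μ.count a)) → ∀ (S : Submodule F V), (∀ v ∈ S, N v ∈ S) → NDOn B S → SizesOn N S μ →
    ∀ ν ≤ μ, (∀ a, Odd a → Even (ν.count a)) →
      ∃ W ≤ S, (∀ v ∈ W, N v ∈ W) ∧ NDOn B W ∧ finrank F W = ν.sum := by
  classical
  intro μ
  induction μ using Multiset.strongInductionOn with
  | _ μ ih =>
  intro hpos hμ S hNS hS hsz ν hν hνe
  rcases eq_or_ne ν 0 with rfl | hν0
  · refine ⟨⊥, bot_le, fun v hv => ?_, fun u hu _ => (Submodule.mem_bot F).mp hu, ?_⟩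
    · rw [(Submodule.mem_bot F).mp hv, map_zero]; exact zero_mem _
    · rw [finrank_bot, Multiset.sum_zero]
  obtain ⟨a₀, ha₀⟩ := Multiset.exists_mem_of_ne_zero hν0
  have hne : μ.toFinset.Nonempty := ⟨a₀, Multiset.mem_toFinset.mpr (Multiset.mem_of_le hν ha₀)⟩
  obtain ⟨k, hkmem, hkmax⟩ : ∃ k ∈ μ, ∀ a ∈ μ, a ≤ k :=
    ⟨_, Multiset.mem_toFinset.mp (Finset.max'_mem _ hne), fun a ha => Finset.le_max' _ a (Multiset.mem_toFinset.mpr ha)⟩
  have hk0 : 0 < k := hpos k hkmem
  have hkill : ∀ v ∈ S, (N ^ k) v = 0 := by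
    have h0 : finrank F ↥(S.map (N ^ k)) = 0 := by
      rw [hsz k, Multiset.sum_eq_zero]
      intro x hx
      obtain ⟨a, ha, rfl⟩ := Multiset.mem_map.mp hx
      have := hkmax a ha
      omega
    intro v hv
    have h1 : (N ^ k) v ∈ S.map (N ^ k) := ⟨v, hv, rfl⟩
    rw [Submodule.finrank_eq_zero.mp h0, Submodule.mem_bot] at h1
    exact h1
  obtain ⟨u, hu, hu0⟩ : ∃ u ∈ S, (N ^ (k - 1)) u ≠ 0 := by
    by_contra hno
    push Not at hno
    have h0 : S.map (N ^ (k - 1)) = ⊥ := by
      rw [eq_bot_iff]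
      rintro _ ⟨v, hv, rfl⟩
      exact (Submodule.mem_bot F).mpr (hno v hv)
    have h1 := hsz (k - 1)
    rw [h0, finrank_bot] at h1
    have := Multiset.le_sum_of_mem (Multiset.mem_map_of_mem (fun a => a - (k - 1)) hkmem)
    omega
  have hsym : ∀ a b, b ∈ S → B b ((N ^ (k - 1)) a) = (-1) ^ k * B a ((N ^ (k - 1)) b) := fun a b hb => by
    have h1 := (form_pow hiso (k - 1) a b (hkill b hb)).2 0 (by omega)
    rw [pow_zero, Module.End.one_apply] at h1
    rw [alt_skew halt, h1]
    nth_rw 3 [show k = k - 1 + 1 by omega]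
    rw [pow_succ]
    ring
  obtain ⟨w, hw, hwu⟩ : ∃ w ∈ S, B w ((N ^ (k - 1)) u) ≠ 0 := by
    by_contra hno
    push Not at hno
    exact hu0 (hS _ (pow_mem_of_invariant hNS _ u hu) fun w hw => alt_refl halt _ _ (hno w hw))
  -- the piece
  obtain ⟨c, hcμ, hcν, R, hRS, hNR, hR, hRsz⟩ : ∃ c, Multiset.replicate c k ≤ μ ∧
      (k ∈ ν → Multiset.replicate c k ≤ ν) ∧ ∃ R ≤ S, (∀ v ∈ R, N v ∈ R) ∧ NDOn B R ∧
        (SizesOn N R (Multiset.replicate c k) ∧ 0 < c ∧ (Odd k → Even c)) := by
    rcases Nat.even_or_odd k with hke | hko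
    · obtain ⟨v, hv, hvv⟩ : ∃ v ∈ S, B v ((N ^ (k - 1)) v) ≠ 0 := by
        by_contra hno
        push Not at hno
        have h1 := hno (u + w) (S.add_mem hu hw)
        rw [map_add (N ^ (k - 1)), map_add B, LinearMap.add_apply, map_add, map_add, hno u hu, hno w hw,
          hsym u w hw, hke.neg_one_pow, one_mul, zero_add, add_zero, ← two_mul] at h1
        have h3 := hsym u w hw
        rw [hke.neg_one_pow, one_mul] at h3
        exact hwu (h3.trans ((mul_eq_zero.mp h1).resolve_left h2))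
      obtain ⟨R, hRS, hNR, hR, hRsz⟩ := exists_piece halt hiso hNS hkill (fun _ : Fin 1 => v) (fun _ => hv)
        (fun a ha => by
          funext s
          have h1 := ha 0
          rw [Fin.sum_univ_one] at h1
          rw [Subsingleton.elim s 0]
          exact (mul_eq_zero.mp h1).resolve_right hvv)
      exact ⟨1, by rw [Multiset.replicate_one, Multiset.singleton_le]; exact hkmem,
        fun h => by rw [Multiset.replicate_one, Multiset.singleton_le]; exact h,
        R, hRS, hNR, hR, hRsz, one_pos, fun h => absurd hke (Nat.not_even_iff_odd.mpr h)⟩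
    · have hd : ∀ v ∈ S, B v ((N ^ (k - 1)) v) = 0 := fun v hv => by
        have h1 := hsym v v hv
        rw [hko.neg_one_pow, neg_one_mul, eq_neg_iff_add_eq_zero, ← two_mul] at h1
        exact (mul_eq_zero.mp h1).resolve_left h2
      obtain ⟨R, hRS, hNR, hR, hRsz⟩ := exists_piece halt hiso hNS hkill ![w, u] (fun s => by
        fin_cases s <;> simpa) (fun a ha => by
          have h0 := ha 0
          have h1 := ha 1
          simp only [Fin.sum_univ_two, Matrix.cons_val_zero, Matrix.cons_val_one, hd u hu, hd w hw, mul_zero, zero_add,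
            add_zero, mul_eq_zero] at h0 h1
          funext s
          fin_cases s
          · exact h1.resolve_right hwu
          · refine h0.resolve_right ?_
            rw [hsym w u hu, hko.neg_one_pow, neg_one_mul]
            exact fun h => hwu (neg_eq_zero.mp h))
      have hcnt : ∀ ρ : Multiset ℕ, k ∈ ρ → Even (ρ.count k) → Multiset.replicate 2 k ≤ ρ := fun ρ h1 h3 => by
        rw [← Multiset.le_count_iff_replicate_le]
        have := Multiset.count_pos.mpr h1
        obtain ⟨e, he⟩ := h3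
        omega
      exact ⟨2, hcnt μ hkmem (hμ k hko), fun h => hcnt ν h (hνe k hko), R, hRS, hNR, hR, hRsz, two_pos,
        fun _ => even_two⟩
  obtain ⟨hRsz, hc0, hce⟩ := hRsz
  obtain ⟨S', hS'S, hNS', hS', hsup, hdis, hperp⟩ := split_part halt hiso hR hS hRS hNR hNS
  obtain ⟨μ', hμ'⟩ : ∃ μ', μ' = μ - Multiset.replicate c k := ⟨_, rfl⟩
  have hμs : Multiset.replicate c k + μ' = μ := hμ' ▸ add_tsub_cancel_of_le hcμ
  have hsz' : SizesOn N S' μ' := fun j => by
    have h1 := finrank_map_sup hdis hNR hNS' j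
    rw [hsup, hsz, hRsz] at h1
    have h3 := congrArg (fun ρ => (Multiset.map (fun a => a - j) ρ).sum) hμs
    simp only [Multiset.map_add, Multiset.sum_add] at h3
    omega
  have hpar : ∀ ρ : Multiset ℕ, (∀ a, Odd a → Even (ρ.count a)) → Multiset.replicate c k ≤ ρ →
      ∀ a, Odd a → Even ((ρ - Multiset.replicate c k).count a) := fun ρ hρ hle a ha => by
    rw [Multiset.count_sub, Multiset.count_replicate]
    split_ifs with h
    · subst h
      have := (Multiset.le_count_iff_replicate_le).mpr hle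
      rw [Nat.even_sub this]
      exact iff_of_true (hρ k ha) (hce ha)
    · rw [Nat.sub_zero]; exact hρ a ha
  have hlt : μ' < μ := by
    refine lt_of_le_of_ne (hμ' ▸ Multiset.sub_le_self _ _) fun e => ?_
    have h1 := congrArg Multiset.card hμs
    rw [Multiset.card_add, Multiset.card_replicate, e] at h1
    omega
  have hpos' : ∀ a ∈ μ', 0 < a := fun a ha => hpos a (Multiset.mem_of_le hlt.le ha)
  by_cases hkν : k ∈ ν
  · obtain ⟨W, hW, hNW, hWn, hWd⟩ := ih μ' hlt hpos' (hμ' ▸ hpar μ hμ hcμ) S' hNS' hS' hsz'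
      (ν - Multiset.replicate c k) (by rw [hμ']; exact tsub_le_tsub_right hν _) (hpar ν hνe (hcν hkν))
    obtain ⟨hnd, hd⟩ := ndOn_sup halt hR hWn fun a ha b hb => hperp a ha b (hW hb)
    refine ⟨R ⊔ W, sup_le hRS (hW.trans hS'S), fun v hv => ?_, hnd, ?_⟩
    · obtain ⟨a, ha, b, hb, rfl⟩ := Submodule.mem_sup.mp hv
      rw [map_add]
      exact Submodule.add_mem_sup (hNR a ha) (hNW b hb)
    · have h1 := Submodule.finrank_sup_add_finrank_inf_eq R W
      rw [hd, finrank_bot, hRsz.finrank_eq, hWd, ← Multiset.sum_add, add_tsub_cancel_of_le (hcν hkν)] at h1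
      omega
  · obtain ⟨W, hW, hrest⟩ := ih μ' hlt hpos' (hμ' ▸ hpar μ hμ hcμ) S' hNS' hS' hsz' ν (by
      rw [hμ', Multiset.le_iff_count]
      intro a
      rw [Multiset.count_sub, Multiset.count_replicate]
      split_ifs with h
      · subst h; rw [Multiset.count_eq_zero.mpr hkν]; exact Nat.zero_le _
      · rw [Nat.sub_zero]; exact Multiset.le_iff_count.mp hν a) hνe
    exact ⟨W, hW.trans hS'S, hrest⟩

end

section Matrix

variable {F : Type*} [Field F] {d : ℕ}

/-- The sizes on a nondegenerate invariant subspace, with their parity. -/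
theorem exists_sizes {x : Matrix (Fin d ⊕ Fin d) (Fin d ⊕ Fin d) F} (hx : x ∈ Matrix.symplecticGroup (Fin d) F)
    {N : Module.End F (Fin d ⊕ Fin d → F)} (hN : ∀ v, N v = x.mulVec v - v) {k : ℕ} (hk : N ^ k = 0)
    {S : Submodule F (Fin d ⊕ Fin d → F)} (hNS : ∀ v ∈ S, N v ∈ S) (hS : NDOn (CfsgLib.PolarPair.bform F d) S) :
    ∃ μ : Multiset ℕ, (∀ a ∈ μ, 0 < a ∧ a ≤ k) ∧ (∀ a, Odd a → Even (μ.count a)) ∧ SizesOn N S μ := by
  classical
  let b := Module.finBasis F S
  obtain ⟨f, hf⟩ : ∃ f : Module.End F (Fin d ⊕ Fin d → F), f = N + 1 := ⟨_, rfl⟩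
  have hfv : ∀ v, f v = x.mulVec v := fun v => by rw [hf, LinearMap.add_apply, hN, Module.End.one_apply, sub_add_cancel]
  have hfS : ∀ v ∈ S, f v ∈ S := fun v hv => by rw [hf]; exact S.add_mem (hNS v hv) hv
  obtain ⟨A, hA⟩ : ∃ A, A = LinearMap.toMatrixAlgEquiv b (f.restrict hfS) := ⟨_, rfl⟩
  obtain ⟨G, hG⟩ : ∃ G : Matrix (Fin (finrank F S)) (Fin (finrank F S)) F,
      G = LinearMap.BilinForm.toMatrix b ((CfsgLib.PolarPair.bform F d).restrict S) := ⟨_, rfl⟩
  have hGu : IsUnit G.det := by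
    rw [hG, isUnit_iff_ne_zero, ← LinearMap.BilinForm.nondegenerate_iff_det_ne_zero b]
    refine ⟨fun v hv => Subtype.ext (hS v.1 v.2 fun w hw => hv ⟨w, hw⟩), fun v hv => Subtype.ext (hS v.1 v.2 fun w hw => ?_)⟩
    have := hv ⟨w, hw⟩
    show Cfsg.sympForm d F v.1 w = 0
    rw [CfsgLib.SpGeom.form_skew, neg_eq_zero]
    exact this
  have hiso : A.transpose * G * A = G := by
    have h1 : A = LinearMap.toMatrix b b (f.restrict hfS) := hA
    rw [h1, hG, ← LinearMap.BilinForm.toMatrix_comp b b, show ((CfsgLib.PolarPair.bform F d).restrict S).comp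
      (f.restrict hfS) (f.restrict hfS) = (CfsgLib.PolarPair.bform F d).restrict S from ?_]
    refine LinearMap.BilinForm.ext fun v w => ?_
    show Cfsg.sympForm d F (f v.1) (f w.1) = Cfsg.sympForm d F v.1 w.1
    rw [hfv, hfv]
    exact CfsgLib.SpGeom.form_mulVec ⟨x, hx⟩ _ _
  have hGa : ∀ v : Fin (finrank F S) → F, v ⬝ᵥ G.mulVec v = 0 := fun v => by
    rw [hG]
    obtain ⟨w, rfl⟩ := b.equivFun.surjective v
    rw [LinearMap.BilinForm.dotProduct_toMatrix_mulVec, LinearEquiv.symm_apply_apply]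
    exact CfsgLib.SpGeom.form_self _
  have hA1 : A - 1 = LinearMap.toMatrixAlgEquiv b (N.restrict hNS) := by
    rw [hA, sub_eq_iff_eq_add, ← map_one (LinearMap.toMatrixAlgEquiv b), ← map_add]
    congr 1
    ext v
    simp [hf]
  have hpow : ∀ j, (A - 1) ^ j = LinearMap.toMatrixAlgEquiv b ((N ^ j).restrict (pow_mem_of_invariant hNS j)) := fun j => by
    rw [hA1, ← map_pow, Module.End.pow_restrict j hNS]
  have hnil : IsNilpotent (A - 1) := ⟨k, by
    rw [hpow, show ((N ^ k).restrict (pow_mem_of_invariant hNS k) : Module.End F S) = 0 from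
      LinearMap.ext fun v => Subtype.ext (by rw [LinearMap.coe_restrict_apply, hk]; rfl), map_zero]⟩
  obtain ⟨μ, hμ⟩ := CfsgLib.NilType.exists_type hnil
  have hrank : ∀ j, ((A - 1) ^ j).rank = finrank F ↥(S.map (N ^ j)) := fun j => by
    rw [hpow]
    show (LinearMap.toMatrix b b _).rank = _
    rw [Matrix.rank_eq_finrank_range_toLin _ b b, Matrix.toLin_toMatrix, ← Submodule.finrank_map_subtype_eq]
    refine congrArg (fun T : Submodule F (Fin d ⊕ Fin d → F) => finrank F T) (Submodule.ext fun v => ?_)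
    constructor
    · rintro ⟨_, ⟨w, rfl⟩, rfl⟩; exact ⟨w.1, w.2, rfl⟩
    · rintro ⟨w, hw, rfl⟩; exact ⟨_, ⟨⟨w, hw⟩, rfl⟩, rfl⟩
  refine ⟨μ.parts, fun a ha => ⟨μ.parts_pos ha, ?_⟩, fun a ha => ?_, fun j => by rw [← hrank]; exact hμ j⟩
  · refine (CfsgLib.NilType.prank_eq_zero_iff.mp ?_) a ha
    rw [← hμ k, hrank k, hk, Submodule.map_zero, finrank_bot]
  · exact CfsgLib.NilType.even_count_odd_of_alt hGu hiso hGa hnil (fun j => hμ j) ha

end Matrix

end CfsgLib.SubElusive
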