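import Cfsg.Agent.SubElusive.UnitData
import Cfsg.Agent.SubElusive.SympUni
import Cfsg.Agent.SubElusive.Cases
import Cfsg.Agent.SemiClasses.Setup

/-!
Elements of prime order of the unitary group and nondegenerate invariant subspaces.
-/

set_option autoImplicit false
set_option linter.style.haveILetI false

namespace CfsgLib.SubElusive

open Matrix CfsgLib.FormConj CfsgLib.FormConj.Semi CfsgLib.SemiClasses

section Basic

variable {F : Type*} [Field F] {θ : F →+* F} {n : ℕ}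

/-- The matrix has a nondegenerate invariant subspace of dimension `m`. -/
def HasND (θ : F →+* F) (m : ℕ) (x : Matrix (Fin n) (Fin n) F) : Prop :=
  ∃ W : Submodule F (Fin n → F), Module.finrank F W = m ∧
    (∀ u ∈ W, u ≠ 0 → ∃ v ∈ W, herm θ v u ≠ 0) ∧ ∀ v ∈ W, x *ᵥ v ∈ W

/-- Every element of order `r` up to scalars has a nondegenerate invariant subspace of dimension `m`. -/
def AllND (θ : F →+* F) (n m r : ℕ) : Prop :=
  ∀ x : Matrix (Fin n) (Fin n) F, x.det = 1 → dag θ x * x = 1 → (∃ z : F, x ^ r = z • 1) →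
    (∀ z : F, x ≠ z • 1) → HasND θ m x

theorem HasND.of_smul {m : ℕ} {x : Matrix (Fin n) (Fin n) F} {w : F} (hw : w ≠ 0) (h : HasND θ m (w • x)) :
    HasND θ m x := by
  obtain ⟨W, h1, h2, h3⟩ := h
  refine ⟨W, h1, h2, fun v hv => ?_⟩
  have := W.smul_mem w⁻¹ (h3 v hv)
  rwa [Matrix.smul_mulVec, smul_smul, inv_mul_cancel₀ hw, one_smul] at this

theorem dag_mul_smul {x : Matrix (Fin n) (Fin n) F} (hx : dag θ x * x = 1) (w : F) :
    dag θ (w • x) * (w • x) = (θ w * w) • 1 := by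
  rw [dag_smul, Matrix.smul_mul, Matrix.mul_smul, hx, smul_smul]

theorem det_dag (θ : F →+* F) {ι : Type*} [Fintype ι] [DecidableEq ι] (x : Matrix ι ι F) :
    (dag θ x).det = θ x.det := by
  rw [dag, Matrix.det_transpose, ← RingHom.mapMatrix_apply, ← RingHom.map_det]

theorem SelfDual.det_unit {ι : Type*} [Fintype ι] [DecidableEq ι] {A : Matrix ι ι F} (h : SelfDual θ A) :
    θ A.det * A.det = 1 := by
  obtain ⟨c, hc, e⟩ := h
  have := congrArg Matrix.det e
  rw [Matrix.det_mul, Matrix.det_mul, det_dag, mul_right_comm] at this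
  exact mul_eq_right₀ hc.ne_zero |>.mp this

/-- The scalar of a power of a unitary matrix of determinant one. -/
theorem unitary_scalar {x : Matrix (Fin n) (Fin n) F} (hn : 0 < n) (hd : x.det = 1) (hx : dag θ x * x = 1)
    {r : ℕ} {z : F} (hz : x ^ r = z • 1) : θ z * z = 1 ∧ z ^ n = 1 := by
  have h2 : z ^ n = 1 := by
    have := congrArg Matrix.det hz
    rw [Matrix.det_pow, hd, one_pow, Matrix.det_smul, Matrix.det_one, mul_one, Fintype.card_fin] at this
    exact this.symm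
  refine ⟨?_, h2⟩
  have h1 : ∀ j, dag θ (x ^ j) * x ^ j = 1 := fun j => by
    induction j with
    | zero => simp [dag_one]
    | succ j ih =>
      rw [pow_succ, dag_mul, Matrix.mul_assoc, ← Matrix.mul_assoc _ (x ^ j), ih, Matrix.one_mul, hx]
  have h3 := h1 r
  rw [hz, dag_smul, dag_one, Matrix.smul_mul, Matrix.mul_smul, Matrix.one_mul, smul_smul] at h3
  have := congrFun (congrFun h3 ⟨0, hn⟩) ⟨0, hn⟩
  simpa using this

theorem pow_of_similar {ι : Type} [Fintype ι] [DecidableEq ι] {A B Q : Matrix ι ι F} (hQ : IsUnit Q.det)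
    (h : Q * A = B * Q) {r : ℕ} {z : F} (hA : A ^ r = z • 1) : B ^ r = z • 1 := by
  have h1 := similar_pow h r
  rw [hA, Matrix.mul_smul, Matrix.mul_one] at h1
  have h2 := congrArg (fun M => M * Q⁻¹) h1
  simp only [Matrix.smul_mul, Matrix.mul_nonsing_inv _ hQ, Matrix.mul_nonsing_inv_cancel_right _ _ hQ] at h2
  exact h2.symm

/-- A root of `z` in the norm one subgroup when `r` is prime to its order. -/
theorem exists_root_coprime {z : F} {r N : ℕ} (hcop : r.Coprime N) (hz : z ^ N = 1) :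
    ∃ w : F, w ^ r = z ∧ w ^ N = 1 := by
  obtain ⟨e, he⟩ := exists_pow_eq_self_of_coprime (hcop.coprime_dvd_right (orderOf_dvd_of_pow_eq_one hz))
  exact ⟨z ^ e, by rw [← pow_mul, mul_comm, pow_mul, he], by rw [← pow_mul, mul_comm, pow_mul, hz, one_pow]⟩

/-- Killing by a smaller exponent. -/
theorem pow_div_eq_one {z : F} {r s N : ℕ} (hr : r.Prime) (hs : 0 < s) (hN : 0 < N) (hzs : z ^ s = 1)
    (hzN : z ^ N = 1) (hv : padicValNat r (r * s) ≤ padicValNat r N) : z ^ (N / r) = 1 := by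
  haveI := Fact.mk hr
  obtain ⟨g, hg⟩ : ∃ g, g = s.gcd N := ⟨_, rfl⟩
  obtain ⟨w, hw⟩ := hg ▸ Nat.gcd_dvd_right s N
  have hrw : r ∣ w := by
    by_contra hnd
    have h1 : r ^ padicValNat r N ∣ g := ((hr.coprime_iff_not_dvd.mpr hnd).pow_left _).dvd_of_dvd_mul_right
      (hw ▸ pow_padicValNat_dvd)
    have h2 : r ^ (padicValNat r N + 1) ∣ r * s := by
      rw [pow_succ']
      exact Nat.mul_dvd_mul_left r (h1.trans (hg ▸ Nat.gcd_dvd_left s N))
    have := (padicValNat_dvd_iff_le (Nat.mul_ne_zero hr.ne_zero hs.ne')).mp h2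
    omega
  obtain ⟨w', rfl⟩ := hrw
  rw [show N / r = g * w' by rw [hw, mul_left_comm]; exact Nat.mul_div_cancel_left _ hr.pos, pow_mul,
    hg, pow_gcd_eq_one.mpr ⟨hzs, hzN⟩, one_pow]

variable [Finite F] (hθ : ∀ a, θ (θ a) = a) (hne : θ ≠ RingHom.id F)

include hθ hne in
/-- A unitary element similar to a given self-dual matrix. -/
theorem exists_unitary_pow {A : Matrix (Fin n) (Fin n) F} (h : SelfDual θ A) {r : ℕ} {z : F}
    (hA : A ^ r = z • 1) : ∃ B C : Matrix (Fin n) (Fin n) F, IsUnit C.det ∧ C * A = B * C ∧ dag θ B * B = 1 ∧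
      B ^ r = z • 1 ∧ B.det = A.det ∧ θ B.det * B.det = 1 := by
  obtain ⟨C, hC, B, hB, hCA⟩ := h.exists_unitary hθ hne
  exact ⟨B, C, hC, hCA, hB, pow_of_similar hC hCA hA, (det_of_similar hC hCA).symm, (SelfDual.of_unitary hB).det_unit⟩

end Basic

section Semi

variable {F : Type*} [Field F] [Fintype F] {θ : F →+* F} {L : Type*} [Field L] [Finite L] [Algebra F L] {p r q : ℕ}
  [Fact p.Prime] [CharP F p] [hr : Fact r.Prime] {ζ : L} {n m : ℕ}

/-- Semisimple elements fix a nondegenerate subspace when the remainders allow it. -/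
theorem hasND_of_mult (hζ : IsPrimitiveRoot ζ r) (hrp : r ≠ p) (hq2 : Fintype.card F = q ^ 2)
    (hq : ∀ a, θ a = a ^ q) (hθ : ∀ a, θ (θ a) = a) (hne : θ ≠ RingHom.id F) {h : (ZMod r)ˣ}
    (hh : (h : ZMod r) = -(q : ZMod r)) (hmn : m ≤ n) (hmod : m % orderOf h ≤ n % orderOf h)
    {y : Matrix (Fin n) (Fin n) F} (hy : dag θ y * y = 1) (hyr : y ^ r = 1) : HasND θ m y := by
  classical
  obtain ⟨f, hfdef⟩ : ∃ f : ZMod r → ℕ, f = mult ζ y := ⟨_, rfl⟩
  have hfh : ∀ w, f (w * (h : ZMod r)) = f w := fun w => by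
    rw [hfdef]; exact (SelfDual.of_unitary hy).mult_inv hζ hrp hq2 hq hyr hh w
  have hfs : ∑ w, f w = n := by rw [hfdef, sum_mult hζ hyr, Fintype.card_fin]
  obtain ⟨k, hk, hsub⟩ := orbit_data h f hfh
  rw [hfs] at hk
  obtain ⟨α, β, α', β', hαβ, -, hα, hβ⟩ := choice_one hk hmn hmod
  obtain ⟨g, hg, -, hgle, hgs⟩ := hsub α (by omega) β (by omega)
  rw [hαβ] at hgs
  have hds : ∑ w, (f w - g w) = n - m := by rw [Finset.sum_tsub_distrib _ fun w _ => hgle w, hfs, hgs]
  obtain ⟨A, hA, hAr, hAm⟩ := exists_selfDual_mult (F := F) hζ hrp hq2 hq hh g hg hgs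
  obtain ⟨D, hD, hDr, hDm⟩ := exists_selfDual_mult (F := F) hζ hrp hq2 hq hh (fun w => f w - g w)
    (fun w => by simp only [hfh, hg]) hds
  let e : Fin m ⊕ Fin (n - m) ≃ Fin n := finSumFinEquiv.trans (finCongr (by omega))
  obtain ⟨Q, hQ, hQy⟩ := exists_similar (F := F) hζ hrp e (A := Matrix.fromBlocks A 0 0 D) (B := y)
    (by rw [CfsgLib.NilType.blocks_pow, hAr, hDr, Matrix.fromBlocks_one]) hyr fun w => by
      rw [mult_blocks, hAm, hDm, hfdef]
      have := hgle w
      rw [hfdef] at this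
      omega
  exact exists_sub_of_blocks hθ hne e hy hA hD hQ hQy

/-- The remainders allow it when all semisimple elements fix a subspace. -/
theorem mod_le_of_all (hζ : IsPrimitiveRoot ζ r) (hrp : r ≠ p) (hq2 : Fintype.card F = q ^ 2)
    (hq : ∀ a, θ a = a ^ q) (hθ : ∀ a, θ (θ a) = a) (hne : θ ≠ RingHom.id F) {h : (ZMod r)ˣ}
    (hh : (h : ZMod r) = -(q : ZMod r)) (hrq1 : ¬ r ∣ q + 1) (hmn : m ≤ n) (hcn : orderOf h ≤ n)
    (hall : AllND θ n m r) : m % orderOf h ≤ n % orderOf h := by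
  classical
  obtain ⟨c, hcdef⟩ : ∃ c, c = orderOf h := ⟨_, rfl⟩
  rw [← hcdef] at hcn ⊢
  have hc0 : 0 < c := hcdef ▸ orderOf_pos h
  have hcr : c ≤ r - 1 := by
    have h1 : orderOf h ∣ r - 1 := by rw [← ZMod.card_units r]; exact orderOf_dvd_card
    rw [← hcdef] at h1
    exact Nat.le_of_dvd (by have := hr.out.two_le; omega) h1
  have hdiv := Nat.mod_add_div n c
  obtain ⟨f, hf, hf0, hfs⟩ : ∃ f : ZMod r → ℕ, (∀ x, f (x * (h : ZMod r)) = f x) ∧ f 0 = n % c ∧
      ∑ x, f x = n := by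
    obtain ⟨k, hk, hsub⟩ := orbit_data h (fun x : ZMod r => if x = 0 then n % c else n / c)
      (fun x => by simp only [mul_eq_zero, h.ne_zero, or_false])
    rw [← hcdef] at hk
    have hk' : n / c ≤ k := by
      rw [if_pos rfl, sum_zmod] at hk
      simp only [if_pos, Units.ne_zero, if_false, Finset.sum_const, Finset.card_univ, ZMod.card_units, smul_eq_mul] at hk
      have h1 : c * (n / c) ≤ (r - 1) * (n / c) := Nat.mul_le_mul_right _ hcr
      exact Nat.le_of_mul_le_mul_left (by omega) hc0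
    obtain ⟨g, hg, hg0, -, hgs⟩ := hsub (n % c) (by simp) _ hk'
    exact ⟨g, hg, hg0, by rw [hgs, ← hcdef]; omega⟩
  obtain ⟨A, hA, hAr, hAm⟩ := exists_selfDual_mult (F := F) hζ hrp hq2 hq hh f hf hfs
  obtain ⟨B, C, hC, hCA, hB, hBr, -, hBd⟩ := exists_unitary_pow hθ hne hA (r := r) (z := 1) (by rw [one_smul]; exact hAr)
  rw [one_smul] at hBr
  have hcop : ∀ d : F, d ^ r = 1 → θ d * d = 1 → d = 1 := fun d h1 h2 => by
    rw [hq, ← pow_succ] at h2
    have := pow_gcd_eq_one.mpr ⟨h1, h2⟩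
    rwa [(hr.out.coprime_iff_not_dvd.mpr hrq1).gcd_eq_one, pow_one] at this
  have hn0 : 0 < n := lt_of_lt_of_le hc0 hcn
  have hdet : B.det = 1 := hcop _ (by rw [← Matrix.det_pow, hBr, Matrix.det_one]) hBd
  have hns : ∀ z : F, B ≠ z • 1 := by
    intro z hz
    have h1 : B = 1 := by
      rw [hz, hcop z, one_smul]
      · have := congrFun (congrFun (hz ▸ hBr) ⟨0, hn0⟩) ⟨0, hn0⟩
        simpa [_root_.smul_pow] using this
      · have := congrFun (congrFun (hz ▸ hB) ⟨0, hn0⟩) ⟨0, hn0⟩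
        rw [mul_comm]
        simpa [dag_smul, dag_one] using this
    have h2 := hAm 0
    rw [congrFun (mult_of_similar (r := r) (ζ := ζ) hC hCA) 0, h1, mult_one hζ, if_pos rfl, Fintype.card_fin, hf0] at h2
    have := Nat.mod_lt n hc0
    omega
  obtain ⟨W, hWd, hWn, hWB⟩ := hall B hdet hB ⟨1, by rw [one_smul, hBr]⟩ hns
  obtain ⟨e, A', D, Q, hA', -, hQ, hQB⟩ := blocks_of_sub hθ (Nat.add_sub_cancel' hmn) hB W hWd hWn hWB
  obtain ⟨hA'r, -⟩ := blocks_pow_eq e hQ hQB (z := (1 : F)) (r := r) (by rw [one_smul, hBr])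
  rw [one_smul] at hA'r
  have hle : mult ζ A' (0 : ZMod r) ≤ n % c := by
    rw [← hf0, ← hAm 0, congrFun (mult_of_similar (r := r) (ζ := ζ) hC hCA) 0,
      ← congrFun (mult_of_similar (r := r) (ζ := ζ) hQ hQB) 0, mult_reindex, mult_blocks]
    exact Nat.le_add_right _ _
  obtain ⟨K, hK, -⟩ := orbit_data h (mult ζ A') (hA'.mult_inv hζ hrp hq2 hq hA'r hh)
  rw [sum_mult hζ hA'r, Fintype.card_fin, ← hcdef] at hK
  rw [← hK, Nat.add_mul_mod_self_left]
  exact (Nat.mod_le _ _).trans hle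

omit [Finite L] [Algebra F L] in
/-- Elements whose scalar power is not a power. -/
theorem hasND_of_nonpower (hrp : r ≠ p) (hθ : ∀ a, θ (θ a) = a) (hne : θ ≠ RingHom.id F) {z : F}
    (hz : ∀ w : F, w ^ r ≠ z) (hzz : θ z * z = 1) {x : Matrix (Fin n) (Fin n) F} (hx : dag θ x * x = 1)
    (hxz : x ^ r = z • 1) (hmn : m ≤ n) (hrm : r ∣ m) : HasND θ m x := by
  obtain ⟨s, hs, -⟩ := charpoly_of_nonpower hr.out hz hxz
  rw [Fintype.card_fin] at hs
  subst hs
  obtain ⟨a, rfl⟩ := hrm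
  obtain ⟨b, rfl⟩ := Nat.exists_eq_add_of_le (Nat.le_of_mul_le_mul_left hmn hr.out.pos)
  have hz0 : z ≠ 0 := fun h => one_ne_zero (α := F) (by rw [← hzz, h, mul_zero])
  obtain ⟨A, hA⟩ := exists_nonpower hr.out z a
  obtain ⟨D, hD⟩ := exists_nonpower hr.out z b
  let e : Fin (r * a) ⊕ Fin (r * b) ≃ Fin (r * (a + b)) := finSumFinEquiv.trans (finCongr (by ring))
  have hM : Matrix.reindex e e (Matrix.fromBlocks A 0 0 D) ^ r = z • 1 := by
    show Matrix.reindexAlgEquiv F F e _ ^ r = _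
    rw [← map_pow, CfsgLib.NilType.blocks_pow, hA, hD, show (Matrix.fromBlocks (z • 1) 0 0 (z • 1) :
      Matrix (Fin (r * a) ⊕ Fin (r * b)) (Fin (r * a) ⊕ Fin (r * b)) F) = z • 1 by
        rw [← Matrix.fromBlocks_one, Matrix.fromBlocks_smul, smul_zero, smul_zero], map_smul, map_one]
  obtain ⟨Q, hQ, hQx⟩ := similar_of_nonpower hr.out hrp hz hz0 hM hxz
  exact exists_sub_of_blocks hθ hne e hx (selfDual_of_nonpower hr.out hrp hz hzz hA)
    (selfDual_of_nonpower hr.out hrp hz hzz hD) hQ hQx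

omit [Finite L] [Algebra F L] in
/-- A witness whose scalar power is not a power. -/
theorem dvd_of_all_nonpower (hrp : r ≠ p) (hr2 : r ≠ 2) (hq : ∀ a, θ a = a ^ q) (hθ : ∀ a, θ (θ a) = a)
    (hne : θ ≠ RingHom.id F) {z : F} (hz : ∀ w : F, w ^ r ≠ z) (hzz : θ z * z = 1) {s : ℕ} (hzs : z ^ s = 1)
    (hmn : m ≤ r * s) (hs : 0 < s) (hall : AllND θ (r * s) m r) : r ∣ m := by
  obtain ⟨M, hM⟩ := exists_nonpower hr.out z s
  obtain ⟨B, C, hC, hCM, hB, hBr, hBd, -⟩ := exists_unitary_pow hθ hne (selfDual_of_nonpower hr.out hrp hz hzz hM) hM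
  have hdet : B.det = 1 := by rw [hBd, det_of_nonpower hr.out hr2 hz hM (Fintype.card_fin _), hzs]
  have hn0 : 0 < r * s := Nat.mul_pos hr.out.pos hs
  obtain ⟨W, hWd, hWn, hWB⟩ := hall B hdet hB ⟨z, hBr⟩ fun t ht => hz t (by
    have := congrFun (congrFun (ht ▸ hBr) ⟨0, hn0⟩) ⟨0, hn0⟩
    simpa [_root_.smul_pow] using this)
  obtain ⟨e, A, D, Q, -, -, hQ, hQB⟩ := blocks_of_sub hθ (Nat.add_sub_cancel' hmn) hB W hWd hWn hWB
  obtain ⟨a, ha, -⟩ := charpoly_of_nonpower hr.out hz (blocks_pow_eq e hQ hQB hBr).1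
  exact ⟨a, by rw [← ha, Fintype.card_fin]⟩

end Semi

section Unip

variable {F : Type*} [Field F] [Fintype F] {θ : F →+* F} {p : ℕ} [Fact p.Prime] [CharP F p] {q n m : ℕ}

theorem rank_of_similar {A B Q : Matrix (Fin n) (Fin n) F} (hQ : IsUnit Q.det) (h : Q * A = B * Q) (j : ℕ) :
    ((A - 1) ^ j).rank = ((B - 1) ^ j).rank := by
  have h1 : Q * (A - 1) = (B - 1) * Q := by rw [mul_sub, sub_mul, h, mul_one, one_mul]
  have h2 := congrArg Matrix.rank (similar_pow h1 j)
  rwa [Matrix.rank_mul_eq_right_of_isUnit_det _ _ hQ, Matrix.rank_mul_eq_left_of_isUnit_det _ _ hQ] at h2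

theorem sub_one_blocks {k : ℕ} (e : Fin m ⊕ Fin k ≃ Fin n) (A : Matrix (Fin m) (Fin m) F)
    (D : Matrix (Fin k) (Fin k) F) :
    Matrix.reindex e e (Matrix.fromBlocks A 0 0 D) - 1 =
      Matrix.reindexAlgEquiv F F e (Matrix.fromBlocks (A - 1) 0 0 (D - 1)) := by
  rw [← CfsgLib.NilType.blocks_sub_one, map_sub, map_one]; rfl

theorem rank_blocks_sub_one {k : ℕ} (e : Fin m ⊕ Fin k ≃ Fin n) (A : Matrix (Fin m) (Fin m) F)
    (D : Matrix (Fin k) (Fin k) F) (j : ℕ) :
    ((Matrix.reindex e e (Matrix.fromBlocks A 0 0 D) - 1) ^ j).rank = ((A - 1) ^ j).rank + ((D - 1) ^ j).rank := by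
  rw [sub_one_blocks, ← map_pow, CfsgLib.NilType.blocks_pow, Matrix.reindexAlgEquiv_apply, Matrix.rank_reindex,
    CfsgLib.NilType.rank_blocks]

/-- Unipotent elements and partitions. -/
theorem allND_char_iff (hq2 : Fintype.card F = q ^ 2) (hq : ∀ a, θ a = a ^ q) (hθ : ∀ a, θ (θ a) = a)
    (hne : θ ≠ RingHom.id F) (hn : 0 < n) (hmn : m ≤ n) :
    AllND θ n m p ↔
      ∀ μ : Multiset ℕ, (∀ a ∈ μ, 0 < a ∧ a ≤ p) → μ.sum = n → ∃ ν : Multiset ℕ, ν ≤ μ ∧ ν.sum = m := by
  classical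
  have hfr : ∀ M : Matrix (Fin n) (Fin n) F, (M - 1) ^ p = M ^ p - 1 := fun M => by
    haveI : Nonempty (Fin n) := ⟨⟨0, hn⟩⟩
    rw [sub_pow_char_of_commute p (Commute.one_right M), one_pow]
  have hone : ∀ d : F, d ^ p = 1 → d = 1 := fun d hd => by
    have : (d - 1) ^ p = 0 := by rw [sub_pow_char, hd, one_pow, sub_self]
    exact sub_eq_zero.mp (eq_zero_of_pow_eq_zero this)
  constructor
  · intro hall μ hμp hμs
    by_cases hall1 : ∀ a ∈ μ, a = 1
    · refine ⟨Multiset.replicate m 1, ?_, by simp⟩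
      rw [Multiset.eq_replicate_of_mem hall1, Multiset.replicate_le_replicate]
      have := congrArg Multiset.sum (Multiset.eq_replicate_of_mem hall1)
      rw [hμs, Multiset.sum_replicate, smul_eq_mul, mul_one] at this
      omega
    obtain ⟨P, hP⟩ : ∃ P : Nat.Partition n, P.parts = μ :=
      ⟨⟨μ, fun {a} ha => (hμp a ha).1, hμs⟩, rfl⟩
    obtain ⟨A, hA, hAn, hAt⟩ := exists_selfDual_unipotent (F := F) (θ := θ) P
    have hAr : ∀ j, ((A - 1) ^ j).rank = (μ.map fun a => a - j).sum := fun j => by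
      rw [hAt j, CfsgLib.NilType.prank, hP]
    have hAp : A ^ p = 1 := by
      have h0 : ((A - 1) ^ p).rank = 0 := by
        rw [hAr, Multiset.sum_eq_zero]
        intro b hb
        obtain ⟨b', hb', rfl⟩ := Multiset.mem_map.mp hb
        have := (hμp b' hb').2
        omega
      have h1 : ((A - 1) ^ p).mulVecLin = 0 := LinearMap.range_eq_bot.mp (Submodule.finrank_eq_zero.mp h0)
      have h2 : (A - 1) ^ p = 0 := Matrix.toLin'.injective (by rw [map_zero]; exact h1)
      rwa [hfr, sub_eq_zero] at h2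
    obtain ⟨B, C, hC, hCA, hB, hBp, -, -⟩ := exists_unitary_pow hθ hne hA (r := p) (z := 1) (by rw [one_smul, hAp])
    rw [one_smul] at hBp
    have hdet : B.det = 1 := hone _ (by rw [← Matrix.det_pow, hBp, Matrix.det_one])
    have hns : ∀ z : F, B ≠ z • 1 := by
      intro z hz
      have h1 : B = 1 := by
        rw [hz, hone z, one_smul]
        have := congrFun (congrFun (hz ▸ hBp) ⟨0, hn⟩) ⟨0, hn⟩
        simpa [_root_.smul_pow] using this
      have h2 := (hAr 1).symm.trans (rank_of_similar hC hCA 1)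
      rw [h1, sub_self, pow_one, Matrix.rank_zero, Multiset.sum_eq_zero_iff] at h2
      refine hall1 fun a ha => ?_
      have h3 : a - 1 = 0 := h2 _ (Multiset.mem_map_of_mem (fun b => b - 1) ha)
      have := (hμp a ha).1
      omega
    obtain ⟨W, hWd, hWn, hWB⟩ := hall B hdet hB ⟨1, by rw [one_smul, hBp]⟩ hns
    obtain ⟨e, A', D, Q, -, -, hQ, hQB⟩ := blocks_of_sub hθ (Nat.add_sub_cancel' hmn) hB W hWd hWn hWB
    obtain ⟨hA'p, hDp⟩ := blocks_pow_eq e hQ hQB (z := (1 : F)) (r := p) (by rw [one_smul, hBp])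
    rw [one_smul] at hA'p hDp
    have hnil : ∀ {k : ℕ} (M : Matrix (Fin k) (Fin k) F), M ^ p = 1 → IsNilpotent (M - 1) := fun {k} M hM => by
      rcases Nat.eq_zero_or_pos k with rfl | hk
      · exact ⟨1, Matrix.ext fun i => i.elim0⟩
      haveI : Nonempty (Fin k) := ⟨⟨0, hk⟩⟩
      exact ⟨p, by rw [sub_pow_char_of_commute p (Commute.one_right M), one_pow, hM, sub_self]⟩
    obtain ⟨ν, hν⟩ := CfsgLib.NilType.exists_type (hnil A' hA'p)
    obtain ⟨ν', hν'⟩ := CfsgLib.NilType.exists_type (hnil D hDp)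
    have hμeq : μ = ν.parts + ν'.parts := sizes_unique (fun b hb => (hμp b hb).1) (fun b hb => by
        rcases Multiset.mem_add.mp hb with h | h
        · exact ν.parts_pos h
        · exact ν'.parts_pos h) fun j => by
      rw [← hAr, rank_of_similar hC hCA, ← rank_of_similar hQ hQB, rank_blocks_sub_one, hν j, hν' j,
        Multiset.map_add, Multiset.sum_add]
      rfl
    exact ⟨ν.parts, hμeq ▸ Multiset.le_add_right _ _, ν.parts_sum⟩
  · intro hpart x hd hx hxz _
    obtain ⟨z, hz⟩ := hxz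
    obtain ⟨hzz, -⟩ := unitary_scalar hn hd hx hz
    rw [hq, ← pow_succ] at hzz
    have hcop : p.Coprime (q + 1) := by
      obtain ⟨k, hk⟩ := card_eq_pow (p := p) hq2
      refine (Fact.out : p.Prime).coprime_iff_not_dvd.mpr fun hdv => ?_
      rcases Nat.eq_zero_or_pos k with rfl | hk0
      · have := Fintype.one_lt_card (α := F); rw [hq2, hk] at this; simp at this
      · exact (Fact.out : p.Prime).one_lt.ne' (Nat.dvd_one.mp
          ((Nat.dvd_add_right (hk ▸ dvd_pow_self p hk0.ne')).mp hdv))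
    obtain ⟨w, hwr, hw1⟩ := exists_root_coprime hcop hzz
    have hw0 : w ≠ 0 := fun h => by rw [h, zero_pow (Nat.succ_ne_zero q)] at hw1; exact zero_ne_one hw1
    obtain ⟨y, hydef⟩ : ∃ y, y = w⁻¹ • x := ⟨_, rfl⟩
    have hy : dag θ y * y = 1 := by
      rw [hydef, dag_mul_smul hx, map_inv₀, ← mul_inv, hq, ← pow_succ, hw1, inv_one, one_smul]
    have hyp : y ^ p = 1 := by
      rw [hydef, _root_.smul_pow, hz, smul_smul, inv_pow, hwr, inv_mul_cancel₀, one_smul]
      exact hwr ▸ pow_ne_zero _ hw0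
    refine HasND.of_smul (inv_ne_zero hw0) (hydef ▸ ?_)
    have hyn : IsNilpotent (y - 1) := ⟨p, by rw [hfr, hyp, sub_self]⟩
    obtain ⟨P, hP⟩ := CfsgLib.NilType.exists_type hyn
    have hPp : ∀ a ∈ P.parts, 0 < a ∧ a ≤ p := fun a ha => by
      refine ⟨P.parts_pos ha, ?_⟩
      have h0 := hP p
      rw [hfr, hyp, sub_self, Matrix.rank_zero, CfsgLib.NilType.prank, eq_comm, Multiset.sum_eq_zero_iff] at h0
      have h1 : a - p = 0 := h0 _ (Multiset.mem_map_of_mem (fun b => b - p) ha)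
      omega
    obtain ⟨ν, hνμ, hνs⟩ := hpart P.parts hPp P.parts_sum
    obtain ⟨ν', hν'⟩ := Multiset.le_iff_exists_add.mp hνμ
    have hν's : ν'.sum = n - m := by
      have := P.parts_sum
      rw [hν', Multiset.sum_add, hνs] at this
      omega
    obtain ⟨A, hA, hAn, hAt⟩ := exists_selfDual_unipotent (F := F) (θ := θ)
      (⟨ν, fun {a} ha => P.parts_pos (Multiset.mem_of_le hνμ ha), hνs⟩ : Nat.Partition m)
    obtain ⟨D, hD, hDn, hDt⟩ := exists_selfDual_unipotent (F := F) (θ := θ)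
      (⟨ν', fun {a} ha => P.parts_pos (hν' ▸ Multiset.mem_add.mpr (Or.inr ha)), hν's⟩ : Nat.Partition (n - m))
    let e : Fin m ⊕ Fin (n - m) ≃ Fin n := finSumFinEquiv.trans (finCongr (by omega))
    have hMn : IsNilpotent (Matrix.reindex e e (Matrix.fromBlocks A 0 0 D) - 1) := by
      rw [sub_one_blocks]
      obtain ⟨a, ha⟩ := hAn
      obtain ⟨b, hb⟩ := hDn
      refine IsNilpotent.map ⟨a + b, ?_⟩ _
      rw [CfsgLib.NilType.blocks_pow, pow_add, ha, zero_mul, pow_add, hb, mul_zero, Matrix.fromBlocks_zero]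
    obtain ⟨c, hc⟩ := CfsgLib.NilType.isConj_sub_one_iff.mpr (CfsgLib.NilType.isConj_of_rank hMn hyn fun j => by
      rw [rank_blocks_sub_one, hAt j, hDt j, hP j, CfsgLib.NilType.prank, CfsgLib.NilType.prank,
        CfsgLib.NilType.prank]
      conv_rhs => rw [hν', Multiset.map_add, Multiset.sum_add])
    exact exists_sub_of_blocks hθ hne e hy hA hD (Matrix.isUnits_det_units c) hc.eq

end Unip

section Two

variable {F : Type*} [Field F] [Fintype F] {θ : F →+* F} {n : ℕ}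

/-- Normal form of a unitary square root of a scalar which is not a norm one square. -/
theorem nonsquare_normal (hθ : ∀ a, θ (θ a) = a) (h2 : (2 : F) ≠ 0) {z s : F} (hs : s * s = z)
    (hss : θ s * s = -1) {x : Matrix (Fin n) (Fin n) F} (hx : dag θ x * x = 1) (hxz : x ^ 2 = z • 1) :
    ∃ a, n = a + a ∧ x.det = (-z) ^ a ∧ ∀ e : Fin a ⊕ Fin a ≃ Fin n, ∃ P : Matrix (Fin n) (Fin n) F,
      IsUnit P.det ∧ P * Matrix.reindex e e (Matrix.fromBlocks (s • 1) 0 0 (-s • 1)) = x * P := by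
  classical
  have hs0 : s ≠ 0 := fun h => by rw [h, mul_zero] at hss; exact neg_ne_zero.mpr one_ne_zero hss.symm
  obtain ⟨f, hf⟩ : ∃ f : Module.End F (Fin n → F), f = x.mulVecLin := ⟨_, rfl⟩
  have hff : ∀ v, f (f v) = z • v := fun v => by
    rw [hf, Matrix.mulVecLin_apply, Matrix.mulVecLin_apply, Matrix.mulVec_mulVec, ← pow_two, hxz, Matrix.smul_mulVec,
      Matrix.one_mulVec]
  let E : F → Submodule F (Fin n → F) := fun t => LinearMap.ker (f - t • (1 : Module.End F (Fin n → F)))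
  have hE : ∀ t v, v ∈ E t ↔ f v = t • v := fun t v => by simp [E, LinearMap.mem_ker, sub_eq_zero]
  have hiso : ∀ t : F, θ t * t = -1 → ∀ u ∈ E t, ∀ v ∈ E t, herm θ u v = 0 := by
    intro t ht u hu v hv
    have h1 : herm θ (f u) (f v) = herm θ u v := by
      rw [hf, Matrix.mulVecLin_apply, Matrix.mulVecLin_apply, herm_mulVec hθ, Matrix.mulVec_mulVec, hx,
        Matrix.one_mulVec]
    have h3 : ∀ (a : F) (u v : Fin n → F), herm θ (a • u) (a • v) = θ a * a * herm θ u v := fun a u v => by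
      rw [herm, herm, show θ ∘ (a • u) = θ a • (θ ∘ u) from funext fun i => by simp, smul_dotProduct, dotProduct_smul,
        smul_eq_mul, smul_eq_mul, mul_assoc]
    rw [(hE t u).mp hu, (hE t v).mp hv, h3, ht, neg_one_mul, neg_eq_iff_add_eq_zero, ← two_mul] at h1
    exact (mul_eq_zero.mp h1).resolve_left h2
  have hsup : E s ⊔ E (-s) = ⊤ := by
    rw [eq_top_iff]
    intro v _
    have h1 : v = (2 * s)⁻¹ • (s • v + f v) + (2 * s)⁻¹ • (s • v - f v) := by
      rw [← smul_add, show s • v + f v + (s • v - f v) = (2 * s) • v by rw [two_mul, add_smul]; abel, smul_smul,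
        inv_mul_cancel₀ (mul_ne_zero h2 hs0), one_smul]
    rw [h1]
    refine Submodule.add_mem_sup (Submodule.smul_mem _ _ ((hE _ _).mpr ?_)) (Submodule.smul_mem _ _ ((hE _ _).mpr ?_))
    · rw [map_add, map_smul, hff, ← hs, smul_add, smul_smul, add_comm]
    · rw [map_sub, map_smul, hff, ← hs, smul_sub, smul_smul, neg_mul, neg_smul, neg_smul, sub_neg_eq_add, neg_add_eq_sub]
  have hinf : E s ⊓ E (-s) = ⊥ := by
    rw [Submodule.eq_bot_iff]
    intro v hv
    have h1 := ((hE s v).mp hv.1).symm.trans ((hE (-s) v).mp hv.2)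
    rw [neg_smul, eq_neg_iff_add_eq_zero, ← add_smul, ← two_mul, smul_eq_zero] at h1
    exact h1.resolve_left (mul_ne_zero h2 hs0)
  have hcompl : IsCompl (E s) (E (-s)) := IsCompl.of_eq hinf hsup
  have hdim := Submodule.finrank_add_eq_of_isCompl hcompl
  rw [Module.finrank_fin_fun] at hdim
  have hle : ∀ t : F, θ t * t = -1 → E t ⊔ E (-t) = ⊤ → Module.finrank F (E t) ≤ Module.finrank F (E (-t)) := by
    intro t ht hts
    let b := Module.finBasis F (E (-t))
    let M : Matrix (Fin (Module.finrank F (E (-t)))) (Fin n) F := Matrix.of fun j i => θ ((b j).1 i)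
    let L := M.mulVecLin ∘ₗ (E t).subtype
    have hL : Function.Injective L := by
      rw [← LinearMap.ker_eq_bot, LinearMap.ker_eq_bot']
      intro u hu
      refine Subtype.ext ?_
      refine eq_zero_of_herm hθ (v := u.1) fun y => ?_
      let ℓ : (Fin n → F) →ₗ[F] F :=
        { toFun := fun y => herm θ u.1 y
          map_add' := fun y y' => dotProduct_add _ _ _
          map_smul' := fun c y => dotProduct_smul _ _ _ }
      have h1 : ∀ j, ℓ (b j).1 = 0 := fun j => by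
        show herm θ u.1 (b j).1 = 0
        rw [herm_symm hθ, show herm θ (b j).1 u.1 = 0 from congrFun hu j, map_zero]
      have h3 : E t ⊔ E (-t) ≤ LinearMap.ker ℓ := by
        refine sup_le (fun v hv => hiso t ht u.1 u.2 v hv) fun v hv => ?_
        have h4 : ℓ ∘ₗ (E (-t)).subtype = 0 := b.ext fun j => h1 j
        exact LinearMap.congr_fun h4 ⟨v, hv⟩
      rw [herm_symm hθ, show herm θ u.1 y = 0 from h3 (hts ▸ Submodule.mem_top), map_zero]
    simpa using LinearMap.finrank_le_finrank_of_injective hL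
  have h1 := hle s hss hsup
  have h1' := hle (-s) (by rw [map_neg, neg_mul_neg, hss]) (by rw [neg_neg, sup_comm, hsup])
  rw [neg_neg] at h1'
  obtain ⟨a, ha⟩ : ∃ a, a = Module.finrank F (E s) := ⟨_, rfl⟩
  have hn : n = a + a := by omega
  have ha' : Module.finrank F (E (-s)) = a := by omega
  have key : ∀ e : Fin a ⊕ Fin a ≃ Fin n, ∃ P : Matrix (Fin n) (Fin n) F,
      IsUnit P.det ∧ P * Matrix.reindex e e (Matrix.fromBlocks (s • 1) 0 0 (-s • 1)) = x * P := by
    intro e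
    let b := ((Module.finBasisOfFinrankEq F (E s) ha.symm).prod (Module.finBasisOfFinrankEq F (E (-s)) ha')).map
      (Submodule.prodEquivOfIsCompl _ _ hcompl)
    let v : Fin n → (Fin n → F) := fun l => b (e.symm l)
    refine ⟨Matrix.of fun i l => v l i, ?_, ?_⟩
    · rw [← Matrix.isUnit_iff_isUnit_det, ← Matrix.linearIndependent_cols_iff_isUnit]
      exact b.linearIndependent.comp e.symm e.symm.injective
    · have hl : ∀ j, b (Sum.inl j) ∈ E s := fun j => by simp [b]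
      have hr : ∀ j, b (Sum.inr j) ∈ E (-s) := fun j => by simp [b]
      rw [show Matrix.reindex e e (Matrix.fromBlocks (s • 1) 0 0 (-s • 1)) =
        Matrix.diagonal (fun l => Sum.elim (fun _ => s) (fun _ => -s) (e.symm l)) by
          rw [Matrix.smul_one_eq_diagonal, Matrix.smul_one_eq_diagonal, Matrix.fromBlocks_diagonal, Matrix.reindex_apply,
            Matrix.submatrix_diagonal_equiv]
          rfl]
      ext i l
      rw [Matrix.mul_diagonal]
      show v l i * _ = (x *ᵥ v l) i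
      have h3 : x *ᵥ v l = Sum.elim (fun _ => s) (fun _ => -s) (e.symm l) • v l := by
        rw [← Matrix.mulVecLin_apply, ← hf]
        simp only [v]
        rcases e.symm l with j | j
        · exact (hE s _).mp (hl j)
        · exact (hE (-s) _).mp (hr j)
      rw [h3, Pi.smul_apply, smul_eq_mul, mul_comm]
  refine ⟨a, hn, ?_, key⟩
  obtain ⟨P, hP, hPx⟩ := key (finSumFinEquiv.trans (finCongr hn.symm))
  rw [← det_of_similar hP hPx, Matrix.det_reindex_self, Matrix.det_fromBlocks_zero₂₁, Matrix.det_smul, Matrix.det_smul,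
    Matrix.det_one, mul_one, mul_one, Fintype.card_fin, ← mul_pow, mul_neg, hs]

/-- A unitary square root of a scalar in even dimension. -/
theorem exists_square_model {z : F} (hzz : θ z * z = 1) (a : ℕ) :
    ∃ A : Matrix (Fin (a + a)) (Fin (a + a)) F, dag θ A * A = 1 ∧ A ^ 2 = z • 1 := by
  obtain ⟨M, hM⟩ : ∃ M : Matrix (Fin a ⊕ Fin a) (Fin a ⊕ Fin a) F, M = Matrix.fromBlocks 0 (z • 1) 1 0 := ⟨_, rfl⟩
  have h1 : dag θ M * M = 1 := by
    have hd : dag θ M = Matrix.fromBlocks 0 1 (θ z • 1) 0 := by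
      rw [hM, dag, Matrix.fromBlocks_map, Matrix.fromBlocks_transpose, ← dag, ← dag, ← dag, dag_one, dag_smul, dag_one]
      simp [dag]
    rw [hd, hM, Matrix.fromBlocks_multiply]
    simp [smul_smul, mul_comm z, hzz, Matrix.fromBlocks_one]
  have h2 : M ^ 2 = z • 1 := by
    rw [hM, pow_two, Matrix.fromBlocks_multiply, ← Matrix.fromBlocks_one, Matrix.fromBlocks_smul]
    simp
  refine ⟨Matrix.reindex finSumFinEquiv finSumFinEquiv M, ?_, ?_⟩
  · rw [dag_reindex, reindex_mul', h1]; simp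
  · show Matrix.reindexAlgEquiv F F finSumFinEquiv M ^ 2 = _
    rw [← map_pow, h2, map_smul, map_one]

/-- Square roots of a scalar which is not a norm one square fix subspaces of even dimension. -/
theorem hasND_of_nonsquare (hθ : ∀ a, θ (θ a) = a) (hne : θ ≠ RingHom.id F) (h2 : (2 : F) ≠ 0) {z s : F}
    (hs : s * s = z) (hss : θ s * s = -1) {x : Matrix (Fin n) (Fin n) F} (hx : dag θ x * x = 1)
    (hxz : x ^ 2 = z • 1) {m : ℕ} (hmn : m ≤ n) (hm : Even m) : HasND θ m x := by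
  obtain ⟨a, ha, -, hkey⟩ := nonsquare_normal hθ h2 hs hss hx hxz
  obtain ⟨b, rfl⟩ := hm
  obtain ⟨c, rfl⟩ : ∃ c, a = b + c := ⟨a - b, by omega⟩
  subst ha
  have hzz : θ z * z = 1 := by rw [← hs, map_mul, mul_mul_mul_comm, hss, neg_one_mul, neg_neg]
  obtain ⟨A, hA, hA2⟩ := exists_square_model hzz b
  obtain ⟨D, hD, hD2⟩ := exists_square_model hzz c
  let e : Fin (b + b) ⊕ Fin (c + c) ≃ Fin (b + c + (b + c)) := finSumFinEquiv.trans (finCongr (by omega))
  obtain ⟨M, hM⟩ : ∃ M, M = Matrix.reindex e e (Matrix.fromBlocks A 0 0 D) := ⟨_, rfl⟩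
  have hMu : dag θ M * M = 1 := by
    rw [hM, dag_reindex, reindex_mul', dag_blocks, Matrix.fromBlocks_multiply]
    simp [hA, hD, Matrix.fromBlocks_one]
  have hM2 : M ^ 2 = z • 1 := by
    rw [hM]
    show Matrix.reindexAlgEquiv F F e _ ^ 2 = _
    rw [← map_pow, CfsgLib.NilType.blocks_pow, hA2, hD2, show (Matrix.fromBlocks (z • 1) 0 0 (z • 1) :
      Matrix (Fin (b + b) ⊕ Fin (c + c)) (Fin (b + b) ⊕ Fin (c + c)) F) = z • 1 by
        rw [← Matrix.fromBlocks_one, Matrix.fromBlocks_smul, smul_zero, smul_zero], map_smul, map_one]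
  obtain ⟨a', ha', -, hkey'⟩ := nonsquare_normal hθ h2 hs hss hMu hM2
  obtain rfl : a' = b + c := by omega
  obtain ⟨P, hP, hPx⟩ := hkey finSumFinEquiv
  obtain ⟨P', hP', hPM⟩ := hkey' finSumFinEquiv
  refine exists_sub_of_blocks hθ hne e hx (SelfDual.of_unitary hA) (SelfDual.of_unitary hD)
    (Q := P * P'⁻¹) (by rw [Matrix.det_mul]; exact hP.mul (Matrix.isUnit_nonsing_inv_det _ hP')) ?_
  rw [← hM, show M = P' * Matrix.reindex finSumFinEquiv finSumFinEquiv (Matrix.fromBlocks (s • 1) 0 0 (-s • 1)) * P'⁻¹ by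
    rw [hPM, Matrix.mul_nonsing_inv_cancel_right _ _ hP'], ← Matrix.mul_assoc, ← Matrix.mul_assoc,
    Matrix.nonsing_inv_mul_cancel_right _ _ hP', hPx, Matrix.mul_assoc]

/-- Subspaces invariant under such a square root have even dimension. -/
theorem even_of_hasND_nonsquare (hθ : ∀ a, θ (θ a) = a) (h2 : (2 : F) ≠ 0) {z s : F} (hs : s * s = z)
    (hss : θ s * s = -1) {x : Matrix (Fin n) (Fin n) F} (hx : dag θ x * x = 1) (hxz : x ^ 2 = z • 1) {m : ℕ}
    (hmn : m ≤ n) (h : HasND θ m x) : Even m := by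
  obtain ⟨W, hWd, hWn, hWx⟩ := h
  obtain ⟨e, A, D, Q, hA, -, hQ, hQx⟩ := blocks_of_sub hθ (Nat.add_sub_cancel' hmn) hx W hWd hWn hWx
  obtain ⟨hA2, -⟩ := blocks_pow_eq e hQ hQx hxz
  have hd : A.det * A.det = s ^ m * s ^ m := by
    rw [← pow_two, ← Matrix.det_pow, hA2, Matrix.det_smul, Matrix.det_one, mul_one, Fintype.card_fin, ← mul_pow, hs]
  have h1 := hA.det_unit
  rcases mul_self_eq_mul_self_iff.mp hd with hd' | hd' <;>
    rw [hd'] at h1 <;> simp only [map_neg, map_pow, neg_mul_neg, ← mul_pow, hss] at h1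
  all_goals
    by_contra hm
    rw [(Nat.not_even_iff_odd.mp hm).neg_one_pow, neg_eq_iff_add_eq_zero, one_add_one_eq_two] at h1
    exact h2 h1

end Two

end CfsgLib.SubElusive
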