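import Cfsg.Agent.SubElusive.SympAct
import Cfsg.Agent.SpGeom.Borel
import Cfsg.Agent.SpUnipCount.Orbits

/-!
Symplectic elements of odd prime order, other than the characteristic, on totally isotropic subspaces.
-/

set_option autoImplicit false
set_option linter.style.haveILetI false

namespace CfsgLib.SubElusive

open Polynomial CfsgLib.SemiClasses

section Sel

variable {r : ℕ} [hr : Fact r.Prime]

/-- A half of the nonzero residues, invariant under a multiplier of odd order. -/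
theorem exists_sel {u : (ZMod r)ˣ} (hr2 : r ≠ 2) (hi : Odd (orderOf u)) :
    ∃ sel : ZMod r → Prop, (∀ x, sel (x * (u : ZMod r)) ↔ sel x) ∧ ∀ x, x ≠ 0 → (sel x ↔ ¬ sel (-x)) := by
  classical
  haveI := Fintype.ofFinite ((ZMod r)ˣ ⧸ Subgroup.zpowers u)
  let e := Fintype.equivFin ((ZMod r)ˣ ⧸ Subgroup.zpowers u)
  have hne : ∀ a : (ZMod r)ˣ, e (QuotientGroup.mk a) ≠ e (QuotientGroup.mk (-a)) := fun a h => by
    have h2 : a⁻¹ * -a ∈ Subgroup.zpowers u := QuotientGroup.eq.mp (e.injective h)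
    rw [mul_neg, inv_mul_cancel] at h2
    have h3 := orderOf_dvd_natCard (⟨-1, h2⟩ : Subgroup.zpowers u)
    rw [Nat.card_zpowers, ← Subgroup.orderOf_coe, neg_one_pow_units hr2] at h3
    exact Nat.not_even_iff_odd.mpr hi (even_iff_two_dvd.mpr h3)
  have hmk : ∀ a : (ZMod r)ˣ, (QuotientGroup.mk (a * u) : (ZMod r)ˣ ⧸ Subgroup.zpowers u) = QuotientGroup.mk a :=
    fun a => by rw [QuotientGroup.mk_mul, (QuotientGroup.eq_one_iff u).mpr (Subgroup.mem_zpowers u), mul_one]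
  refine ⟨fun x => ∃ a : (ZMod r)ˣ, (a : ZMod r) = x ∧ e (QuotientGroup.mk a) < e (QuotientGroup.mk (-a)),
    fun x => ⟨?_, ?_⟩, fun x hx => ?_⟩
  · rintro ⟨a, ha, h⟩
    refine ⟨a * u⁻¹, by rw [Units.val_mul, ha, Units.mul_inv_cancel_right], ?_⟩
    rw [← hmk (a * u⁻¹), ← hmk (-(a * u⁻¹)), neg_mul, inv_mul_cancel_right]
    exact h
  · rintro ⟨a, ha, h⟩
    refine ⟨a * u, by rw [Units.val_mul, ha], ?_⟩
    rw [hmk, ← neg_mul, hmk]
    exact h
  · lift x to (ZMod r)ˣ using Ne.isUnit hx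
    constructor
    · rintro ⟨a, ha, h⟩ ⟨b, hb, h'⟩
      rw [Units.ext ha] at h
      rw [Units.ext (hb.trans (Units.val_neg x).symm), neg_neg] at h'
      exact lt_asymm h h'
    · intro h
      exact ⟨x, rfl, lt_of_le_of_ne (not_lt.mp fun h' => h ⟨-x, Units.val_neg x, by rwa [neg_neg]⟩) (hne x)⟩

/-- An invariant function fitting twice below a symmetric one, of the prescribed total. -/
theorem exists_half_fun {u : (ZMod r)ˣ} (hr2 : r ≠ 2) (f : ZMod r → ℕ) (hfu : ∀ x, f (x * (u : ZMod r)) = f x)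
    (hneg : ∀ x, f (-x) = f x) {d m : ℕ} (hsum : ∑ x, f x = 2 * d) (hev : Even (f 0)) (hmd : m ≤ d)
    (hℓ : 2 * (m % orderOf u) ≤ f 0) (hev' : Even (orderOf u) → 2 * m + (r - 1) ≤ 2 * d) :
    ∃ g : ZMod r → ℕ, (∀ x, g (x * (u : ZMod r)) = g x) ∧ ∑ x, g x = m ∧ ∀ x, g x + g (-x) ≤ f x := by
  classical
  obtain ⟨G, hG, hGle, hG0, hGs⟩ : ∃ G : ZMod r → ℕ, (∀ x, G (x * (u : ZMod r)) = G x) ∧
      (∀ x, G x + G (-x) ≤ f x) ∧ G 0 = f 0 / 2 ∧ m ≤ ∑ x, G x := by
    obtain ⟨a, ha⟩ := hev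
    rcases Nat.even_or_odd (orderOf u) with he | ho
    · refine ⟨fun x => f x / 2, fun x => by simp only [hfu], fun x => by simp only [hneg]; omega, rfl, ?_⟩
      have h1 : ∑ x, f x ≤ ∑ x, (2 * (f x / 2) + if x = 0 then 0 else 1) := Finset.sum_le_sum fun x _ => by
        split_ifs with hx
        · subst hx; omega
        · omega
      rw [Finset.sum_add_distrib, ← Finset.mul_sum, Finset.sum_ite, Finset.sum_const_zero, zero_add, Finset.sum_const,
        Finset.filter_ne', Finset.card_erase_of_mem (Finset.mem_univ _), Finset.card_univ, ZMod.card, smul_eq_mul,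
        mul_one, hsum] at h1
      have := hev' he
      show m ≤ ∑ x, f x / 2
      omega
    · obtain ⟨sel, hsel, hsn⟩ := exists_sel hr2 ho
      obtain ⟨G, hG⟩ : ∃ G : ZMod r → ℕ, G = fun x => if x = 0 then a else if sel x then f x else 0 := ⟨_, rfl⟩
      have hGf : ∀ x, G x + G (-x) = f x := fun x => by
        by_cases hx : x = 0
        · subst hx
          simp only [hG, neg_zero, if_true]
          omega
        · simp only [hG, hx, neg_eq_zero, if_false, hneg]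
          by_cases hs : sel x
          · rw [if_pos hs, if_neg ((hsn x hx).mp hs), add_zero]
          · rw [if_neg hs, if_pos (not_not.mp fun h => hs ((hsn x hx).mpr h)), zero_add]
      refine ⟨G, fun x => by simp only [hG, mul_eq_zero, u.ne_zero, or_false, hsel, hfu], fun x => (hGf x).le,
        by simp only [hG, if_true]; omega, ?_⟩
      have h1 : ∑ x, G (-x) = ∑ x, G x := Equiv.sum_comp (Equiv.neg (ZMod r)) G
      have h2 : ∑ x, G x + ∑ x, G (-x) = 2 * d := by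
        rw [← Finset.sum_add_distrib, ← hsum]
        exact Finset.sum_congr rfl fun x _ => hGf x
      omega
  obtain ⟨K, hK, hsub⟩ := orbit_data u G hG
  obtain ⟨β, hβ, hβm, hα⟩ : ∃ β, β ≤ K ∧ orderOf u * β ≤ m ∧ m - orderOf u * β ≤ G 0 := by
    have hdiv := Nat.mod_add_div m (orderOf u)
    rcases le_or_gt (m / orderOf u) K with hle | hlt
    · exact ⟨_, hle, by omega, by omega⟩
    · have h2 : orderOf u * K ≤ orderOf u * (m / orderOf u) := Nat.mul_le_mul_left _ hlt.le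
      exact ⟨K, le_rfl, by omega, by omega⟩
  obtain ⟨g, hg, -, hgle, hgs⟩ := hsub (m - orderOf u * β) hα β hβ
  exact ⟨g, hg, by rw [hgs]; omega, fun x => (Nat.add_le_add (hgle x) (hgle (-x))).trans (hGle x)⟩

end Sel

variable {F L : Type*} [Field F] [Fintype F] [Field L] [Finite L] [Algebra F L] {p r : ℕ} [Fact p.Prime] [CharP F p]
  [hr : Fact r.Prime] {ζ : L} {d : ℕ}

/-- A symplectic witness of prescribed multiplicities. -/
theorem exists_witness (hζ : IsPrimitiveRoot ζ r) (hrp : r ≠ p) (hr2 : r ≠ 2) {u h : (ZMod r)ˣ}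
    (hu : (u : ZMod r) = (Fintype.card F : ℕ))
    (hinv : ∀ f : ZMod r → ℕ, ((∀ x, f (x * (u : ZMod r)) = f x) ∧ (∀ x, f (-x) = f x)) ↔ ∀ x, f (x * (h : ZMod r)) = f x)
    (hh : h ≠ 1) (f : ZMod r → ℕ) (hf : ∀ x, f (x * (h : ZMod r)) = f x) (hs : ∑ x, f x = 2 * d) (hf0 : f 0 < 2 * d) :
    ∃ x : Matrix.symplecticGroup (Fin d) F, (x : Matrix (Fin d ⊕ Fin d) (Fin d ⊕ Fin d) F) ^ r = 1 ∧
      (∀ z : F, (x : Matrix (Fin d ⊕ Fin d) (Fin d ⊕ Fin d) F) ≠ z • (1 : Matrix (Fin d ⊕ Fin d) (Fin d ⊕ Fin d) F)) ∧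
      ∀ y, mult ζ (x : Matrix (Fin d ⊕ Fin d) (Fin d ⊕ Fin d) F) y = f y := by
  classical
  obtain ⟨x, hx, hxr, hxm⟩ := exists_symp_mult (F := F) hζ hrp hr2 hu f ((hinv f).mpr hf).1 ((hinv f).mpr hf).2 hs
  refine ⟨⟨x, hx⟩, hxr, fun z hz => ?_, hxm⟩
  have h2 : ∀ y : ZMod r, f y ≠ 0 → ζ ^ y.val = algebraMap F L z := by
    intro y hy
    rw [← hxm, mult, show x = z • (1 : Matrix (Fin d ⊕ Fin d) (Fin d ⊕ Fin d) F) from hz, Matrix.smul_one_eq_diagonal,
      Matrix.charpoly_diagonal, Finset.prod_const, Polynomial.map_pow, Polynomial.map_sub, Polynomial.map_X,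
      Polynomial.map_C, ← Nat.pos_iff_ne_zero, Polynomial.rootMultiplicity_pos', Polynomial.IsRoot.def,
      Polynomial.eval_pow, Polynomial.eval_sub, Polynomial.eval_X, Polynomial.eval_C] at hy
    exact sub_eq_zero.mp (eq_zero_of_pow_eq_zero hy.2)
  obtain ⟨y, hy0, hy⟩ : ∃ y, y ≠ 0 ∧ f y ≠ 0 := by
    by_contra hno
    push Not at hno
    have : ∑ y, f y = f 0 := Finset.sum_eq_single 0 (fun y _ hy => hno y hy) (fun h => absurd (Finset.mem_univ _) h)
    omega
  have h3 := pw_inj hζ ((h2 (y * h) (by rw [hf]; exact hy)).trans (h2 y hy).symm)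
  exact hh (Units.val_eq_one.mp (mul_left_cancel₀ hy0 (h3.trans (mul_one y).symm)))

/-- The multiplicities on an invariant totally isotropic subspace and on its dual fit into those of the space. -/
theorem isotropic_mult (hζ : IsPrimitiveRoot ζ r) (hrp : r ≠ p) {u : (ZMod r)ˣ}
    (hu : (u : ZMod r) = (Fintype.card F : ℕ))
    {x : Matrix (Fin d ⊕ Fin d) (Fin d ⊕ Fin d) F} (hx : x ∈ Matrix.symplecticGroup (Fin d) F) (hxr : x ^ r = 1)
    (W : Submodule F (Fin d ⊕ Fin d → F)) (hW : ∀ v ∈ W, x.mulVec v ∈ W)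
    (hiso : ∀ u ∈ W, ∀ v ∈ W, Cfsg.sympForm d F u v = 0) :
    ∃ g : ZMod r → ℕ, (∀ y, g (y * (u : ZMod r)) = g y) ∧ ∑ y, g y = Module.finrank F W ∧
      ∀ y, g y + g (-y) ≤ mult ζ x y := by
  classical
  obtain ⟨m, hm⟩ : ∃ m, m = Module.finrank F W := ⟨_, rfl⟩
  obtain ⟨f, hfdef⟩ : ∃ f : Module.End F (Fin d ⊕ Fin d → F), f = Matrix.toLinAlgEquiv' x := ⟨_, rfl⟩
  have hfx : ∀ v, f v = x.mulVec v := fun v => by rw [hfdef]; rfl
  have hfr : f ^ r = 1 := by rw [hfdef, ← map_pow, hxr, map_one]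
  have hW' : ∀ v ∈ W, f v ∈ W := fun v hv => by rw [hfx]; exact hW v hv
  let b := Module.finBasisOfFinrankEq F W hm.symm
  obtain ⟨A, hA⟩ : ∃ A : Matrix (Fin m) (Fin m) F, A = LinearMap.toMatrixAlgEquiv b (f.restrict hW') := ⟨_, rfl⟩
  have hres : (f.restrict hW' : Module.End F W) ^ r = 1 := by
    rw [Module.End.pow_restrict r hW']; ext v; simp [hfr]
  have hAr : A ^ r = 1 := by rw [hA, ← map_pow, hres, map_one]
  have hAd : IsUnit A.det := (Matrix.isUnit_iff_isUnit_det A).mp (IsUnit.of_pow_eq_one hAr hr.out.ne_zero)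
  have hAb : ∀ i, f (b i : Fin d ⊕ Fin d → F) = ∑ k, A k i • (b k : Fin d ⊕ Fin d → F) := fun i => by
    have h1 : (f.restrict hW' : Module.End F W) (b i) = ∑ k, A k i • b k := by
      conv_lhs => rw [← b.sum_repr ((f.restrict hW' : Module.End F W) (b i))]
      refine Finset.sum_congr rfl fun k _ => ?_
      rw [hA, LinearMap.toMatrixAlgEquiv_apply]
    have h2 := congrArg Subtype.val h1
    rw [LinearMap.coe_restrict_apply, AddSubmonoidClass.coe_finsetSum] at h2
    exact h2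
  -- pairing with the chosen basis
  let φ : (Fin d ⊕ Fin d → F) →ₗ[F] (Fin m → F) :=
    LinearMap.pi fun i => CfsgLib.PolarPair.bform F d (b i : Fin d ⊕ Fin d → F)
  have hφ : ∀ v i, φ v i = Cfsg.sympForm d F (b i : Fin d ⊕ Fin d → F) v := fun v i => rfl
  have hφW : W ≤ LinearMap.ker φ := fun v hv => LinearMap.mem_ker.mpr (funext fun i => hiso _ (b i).2 v hv)
  have hφs : Function.Surjective φ := fun c => by
    obtain ⟨v, hv⟩ := CfsgLib.SpUnipCount.pairing_surjective (w := fun i => (b i : Fin d ⊕ Fin d → F))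
      (b.linearIndependent.map' W.subtype W.ker_subtype) c
    exact ⟨v, funext fun i => hv i⟩
  obtain ⟨C, hC⟩ : ∃ C, C = A⁻¹.transpose := ⟨_, rfl⟩
  have hequi : ∀ v, φ (f v) = C.mulVec (φ v) := fun v => by
    have h1 : A.transpose.mulVec (φ (f v)) = φ v := by
      funext i
      rw [hφ, Matrix.mulVec, dotProduct]
      have h2 := CfsgLib.SpGeom.form_mulVec ⟨x, hx⟩ (b i : Fin d ⊕ Fin d → F) v
      rw [← hfx, ← hfx, hAb] at h2
      rw [← h2]
      show _ = CfsgLib.PolarPair.bform F d (∑ k, A k i • (b k : Fin d ⊕ Fin d → F)) (f v)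
      rw [map_sum, LinearMap.sum_apply]
      exact Finset.sum_congr rfl fun k _ => by rw [map_smul, LinearMap.smul_apply, smul_eq_mul, Matrix.transpose_apply]; rfl
    rw [← h1, hC, Matrix.mulVec_mulVec, ← Matrix.transpose_mul, Matrix.mul_nonsing_inv _ hAd, Matrix.transpose_one,
      Matrix.one_mulVec]
  -- the characteristic polynomial splits
  obtain ⟨R, hRm, hR⟩ : ∃ R : F[X], R.Monic ∧ x.charpoly = A.charpoly * R * C.charpoly := by
    have hWc : W ≤ W.comap f := fun v hv => hW' v hv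
    let ψ : ((Fin d ⊕ Fin d → F) ⧸ W) →ₗ[F] (Fin m → F) := W.liftQ φ hφW
    have hψs : Function.Surjective ψ := fun c => by
      obtain ⟨v, rfl⟩ := hφs c
      exact ⟨W.mkQ v, rfl⟩
    let g := W.mapQ W f hWc
    have hψ : ∀ v, ψ (g v) = C.mulVec (ψ v) := fun v => by
      obtain ⟨v, rfl⟩ := W.mkQ_surjective v
      exact hequi v
    have hK : LinearMap.ker ψ ≤ (LinearMap.ker ψ).comap g := fun v hv => by
      rw [Submodule.mem_comap, LinearMap.mem_ker, hψ, LinearMap.mem_ker.mp hv, Matrix.mulVec_zero]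
    let e := ψ.quotKerEquivOfSurjective hψs
    have hconj : e.conj ((LinearMap.ker ψ).mapQ (LinearMap.ker ψ) g hK) = Matrix.toLin' C := by
      refine LinearMap.ext fun c => ?_
      obtain ⟨v, rfl⟩ := hψs c
      rw [LinearEquiv.conj_apply_apply, show e.symm (ψ v) = Submodule.Quotient.mk v from
        e.symm_apply_eq.mpr (ψ.quotKerEquivOfSurjective_apply_mk hψs v).symm, Submodule.mapQ_apply,
        Matrix.toLin'_apply, ← hψ]
      exact ψ.quotKerEquivOfSurjective_apply_mk hψs (g v)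
    have hcA : LinearMap.charpoly (f.restrict hW') = A.charpoly := by
      rw [hA]; exact (LinearMap.charpoly_toMatrix _ b).symm
    have hcC : LinearMap.charpoly (Matrix.toLin' C) = C.charpoly := by
      rw [← LinearMap.charpoly_toMatrix (Matrix.toLin' C) (Pi.basisFun F (Fin m)), LinearMap.toMatrix_eq_toMatrix',
        LinearMap.toMatrix'_toLin']
    have hcx : LinearMap.charpoly f = x.charpoly := by
      rw [← LinearMap.charpoly_toMatrix f (Pi.basisFun F (Fin d ⊕ Fin d)), LinearMap.toMatrix_eq_toMatrix', hfdef]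
      exact congrArg Matrix.charpoly (LinearMap.toMatrix'_toLin' x)
    refine ⟨(g.restrict hK).charpoly, LinearMap.charpoly_monic _, ?_⟩
    rw [← hcx, charpoly_eq_mul W f hWc, mul_assoc, charpoly_eq_mul (LinearMap.ker ψ) g hK, ← hcC, ← hconj,
      LinearEquiv.charpoly_conj]
    exact congrArg (· * _) hcA
  refine ⟨mult ζ A, fun y => by rw [hu]; exact mult_frob hζ A y, by rw [sum_mult hζ hAr, Fintype.card_fin, hm],
    fun y => ?_⟩
  have hneg : mult ζ A (-y) = mult ζ C y := by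
    rw [hC, mult_transpose, ← mult_inv hζ hrp hAr (-y), neg_neg]
  have hAm := ((Matrix.charpoly_monic A).map (algebraMap F L))
  have hCm := ((Matrix.charpoly_monic C).map (algebraMap F L))
  have hRm' := hRm.map (algebraMap F L)
  rw [hneg]
  simp only [mult, hR, Polynomial.map_mul]
  rw [rootMultiplicity_mul ((hAm.mul hRm').mul hCm).ne_zero, rootMultiplicity_mul (hAm.mul hRm').ne_zero]
  omega

/-- Elements fixing a totally isotropic subspace, by their multiplicities. -/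
theorem exists_isotropic_model (hζ : IsPrimitiveRoot ζ r) (hrp : r ≠ p) (hr2 : r ≠ 2) {u : (ZMod r)ˣ}
    (hu : (u : ZMod r) = (Fintype.card F : ℕ)) (f g : ZMod r → ℕ) {m : ℕ}
    (hfu : ∀ x, f (x * (u : ZMod r)) = f x) (hneg : ∀ x, f (-x) = f x) (hfs : ∑ x, f x = 2 * d)
    (hgu : ∀ x, g (x * (u : ZMod r)) = g x) (hgs : ∑ x, g x = m) (hle : ∀ x, g x + g (-x) ≤ f x) :
    ∃ B : Matrix (Fin d ⊕ Fin d) (Fin d ⊕ Fin d) F, B ∈ Matrix.symplecticGroup (Fin d) F ∧ B ^ r = 1 ∧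
      (∀ x, mult ζ B x = f x) ∧ ∃ W : Submodule F (Fin d ⊕ Fin d → F), Module.finrank F W = m ∧
        (∀ u ∈ W, ∀ v ∈ W, Cfsg.sympForm d F u v = 0) ∧ ∀ v ∈ W, B.mulVec v ∈ W := by
  classical
  obtain ⟨f₂, hf₂⟩ : ∃ f₂ : ZMod r → ℕ, f₂ = fun x => f x - (g x + g (-x)) := ⟨_, rfl⟩
  have hgs' : ∑ x, g (-x) = m := (Equiv.sum_comp (Equiv.neg (ZMod r)) g).trans hgs
  have hs₂ : ∑ x, f₂ x + (m + m) = 2 * d := by
    conv_lhs => rw [show m + m = ∑ x, (g x + g (-x)) by rw [Finset.sum_add_distrib, hgs, hgs']]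
    rw [← hfs, ← Finset.sum_add_distrib]
    exact Finset.sum_congr rfl fun x _ => by rw [hf₂]; exact Nat.sub_add_cancel (hle x)
  obtain ⟨B₂, hB₂, hB₂r, hB₂m⟩ := exists_symp_mult (F := F) (m := d - m) hζ hrp hr2 hu f₂
    (fun x => by rw [hf₂]; simp only [hfu, hgu, ← neg_mul])
    (fun x => by rw [hf₂]; simp only [hneg, neg_neg]; rw [add_comm (g (-x))]) (by omega)
  obtain ⟨C, hC, hCm⟩ := exists_of_mult (F := F) hζ hrp g (fun x => by rw [← hu]; exact hgu x) hgs
  have hC' : C.1 ^ r = 1 := by rw [← Units.val_pow_eq_pow_val, hC, Units.val_one]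
  obtain ⟨B₁, hB₁⟩ : ∃ B₁ : Matrix.symplecticGroup (Fin m) F, B₁ = CfsgLib.SpBorel.lev C := ⟨_, rfl⟩
  have hB₁e : (B₁ : Matrix (Fin m ⊕ Fin m) (Fin m ⊕ Fin m) F) = Matrix.fromBlocks C.1 0 0 C.1⁻¹.transpose := by
    rw [hB₁, ← Matrix.coe_units_inv]; rfl
  have hB₁r : (B₁ : Matrix (Fin m ⊕ Fin m) (Fin m ⊕ Fin m) F) ^ r = 1 := by
    rw [hB₁, ← SubmonoidClass.coe_pow, ← map_pow, hC, map_one]; rfl
  have hab : m + (d - m) = d := by omega
  let ι : (Fin m → F) →ₗ[F] (Fin d ⊕ Fin d → F) :=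
    { toFun := fun a => CfsgLib.SpUnipCount.blockVec hab (Sum.elim a 0) 0
      map_add' := fun x y => by
        funext i; simp only [CfsgLib.SpUnipCount.blockVec, Pi.add_apply, Function.comp_apply]
        rcases (CfsgLib.Symp.blockEquiv hab).symm i with (j | j) | j <;> simp
      map_smul' := fun c x => by
        funext i; simp only [CfsgLib.SpUnipCount.blockVec, Pi.smul_apply, Function.comp_apply, RingHom.id_apply]
        rcases (CfsgLib.Symp.blockEquiv hab).symm i with (j | j) | j <;> simp }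
  refine ⟨CfsgLib.Symp.blockMat hab B₁.1 B₂, CfsgLib.Symp.blockMat_mem hab B₁.2 hB₂,
    by rw [CfsgLib.SpUnipCount.blockMat_pow, hB₁r, hB₂r, CfsgLib.Symp.blockMat_one], fun x => ?_, LinearMap.range ι,
    ?_, ?_, ?_⟩
  · rw [CfsgLib.Symp.blockMat, mult_reindex, mult_blocks, hB₁e, mult_blocks, mult_transpose, hB₂m, hCm, hf₂]
    have h1 := mult_inv hζ hrp hC' (-x)
    rw [neg_neg] at h1
    rw [h1, hCm]
    exact Nat.add_sub_cancel' (hle x)
  · rw [LinearMap.finrank_range_of_inj, Module.finrank_fin_fun]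
    intro a a' e
    funext j
    exact congrFun (CfsgLib.SpUnipCount.blockVec_inj hab e).1 (Sum.inl j)
  · rintro _ ⟨a, rfl⟩ _ ⟨a', rfl⟩
    refine (CfsgLib.SpUnipCount.form_blockVec hab _ _ _ _).trans ?_
    rw [CfsgLib.SpGeom.form_zero_left, add_zero, CfsgLib.SpGeom.form_def]
    simp
  · rintro _ ⟨a, rfl⟩
    refine ⟨C.1.mulVec a, ((CfsgLib.SpUnipCount.blockMat_mulVec hab B₁.1 B₂ _ 0).trans ?_).symm⟩
    rw [Matrix.mulVec_zero, hB₁e, Matrix.fromBlocks_mulVec]
    simp [ι]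

end CfsgLib.SubElusive
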