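import Mathlib
import Cfsg.Agent.SubElusive.Basic
import Cfsg.Agent.SubElusive.Twist
import Cfsg.Agent.SubElusive.Orth
import Cfsg.Agent.PrimeClasses.GL
import Cfsg.Prelude.Def_GeometricClasses

/-!
Kronecker products and elements with a small moving space.
-/

set_option autoImplicit false
set_option linter.style.haveILetI false

namespace CfsgLib.SubElusive

open Polynomial Module
open scoped Matrix Kronecker

variable {F : Type*} [Field F] {a b n : ℕ}

/-- A non-scalar matrix moves some line. -/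
theorem exists_moved (B : Matrix (Fin b) (Fin b) F) (hB : ∀ z : F, B ≠ z • (1 : Matrix (Fin b) (Fin b) F)) :
    ∃ y : Fin b → F, LinearIndependent F ![y, B *ᵥ y] := by
  classical
  rcases Nat.eq_zero_or_pos b with rfl | hb
  · exact absurd (Subsingleton.elim B _) (hB 0)
  by_cases hd : ∃ j k, j ≠ k ∧ B k j ≠ 0
  · obtain ⟨j, k, hjk, h⟩ := hd
    refine ⟨Pi.single j 1, ?_⟩
    rw [LinearIndependent.pair_iff]
    intro s t hst
    have h1 := congrFun hst k
    rw [Matrix.mulVec_single_one] at h1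
    simp [hjk.symm, h] at h1
    subst h1
    have h2 := congrFun hst j
    simp at h2
    exact ⟨h2, rfl⟩
  · push Not at hd
    obtain ⟨j, k, hjk⟩ : ∃ j k, B j j ≠ B k k := by
      by_contra hall
      push Not at hall
      refine hB (B ⟨0, hb⟩ ⟨0, hb⟩) (Matrix.ext fun i l => ?_)
      by_cases h : i = l
      · subst h; simp [hall i ⟨0, hb⟩]
      · simp [hd l i (Ne.symm h), h]
    have hne : j ≠ k := fun h => hjk (by rw [h])
    refine ⟨Pi.single j 1 + Pi.single k 1, ?_⟩
    rw [LinearIndependent.pair_iff]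
    intro s t hst
    have h1 := congrFun hst j
    have h2 := congrFun hst k
    simp [Matrix.mulVec_add, hne, hne.symm, hd k j hne.symm, hd j k hne] at h1 h2
    have h3 : t * (B j j - B k k) = 0 := by linear_combination h1 - h2
    rcases mul_eq_zero.mp h3 with h | h
    · subst h; exact ⟨by simpa using h1, rfl⟩
    · exact absurd (sub_eq_zero.mp h) hjk

theorem kron_mulVec (A : Matrix (Fin a) (Fin a) F) (B : Matrix (Fin b) (Fin b) F) (u : Fin a → F) (v : Fin b → F) :
    (A ⊗ₖ B) *ᵥ (fun x => u x.1 * v x.2) = fun x => (A *ᵥ u) x.1 * (B *ᵥ v) x.2 := by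
  funext x
  simp only [Matrix.mulVec, dotProduct, Fintype.sum_prod_type, Matrix.kroneckerMap_apply, Finset.sum_mul_sum]
  exact Finset.sum_congr rfl fun i _ => Finset.sum_congr rfl fun j _ => by ring

/-- A non-scalar Kronecker product moves a space of dimension at least the smaller factor. -/
theorem le_rank_kron (hab : a ≤ b) {A : Matrix (Fin a) (Fin a) F} {B : Matrix (Fin b) (Fin b) F} (hA : IsUnit A.det)
    (hK : ∀ z : F, A ⊗ₖ B ≠ z • (1 : Matrix (Fin a × Fin b) (Fin a × Fin b) F)) (c : F) :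
    a ≤ (A ⊗ₖ B - c • 1).rank := by
  classical
  obtain ⟨K, hKdef⟩ : ∃ K, K = A ⊗ₖ B - c • 1 := ⟨_, rfl⟩
  rw [← hKdef]
  have hKv : ∀ u v, K *ᵥ (fun x => u x.1 * v x.2) = fun x => (A *ᵥ u) x.1 * (B *ᵥ v) x.2 - c * (u x.1 * v x.2) := by
    intro u v
    rw [hKdef, Matrix.sub_mulVec, kron_mulVec, Matrix.smul_mulVec, Matrix.one_mulVec]
    rfl
  by_cases hB : ∀ z : F, B ≠ z • (1 : Matrix (Fin b) (Fin b) F)
  · obtain ⟨y, hy⟩ := exists_moved B hB
    let E : (Fin a → F) →ₗ[F] (Fin a × Fin b → F) :=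
      { toFun := fun u x => u x.1 * y x.2
        map_add' := fun u u' => funext fun x => add_mul _ _ _
        map_smul' := fun s u => funext fun x => mul_assoc _ _ _ }
    have hinj : Function.Injective (K.mulVecLin ∘ₗ E) := by
      rw [injective_iff_map_eq_zero]
      intro u hu
      funext i
      have h1 : ((-c * u i) • y + (A *ᵥ u) i • (B *ᵥ y) : Fin b → F) = 0 := funext fun j => by
        have h2 := congrFun hu (i, j)
        rw [LinearMap.comp_apply, Matrix.mulVecLin_apply, show E u = fun x => u x.1 * y x.2 from rfl, hKv] at h2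
        simp only [Pi.add_apply, Pi.smul_apply, smul_eq_mul, Pi.zero_apply] at h2 ⊢
        linear_combination h2
      have h3 : ∀ i', (A *ᵥ u) i' = 0 := fun i' => by
        have h1' : ((-c * u i') • y + (A *ᵥ u) i' • (B *ᵥ y) : Fin b → F) = 0 := funext fun j => by
          have h2 := congrFun hu (i', j)
          rw [LinearMap.comp_apply, Matrix.mulVecLin_apply, show E u = fun x => u x.1 * y x.2 from rfl, hKv] at h2
          simp only [Pi.add_apply, Pi.smul_apply, smul_eq_mul, Pi.zero_apply] at h2 ⊢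
          linear_combination h2
        exact (LinearIndependent.pair_iff.mp hy _ _ h1').2
      have h4 : u = 0 := by
        rw [← Matrix.one_mulVec u, ← Matrix.nonsing_inv_mul _ hA, ← Matrix.mulVec_mulVec,
          show A *ᵥ u = 0 from funext h3, Matrix.mulVec_zero]
      rw [h4]
    have h1 := LinearMap.finrank_range_of_inj hinj
    rw [Module.finrank_fin_fun] at h1
    exact h1.symm.trans_le (Submodule.finrank_mono (LinearMap.range_comp_le_range _ _))
  · push Not at hB
    obtain ⟨β, rfl⟩ := hB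
    obtain ⟨u, hu⟩ : ∃ u, β • (A *ᵥ u) - c • u ≠ 0 := by
      by_contra hall
      push Not at hall
      refine hK c ?_
      have h1 : β • A = c • 1 := Matrix.ext_of_mulVec_single fun i => by
        rw [Matrix.smul_mulVec, Matrix.smul_mulVec, Matrix.one_mulVec]
        exact sub_eq_zero.mp (hall _)
      rw [Matrix.kronecker_smul, ← Matrix.smul_kronecker, h1, Matrix.smul_kronecker, Matrix.one_kronecker_one]
    let E : (Fin b → F) →ₗ[F] (Fin a × Fin b → F) :=
      { toFun := fun v x => u x.1 * v x.2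
        map_add' := fun v v' => funext fun x => mul_add _ _ _
        map_smul' := fun s v => funext fun x => mul_left_comm _ _ _ }
    obtain ⟨i, hi⟩ := Function.ne_iff.mp hu
    have hinj : Function.Injective (K.mulVecLin ∘ₗ E) := by
      rw [injective_iff_map_eq_zero]
      intro v hv
      funext j
      have h2 := congrFun hv (i, j)
      rw [LinearMap.comp_apply, Matrix.mulVecLin_apply, show E v = fun x => u x.1 * v x.2 from rfl, hKv] at h2
      simp only [Matrix.smul_mulVec, Matrix.one_mulVec, Pi.smul_apply, smul_eq_mul, Pi.zero_apply, Pi.sub_apply] at h2 hi ⊢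
      exact (mul_eq_zero.mp (show (β * (A *ᵥ u) i - c * u i) * v j = 0 by linear_combination h2)).resolve_left hi
    have h1 := LinearMap.finrank_range_of_inj hinj
    rw [Module.finrank_fin_fun] at h1
    exact (hab.trans h1.symm.le).trans (Submodule.finrank_mono (LinearMap.range_comp_le_range _ _))

/-- With a cyclic left factor the eigenspaces have dimension at most the right factor. -/
theorem rank_kron_of_cyclic {A : Matrix (Fin a) (Fin a) F} {B : Matrix (Fin b) (Fin b) F} (hB : IsUnit B.det)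
    (w : Fin a → F) (hw : ∀ S : Submodule F (Fin a → F), (∀ v ∈ S, Aᵀ *ᵥ v ∈ S) → w ∈ S → S = ⊤) (c : F) :
    a * b ≤ (A ⊗ₖ B - c • 1).rank + b := by
  classical
  obtain ⟨K, hKdef⟩ : ∃ K, K = A ⊗ₖ B - c • 1 := ⟨_, rfl⟩
  rw [← hKdef]
  let Φ : (Fin a → F) → (Fin a × Fin b → F) → (Fin b → F) := fun w X k => ∑ i, w i * X (i, k)
  have hΦ : ∀ w X, B *ᵥ Φ (Aᵀ *ᵥ w) X = Φ w ((A ⊗ₖ B) *ᵥ X) := by
    intro w X
    funext k
    simp only [Φ, Matrix.mulVec, dotProduct, Fintype.sum_prod_type, Matrix.kroneckerMap_apply, Matrix.transpose_apply,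
      Finset.mul_sum, Finset.sum_mul]
    rw [Finset.sum_comm (f := fun k' i => ∑ x, B k k' * (A x i * w x * X (i, k'))),
      Finset.sum_comm (f := fun (x : Fin a) (i : Fin a) => ∑ k', w x * (A x i * B k k' * X (i, k')))]
    refine Finset.sum_congr rfl fun i _ => ?_
    rw [Finset.sum_comm]
    exact Finset.sum_congr rfl fun x _ => Finset.sum_congr rfl fun k' _ => by ring
  let Ψ : LinearMap.ker K.mulVecLin →ₗ[F] (Fin b → F) :=
    { toFun := fun X => Φ w X.1
      map_add' := fun X Y => funext fun k => by simp [Φ, mul_add, Finset.sum_add_distrib]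
      map_smul' := fun s X => funext fun k => by simp [Φ, Finset.mul_sum, mul_left_comm] }
  have hinj : Function.Injective Ψ := by
    rw [injective_iff_map_eq_zero]
    rintro ⟨X, hX⟩ hX0
    rw [LinearMap.mem_ker, Matrix.mulVecLin_apply, hKdef, Matrix.sub_mulVec, Matrix.smul_mulVec, Matrix.one_mulVec,
      sub_eq_zero] at hX
    let S : Submodule F (Fin a → F) :=
      { carrier := {v | Φ v X = 0}
        add_mem' := fun {v v'} hv hv' => funext fun k => by
          have e1 := congrFun hv k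
          have e2 := congrFun hv' k
          simp only [Φ, Pi.zero_apply] at e1 e2
          simp [Φ, add_mul, Finset.sum_add_distrib, e1, e2]
        zero_mem' := funext fun k => by simp [Φ]
        smul_mem' := fun s v hv => funext fun k => by
          have e1 := congrFun hv k
          simp only [Φ, Pi.zero_apply] at e1
          simp [Φ, mul_assoc, ← Finset.mul_sum, e1] }
    have hS : ∀ v ∈ S, Aᵀ *ᵥ v ∈ S := by
      intro v hv
      show Φ (Aᵀ *ᵥ v) X = 0
      have h1 := hΦ v X
      rw [hX, show Φ v (c • X) = c • Φ v X from funext fun k => by simp [Φ, Finset.mul_sum, mul_left_comm],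
        show Φ v X = 0 from hv, smul_zero] at h1
      rw [← Matrix.one_mulVec (Φ (Aᵀ *ᵥ v) X), ← Matrix.nonsing_inv_mul _ hB, ← Matrix.mulVec_mulVec, h1,
        Matrix.mulVec_zero]
    have htop := hw S hS hX0
    refine Subtype.ext (funext fun x => ?_)
    have h2 : (Pi.single x.1 1 : Fin a → F) ∈ S := by rw [htop]; trivial
    have h3 := congrFun (show Φ (Pi.single x.1 1) X = 0 from h2) x.2
    simp only [Φ, Pi.single_apply, ite_mul, one_mul, zero_mul, Finset.sum_ite_eq', Finset.mem_univ, if_true] at h3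
    exact h3
  have h1 := LinearMap.finrank_le_finrank_of_injective hinj
  have h2 := LinearMap.finrank_range_add_finrank_ker K.mulVecLin
  rw [Module.finrank_fin_fun] at h1
  rw [Module.finrank_fintype_fun_eq_card, Fintype.card_prod, Fintype.card_fin, Fintype.card_fin] at h2
  show _ ≤ Module.finrank F (LinearMap.range K.mulVecLin) + b
  omega

theorem charpoly_one_kron (B : Matrix (Fin b) (Fin b) F) :
    ((1 : Matrix (Fin a) (Fin a) F) ⊗ₖ B).charpoly = B.charpoly ^ a := by
  have h : Matrix.charmatrix ((1 : Matrix (Fin a) (Fin a) F) ⊗ₖ B) =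
      (1 : Matrix (Fin a) (Fin a) F[X]) ⊗ₖ Matrix.charmatrix B := by
    ext ⟨i, j⟩ ⟨k, l⟩
    rw [Matrix.charmatrix_apply, Matrix.kroneckerMap_apply, Matrix.kroneckerMap_apply, Matrix.charmatrix_apply]
    rcases eq_or_ne i k with rfl | hik <;> rcases eq_or_ne j l with rfl | hjl
    · simp [Matrix.diagonal_apply, Matrix.one_apply]
    · simp [hjl, Matrix.diagonal_apply, Matrix.one_apply]
    · simp [hik, Matrix.diagonal_apply, Matrix.one_apply]
    · simp [hik, hjl, Matrix.diagonal_apply, Matrix.one_apply]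
  rw [Matrix.charpoly, Matrix.charpoly, h, Matrix.det_kronecker, Matrix.det_one, one_pow, one_mul, Fintype.card_fin]

/-- A scalar left factor forces every eigenvalue to be repeated. -/
theorem scalar_left_repeated (ha : 2 ≤ a) {α : F} {B : Matrix (Fin b) (Fin b) F} {R : F[X]} (hR : Irreducible R)
    (h1 : R ∣ ((α • (1 : Matrix (Fin a) (Fin a) F)) ⊗ₖ B).charpoly)
    (h2 : ¬ R ^ 2 ∣ ((α • (1 : Matrix (Fin a) (Fin a) F)) ⊗ₖ B).charpoly) : False := by
  rw [Matrix.smul_kronecker, ← Matrix.kronecker_smul, charpoly_one_kron] at h1 h2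
  exact h2 ((pow_dvd_pow_of_dvd (hR.prime.dvd_of_dvd_pow h1) 2).trans (pow_dvd_pow _ ha))

variable [Fintype F] {p r : ℕ} [Fact p.Prime] [CharP F p] [hr : Fact r.Prime]

/-- An element moving a space of the least possible dimension. -/
theorem exists_small_witness (hrp : r ≠ p) (hi : 2 ≤ orderOf (Fintype.card F : ZMod r))
    (hin : orderOf (Fintype.card F : ZMod r) ≤ n) :
    ∃ x : Matrix (Fin n) (Fin n) F, x.det = 1 ∧ x ^ r = 1 ∧ (∀ c : F, x ≠ c • (1 : Matrix (Fin n) (Fin n) F)) ∧
      (x - 1).rank ≤ orderOf (Fintype.card F : ZMod r) ∧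
      ∃ R : F[X], Irreducible R ∧ R ∣ x.charpoly ∧ ¬ R ^ 2 ∣ x.charpoly := by
  classical
  obtain ⟨i, hidef⟩ : ∃ i, i = orderOf (Fintype.card F : ZMod r) := ⟨_, rfl⟩
  rw [← hidef] at hi hin ⊢
  obtain ⟨g, hgd, hgr, -, hg1⟩ := exists_fpf (n := i) (F := F) hrp (hidef ▸ hi) (by omega) (hidef ▸ dvd_rfl)
  obtain ⟨S, hS1, hS2, -, -⟩ := CfsgLib.PrimeClasses.exists_factors (F := F) hr.out hrp
  have hfac : ∀ R : F[X], R.Monic → Irreducible R → R ∣ g.charpoly → R.natDegree = i := by
    intro R hm hR hd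
    rcases hS2 R hm hR (CfsgLib.PrimeClasses.factor_dvd g hgr hR hd) with h | h
    · subst h
      exact absurd (dvd_iff_isRoot.mp hd) hg1
    · rw [(hS1 R h).2.2.1, hidef]
  obtain ⟨R, hRm, hRi, hRd⟩ := exists_monic_irreducible_factor g.charpoly
    (not_isUnit_of_natDegree_pos _ (by rw [Matrix.charpoly_natDegree_eq_dim, Fintype.card_fin]; omega))
  have hRg : g.charpoly = R := (eq_of_monic_of_dvd_of_natDegree_le hRm (Matrix.charpoly_monic g) hRd (by
    rw [Matrix.charpoly_natDegree_eq_dim, Fintype.card_fin, hfac R hRm hRi hRd]))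
  obtain ⟨l, rfl⟩ : ∃ l, n = i + l := ⟨n - i, by omega⟩
  let e : Fin i ⊕ Fin l ≃ Fin (i + l) := finSumFinEquiv
  obtain ⟨x₀, hx₀⟩ : ∃ x₀ : Matrix (Fin i ⊕ Fin l) (Fin i ⊕ Fin l) F, x₀ = Matrix.fromBlocks g 0 0 1 := ⟨_, rfl⟩
  have hcp : (Matrix.reindexAlgEquiv F F e x₀).charpoly = R * (X - 1) ^ l := by
    rw [Matrix.reindexAlgEquiv_apply, Matrix.charpoly_reindex, hx₀, Matrix.charpoly_fromBlocks_zero₂₁, hRg,
      Matrix.charpoly_one, Fintype.card_fin]
  have hR2 : ¬ R ^ 2 ∣ R * (X - 1) ^ l := by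
    intro h
    rw [pow_two] at h
    have h1 := hRi.prime.dvd_of_dvd_pow ((mul_dvd_mul_iff_left hRm.ne_zero).mp h)
    rw [← C_1] at h1
    have h2 := hfac R hRm hRi hRd
    rw [eq_of_monic_of_associated hRm (monic_X_sub_C 1) (hRi.associated_of_dvd (irreducible_X_sub_C 1) h1),
      natDegree_X_sub_C] at h2
    omega
  refine ⟨Matrix.reindexAlgEquiv F F e x₀, ?_, ?_, ?_, ?_, R, hRi, hcp ▸ dvd_mul_right _ _, hcp ▸ hR2⟩
  · rw [Matrix.det_reindexAlgEquiv, hx₀, Matrix.det_fromBlocks_zero₂₁, hgd, Matrix.det_one, one_mul]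
  · rw [← map_pow, hx₀, CfsgLib.NilType.blocks_pow, hgr, one_pow, Matrix.fromBlocks_one, map_one]
  · intro c hc
    have h1 := (hcp ▸ dvd_mul_right R ((X - 1) ^ l) : R ∣ (Matrix.reindexAlgEquiv F F e x₀).charpoly)
    rw [hc, Matrix.smul_one_eq_diagonal, Matrix.charpoly_diagonal, Finset.prod_const] at h1
    have h3 := hfac R hRm hRi hRd
    rw [eq_of_monic_of_associated hRm (monic_X_sub_C c) (hRi.associated_of_dvd (irreducible_X_sub_C c)
      (hRi.prime.dvd_of_dvd_pow h1)), natDegree_X_sub_C] at h3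
    omega
  · rw [← map_one (Matrix.reindexAlgEquiv F F e), ← map_sub, Matrix.reindexAlgEquiv_apply, Matrix.rank_reindex]
    have h1 : x₀ - 1 = (Matrix.of fun p q => Sum.elim (fun k => if q = k then (1 : F) else 0) (fun _ => 0) p :
        Matrix (Fin i ⊕ Fin l) (Fin i) F) *
        (Matrix.of fun q p => Sum.elim (fun k => (g - 1) q k) (fun _ => 0) p : Matrix (Fin i) (Fin i ⊕ Fin l) F) := by
      rw [hx₀]
      ext (s | s) (t | t) <;> simp [Matrix.mul_apply, Matrix.one_apply, Matrix.fromBlocks_apply₁₁, Matrix.fromBlocks_apply₁₂,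
        Matrix.fromBlocks_apply₂₁, Matrix.fromBlocks_apply₂₂]
    rw [h1]
    exact (Matrix.rank_mul_le_right _ _).trans ((Matrix.rank_le_card_height _).trans (Fintype.card_fin i).le)

end CfsgLib.SubElusive
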