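import Cfsg.Agent.SubElusive.Cases
import Cfsg.Prelude.Def_GeometricClasses

/-!
Elements of prime order `r` (different from the characteristic) and direct decompositions into equal parts.
-/

set_option autoImplicit false
set_option linter.style.haveILetI false

namespace CfsgLib.SubElusive

open Polynomial UniqueFactorizationMonoid

section Plain

variable {F : Type*} [Field F] {V : Type*} [AddCommGroup V] [Module F V] [FiniteDimensional F V]

theorem dvd_of_kill (f : Module.End F V) {P : F[X]} (hP : Irreducible P) {v : V} (hv : v ≠ 0)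
    (h : aeval f P v = 0) : P ∣ f.charpoly := by
  refine dvd_trans ?_ (LinearMap.minpoly_dvd_charpoly f)
  by_contra hn
  obtain ⟨A, B, hAB⟩ := hP.coprime_iff_not_dvd.mpr hn
  apply hv
  have h1 := congrArg (fun Q : F[X] => aeval f Q v) hAB
  simp only [map_add, map_mul, map_one, LinearMap.add_apply, Module.End.mul_apply, Module.End.one_apply, h,
    minpoly.aeval, LinearMap.zero_apply, map_zero, add_zero] at h1
  exact h1.symm

theorem quot_ker_no_fix (f : Module.End F V) {r : ℕ} (hr : (r : F) ≠ 0) (hf : f ^ r = 1) {v : V}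
    (hv : f (f v - v) = f v - v) : f v = v := by
  obtain ⟨u, hu⟩ : ∃ u, u = f v - v := ⟨_, rfl⟩
  rw [← hu] at hv
  have key : ∀ l : ℕ, (f ^ l) v = v + (l : F) • u := by
    intro l
    induction l with
    | zero => simp
    | succ l ih =>
      rw [pow_succ', Module.End.mul_apply, ih, map_add, map_smul, hv, Nat.cast_succ, add_smul, one_smul, hu]
      abel
  have h1 := key r
  rw [hf, Module.End.one_apply, left_eq_add, smul_eq_zero, hu, sub_eq_zero] at h1
  exact h1.resolve_left hr

/-- The fixed space is the multiplicity of the eigenvalue one. -/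
theorem charpoly_fix (f : Module.End F V) {r : ℕ} (hr : (r : F) ≠ 0) (hf : f ^ r = 1) :
    ∃ Q : F[X], Q.Monic ∧ f.charpoly = (X - C 1) ^ Module.finrank F (LinearMap.ker (f - 1)) * Q ∧
      ¬ (X - C 1) ∣ Q ∧
      (∀ P : F[X], Irreducible P → P ∣ Q → P ∣ X ^ r - 1) ∧
      Q.natDegree + Module.finrank F (LinearMap.ker (f - 1)) = Module.finrank F V ∧
      f.charpoly.rootMultiplicity 1 = Module.finrank F (LinearMap.ker (f - 1)) := by
  classical
  set E := LinearMap.ker (f - 1)
  have hmem : ∀ v, v ∈ E ↔ f v = v := fun v => by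
    rw [LinearMap.mem_ker, LinearMap.sub_apply, Module.End.one_apply, sub_eq_zero]
  have hE : E ≤ E.comap f := fun v hv => by
    rw [Submodule.mem_comap, hmem, (hmem v).mp hv, (hmem v).mp hv]
  have hres : (f.restrict (p := E) (q := E) hE : Module.End F E) = 1 :=
    LinearMap.ext fun v => Subtype.ext ((hmem v.1).mp v.2)
  have hcE : LinearMap.charpoly (f.restrict hE) = (X - C 1) ^ Module.finrank F E := by
    rw [hres, LinearMap.charpoly_def,
      show LinearMap.toMatrix (Module.Free.chooseBasis F E) (Module.Free.chooseBasis F E) 1 = 1 from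
        LinearMap.toMatrix_one _, Matrix.charpoly_one, C_1, ← Module.finrank_eq_card_chooseBasisIndex]
  have hno : ¬ (X - C 1) ∣ (E.mapQ E f hE).charpoly := by
    intro h
    obtain ⟨w, hw, hw1⟩ := exists_ker _ (irreducible_X_sub_C (1 : F)) h
    obtain ⟨v, rfl⟩ := E.mkQ_surjective w
    rw [map_sub, aeval_X, aeval_C, map_one, LinearMap.sub_apply, Module.End.one_apply, Submodule.mkQ_apply,
      Submodule.mapQ_apply, ← Submodule.Quotient.mk_sub, Submodule.Quotient.mk_eq_zero, hmem] at hw1
    exact hw ((Submodule.Quotient.mk_eq_zero E).mpr ((hmem v).mpr (quot_ker_no_fix f hr hf hw1)))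
  have hcp : f.charpoly = (X - C 1) ^ Module.finrank F E * (E.mapQ E f hE).charpoly := by
    rw [charpoly_eq_mul E f hE, hcE]
  have hQ : (E.mapQ E f hE).charpoly ≠ 0 := (LinearMap.charpoly_monic _).ne_zero
  refine ⟨_, LinearMap.charpoly_monic _, hcp, hno, fun P hP hd => ?_, ?_, ?_⟩
  · refine dvd_of_aeval_eq_zero f hP (hcp ▸ dvd_mul_of_dvd_right hd _) ?_
    rw [map_sub, map_pow, aeval_X, map_one, hf, sub_self]
  · rw [LinearMap.charpoly_natDegree]
    exact Submodule.finrank_quotient_add_finrank E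
  · rw [hcp, rootMultiplicity_mul (mul_ne_zero (pow_ne_zero _ (X_sub_C_ne_zero 1)) hQ),
      rootMultiplicity_X_sub_C_pow, rootMultiplicity_eq_zero (fun h => hno (dvd_iff_isRoot.mpr h)), add_zero]

end Plain

section Finite

variable {F : Type*} [Field F] [Fintype F] {p r : ℕ} [Fact p.Prime] [CharP F p] [hr : Fact r.Prime]
  {V : Type*} [AddCommGroup V] [Module F V] [FiniteDimensional F V]

theorem order_dvd (hrp : r ≠ p) : orderOf (Fintype.card F : ZMod r) ∣ r - 1 := by
  refine orderOf_dvd_of_pow_eq_one (ZMod.pow_card_sub_one_eq_one fun h0 => ?_)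
  rw [ZMod.natCast_eq_zero_iff] at h0
  obtain ⟨k, hp, hk⟩ := FiniteField.card F p
  rw [hk] at h0
  exact hrp ((Nat.prime_dvd_prime_iff_eq hr.out hp).mp (hr.out.dvd_of_dvd_pow h0))

theorem order_pos (hrp : r ≠ p) : 0 < orderOf (Fintype.card F : ZMod r) :=
  Nat.pos_of_dvd_of_pos (order_dvd hrp) (by have := hr.out.two_le; omega)

/-- Splitting of the characteristic polynomial of a root of `X ^ r - 1`. -/
theorem charpoly_shape (hrp : r ≠ p) (f : Module.End F V) (hf : f ^ r = 1) :
    ∃ s : Multiset F[X], f.charpoly = (X - C 1) ^ Module.finrank F (LinearMap.ker (f - 1)) * s.prod ∧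
      (∀ P ∈ s, P.Monic ∧ Irreducible P ∧ P ∣ X ^ r - 1 ∧ P ≠ X - C 1 ∧
        P.natDegree = orderOf (Fintype.card F : ZMod r)) ∧
      Module.finrank F (LinearMap.ker (f - 1)) + orderOf (Fintype.card F : ZMod r) * Multiset.card s =
        Module.finrank F V := by
  classical
  obtain ⟨Q, hQm, hcp, hno, hQd, hQdeg, -⟩ := charpoly_fix f (r_ne_zero (F := F) hrp) hf
  obtain ⟨S, hS1, hS2, -, -⟩ := CfsgLib.PrimeClasses.exists_factors (F := F) hr.out hrp
  obtain ⟨hmem, hprod⟩ := nf_spec hQm
  have hs : ∀ P ∈ normalizedFactors Q, P.Monic ∧ Irreducible P ∧ P ∣ X ^ r - 1 ∧ P ≠ X - C 1 ∧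
      P.natDegree = orderOf (Fintype.card F : ZMod r) := fun P hP => by
    obtain ⟨hi, hm, hd⟩ := hmem P hP
    have hne : P ≠ X - C 1 := fun h => hno (h ▸ hd)
    refine ⟨hm, hi, hQd P hi hd, hne, ?_⟩
    rcases hS2 P hm hi (hQd P hi hd) with h | h
    · exact absurd h hne
    · exact (hS1 P h).2.2.1
  refine ⟨normalizedFactors Q, by rw [hprod]; exact hcp, hs, ?_⟩
  have hcount : (normalizedFactors Q).count (X - C 1) = 0 :=
    Multiset.count_eq_zero.mpr fun h => (hs _ h).2.2.2.1 rfl
  have hdeg := deg_prod (i := orderOf (Fintype.card F : ZMod r)) (natDegree_X_sub_C (1 : F)) (normalizedFactors Q)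
    (fun P hP => (hs P hP).1) fun P hP => Or.inr (hs P hP).2.2.2.2
  rw [hprod, hcount, zero_add, Nat.sub_zero] at hdeg
  omega

theorem mod_le_fix (hrp : r ≠ p) (f : Module.End F V) (hf : f ^ r = 1) :
    Module.finrank F V % orderOf (Fintype.card F : ZMod r) ≤ Module.finrank F (LinearMap.ker (f - 1)) := by
  obtain ⟨s, -, -, h⟩ := charpoly_shape hrp f hf
  rw [← h, Nat.add_mul_mod_self_left]
  exact Nat.mod_le _ _

theorem mul_mod_pred {a t c : ℕ} (h : ((t + 1) * a) % c = (t + 1) * (a % c)) (hc : 0 < c) :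
    (t * a) % c = t * (a % c) := by
  have h1 := Nat.mod_lt ((t + 1) * a) hc
  have h2 : t * (a % c) ≤ (t + 1) * (a % c) := Nat.mul_le_mul_right _ (by omega)
  rw [← Nat.mul_mod_mod, Nat.mod_eq_of_lt (by omega)]

/-- A basis splitting the space into `t` invariant parts of dimension `a`. -/
theorem exists_invariant_basis (hrp : r ≠ p) (a : ℕ) : ∀ (t : ℕ) {W : Type _} [AddCommGroup W] [Module F W]
    [FiniteDimensional F W] (f : Module.End F W), f ^ r = 1 → Module.finrank F W = t * a →
    (t * a) % orderOf (Fintype.card F : ZMod r) = t * (a % orderOf (Fintype.card F : ZMod r)) →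
    ∃ b : Module.Basis (Fin t × Fin a) F W,
      ∀ j i, f (b (j, i)) ∈ Submodule.span F (Set.range fun i => b (j, i)) := by
  classical
  intro t
  induction t with
  | zero =>
    intro W _ _ _ f _ hd _
    refine ⟨(Module.finBasisOfFinrankEq F W hd).reindex (Fintype.equivOfCardEq (by simp)), fun j => j.elim0⟩
  | succ t ih =>
    intro W _ _ _ f hf hd hmod
    obtain ⟨c, hc⟩ : ∃ c, c = orderOf (Fintype.card F : ZMod r) := ⟨_, rfl⟩
    rw [← hc] at hmod
    obtain ⟨hmem, hprod⟩ := nf_spec (LinearMap.charpoly_monic f)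
    set s := normalizedFactors f.charpoly
    obtain ⟨S, hS1, hS2, -, -⟩ := CfsgLib.PrimeClasses.exists_factors (F := F) hr.out hrp
    have hs : ∀ P ∈ s, P = X - C 1 ∨ P.natDegree = c := fun P hP => by
      obtain ⟨hi, hm, hd'⟩ := hmem P hP
      rcases hS2 P hm hi (dvd_of_aeval_eq_zero f hi hd' (by rw [map_sub, map_pow, aeval_X, map_one, hf, sub_self]))
        with h | h
      · exact Or.inl h
      · exact Or.inr (hc ▸ (hS1 P h).2.2.1)
    have hn' : s.count (X - C 1) + c * (Multiset.card s - s.count (X - C 1)) = (t + 1) * a := by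
      rw [← deg_prod (natDegree_X_sub_C 1) s (fun P hP => (hmem P hP).2.1) hs, hprod, LinearMap.charpoly_natDegree, hd]
    obtain ⟨α, β, α', β', hαβ, -, hα, hβ⟩ := choice_one hn' (Nat.le_mul_of_pos_left a (by omega))
      (by rw [hmod]; exact Nat.le_mul_of_pos_left _ (by omega))
    obtain ⟨t1, ht1, hc1, hk1⟩ := exists_sub s (X - C 1) (a := α) (b := β) (by omega) (by omega)
    obtain ⟨-, U, -, -, hU, -, hUd⟩ := chain_of_multiset f (le_refl t1) ht1
    rw [deg_prod (natDegree_X_sub_C 1) t1 (fun P hP => (hmem P (Multiset.mem_of_le ht1 hP)).2.1)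
      (fun P hP => hs P (Multiset.mem_of_le ht1 hP)), hc1, hk1, Nat.add_sub_cancel_left, hαβ] at hUd
    have hss : f.IsSemisimple := Module.End.isSemisimple_of_squarefree_aeval_eq_zero (p := X ^ r - C 1)
      (separable_X_pow_sub_C 1 (r_ne_zero hrp) one_ne_zero).squarefree
      (by rw [map_sub, map_pow, aeval_X, aeval_C, map_one, hf, sub_self])
    obtain ⟨T, hT, hUT⟩ := Module.End.isSemisimple_iff.mp hss U
      (by rw [Module.End.mem_invtSubmodule, ← Submodule.map_le_iff_le_comap]; exact hU)
    rw [Module.End.mem_invtSubmodule] at hT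
    have hTd : Module.finrank F T = t * a := by
      have := Submodule.finrank_add_eq_of_isCompl hUT
      rw [hUd, hd, add_one_mul] at this
      omega
    obtain ⟨bT, hbT⟩ := ih (f.restrict hT)
      (by rw [Module.End.pow_restrict r hT]; ext v; simp [hf]) hTd
      (by rw [← hc]; exact mul_mod_pred hmod (hc ▸ order_pos hrp))
    let bU := Module.finBasisOfFinrankEq F U hUd
    let e : Fin a ⊕ Fin t × Fin a ≃ Fin (t + 1) × Fin a :=
      { toFun := Sum.elim (fun i => (0, i)) fun x => (x.1.succ, x.2)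
        invFun := fun x => Fin.cases (Sum.inl x.2) (fun j => Sum.inr (j, x.2)) x.1
        left_inv := fun x => by rcases x with i | ⟨j, i⟩ <;> simp
        right_inv := fun x => by
          obtain ⟨j, i⟩ := x
          induction j using Fin.cases <;> simp }
    obtain ⟨b, hb⟩ : ∃ b, b = ((bU.prod bT).map (Submodule.prodEquivOfIsCompl U T hUT)).reindex e := ⟨_, rfl⟩
    have hb0 : ∀ i, b (0, i) = (bU i : W) := fun i => by
      rw [hb, Module.Basis.reindex_apply, show e.symm (0, i) = Sum.inl i from rfl]; simp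
    have hb1 : ∀ j i, b (Fin.succ j, i) = (bT (j, i) : W) := fun j i => by
      rw [hb, Module.Basis.reindex_apply, show e.symm (Fin.succ j, i) = Sum.inr (j, i) from rfl]; simp
    refine ⟨b, fun j i => ?_⟩
    induction j using Fin.cases with
    | zero =>
      simp only [hb0]
      have h1 : f (bU i) ∈ U := hU ⟨_, (bU i).2, rfl⟩
      have h2 := Submodule.mem_map_of_mem (f := U.subtype) (bU.mem_span ⟨_, h1⟩)
      rwa [Submodule.map_span, ← Set.range_comp] at h2
    | succ j =>
      simp only [hb1]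
      have h2 := Submodule.mem_map_of_mem (f := T.subtype) (hbT j i)
      rwa [Submodule.map_span, ← Set.range_comp] at h2

/-- Elements of the shape `(X - 1)^* · Q^*` are determined by their fixed space when `c = r - 1`. -/
theorem charpoly_single (hrp : r ≠ p) (hc : orderOf (Fintype.card F : ZMod r) = r - 1) :
    ∃ P : F[X], ∀ {W : Type _} [AddCommGroup W] [Module F W] [FiniteDimensional F W] (f : Module.End F W), f ^ r = 1 →
      f.charpoly = (X - C 1) ^ Module.finrank F (LinearMap.ker (f - 1)) *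
        P ^ ((Module.finrank F W - Module.finrank F (LinearMap.ker (f - 1))) / (r - 1)) := by
  classical
  obtain ⟨S, -, hS2, -, hS4⟩ := CfsgLib.PrimeClasses.exists_factors (F := F) hr.out hrp
  have := hr.out.two_le
  rw [hc, Nat.div_self (by omega)] at hS4
  obtain ⟨P, hP⟩ := Finset.card_eq_one.mp hS4
  refine ⟨P, fun {W} _ _ _ f hf => ?_⟩
  obtain ⟨s, hcp, hs, hdeg⟩ := charpoly_shape hrp f hf
  have hsP : s = Multiset.replicate (Multiset.card s) P := Multiset.eq_replicate_card.mpr fun Q hQ => by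
    obtain ⟨hm, hi, hd, hne, -⟩ := hs Q hQ
    exact Finset.mem_singleton.mp (hP ▸ (hS2 Q hm hi hd).resolve_left hne)
  rw [hcp, ← hdeg, Nat.add_sub_cancel_left, hc, Nat.mul_div_cancel_left _ (by omega)]
  nth_rewrite 1 [hsP]
  rw [Multiset.prod_replicate]

/-- A monomial basis when the `r`-th power is a non-power scalar. -/
theorem exists_monomial_nonsplit {n : ℕ} {z : F} (hrp : r ≠ p) (hz : ∀ d : F, d ^ r ≠ z)
    (f : Module.End F (Fin n → F)) (hf : f ^ r = z • 1) :
    ∃ (m : ℕ) (b : Module.Basis (Fin m × ZMod r) F (Fin n → F)),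
      n = m * r ∧ ∀ i l, f (b (i, l)) ∈ Submodule.span F {b (i, l + 1)} := by
  classical
  have hz0 : z ≠ 0 := fun h => hz 0 (by rw [h, zero_pow hr.out.ne_zero])
  have hcp : ∀ {ι : Type} [Fintype ι] (g : Module.End F (ι → F)), g ^ r = z • 1 →
      ∃ k, Fintype.card ι = k * r ∧ g.charpoly = (X ^ r - C z) ^ k := by
    intro ι _ g hg
    obtain ⟨hmem, hprod⟩ := nf_spec (LinearMap.charpoly_monic g)
    have hs : normalizedFactors g.charpoly =
        Multiset.replicate (Multiset.card (normalizedFactors g.charpoly)) (X ^ r - C z) := by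
      refine Multiset.eq_replicate_card.mpr fun P hP => ?_
      obtain ⟨hi, hm, hd⟩ := hmem P hP
      refine eq_of_monic_of_associated hm (monic_X_pow_sub_C _ hr.out.ne_zero)
        (hi.associated_of_dvd (X_pow_sub_C_irreducible_of_prime hr.out hz) ?_)
      refine dvd_of_aeval_eq_zero g hi hd ?_
      rw [map_sub, map_pow, aeval_X, aeval_C, hg, Algebra.algebraMap_eq_smul_one, sub_self]
    rw [hs, Multiset.prod_replicate] at hprod
    refine ⟨_, ?_, hprod.symm⟩
    have := congrArg natDegree hprod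
    rw [natDegree_pow, natDegree_X_pow_sub_C, LinearMap.charpoly_natDegree, Module.finrank_pi] at this
    exact this.symm
  obtain ⟨m, hm, hfm⟩ := hcp f hf
  rw [Fintype.card_fin] at hm
  let w := Pi.basisFun F (Fin m × ZMod r)
  obtain ⟨Y, hY⟩ : ∃ Y : Module.End F (Fin m × ZMod r → F),
      ∀ i l, Y (w (i, l)) = (if l + 1 = 0 then z else 1) • w (i, l + 1) :=
    ⟨w.constr F fun x => (if x.2 + 1 = 0 then z else 1) • w (x.1, x.2 + 1), fun i l => by rw [Module.Basis.constr_basis]⟩
  have hlow : ∀ i (j : ℕ), j < r → (Y ^ j) (w (i, 0)) = w (i, (j : ZMod r)) := by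
    intro i j
    induction j with
    | zero => intro _; simp
    | succ j ih =>
      intro hj
      rw [pow_succ', Module.End.mul_apply, ih (by omega), hY, if_neg, one_smul, Nat.cast_succ]
      rw [← Nat.cast_succ, ZMod.natCast_eq_zero_iff]
      exact fun h => by have := Nat.le_of_dvd (by omega) h; omega
  have hwrap : ∀ i, (Y ^ r) (w (i, 0)) = z • w (i, 0) := by
    intro i
    obtain ⟨j, hj⟩ : ∃ j, r = j + 1 := ⟨r - 1, by have := hr.out.pos; omega⟩
    have h0 : (j : ZMod r) + 1 = 0 := by rw [← Nat.cast_one, ← Nat.cast_add, ← hj, ZMod.natCast_self]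
    rw [show Y ^ r = Y * Y ^ j by rw [← pow_succ', ← hj], Module.End.mul_apply, hlow i j (by omega), hY, if_pos h0, h0]
  have hYr : Y ^ r = z • 1 := by
    refine w.ext fun x => ?_
    obtain ⟨i, l⟩ := x
    have hl := hlow i l.val (ZMod.val_lt l)
    rw [ZMod.natCast_zmod_val] at hl
    rw [← hl, ← Module.End.mul_apply, ← pow_add, add_comm, pow_add, Module.End.mul_apply, hwrap, map_smul,
      LinearMap.smul_apply, Module.End.one_apply]
  obtain ⟨k, hk, hYk⟩ := hcp Y hYr
  have hkm : k = m := by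
    simp only [Fintype.card_prod, Fintype.card_fin, ZMod.card] at hk
    exact (Nat.eq_of_mul_eq_mul_right hr.out.pos hk).symm
  have hord : ∀ {ι : Type} [Fintype ι] (g : Module.End F (ι → F)), g ^ r = z • 1 → g ^ (r * (Fintype.card F - 1)) = 1 := by
    intro ι _ g hg
    rw [pow_mul, hg, _root_.smul_pow, one_pow, FiniteField.pow_card_sub_one_eq_one z hz0, one_smul]
  have hne : ((r * (Fintype.card F - 1) : ℕ) : F) ≠ 0 := by
    rw [Nat.cast_mul, Nat.cast_sub Fintype.card_pos, FiniteField.cast_card_eq_zero, Nat.cast_one, zero_sub]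
    exact mul_ne_zero (r_ne_zero hrp) (neg_ne_zero.mpr one_ne_zero)
  obtain ⟨e, he⟩ := Cfsg.Agent.H29.Semisimple.similar _ Y f hne (hord Y hYr) (hord f hf) rfl
    (by rw [hYk, hfm, hkm])
  refine ⟨m, w.map e, hm, fun i l => ?_⟩
  rw [Module.Basis.map_apply, Module.Basis.map_apply, ← he, hY, map_smul]
  exact Submodule.smul_mem _ _ (Submodule.subset_span rfl)

/-- A permuted basis when `c = r - 1` and the fixed space is large enough. -/
theorem exists_permuted_basis {n : ℕ} (hrp : r ≠ p) (hc : orderOf (Fintype.card F : ZMod r) = r - 1)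
    (f : Module.End F (Fin n → F)) (hf : f ^ r = 1) {k : ℕ}
    (hk : Module.finrank F (LinearMap.ker (f - 1)) + (r - 1) * k = n)
    (hle : k ≤ Module.finrank F (LinearMap.ker (f - 1))) :
    ∃ (b : Module.Basis (Fin n) F (Fin n → F)) (σ : Equiv.Perm (Fin n)), ∀ i, f (b i) ∈ Submodule.span F {b (σ i)} := by
  classical
  set e := Module.finrank F (LinearMap.ker (f - 1))
  obtain ⟨P, hP⟩ := charpoly_single (F := F) (r := r) hrp hc
  let π : Equiv.Perm (Fin k × ZMod r ⊕ Fin (e - k)) :=
    Equiv.sumCongr (Equiv.prodCongr (Equiv.refl _) (Equiv.addRight (1 : ZMod r))) (Equiv.refl _)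
  obtain ⟨Y, hY⟩ : ∃ Y : Module.End F (Fin k × ZMod r ⊕ Fin (e - k) → F), Y = LinearMap.funLeft F F π := ⟨_, rfl⟩
  have hYv : ∀ v x, Y v x = v (π x) := fun v x => by rw [hY]; rfl
  have hπ : ∀ (j : ℕ) x, (π ^ j) x = Sum.map (fun y => (y.1, y.2 + (j : ZMod r))) id x := by
    intro j
    induction j with
    | zero => intro x; rcases x with ⟨i, l⟩ | i <;> simp
    | succ j ih =>
      intro x
      rw [pow_succ', Equiv.Perm.mul_apply, ih]
      rcases x with ⟨i, l⟩ | i <;> simp [π, add_assoc]
  have hYj : ∀ (j : ℕ) v x, (Y ^ j) v x = v ((π ^ j) x) := by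
    intro j
    induction j with
    | zero => intro v x; simp
    | succ j ih => intro v x; rw [pow_succ, Module.End.mul_apply, ih, hYv, pow_succ', Equiv.Perm.mul_apply]
  have hYr : Y ^ r = 1 := by
    refine LinearMap.ext fun v => funext fun x => ?_
    rw [hYj, hπ, Module.End.one_apply]
    rcases x with ⟨i, l⟩ | i <;> simp
  let orb : Fin k × ZMod r ⊕ Fin (e - k) → Fin k ⊕ Fin (e - k) := Sum.map Prod.fst id
  have horb : Function.Surjective orb := fun y => by
    rcases y with i | i
    · exact ⟨Sum.inl (i, 0), rfl⟩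
    · exact ⟨Sum.inr i, rfl⟩
  have hker : LinearMap.ker (Y - 1) = LinearMap.range (LinearMap.funLeft F F orb) := by
    refine le_antisymm (fun v hv => ?_) ?_
    · rw [LinearMap.mem_ker, LinearMap.sub_apply, Module.End.one_apply, sub_eq_zero] at hv
      refine ⟨fun y => v (Sum.map (fun i => (i, (0 : ZMod r))) id y), funext fun x => ?_⟩
      rcases x with ⟨i, l⟩ | i
      · have hj : ∀ j : ℕ, (Y ^ j) v = v := fun j => by
          induction j with
          | zero => rfl
          | succ j ih => rw [pow_succ, Module.End.mul_apply, hv, ih]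
        have h1 := congrFun (hj l.val) (Sum.inl (i, 0))
        rw [hYj, hπ] at h1
        simp at h1
        simp [orb, h1]
      · simp [orb]
    · rintro _ ⟨g, rfl⟩
      rw [LinearMap.mem_ker, LinearMap.sub_apply, Module.End.one_apply, sub_eq_zero]
      funext x
      rw [hYv]
      rcases x with ⟨i, l⟩ | i <;> rfl
  have heY : Module.finrank F (LinearMap.ker (Y - 1)) = e := by
    rw [hker, LinearMap.finrank_range_of_inj (LinearMap.funLeft_injective_of_surjective F F orb horb),
      Module.finrank_pi, Fintype.card_sum, Fintype.card_fin, Fintype.card_fin]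
    omega
  have hdim : Fintype.card (Fin k × ZMod r ⊕ Fin (e - k)) = n := by
    rw [Fintype.card_sum, Fintype.card_prod, Fintype.card_fin, ZMod.card, Fintype.card_fin]
    have : k * r = k + (r - 1) * k := by
      obtain ⟨r', hr'⟩ : ∃ r', r = r' + 1 := ⟨r - 1, by have := hr.out.pos; omega⟩
      rw [hr', Nat.add_sub_cancel]; ring
    omega
  obtain ⟨g, hg⟩ := Cfsg.Agent.H29.Semisimple.similar _ Y f (r_ne_zero hrp) hYr hf rfl (by
    rw [hP Y hYr, hP f hf, heY, Module.finrank_pi, hdim, Module.finrank_fin_fun])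
  let u : Fin k × ZMod r ⊕ Fin (e - k) ≃ Fin n := Fintype.equivFinOfCardEq hdim
  refine ⟨((Pi.basisFun F _).map g).reindex u, u.symm.trans (π.symm.trans u), fun i => ?_⟩
  simp only [Module.Basis.reindex_apply, Module.Basis.map_apply, Equiv.trans_apply, Equiv.symm_apply_apply]
  rw [← hg, show Y (Pi.basisFun F _ (u.symm i)) = Pi.basisFun F _ (π.symm (u.symm i)) from funext fun x => by
    rw [hYv, Pi.basisFun_apply, Pi.basisFun_apply, Pi.single_apply, Pi.single_apply]
    simp only [Equiv.eq_symm_apply]]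
  exact Submodule.subset_span rfl

/-- An element of order `r` with `j` blocks of one type. -/
theorem exists_blocks {n j : ℕ} (hrp : r ≠ p) (hi : 2 ≤ orderOf (Fintype.card F : ZMod r))
    (hj : orderOf (Fintype.card F : ZMod r) * j ≤ n) {P : F[X]} (hPm : P.Monic) (hPi : Irreducible P)
    (hPd : P.natDegree = orderOf (Fintype.card F : ZMod r)) (hPr : P ∣ X ^ r - 1) :
    ∃ y : Matrix (Fin n) (Fin n) F, y.det = 1 ∧ y ^ r = 1 ∧
      y.charpoly = (X - C 1) ^ (n - orderOf (Fintype.card F : ZMod r) * j) * P ^ j := by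
  classical
  set i := orderOf (Fintype.card F : ZMod r)
  have hP0 : P.eval 0 ≠ 0 := fun h => by
    have := congrArg natDegree (eq_of_monic_of_associated hPm (monic_X_sub_C 0)
      ((irreducible_X_sub_C 0).associated_of_dvd hPi (dvd_iff_isRoot.mpr h)).symm)
    rw [hPd, natDegree_X_sub_C] at this
    omega
  obtain ⟨g, hg, hgc⟩ := Cfsg.Agent.H29.Semisimple.exists_matrix (n := n) p ((X - C 1) ^ (n - i * j) * P ^ j)
    (((monic_X_sub_C 1).pow _).mul (hPm.pow _))
    (by rw [((monic_X_sub_C 1).pow _).natDegree_mul (hPm.pow _), natDegree_pow, natDegree_X_sub_C, natDegree_pow, hPd,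
      mul_one, mul_comm j]; omega)
    (by simp [hP0])
  have hgr : g ^ r = 1 := by
    refine CfsgLib.PrimeClasses.pow_eq_one_of_factors (p := p) (r_ne_zero hrp) g hg fun R hR hd => ?_
    rw [hgc] at hd
    rcases hR.prime.dvd_or_dvd hd with h | h
    · exact (hR.prime.dvd_of_dvd_pow h).trans (by rw [C_1]; exact sub_one_dvd_pow_sub_one X r)
    · exact (hR.prime.dvd_of_dvd_pow h).trans hPr
  refine ⟨g, ?_, by rw [← Units.val_pow_eq_pow_val, hgr, Units.val_one], hgc⟩
  set u : Fˣ := Matrix.GeneralLinearGroup.det g with hu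
  have h1 : orderOf u ∣ r := orderOf_dvd_of_pow_eq_one (by rw [hu, ← map_pow, hgr, map_one])
  have h2 : u = 1 := orderOf_eq_one_iff.mp (((Nat.dvd_prime hr.out).mp h1).resolve_right fun h => by
    have h3 := orderOf_dvd_natCard u
    rw [h, Nat.card_units, Nat.card_eq_fintype_card] at h3
    have := r_dvd_sub_iff.mp h3
    omega)
  have := congrArg Units.val h2
  rwa [hu, Matrix.GeneralLinearGroup.val_det_apply, Units.val_one] at this

end Finite

section Decomposition

variable {F : Type*} [Field F] {n a t : ℕ}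

/-- The decomposition attached to a basis in blocks. -/
theorem decomp_of_basis (ht : 2 ≤ t) (ha : 1 ≤ a) (b : Module.Basis (Fin t × Fin a) F (Fin n → F))
    (σ : Equiv.Perm (Fin t)) (f : Module.End F (Fin n → F)) (hinj : Function.Injective f)
    (h : ∀ j i, f (b (j, i)) ∈ Submodule.span F (Set.range fun i => b (σ j, i))) :
    ∃ D : Fin t → Submodule F (Fin n → F), Cfsg.Geo.IsMDecomposition a D ∧ ∀ j, (D j).map f = D (σ j) := by
  classical
  let D : Fin t → Submodule F (Fin n → F) := fun j => Submodule.span F (Set.range fun i => b (j, i))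
  have hdim : ∀ j, Module.finrank F (D j) = a := fun j =>
    (finrank_span_eq_card (b.linearIndependent.comp _ (Prod.mk_right_injective j))).trans (Fintype.card_fin a)
  refine ⟨D, ⟨ht, ha, hdim, ?_, ?_⟩, fun j => ?_⟩
  · intro j
    refine (b.linearIndependent.disjoint_span_image (s := {p | p.1 = j}) (t := {p | p.1 ≠ j})
      (Set.disjoint_left.2 fun p h1 h2 => h2 h1)).mono ?_ ?_
    · refine Submodule.span_mono ?_
      rintro _ ⟨i, rfl⟩; exact ⟨(j, i), rfl, rfl⟩
    · refine iSup₂_le fun k hk => Submodule.span_mono ?_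
      rintro _ ⟨i, rfl⟩; exact ⟨(k, i), hk, rfl⟩
  · rw [eq_top_iff, ← b.span_eq, Submodule.span_le]
    rintro _ ⟨⟨j, i⟩, rfl⟩
    exact Submodule.mem_iSup_of_mem j (Submodule.subset_span ⟨i, rfl⟩)
  · refine Submodule.eq_of_le_of_finrank_eq ?_ ?_
    · rw [Submodule.map_span, Submodule.span_le]
      rintro _ ⟨_, ⟨i, rfl⟩, rfl⟩
      exact h j i
    · rw [← LinearEquiv.finrank_eq (Submodule.equivMapOfInjective f hinj (D j)), hdim, hdim]

/-- Grouping a monomial basis into blocks. -/
theorem decomp_of_monomial (ht : 2 ≤ t) (ha : 1 ≤ a) {ι : Type*} (b : Module.Basis ι F (Fin n → F)) (π : ι → ι)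
    (g : ι ≃ Fin t × Fin a) (σ : Equiv.Perm (Fin t)) (hg : ∀ x, (g (π x)).1 = σ (g x).1)
    (f : Module.End F (Fin n → F)) (hinj : Function.Injective f) (h : ∀ x, f (b x) ∈ Submodule.span F {b (π x)}) :
    ∃ D : Fin t → Submodule F (Fin n → F), Cfsg.Geo.IsMDecomposition a D ∧ ∀ j, (D j).map f = D (σ j) := by
  refine decomp_of_basis ht ha (b.reindex g) σ f hinj fun j i => ?_
  rw [Module.Basis.reindex_apply]
  refine Submodule.span_mono ?_ (h (g.symm (j, i)))
  rintro _ rfl
  refine ⟨(g (π (g.symm (j, i)))).2, ?_⟩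
  show b.reindex g (σ j, (g (π (g.symm (j, i)))).2) = _
  have h1 := hg (g.symm (j, i))
  rw [Equiv.apply_symm_apply] at h1
  rw [Module.Basis.reindex_apply, ← h1, Prod.mk.eta, Equiv.symm_apply_apply]

end Decomposition

end CfsgLib.SubElusive
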