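import Cfsg.Agent.SubElusive.SympPieces

/-!
Multiplicities of symplectic elements on the space and on nondegenerate invariant subspaces; conjugation.
-/

set_option autoImplicit false
set_option linter.style.haveILetI false

namespace CfsgLib.SubElusive

open Polynomial CfsgLib.SemiClasses

variable {F L : Type*} [Field F] [Fintype F] [Field L] [Finite L] [Algebra F L] {p r : ℕ} [Fact p.Prime] [CharP F p]
  [hr : Fact r.Prime] {ζ : L} {d : ℕ}

/-- The multiplicities of an isometry of a nondegenerate bilinear form are invariant. -/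
theorem form_mult_inv (hζ : IsPrimitiveRoot ζ r) (hrp : r ≠ p) {u h : (ZMod r)ˣ}
    (hu : (u : ZMod r) = (Fintype.card F : ℕ))
    (hinv : ∀ f : ZMod r → ℕ, ((∀ x, f (x * (u : ZMod r)) = f x) ∧ (∀ x, f (-x) = f x)) ↔ ∀ x, f (x * (h : ZMod r)) = f x)
    {ι : Type} [Fintype ι] [DecidableEq ι] {G A : Matrix ι ι F} (hG : IsUnit G.det) (hA : A ^ r = 1)
    (hiso : A.transpose * G * A = G) :
    ∀ x, mult ζ A (x * (h : ZMod r)) = mult ζ A x :=
  (hinv _).mp ⟨fun x => by rw [hu]; exact mult_frob hζ A x, mult_neg_of_form hζ hrp hG hA hiso⟩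

omit [Finite L] [Fintype F] in
theorem mult_zero_root {ι : Type} [Fintype ι] [DecidableEq ι] (A : Matrix ι ι F) :
    mult ζ A (0 : ZMod r) = A.charpoly.rootMultiplicity 1 := by
  rw [mult, ZMod.val_zero, pow_zero, ← map_one (algebraMap F L),
    ← eq_rootMultiplicity_map (algebraMap F L).injective]

/-- A nondegenerate invariant subspace has dimension congruent to its fixed space. -/
theorem sub_fix_le (hζ : IsPrimitiveRoot ζ r) (hrp : r ≠ p) {u h : (ZMod r)ˣ}
    (hu : (u : ZMod r) = (Fintype.card F : ℕ))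
    (hinv : ∀ f : ZMod r → ℕ, ((∀ x, f (x * (u : ZMod r)) = f x) ∧ (∀ x, f (-x) = f x)) ↔ ∀ x, f (x * (h : ZMod r)) = f x)
    {x : Matrix (Fin d ⊕ Fin d) (Fin d ⊕ Fin d) F} (hx : x ∈ Matrix.symplecticGroup (Fin d) F) (hxr : x ^ r = 1)
    (W : Submodule F (Fin d ⊕ Fin d → F)) (hW : ∀ v ∈ W, x.mulVec v ∈ W)
    (hnd : ∀ u ∈ W, u ≠ 0 → ∃ v ∈ W, Cfsg.sympForm d F u v ≠ 0) :
    Module.finrank F W % orderOf h ≤
      Module.finrank F ↥(W ⊓ LinearMap.ker (Matrix.toLinAlgEquiv' x - 1 : Module.End F (Fin d ⊕ Fin d → F))) := by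
  classical
  obtain ⟨f, hf⟩ : ∃ f : Module.End F (Fin d ⊕ Fin d → F), f = Matrix.toLinAlgEquiv' x := ⟨_, rfl⟩
  have hfr : f ^ r = 1 := by rw [hf, ← map_pow, hxr, map_one]
  have hW' : ∀ v ∈ W, f v ∈ W := fun v hv => by rw [hf]; exact hW v hv
  let b := Module.finBasis F W
  obtain ⟨A, hA⟩ : ∃ A, A = LinearMap.toMatrixAlgEquiv b (f.restrict hW') := ⟨_, rfl⟩
  obtain ⟨G, hG⟩ : ∃ G : Matrix (Fin (Module.finrank F W)) (Fin (Module.finrank F W)) F,
      G = LinearMap.BilinForm.toMatrix b ((CfsgLib.PolarPair.bform F d).restrict W) := ⟨_, rfl⟩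
  have hres : (f.restrict hW' : Module.End F W) ^ r = 1 := by
    rw [Module.End.pow_restrict r hW']; ext v; simp [hfr]
  have hAr : A ^ r = 1 := by rw [hA, ← map_pow, hres, map_one]
  have hGu : IsUnit G.det := by
    rw [hG, isUnit_iff_ne_zero, ← LinearMap.BilinForm.nondegenerate_iff_det_ne_zero b]
    refine ⟨fun v hv => ?_, fun v hv => ?_⟩
    · by_contra hv0
      obtain ⟨w, hw, hne⟩ := hnd v.1 v.2 fun h0 => hv0 (Subtype.ext h0)
      exact hne (hv ⟨w, hw⟩)
    · by_contra hv0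
      obtain ⟨w, hw, hne⟩ := hnd v.1 v.2 fun h0 => hv0 (Subtype.ext h0)
      refine hne ?_
      rw [CfsgLib.SpGeom.form_skew, neg_eq_zero]
      exact hv ⟨w, hw⟩
  have hiso : A.transpose * G * A = G := by
    have h1 : A = LinearMap.toMatrix b b (f.restrict hW') := hA
    rw [h1, hG, ← LinearMap.BilinForm.toMatrix_comp b b, show ((CfsgLib.PolarPair.bform F d).restrict W).comp
      (f.restrict hW') (f.restrict hW') = (CfsgLib.PolarPair.bform F d).restrict W from ?_]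
    refine LinearMap.BilinForm.ext fun v w => ?_
    show Cfsg.sympForm d F (f v.1) (f w.1) = Cfsg.sympForm d F v.1 w.1
    rw [hf]
    exact CfsgLib.SpGeom.form_mulVec ⟨x, hx⟩ _ _
  obtain ⟨k, hk, -⟩ := orbit_data h (mult ζ A) (form_mult_inv hζ hrp hu hinv hGu hAr hiso)
  rw [sum_mult hζ hAr, Fintype.card_fin] at hk
  obtain ⟨Q, -, -, -, -, -, hm⟩ := charpoly_fix (f.restrict hW') (r_ne_zero (F := F) hrp) hres
  have hc : LinearMap.charpoly (f.restrict hW') = A.charpoly := by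
    rw [hA]; exact (LinearMap.charpoly_toMatrix _ b).symm
  rw [hc, ← mult_zero_root (ζ := ζ) (r := r) A] at hm
  rw [← hk, Nat.add_mul_mod_self_left, hm]
  refine (Nat.mod_le _ _).trans (LinearMap.finrank_le_finrank_of_injective (f :=
    LinearMap.codRestrict (W ⊓ LinearMap.ker (Matrix.toLinAlgEquiv' x - 1 : Module.End F (Fin d ⊕ Fin d → F)))
      (W.subtype.comp (LinearMap.ker (f.restrict hW' - 1)).subtype) fun v => ⟨v.1.2, ?_⟩) ?_)
  · show _ ∈ LinearMap.ker (Matrix.toLinAlgEquiv' x - 1 : Module.End F (Fin d ⊕ Fin d → F))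
    rw [← hf, LinearMap.mem_ker]
    exact congrArg Subtype.val (LinearMap.mem_ker.mp v.2)
  · intro v w h
    exact Subtype.ext (Subtype.ext (congrArg Subtype.val h :))

omit [Finite L] in
/-- Symplectic elements of order dividing `r` with equal multiplicities are conjugate. -/
theorem symp_conj_of_mult (hζ : IsPrimitiveRoot ζ r) (hrp : r ≠ p)
    {x B : Matrix (Fin d ⊕ Fin d) (Fin d ⊕ Fin d) F} (hx : x ∈ Matrix.symplecticGroup (Fin d) F)
    (hB : B ∈ Matrix.symplecticGroup (Fin d) F) (hxr : x ^ r = 1) (hBr : B ^ r = 1)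
    (hm : ∀ y : ZMod r, mult ζ x y = mult ζ B y) :
    ∃ g : Matrix.symplecticGroup (Fin d) F, (g : Matrix (Fin d ⊕ Fin d) (Fin d ⊕ Fin d) F) * B = x * g := by
  obtain ⟨Q, hQ, hQA⟩ := exists_similar hζ hrp (Equiv.refl _) hBr hxr fun y => (hm y).symm
  rw [Matrix.reindex_refl_refl] at hQA
  have hc : IsConj ((⟨B, hB⟩ : Matrix.symplecticGroup (Fin d) F) : Matrix (Fin d ⊕ Fin d) (Fin d ⊕ Fin d) F)
      ((⟨x, hx⟩ : Matrix.symplecticGroup (Fin d) F) : Matrix (Fin d ⊕ Fin d) (Fin d ⊕ Fin d) F) :=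
    ⟨((Matrix.isUnit_iff_isUnit_det Q).mpr hQ).unit, hQA⟩
  have hord : (orderOf (⟨B, hB⟩ : Matrix.symplecticGroup (Fin d) F)).Coprime p :=
    coprime_order hrp (Subtype.ext (by rw [SubmonoidClass.coe_pow]; exact hBr))
  obtain ⟨g, hg⟩ := isConj_iff.mp ((Cfsg.Agent.S2589.result _ _ hord).mpr hc)
  exact ⟨g, congrArg Subtype.val (mul_inv_eq_iff_eq_mul.mp hg)⟩

end CfsgLib.SubElusive
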