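import Cfsg.Agent.SubElusive.Count
import Cfsg.Agent.NilType.Matrix
import Cfsg.Agent.SL2.Basic
import Cfsg.Prelude.Def_GeometricClasses

/-!
Tools for conjugating elements of `SL_n` into subfield subgroups.
-/

set_option autoImplicit false
set_option linter.style.haveILetI false

namespace CfsgLib.SubElusive

open Module CfsgLib.NilType
open scoped Matrix

section Shift

variable {F : Type*} [Field F] {n t : ℕ} {k : Fin t → ℕ}

/-- The `0/1` matrix shifting along chains. -/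
def shiftOn (F : Type*) [Field F] (s : (Σ i, Fin (k i)) ≃ Fin n) : Matrix (Fin n) (Fin n) F := fun i j =>
  if (s.symm i).1 = (s.symm j).1 ∧ (s.symm i).2.val = (s.symm j).2.val + 1 then 1 else 0

theorem shiftOn_map {F₀ : Type*} [Field F₀] (f : F₀ →+* F) (s : (Σ i, Fin (k i)) ≃ Fin n) :
    (shiftOn F₀ s).map f = shiftOn F s := by
  ext i j
  show f (if _ then (1 : F₀) else 0) = _
  rw [apply_ite f, map_one, map_zero]
  rfl

theorem shiftOn_mulVec (s : (Σ i, Fin (k i)) ≃ Fin n) (x : Σ i, Fin (k i)) :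
    shiftOn F s *ᵥ Pi.single (s x) 1 =
      if h : x.2.val + 1 < k x.1 then Pi.single (s ⟨x.1, ⟨x.2.val + 1, h⟩⟩) 1 else 0 := by
  classical
  rw [Matrix.mulVec_single_one]
  ext i
  obtain ⟨y, rfl⟩ := s.surjective i
  show (if (s.symm (s y)).1 = (s.symm (s x)).1 ∧ (s.symm (s y)).2.val = (s.symm (s x)).2.val + 1 then (1 : F) else 0) = _
  rw [Equiv.symm_apply_apply, Equiv.symm_apply_apply]
  by_cases hx : x.2.val + 1 < k x.1
  · rw [dif_pos hx, Pi.single_apply]
    refine if_congr ?_ rfl rfl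
    rw [s.injective.eq_iff]
    obtain ⟨y1, y2⟩ := y
    obtain ⟨x1, x2⟩ := x
    constructor
    · rintro ⟨h1, h2⟩
      obtain rfl : y1 = x1 := h1
      exact Sigma.ext rfl (heq_of_eq (Fin.ext h2))
    · intro h
      obtain ⟨rfl, h2⟩ := Sigma.mk.inj_iff.1 h
      exact ⟨rfl, congrArg Fin.val (eq_of_heq h2)⟩
  · rw [dif_neg hx, if_neg, Pi.zero_apply]
    rintro ⟨h1, h2⟩
    have := y.2.isLt
    have hk' : k y.1 = k x.1 := congrArg k h1
    omega

theorem shiftOn_chain (s : (Σ i, Fin (k i)) ≃ Fin n) :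
    IsChain (Matrix.toLinAlgEquiv' (shiftOn F s)) k ((Pi.basisFun F (Fin n)).reindex s.symm) := by
  intro x
  simp only [Basis.reindex_apply, Equiv.symm_symm, Pi.basisFun_apply, Matrix.toLinAlgEquiv'_apply, shiftOn_mulVec]

theorem rank_shiftOn (s : (Σ i, Fin (k i)) ≃ Fin n) (m : ℕ) :
    (shiftOn F s ^ m).rank = ∑ i, (k i - m) := by
  rw [rank_pow_eq, finrank_range_pow (shiftOn_chain s)]

theorem le_of_shiftOn_pow (hk : ∀ i, 0 < k i) (s : (Σ i, Fin (k i)) ≃ Fin n) {c : ℕ} (h : shiftOn F s ^ c = 0)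
    (i : Fin t) : k i ≤ c := by
  by_contra hc
  push Not at hc
  have h0 := rank_shiftOn (F := F) s c
  rw [h, Matrix.rank_zero] at h0
  have := (Finset.sum_eq_zero_iff.mp h0.symm) i (Finset.mem_univ i)
  omega

theorem exists_shift (A : Matrix (Fin n) (Fin n) F) (hA : IsNilpotent A) :
    ∃ (t : ℕ) (k : Fin t → ℕ) (s : (Σ i, Fin (k i)) ≃ Fin n) (P : Matrix (Fin n) (Fin n) F),
      (∀ i, 0 < k i) ∧ IsUnit P.det ∧ A * P = P * shiftOn F s := by
  classical
  obtain ⟨t, k, b, hk, hb⟩ := exists_chain (Matrix.toLinAlgEquiv' A) (hA.map _)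
  let s : (Σ i, Fin (k i)) ≃ Fin n := Fintype.equivFinOfCardEq (by
    rw [← finrank_eq_card_basis b, Module.finrank_fin_fun])
  let P : Matrix (Fin n) (Fin n) F := Matrix.of fun i x => b (s.symm x) i
  have hP : ∀ x, P *ᵥ Pi.single (s x) 1 = b x := fun x => by
    rw [Matrix.mulVec_single_one]
    ext i
    simp [P]
  refine ⟨t, k, s, P, hk, ?_, ?_⟩
  · rw [← Matrix.isUnit_iff_isUnit_det, ← Matrix.linearIndependent_cols_iff_isUnit]
    exact b.linearIndependent.comp s.symm s.symm.injective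
  · refine Matrix.ext_of_mulVec_single fun j => ?_
    obtain ⟨x, rfl⟩ := s.surjective j
    rw [← Matrix.mulVec_mulVec, ← Matrix.mulVec_mulVec, hP, shiftOn_mulVec, ← Matrix.toLinAlgEquiv'_apply, hb]
    split_ifs with h
    · rw [hP]
    · rw [Matrix.mulVec_zero]

/-- Scaling one chain commutes with the shift. -/
theorem scale_chain (s : (Σ i, Fin (k i)) ≃ Fin n) (i₀ : Fin t) (δ : F) :
    ∃ C : Matrix (Fin n) (Fin n) F, C.det = δ ^ k i₀ ∧ C * shiftOn F s = shiftOn F s * C := by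
  classical
  refine ⟨Matrix.diagonal fun x => if (s.symm x).1 = i₀ then δ else 1, ?_, ?_⟩
  · rw [Matrix.det_diagonal, ← Equiv.prod_comp s]
    simp only [Equiv.symm_apply_apply]
    rw [Fintype.prod_sigma, Fintype.prod_eq_single i₀ (fun i hi => ?_)]
    · simp
    · simp [hi]
  · ext i j
    rw [Matrix.diagonal_mul, Matrix.mul_diagonal, shiftOn]
    split_ifs <;> simp_all

end Shift

variable {F : Type*} [Field F] {n : ℕ}

/-- Membership in the standard subfield subgroup. -/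
theorem mem_subfield {F₀ : Subfield F} (g : GL (Fin n) F) (h : GL (Fin n) F₀) (c : Fˣ)
    (hg : (g : Matrix (Fin n) (Fin n) F) = (c : F) • (h : Matrix (Fin n) (Fin n) F₀).map (F₀.subtype : F₀ →+* F)) :
    g ∈ Cfsg.Geo.subfieldSubgroup F₀ 1 := by
  obtain ⟨sc, hsc⟩ : ∃ sc : GL (Fin n) F, (sc : Matrix (Fin n) (Fin n) F) = (c : F) • 1 ∧ sc ∈ Cfsg.Geo.scalars (Fin n) F :=
    ⟨⟨(c : F) • 1, ((c⁻¹ : Fˣ) : F) • 1, by simp [smul_smul], by simp [smul_smul]⟩, rfl,
      (Cfsg.Geo.mem_scalars_iff _).mpr ⟨c, rfl⟩⟩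
  refine ⟨sc * Matrix.GeneralLinearGroup.map (F₀.subtype : F₀ →+* F) h,
    Subgroup.mul_mem _ (Subgroup.mem_sup_right hsc.2) (Subgroup.mem_sup_left ⟨h, rfl⟩), ?_⟩
  rw [show (MulAut.conj (1 : GL (Fin n) F)).toMonoidHom = MonoidHom.id _ by ext; simp, MonoidHom.id_apply]
  refine Units.ext ?_
  rw [Units.val_mul, hsc.1, hg, Matrix.smul_mul, Matrix.one_mul]
  rfl

theorem of_mem_subfield {F₀ : Subfield F} (g : GL (Fin n) F) (hg : g ∈ Cfsg.Geo.subfieldSubgroup F₀ 1) :
    ∃ (h : GL (Fin n) F₀) (c : Fˣ),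
      (g : Matrix (Fin n) (Fin n) F) = (c : F) • (h : Matrix (Fin n) (Fin n) F₀).map (F₀.subtype : F₀ →+* F) := by
  obtain ⟨g', hg', rfl⟩ := hg
  obtain ⟨a, ⟨h, rfl⟩, b, hb, rfl⟩ := Subgroup.mem_sup_of_normal_right.mp hg'
  obtain ⟨c, hc⟩ := (Cfsg.Geo.mem_scalars_iff b).mp hb
  refine ⟨h, c, ?_⟩
  rw [show (MulAut.conj (1 : GL (Fin n) F)).toMonoidHom = MonoidHom.id _ by ext; simp, MonoidHom.id_apply, Units.val_mul,
    hc, Matrix.mul_smul, Matrix.mul_one]
  rfl

/-- An element similar to a scaled subfield element by a matrix of determinant one. -/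
theorem conj_into_subfield {F₀ : Subfield F} (x : Matrix.SpecialLinearGroup (Fin n) F) (P : Matrix (Fin n) (Fin n) F)
    (hP : P.det = 1) (h : GL (Fin n) F₀) (c : Fˣ)
    (hx : (x : Matrix (Fin n) (Fin n) F) * P = P * ((c : F) • (h : Matrix (Fin n) (Fin n) F₀).map (F₀.subtype : F₀ →+* F))) :
    ∃ P : Matrix.SpecialLinearGroup (Fin n) F, P⁻¹ * x * P ∈ ((Cfsg.Geo.subfieldSubgroup F₀ 1).comap
      (Matrix.SpecialLinearGroup.toGL : Matrix.SpecialLinearGroup (Fin n) F →* GL (Fin n) F)) := by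
  obtain ⟨S, hS⟩ : ∃ S : Matrix.SpecialLinearGroup (Fin n) F, S = ⟨P, hP⟩ := ⟨_, rfl⟩
  have hS' : (S : Matrix (Fin n) (Fin n) F) = P := by rw [hS]
  refine ⟨S, mem_subfield _ h c ?_⟩
  show ((S⁻¹ * x * S : Matrix.SpecialLinearGroup (Fin n) F) : Matrix (Fin n) (Fin n) F) = _
  rw [mul_assoc, Matrix.SpecialLinearGroup.coe_mul, Matrix.SpecialLinearGroup.coe_mul, hS', hx, ← hS',
    ← Matrix.mul_assoc, ← Matrix.SpecialLinearGroup.coe_mul, inv_mul_cancel, Matrix.SpecialLinearGroup.coe_one,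
    Matrix.one_mul]

/-- Over an extension of odd degree of a field of odd order the subfield subgroup has odd index. -/
theorem odd_index [Fintype F] (F₀ : Subfield F) {q₀ k : ℕ} (hn : 1 ≤ n) (hF₀ : Nat.card F₀ = q₀)
    (hqk : Fintype.card F = q₀ ^ k) (hq : Odd (Fintype.card F)) (hk : Odd k) :
    Odd ((Cfsg.Geo.subfieldSubgroup F₀ 1).comap
      (Matrix.SpecialLinearGroup.toGL : Matrix.SpecialLinearGroup (Fin n) F →* GL (Fin n) F)).index := by
  classical
  haveI := Fintype.ofFinite F₀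
  rw [Nat.card_eq_fintype_card] at hF₀
  have hq0 : 1 < q₀ := hF₀ ▸ Fintype.one_lt_card
  have hq0odd : Odd q₀ := (Nat.odd_pow_iff hk.pos.ne').mp (hqk ▸ hq)
  let ι : Matrix.SpecialLinearGroup (Fin n) F₀ →* Matrix.SpecialLinearGroup (Fin n) F :=
    Matrix.SpecialLinearGroup.map (F₀.subtype : F₀ →+* F)
  have hι : Function.Injective ι := fun a b h => by
    ext i j
    exact congrFun (congrFun (congrArg Subtype.val h) i) j
  have hle : ι.range ≤ (Cfsg.Geo.subfieldSubgroup F₀ 1).comap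
      (Matrix.SpecialLinearGroup.toGL : Matrix.SpecialLinearGroup (Fin n) F →* GL (Fin n) F) := by
    rintro _ ⟨g, rfl⟩
    exact mem_subfield _ (Matrix.SpecialLinearGroup.toGL g) 1 (by rw [Units.val_one, one_smul]; rfl)
  refine Odd.of_dvd_nat ?_ (Subgroup.index_dvd_of_le hle)
  have h1 : Nat.card (Matrix.SpecialLinearGroup (Fin n) F₀) * ι.range.index =
      Nat.card (Matrix.SpecialLinearGroup (Fin n) F) := by
    rw [← ι.range.card_mul_index, Nat.card_congr (MonoidHom.ofInjective hι).toEquiv]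
  have hgl : ∀ (K : Type _) [Field K] [Fintype K], Nat.card (Matrix.SpecialLinearGroup (Fin n) K) * (Fintype.card K - 1) =
      Fintype.card K ^ (∑ j ∈ Finset.range n, j) * gq (Fintype.card K) n := by
    intro K _ _
    rw [CfsgLib.SL2.card_SL_mul n hn, Matrix.card_GL_field,
      Fin.prod_univ_eq_prod_range (fun i => Fintype.card K ^ n - Fintype.card K ^ i) n]
    have h2 := nq_mul (Fintype.card K) n n le_rfl
    rw [Nat.sub_self, show gq (Fintype.card K) 0 = 1 from Finset.prod_range_zero _, mul_one] at h2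
    exact h2
  have hg : ∀ a, ∃ O, Odd O ∧ gq (q₀ ^ k) a = gq q₀ a * O := by
    intro a
    induction a with
    | zero => exact ⟨1, odd_one, by simp [gq]⟩
    | succ a ih =>
      obtain ⟨O, hO, hO'⟩ := ih
      have h2 : 2 ≤ q₀ ^ (a + 1) := le_trans hq0 (Nat.le_self_pow (by omega) q₀)
      refine ⟨O * ∑ i ∈ Finset.range k, (q₀ ^ (a + 1)) ^ i, hO.mul ?_, ?_⟩
      · rw [Finset.odd_sum_iff_odd_card_odd, Finset.filter_true_of_mem (fun i _ => (hq0odd.pow).pow), Finset.card_range]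
        exact hk
      · have hsucc : ∀ q, gq q (a + 1) = gq q a * (q ^ (a + 1) - 1) := fun q => Finset.prod_range_succ _ _
        rw [hsucc, hsucc, hO', show (q₀ ^ k) ^ (a + 1) = (q₀ ^ (a + 1)) ^ k by rw [← pow_mul, ← pow_mul, mul_comm],
          ← geom_sum_mul_of_one_le (x := q₀ ^ (a + 1)) (by omega) k]
        ring
  obtain ⟨O, hO, hO'⟩ := hg n
  obtain ⟨O1, -, hO1⟩ := hg 1
  simp only [gq, Finset.prod_range_one, zero_add, pow_one] at hO1
  have e := hgl F
  have e0 := hgl F₀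
  rw [hqk, hO'] at e
  rw [hF₀] at e0
  rw [hO1, ← h1] at e
  have e' : (q₀ - 1) * Nat.card (Matrix.SpecialLinearGroup (Fin n) F₀) * (ι.range.index * O1) =
      (q₀ ^ k) ^ (∑ j ∈ Finset.range n, j) * gq q₀ n * O := by
    rw [mul_assoc ((q₀ ^ k) ^ (∑ j ∈ Finset.range n, j)), ← e]; ring
  rw [mul_comm (q₀ - 1), e0] at e'
  have hodd : Odd ((q₀ ^ k) ^ (∑ j ∈ Finset.range n, j) * O) := (hq0odd.pow.pow).mul hO
  have h3 : q₀ ^ (∑ j ∈ Finset.range n, j) * (ι.range.index * O1) = (q₀ ^ k) ^ (∑ j ∈ Finset.range n, j) * O := by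
    apply Nat.eq_of_mul_eq_mul_left (gq_pos hq0 n)
    linear_combination e'
  exact Odd.of_dvd_nat hodd (h3 ▸ dvd_mul_of_dvd_right (dvd_mul_right _ _) _)

end CfsgLib.SubElusive
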