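import Cfsg.Agent.SubElusive.Subfield
import Cfsg.Agent.SubElusive.Twist
import Cfsg.Agent.SemiClasses.Setup

/-!
Semisimple elements and subfield subgroups.
-/

set_option autoImplicit false
set_option linter.style.haveILetI false

namespace CfsgLib.SubElusive

open Polynomial CfsgLib.SemiClasses
open scoped Matrix

variable {F : Type*} [Field F] {n : ℕ}

/-- Equal products of linear factors have the same value counts. -/
theorem count_eq_of_prod [DecidableEq F] (A B : Fin n → F) (h : ∏ j, (X - C (A j)) = ∏ j, (X - C (B j))) (y : F) :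
    (Finset.univ.filter fun j => A j = y).card = (Finset.univ.filter fun j => B j = y).card := by
  have e : ∀ A : Fin n → F, Multiset.count y (Finset.univ.val.map A) = (Finset.univ.filter fun j => A j = y).card :=
    fun A => by
      rw [Multiset.count_map]
      simp [Finset.card_def, eq_comm]
  have h1 : ∀ A : Fin n → F, (∏ j, (X - C (A j))).roots = Finset.univ.val.map A := fun A => by
    rw [Finset.prod_eq_multiset_prod, show (fun j => X - C (A j)) = (fun a => X - C a) ∘ A from rfl, ← Multiset.map_map,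
      roots_multiset_prod_X_sub_C]
  rw [← e, ← e, ← h1, ← h1, h]

variable [Fintype F]

/-- The primes dividing the index of a subfield subgroup. -/
theorem subfield_index (F₀ : Subfield F) {q₀ k : ℕ} (hn : 1 ≤ n) (hF₀ : Nat.card F₀ = q₀)
    (hqk : Fintype.card F = q₀ ^ k) (hk : k.Prime) {r : ℕ} [hr : Fact r.Prime] (hrq : ¬ r ∣ q₀)
    (h : r ∣ ((Cfsg.Geo.subfieldSubgroup F₀ 1).comap
      (Matrix.SpecialLinearGroup.toGL : Matrix.SpecialLinearGroup (Fin n) F →* GL (Fin n) F)).index) :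
    r = k ∨ ∃ j, 2 ≤ j ∧ j ≤ n ∧ (Fintype.card F : ZMod r) ^ j = 1 ∧ (q₀ : ZMod r) ^ j ≠ 1 := by
  classical
  haveI := Fintype.ofFinite F₀
  rw [Nat.card_eq_fintype_card] at hF₀
  have hq0 : 1 < q₀ := hF₀ ▸ Fintype.one_lt_card
  let ι : Matrix.SpecialLinearGroup (Fin n) F₀ →* Matrix.SpecialLinearGroup (Fin n) F :=
    Matrix.SpecialLinearGroup.map (F₀.subtype : F₀ →+* F)
  have hι : Function.Injective ι := fun a b h => by
    ext i j
    exact congrFun (congrFun (congrArg Subtype.val h) i) j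
  have hle : ι.range ≤ (Cfsg.Geo.subfieldSubgroup F₀ 1).comap
      (Matrix.SpecialLinearGroup.toGL : Matrix.SpecialLinearGroup (Fin n) F →* GL (Fin n) F) := by
    rintro _ ⟨g, rfl⟩
    exact mem_subfield _ (Matrix.SpecialLinearGroup.toGL g) 1 (by rw [Units.val_one, one_smul]; rfl)
  replace h := h.trans (Subgroup.index_dvd_of_le hle)
  have h1 : Nat.card (Matrix.SpecialLinearGroup (Fin n) F₀) * ι.range.index =
      Nat.card (Matrix.SpecialLinearGroup (Fin n) F) := by
    rw [← ι.range.card_mul_index, Nat.card_congr (MonoidHom.ofInjective hι).toEquiv]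
  have hgl : ∀ (K : Type _) [Field K] [Fintype K], Nat.card (Matrix.SpecialLinearGroup (Fin n) K) * (Fintype.card K - 1) =
      Fintype.card K ^ (∑ j ∈ Finset.range n, j) * gq (Fintype.card K) n := by
    intro K _ _
    rw [CfsgLib.SL2.card_SL_mul n hn, Matrix.card_GL_field,
      Fin.prod_univ_eq_prod_range (fun i => Fintype.card K ^ n - Fintype.card K ^ i) n]
    have h2 := nq_mul (Fintype.card K) n n le_rfl
    rw [Nat.sub_self, show gq (Fintype.card K) 0 = 1 from Finset.prod_range_zero _, mul_one] at h2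
    exact h2
  obtain ⟨S, hS⟩ : ∃ S : ℕ → ℕ, ∀ a, S a = ∑ l ∈ Finset.range k, (q₀ ^ a) ^ l := ⟨_, fun _ => rfl⟩
  have hfac : ∀ a, Fintype.card F ^ a - 1 = S a * (q₀ ^ a - 1) := fun a => by
    rw [hS, geom_sum_mul_of_one_le (Nat.one_le_pow _ _ (by omega)), hqk, ← pow_mul, ← pow_mul, mul_comm a]
  obtain ⟨t, rfl⟩ : ∃ t, n = t + 1 := ⟨n - 1, by omega⟩
  have hg : gq (Fintype.card F) (t + 1) = gq q₀ (t + 1) * ((∏ i ∈ Finset.range t, S (i + 2)) * S 1) := by
    unfold gq
    rw [Finset.prod_congr rfl (fun i _ => hfac (i + 1)), Finset.prod_mul_distrib,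
      Finset.prod_range_succ' (fun i => S (i + 1))]
    ring
  have e := hgl F
  have e0 := hgl F₀
  rw [hg, ← h1, show Fintype.card F - 1 = S 1 * (q₀ - 1) by simpa using hfac 1] at e
  rw [hF₀] at e0
  have hpos : 0 < gq q₀ (t + 1) * S 1 := by
    refine Nat.mul_pos (gq_pos hq0 _) ?_
    rw [hS]
    exact Finset.sum_pos (fun l _ => by positivity) (Finset.nonempty_range_iff.mpr hk.ne_zero)
  have h3 : q₀ ^ (∑ j ∈ Finset.range (t + 1), j) * ι.range.index =
      Fintype.card F ^ (∑ j ∈ Finset.range (t + 1), j) * ∏ i ∈ Finset.range t, S (i + 2) := by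
    apply Nat.eq_of_mul_eq_mul_left hpos
    calc gq q₀ (t + 1) * S 1 * (q₀ ^ (∑ j ∈ Finset.range (t + 1), j) * ι.range.index)
        = q₀ ^ (∑ j ∈ Finset.range (t + 1), j) * gq q₀ (t + 1) * ι.range.index * S 1 := by ring
      _ = Nat.card (Matrix.SpecialLinearGroup (Fin (t + 1)) F₀) * ι.range.index * (S 1 * (q₀ - 1)) := by rw [← e0]; ring
      _ = _ := by rw [e]; ring
  have h4 : r ∣ Fintype.card F ^ (∑ j ∈ Finset.range (t + 1), j) * ∏ i ∈ Finset.range t, S (i + 2) :=
    h3 ▸ dvd_mul_of_dvd_right h _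
  have h5 := (hr.out.dvd_mul.mp h4).resolve_left fun h' => hrq (hr.out.dvd_of_dvd_pow (hqk ▸ hr.out.dvd_of_dvd_pow h'))
  obtain ⟨i, hi, hd⟩ := hr.out.prime.dvd_finsetProd_iff _ |>.mp h5
  rw [Finset.mem_range] at hi
  rw [← ZMod.natCast_eq_zero_iff, hS, Nat.cast_sum] at hd
  simp only [Nat.cast_pow] at hd
  by_cases h6 : (q₀ : ZMod r) ^ (i + 2) = 1
  · rw [h6] at hd
    simp only [one_pow, Finset.sum_const, Finset.card_range, nsmul_eq_mul, mul_one] at hd
    exact Or.inl ((Nat.prime_dvd_prime_iff_eq hr.out hk).mp ((ZMod.natCast_eq_zero_iff _ _).mp hd))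
  · refine Or.inr ⟨i + 2, by omega, by omega, ?_, h6⟩
    have h7 := geom_sum_mul ((q₀ : ZMod r) ^ (i + 2)) k
    rw [hd, zero_mul] at h7
    rw [hqk, Nat.cast_pow, ← pow_mul, mul_comm k, pow_mul]
    exact sub_eq_zero.mp h7.symm

variable {p r : ℕ} [Fact p.Prime] [CharP F p] [hr : Fact r.Prime]

/-- A semisimple element with invariant characteristic polynomial is conjugate to a matrix over the subfield. -/
theorem descend (F₀ : Subfield F) {q₀ f₀ : ℕ} (hF₀ : Nat.card F₀ = q₀) (hpf : q₀ = p ^ f₀) (hn : 0 < n) (hrp : r ≠ p)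
    {M : Matrix (Fin n) (Fin n) F} (hM : M ^ r = 1)
    (hinv : M.charpoly.map (iterateFrobenius F p f₀) = M.charpoly) :
    ∃ (h : GL (Fin n) F₀) (P : Matrix (Fin n) (Fin n) F), P.det = 1 ∧
      M * P = P * (h : Matrix (Fin n) (Fin n) F₀).map (F₀.subtype : F₀ →+* F) := by
  classical
  haveI := Fintype.ofFinite F₀
  haveI : CharP F₀ p := (RingHom.charP_iff (F₀.subtype : F₀ →+* F) Subtype.val_injective p).mpr inferInstance
  rw [Nat.card_eq_fintype_card] at hF₀
  obtain ⟨P, hPf, hfin, hζ⟩ := exists_root_field F hr.out (r_ne_zero hrp)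
  have := hPf
  have := hfin
  let L := AdjoinRoot P
  letI : Algebra F₀ L := ((algebraMap F L).comp (F₀.subtype : F₀ →+* F)).toAlgebra
  have hf : ∀ x : ZMod r, mult (AdjoinRoot.root P) M (x * (Fintype.card F₀ : ZMod r)) = mult (AdjoinRoot.root P) M x := by
    intro x
    have hmap : mult (r := r) (AdjoinRoot.root P) (M.map (iterateFrobenius F p f₀)) = mult (AdjoinRoot.root P) M :=
      mult_of_charpoly (by rw [Matrix.charpoly_map, hinv])
    rw [hF₀, hpf, ← congrFun hmap, mult_map hζ hrp (iterateFrobenius F p f₀) f₀ (iterateFrobenius_def p f₀) M x]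
  obtain ⟨g, hg, hgm⟩ := exists_of_mult (F := F₀) (p := p) hζ hrp (fun x => mult (AdjoinRoot.root P) M x) hf (n := n)
    ((sum_mult hζ hM).trans (Fintype.card_fin n))
  obtain ⟨Y, hY⟩ : ∃ Y, Y = (F₀.subtype : F₀ →+* F).mapMatrix (g : Matrix (Fin n) (Fin n) F₀) := ⟨_, rfl⟩
  have hYr : Y ^ r = 1 := by rw [hY, ← map_pow, ← Units.val_pow_eq_pow_val, hg, Units.val_one, map_one]
  have hcp : M.charpoly = Y.charpoly := by
    refine charpoly_eq_of_mult hζ hM hYr fun x => ?_
    rw [← hgm x, mult, mult, hY, RingHom.mapMatrix_apply, Matrix.charpoly_map, Polynomial.map_map]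
    rfl
  obtain ⟨P', hP', hMP⟩ := conj_core hn (r_ne_zero hrp) hM hYr hcp
  exact ⟨g, P', hP', by rw [hMP, hY]; rfl⟩

end CfsgLib.SubElusive
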