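import Mathlib
import Cfsg.Agent.H29.SemisimpleCount
import Cfsg.Prelude.Def_GeometricClasses

/-!
Elements of prime order `n` in dimension `n` and normalisers of field subalgebras of degree `n`.
-/

set_option autoImplicit false
set_option linter.style.haveILetI false

namespace CfsgLib.SubElusive

open Polynomial
open scoped Matrix

variable {F : Type*} [Field F] {n : ℕ}

local notation "Mat" => Matrix (Fin n) (Fin n) F

variable {K : Subalgebra F (Matrix (Fin n) (Fin n) F)}

theorem fieldSub_isField (hn : 0 < n) (hK : Cfsg.Geo.IsFieldSubalgebra n K) : IsField K := by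
  haveI : Nonempty (Fin n) := ⟨⟨0, hn⟩⟩
  refine ⟨⟨0, 1, fun h => ?_⟩, fun a b => Subtype.ext (hK.comm _ a.2 _ b.2), fun {a} ha => ?_⟩
  · have := congrArg Subtype.val h
    simp at this
  · obtain ⟨y, hy, hy'⟩ := hK.inv a.1 a.2 fun h => ha (Subtype.ext h)
    exact ⟨⟨y, hy⟩, Subtype.ext hy'⟩

theorem fieldSub_apply_eq_zero (hK : Cfsg.Geo.IsFieldSubalgebra n K) {k : Mat} (hk : k ∈ K) {v : Fin n → F} (hv : v ≠ 0)
    (h : k *ᵥ v = 0) : k = 0 := by
  by_contra h0
  obtain ⟨y, hy, hy'⟩ := hK.inv k hk h0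
  rw [hK.comm _ hk _ hy] at hy'
  exact hv (by rw [← Matrix.one_mulVec v, ← hy', ← Matrix.mulVec_mulVec, h, Matrix.mulVec_zero])

/-- The orbit map of a non-zero vector. -/
theorem exists_orbit (hK : Cfsg.Geo.IsFieldSubalgebra n K) {v : Fin n → F} (hv : v ≠ 0) :
    ∃ e : K ≃ₗ[F] (Fin n → F), ∀ k : K, e k = (k : Mat) *ᵥ v := by
  let φ : K →ₗ[F] (Fin n → F) :=
    { toFun := fun k => (k : Mat) *ᵥ v
      map_add' := fun a b => Matrix.add_mulVec (a : Mat) (b : Mat) v
      map_smul' := fun a b => Matrix.smul_mulVec a (b : Mat) v }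
  have hinj : Function.Injective φ := (injective_iff_map_eq_zero φ).mpr fun k hk =>
    Subtype.ext (fieldSub_apply_eq_zero hK k.2 hv hk)
  exact ⟨LinearEquiv.ofInjectiveOfFinrankEq φ hinj (by rw [hK.finrank_eq, Module.finrank_fin_fun]), fun k => rfl⟩

/-- A normalising element with two independent eigenvectors for one eigenvalue is scalar. -/
theorem scalar_of_two_eigen (hn : n.Prime) (hK : Cfsg.Geo.IsFieldSubalgebra n K) (g : GL (Fin n) F)
    (hg : g ∈ Cfsg.Geo.subalgebraNormalizer K) {t : F} {v w : Fin n → F} (hv : v ≠ 0)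
    (hgv : (g : Mat) *ᵥ v = t • v) (hgw : (g : Mat) *ᵥ w = t • w) (hind : ∀ a : F, w ≠ a • v) :
    (g : Mat) = t • (1 : Mat) := by
  classical
  letI : Field K := (fieldSub_isField hn.pos hK).toField
  haveI : Finite (Fin n) := inferInstance
  haveI : FiniteDimensional F K := Module.finite_of_finrank_pos (by rw [hK.finrank_eq]; exact hn.pos)
  have ht : t ≠ 0 := fun h0 => hv (by
    rw [← Matrix.one_mulVec v, ← Units.val_one, ← inv_mul_cancel g, Units.val_mul, ← Matrix.mulVec_mulVec, hgv, h0,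
      zero_smul, Matrix.mulVec_zero])
  obtain ⟨e, he⟩ := exists_orbit hK hv
  obtain ⟨k, hk⟩ := e.surjective w
  rw [he] at hk
  have hcomm : (g : Mat) * (k : Mat) = (k : Mat) * (g : Mat) := by
    have hk' := (hg (k : Mat)).mp k.2
    obtain ⟨k', hk'def⟩ : ∃ k', k' = (g : Mat) * (k : Mat) * ((g⁻¹ : GL (Fin n) F) : Mat) := ⟨_, rfl⟩
    rw [← hk'def] at hk'
    have h1 : k' * (g : Mat) = (g : Mat) * (k : Mat) := by
      rw [hk'def, Matrix.mul_assoc, ← Units.val_mul, inv_mul_cancel, Units.val_one, Matrix.mul_one]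
    have h2 : k' - (k : Mat) = 0 := fieldSub_apply_eq_zero hK (K.sub_mem hk' k.2) hv (by
      refine (smul_eq_zero.mp (?_ : t • ((k' - (k : Mat)) *ᵥ v) = 0)).resolve_left ht
      rw [← Matrix.mulVec_smul, Matrix.sub_mulVec, ← hgv, Matrix.mulVec_mulVec, h1, ← Matrix.mulVec_mulVec, hk, hgw, hgv,
        Matrix.mulVec_smul, hk, sub_self])
    rw [← h1, sub_eq_zero.mp h2]
  let S : Subalgebra F K := (Subalgebra.centralizer F {(g : Mat)}).comap K.val
  have hmemS : ∀ x : K, x ∈ S ↔ (g : Mat) * (x : Mat) = (x : Mat) * (g : Mat) := fun x => by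
    simp only [S, Subalgebra.mem_comap, Subalgebra.mem_centralizer_iff, Set.mem_singleton_iff, forall_eq]
    rfl
  let S' : IntermediateField F K :=
    S.toIntermediateField fun x hx => S.inv_mem_of_algebraic (x := ⟨x, hx⟩) (Algebra.IsAlgebraic.isAlgebraic _)
  haveI : IsSimpleOrder (IntermediateField F K) :=
    IntermediateField.isSimpleOrder_of_finrank_prime F K (by rw [hK.finrank_eq]; exact hn)
  rcases eq_bot_or_eq_top S' with hS | hS
  · exfalso
    have : k ∈ (⊥ : IntermediateField F K) := by rw [← hS]; exact (hmemS k).mpr hcomm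
    obtain ⟨a, ha⟩ := IntermediateField.mem_bot.mp this
    refine hind a ?_
    rw [← hk, ← ha]
    show ((algebraMap F K a : K) : Mat) *ᵥ v = _
    rw [Subalgebra.coe_algebraMap, Algebra.algebraMap_eq_smul_one, Matrix.smul_mulVec, Matrix.one_mulVec]
  · refine Matrix.ext_of_mulVec_single fun j => ?_
    obtain ⟨x, hx⟩ := e.surjective (Pi.single j 1)
    have hxS : x ∈ S' := by rw [hS]; trivial
    rw [← hx, he, Matrix.mulVec_mulVec, (hmemS x).mp hxS, ← Matrix.mulVec_mulVec, hgv, Matrix.mulVec_smul,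
      Matrix.smul_mulVec, Matrix.one_mulVec]

/-- No conjugate of a non-scalar element with a repeated eigenvector normalises a field of prime degree `n`. -/
theorem singer_no_fix (hn : n.Prime) (hK : Cfsg.Geo.IsFieldSubalgebra n K) (x P : Matrix.SpecialLinearGroup (Fin n) F)
    {t : F} {v w : Fin n → F} (hv : v ≠ 0) (hxv : (x : Mat) *ᵥ v = t • v) (hxw : (x : Mat) *ᵥ w = t • w)
    (hind : ∀ a : F, w ≠ a • v) (hx : ∀ z : F, (x : Mat) ≠ z • (1 : Mat)) :
    P⁻¹ * x * P ∉ ((Cfsg.Geo.subalgebraNormalizer K).comap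
      (Matrix.SpecialLinearGroup.toGL : Matrix.SpecialLinearGroup (Fin n) F →* GL (Fin n) F)) := by
  intro h
  obtain ⟨g, hg⟩ : ∃ g : GL (Fin n) F, g = Matrix.SpecialLinearGroup.toGL (P⁻¹ * x * P) := ⟨_, rfl⟩
  obtain ⟨R, hR⟩ : ∃ R, R = ((P⁻¹ : Matrix.SpecialLinearGroup (Fin n) F) : Mat) := ⟨_, rfl⟩
  have hPR : (P : Mat) * R = 1 := by
    rw [hR, ← Matrix.SpecialLinearGroup.coe_mul, mul_inv_cancel, Matrix.SpecialLinearGroup.coe_one]
  have hgR : (g : Mat) = R * (x : Mat) * (P : Mat) := by rw [hg, hR]; rfl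
  have hev : ∀ u : Fin n → F, (x : Mat) *ᵥ u = t • u → (g : Mat) *ᵥ (R *ᵥ u) = t • (R *ᵥ u) := fun u hu => by
    rw [hgR, Matrix.mulVec_mulVec, Matrix.mul_assoc _ _ R, hPR, Matrix.mul_one, ← Matrix.mulVec_mulVec, hu,
      Matrix.mulVec_smul]
  have hback : ∀ u : Fin n → F, (P : Mat) *ᵥ (R *ᵥ u) = u := fun u => by
    rw [Matrix.mulVec_mulVec, hPR, Matrix.one_mulVec]
  have hs := scalar_of_two_eigen hn hK g (by rw [hg]; exact h) (v := R *ᵥ v) (w := R *ᵥ w)
    (fun h0 => hv (by rw [← hback v, h0, Matrix.mulVec_zero])) (hev v hxv) (hev w hxw)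
    fun a ha => hind a (by rw [← hback w, ha, Matrix.mulVec_smul, hback])
  refine hx t ?_
  calc (x : Mat) = ((P : Mat) * R) * (x : Mat) * ((P : Mat) * R) := by rw [hPR, Matrix.one_mul, Matrix.mul_one]
    _ = (P : Mat) * (g : Mat) * R := by rw [hgR]; simp only [Matrix.mul_assoc]
    _ = t • (1 : Mat) := by rw [hs, Matrix.mul_smul, Matrix.mul_one, Matrix.smul_mul, hPR]

theorem eq_pow_sub_one {Y : Mat} (hn : 0 < n) (hY : Y ^ n = 1)
    (hind : ∀ R : F[X], R.natDegree < n → aeval Y R = 0 → R = 0) : Y.charpoly = X ^ n - 1 := by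
  have hd : (Y.charpoly - (X ^ n - 1)).natDegree < n := by
    have hm := Matrix.charpoly_monic Y
    have h1 : Y.charpoly.degree = (X ^ n - 1 : F[X]).degree := by
      rw [Matrix.charpoly_degree_eq_dim, Fintype.card_fin, ← C_1, degree_X_pow_sub_C hn]
    by_cases h0 : Y.charpoly - (X ^ n - 1) = 0
    · rw [h0, natDegree_zero]; exact hn
    have h2 := degree_sub_lt h1 hm.ne_zero (by rw [hm, ← C_1, leadingCoeff_X_pow_sub_C hn])
    rw [Matrix.charpoly_degree_eq_dim, Fintype.card_fin] at h2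
    exact (natDegree_lt_iff_degree_lt h0).mpr h2
  refine sub_eq_zero.mp (hind _ hd ?_)
  rw [map_sub, Matrix.aeval_self_charpoly, map_sub, map_pow, aeval_X, map_one, hY, sub_self, sub_self]

/-- The normaliser contains a Galois element with characteristic polynomial `X ^ n - 1`. -/
theorem exists_galois [Fintype F] (hn : n.Prime) (hK : Cfsg.Geo.IsFieldSubalgebra n K) :
    ∃ Y : GL (Fin n) F, Y ∈ Cfsg.Geo.subalgebraNormalizer K ∧ (Y : Mat) ^ n = 1 ∧ (Y : Mat).charpoly = X ^ n - 1 := by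
  classical
  haveI : Nonempty (Fin n) := ⟨⟨0, hn.pos⟩⟩
  letI : Field K := (fieldSub_isField hn.pos hK).toField
  haveI : FiniteDimensional F K := Module.finite_of_finrank_pos (by rw [hK.finrank_eq]; exact hn.pos)
  haveI : Finite K := Module.finite_of_finite F
  obtain ⟨σ, hσdef⟩ : ∃ σ, σ = FiniteField.frobeniusAlgEquivOfAlgebraic F K := ⟨_, rfl⟩
  have hord : orderOf σ = n := by rw [hσdef, FiniteField.orderOf_frobeniusAlgEquivOfAlgebraic, hK.finrank_eq]
  obtain ⟨e, he⟩ := exists_orbit hK (v := Pi.single ⟨0, hn.pos⟩ 1) (by simp)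
  obtain ⟨Y, hYdef⟩ : ∃ Y, Y = LinearMap.toMatrix' ((e : K →ₗ[F] (Fin n → F)) ∘ₗ σ.toLinearMap ∘ₗ
    (e.symm : (Fin n → F) →ₗ[F] K)) := ⟨_, rfl⟩
  have hY : ∀ x : K, Y *ᵥ e x = e (σ x) := fun x => by
    rw [hYdef, LinearMap.toMatrix'_mulVec]
    simp
  have hYj : ∀ (j : ℕ) (x : K), (Y ^ j) *ᵥ e x = e ((σ ^ j) x) := by
    intro j
    induction j with
    | zero => intro x; simp
    | succ j ih =>
      intro x
      rw [pow_succ, ← Matrix.mulVec_mulVec, hY, ih, pow_succ, AlgEquiv.mul_apply]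
  have hYn : Y ^ n = 1 := by
    refine Matrix.ext_of_mulVec_single fun j => ?_
    obtain ⟨x, hx⟩ := e.surjective (Pi.single j 1)
    have h1 : σ ^ n = 1 := orderOf_dvd_iff_pow_eq_one.mp (dvd_of_eq hord)
    rw [← hx, hYj, Matrix.one_mulVec, h1]
    rfl
  obtain ⟨g, hg⟩ : IsUnit Y := IsUnit.of_pow_eq_one hYn hn.ne_zero
  refine ⟨g, ?_, by rw [hg, hYn], ?_⟩
  · have hmul : ∀ k : K, Y * (k : Mat) = ((σ k : K) : Mat) * Y := by
      intro k
      refine Matrix.ext_of_mulVec_single fun j => ?_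
      obtain ⟨x, hx⟩ := e.surjective (Pi.single j 1)
      have hkx : ∀ a b : K, (a : Mat) *ᵥ e b = e (a * b) := fun a b => by
        rw [he, he, Matrix.mulVec_mulVec]; rfl
      rw [← hx, ← Matrix.mulVec_mulVec, ← Matrix.mulVec_mulVec, hkx, hY, hY, hkx, map_mul]
    have hconj : ∀ k : K, (g : Mat) * (k : Mat) * ((g⁻¹ : GL (Fin n) F) : Mat) = ((σ k : K) : Mat) := fun k => by
      rw [hg, hmul, ← hg, Matrix.mul_assoc, ← Units.val_mul, mul_inv_cancel, Units.val_one, Matrix.mul_one]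
    intro k
    constructor
    · intro hk
      rw [hconj ⟨k, hk⟩]
      exact SetLike.coe_mem _
    · intro hk
      obtain ⟨k', hk'⟩ := σ.surjective ⟨_, hk⟩
      have h1 := hconj k'
      rw [hk', Units.mul_left_inj, Units.mul_right_inj] at h1
      rw [← h1]
      exact k'.2
  · rw [hg]
    refine eq_pow_sub_one hn.pos hYn fun R hR h0 => ?_
    have key : ∀ x : K, ∑ i ∈ Finset.range n, R.coeff i • (σ ^ i) x = 0 := fun x => by
      apply e.injective
      rw [map_zero, map_sum]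
      simp only [map_smul, ← hYj, ← Matrix.smul_mulVec, ← Matrix.sum_mulVec, ← aeval_eq_sum_range' hR, h0,
        Matrix.zero_mulVec]
    let χ : Fin n → (K →* K) := fun i => ((σ ^ (i : ℕ) : K ≃ₐ[F] K) : K →* K)
    have hinj : Function.Injective χ := fun i j h => by
      have : σ ^ (i : ℕ) = σ ^ (j : ℕ) := AlgEquiv.ext fun x => DFunLike.congr_fun h x
      exact Fin.ext (pow_injOn_Iio_orderOf (by simp [hord]) (by simp [hord]) this)
    have hli := (linearIndependent_monoidHom K K).comp χ hinj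
    have hz := Fintype.linearIndependent_iff.mp hli (fun i => algebraMap F K (R.coeff i)) (by
      funext x
      rw [Finset.sum_apply, Pi.zero_apply, ← key x, ← Fin.sum_univ_eq_sum_range]
      refine Finset.sum_congr rfl fun i _ => ?_
      rw [Pi.smul_apply, smul_eq_mul, Algebra.smul_def]
      rfl)
    refine Polynomial.ext fun i => ?_
    rw [coeff_zero]
    by_cases hi : i < n
    · exact (algebraMap F K).injective ((hz ⟨i, hi⟩).trans (map_zero _).symm)
    · exact coeff_eq_zero_of_natDegree_lt (lt_of_lt_of_le hR (not_lt.mp hi))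

/-- An element with characteristic polynomial `X ^ n - 1` is conjugate by a matrix of determinant one into the normaliser. -/
theorem singer_conj [Fintype F] (hn : n.Prime) (hnF : (n : F) ≠ 0) (hK : Cfsg.Geo.IsFieldSubalgebra n K)
    (x : Matrix.SpecialLinearGroup (Fin n) F) (hx : (x : Mat) ^ n = 1) (hc : (x : Mat).charpoly = X ^ n - 1) :
    ∃ P : Matrix.SpecialLinearGroup (Fin n) F, P⁻¹ * x * P ∈ ((Cfsg.Geo.subalgebraNormalizer K).comap
      (Matrix.SpecialLinearGroup.toGL : Matrix.SpecialLinearGroup (Fin n) F →* GL (Fin n) F)) := by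
  classical
  obtain ⟨Y, hY, hYn, hYc⟩ := exists_galois hn hK
  have hord : ∀ Z : Mat, Z ^ n = 1 → (Matrix.toLinAlgEquiv' Z) ^ n = 1 := fun Z hZ => by rw [← map_pow, hZ, map_one]
  obtain ⟨E, hE⟩ := Cfsg.Agent.H29.Semisimple.similar n (Matrix.toLinAlgEquiv' (Y : Mat))
    (Matrix.toLinAlgEquiv' (x : Mat)) hnF (hord _ hYn) (hord _ hx) (Module.finrank_fin_fun F) (by
      show LinearMap.charpoly (Matrix.toLin' (Y : Mat)) = LinearMap.charpoly (Matrix.toLin' (x : Mat))
      rw [Matrix.charpoly_toLin', Matrix.charpoly_toLin', hYc, hc])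
  obtain ⟨Q, hQdef⟩ : ∃ Q, Q = LinearMap.toMatrix' (E : (Fin n → F) →ₗ[F] (Fin n → F)) := ⟨_, rfl⟩
  have hQ : ∀ v, Q *ᵥ v = E v := fun v => by rw [hQdef, LinearMap.toMatrix'_mulVec]; rfl
  have hQu : IsUnit Q.det := by rw [hQdef, LinearMap.det_toMatrix']; exact LinearEquiv.isUnit_det' E
  have hxQ : (x : Mat) * Q = Q * (Y : Mat) := Matrix.ext_of_mulVec_single fun j => by
    rw [← Matrix.mulVec_mulVec, ← Matrix.mulVec_mulVec, hQ, hQ, ← Matrix.toLinAlgEquiv'_apply, ← hE,
      Matrix.toLinAlgEquiv'_apply]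
  obtain ⟨C, hC, hCdet⟩ := Cfsg.Agent.H29.Semisimple.exists_commute_det (Matrix.toLinAlgEquiv' (Y : Mat)) hnF
    (hord _ hYn) (by rw [Module.finrank_fin_fun]; exact hn.pos) (inv_ne_zero hQu.ne_zero)
  have hCY : LinearMap.toMatrix' C * (Y : Mat) = (Y : Mat) * LinearMap.toMatrix' C := by
    apply Matrix.toLinAlgEquiv'.injective
    rw [map_mul, map_mul, show Matrix.toLinAlgEquiv' (LinearMap.toMatrix' C) = C from Matrix.toLin'_toMatrix' C]
    exact hC
  have hdet : (Q * LinearMap.toMatrix' C).det = 1 := by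
    rw [Matrix.det_mul, LinearMap.det_toMatrix', hCdet, mul_inv_cancel₀ hQu.ne_zero]
  obtain ⟨P, hP⟩ : ∃ P : Matrix.SpecialLinearGroup (Fin n) F, P = ⟨Q * LinearMap.toMatrix' C, hdet⟩ := ⟨_, rfl⟩
  refine ⟨P, ?_⟩
  show Matrix.SpecialLinearGroup.toGL (P⁻¹ * x * P) ∈ Cfsg.Geo.subalgebraNormalizer K
  rw [show Matrix.SpecialLinearGroup.toGL (P⁻¹ * x * P) = Y from Units.ext ?_]
  · exact hY
  show ((P⁻¹ * x * P : Matrix.SpecialLinearGroup (Fin n) F) : Mat) = (Y : Mat)
  have hP' : (P : Mat) = Q * LinearMap.toMatrix' C := by rw [hP]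
  rw [Matrix.SpecialLinearGroup.coe_mul, Matrix.SpecialLinearGroup.coe_mul, Matrix.mul_assoc, hP', ← Matrix.mul_assoc _ Q,
    hxQ, Matrix.mul_assoc Q, ← hCY, ← Matrix.mul_assoc Q, ← hP', ← Matrix.mul_assoc, ← Matrix.SpecialLinearGroup.coe_mul,
    inv_mul_cancel, Matrix.SpecialLinearGroup.coe_one, Matrix.one_mul]

/-- In maximal order every element of order `n` has characteristic polynomial `X ^ n - 1`. -/
theorem singer_max [Fintype F] {p : ℕ} [Fact p.Prime] [CharP F p] [Fact n.Prime] (hnp : n ≠ p) (hn2 : n ≠ 2)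
    (hi : orderOf (Fintype.card F : ZMod n) = n - 1) (x : Matrix.SpecialLinearGroup (Fin n) F) {c : F}
    (hx : (x : Mat) ^ n = c • (1 : Mat)) (hx' : ∀ z : F, (x : Mat) ≠ z • (1 : Mat)) :
    (x : Mat) ^ n = 1 ∧ (x : Mat).charpoly = X ^ n - 1 := by
  classical
  have hn := (Fact.out : n.Prime)
  haveI : Nonempty (Fin n) := ⟨⟨0, hn.pos⟩⟩
  have hcop : (Nat.card Fˣ).Coprime n := by
    refine (hn.coprime_iff_not_dvd.mpr fun hdvd => ?_).symm
    rw [Nat.card_units, Nat.card_eq_fintype_card] at hdvd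
    have h1 : (Fintype.card F : ZMod n) = 1 := by
      have h0 : ((Fintype.card F - 1 : ℕ) : ZMod n) = 0 := (ZMod.natCast_eq_zero_iff _ _).mpr hdvd
      rwa [Nat.cast_sub Fintype.card_pos, Nat.cast_one, sub_eq_zero] at h0
    rw [h1, orderOf_one] at hi
    have := hn.two_le
    omega
  have huniq : ∀ t : F, t ^ n = 1 → t = 1 := by
    intro t ht
    have ht0 : t ≠ 0 := fun h0 => by rw [h0, zero_pow hn.ne_zero] at ht; exact zero_ne_one ht
    have : orderOf (Units.mk0 t ht0) = 1 := Nat.eq_one_of_dvd_coprimes hcop (orderOf_dvd_natCard _)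
      (orderOf_dvd_of_pow_eq_one (Units.ext (by simpa using ht)))
    simpa [orderOf_eq_one_iff, Units.ext_iff] using this
  have hc : c = 1 := huniq c (by
    have := congrArg Matrix.det hx
    rw [Matrix.det_pow, x.det_coe, one_pow, Matrix.det_smul, Matrix.det_one, mul_one, Fintype.card_fin] at this
    exact this.symm)
  subst hc
  rw [one_smul] at hx
  refine ⟨hx, ?_⟩
  obtain ⟨f, hfp, hf⟩ := FiniteField.card F p
  obtain ⟨P, hPi, hPd⟩ : ∃ P : F[X], Irreducible P ∧ P ∣ cyclotomic n F :=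
    WfDvdMonoid.exists_irreducible_factor (not_isUnit_of_natDegree_pos _ (by
      rw [natDegree_cyclotomic, Nat.totient_prime hn]; have := hn.two_le; omega)) (cyclotomic_ne_zero n F)
  have hdeg := natDegree_of_dvd_cyclotomic_of_irreducible (p := p) (n := n) (f := f)
    (K := F) hf ((Nat.coprime_primes (Fact.out : p.Prime) hn).mpr hnp.symm) hPd hPi
  rw [← orderOf_units, ZMod.coe_unitOfCoprime, ← hf, hi] at hdeg
  have hΦ : Irreducible (cyclotomic n F) := by
    refine (associated_of_dvd_of_natDegree_le hPd (cyclotomic_ne_zero n F) ?_).irreducible hPi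
    rw [hdeg, natDegree_cyclotomic, Nat.totient_prime hn]
  have hmul : cyclotomic n F * (X - 1) = X ^ n - 1 := cyclotomic_prime_mul_X_sub_one F n
  have hzero : aeval (x : Mat) (cyclotomic n F * (X - 1)) = 0 := by
    rw [hmul, map_sub, map_pow, aeval_X, map_one, hx, sub_self]
  have hdvd : cyclotomic n F ∣ (x : Mat).charpoly := by
    refine dvd_trans ?_ (Matrix.minpoly_dvd_charpoly _)
    by_contra hne
    have h1 : minpoly F (x : Mat) ∣ X - 1 :=
      ((hΦ.coprime_iff_not_dvd.mpr hne).symm).dvd_of_dvd_mul_left (minpoly.dvd F _ hzero)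
    obtain ⟨R, hR⟩ := h1
    have h2 := congrArg (aeval (x : Mat)) hR
    rw [map_sub, aeval_X, map_one, map_mul, minpoly.aeval, zero_mul, sub_eq_zero] at h2
    exact hx' 1 (by rw [one_smul, h2])
  obtain ⟨R, hR⟩ := hdvd
  have hR0 : R ≠ 0 := fun h0 => (Matrix.charpoly_monic (x : Mat)).ne_zero (by rw [hR, h0, mul_zero])
  have hRd : R.natDegree = 1 := by
    have := congrArg natDegree hR
    rw [natDegree_mul (cyclotomic_ne_zero n F) hR0, Matrix.charpoly_natDegree_eq_dim, Fintype.card_fin,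
      natDegree_cyclotomic, Nat.totient_prime hn] at this
    have := hn.two_le
    omega
  have hRm : R.Monic := (cyclotomic.monic n F).of_mul_monic_left (hR ▸ Matrix.charpoly_monic _)
  obtain ⟨t, ht⟩ : ∃ t, R = X - C t := ⟨-R.coeff 0, by
    conv_lhs => rw [eq_X_add_C_of_natDegree_le_one hRd.le, show R.coeff 1 = 1 by rw [← hRd]; exact hRm]
    simp⟩
  have ht1 : t = 1 := by
    refine huniq t ?_
    have hev : (Matrix.scalar (Fin n) t - (x : Mat)).det = 0 := by
      rw [← Matrix.eval_charpoly, hR, ht]; simp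
    obtain ⟨v, hv, hv'⟩ := Matrix.exists_mulVec_eq_zero_iff.mpr hev
    rw [Matrix.sub_mulVec, sub_eq_zero, Matrix.scalar_apply, ← Matrix.smul_one_eq_diagonal, Matrix.smul_mulVec,
      Matrix.one_mulVec] at hv'
    have hpow : ∀ j : ℕ, ((x : Mat) ^ j) *ᵥ v = t ^ j • v := by
      intro j
      induction j with
      | zero => simp
      | succ j ih => rw [pow_succ', ← Matrix.mulVec_mulVec, ih, Matrix.mulVec_smul, ← hv', smul_smul, pow_succ]
    have h1 := hpow n
    rw [hx, Matrix.one_mulVec] at h1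
    exact smul_left_injective F hv (show t ^ n • v = (1 : F) • v by rw [one_smul]; exact h1.symm)
  rw [hR, ht, ht1, C_1, hmul]

end CfsgLib.SubElusive
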