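import Cfsg.Agent.SubElusive.OrthOddBase
import Cfsg.Agent.Forms.Classify

/-!
Involutive isometries fix nondegenerate subspaces of every type.
-/

set_option autoImplicit false
set_option linter.style.haveILetI false

open Matrix QuadraticMap CfsgLib.Forms CfsgLib.SemiClasses

namespace CfsgLib.OrthOddSub

variable {F : Type*} [Field F] [Fintype F] {ι : Type} [Fintype ι]

/-- Orthogonal families of nonsingular vectors inside a nondegenerate subspace. -/
theorem exists_orth_family (h2 : (2 : F) ≠ 0) {Q : QuadraticForm F (ι → F)} (U : Submodule F (ι → F))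
    (hU : Disjoint U (perp Q U)) (k : ℕ) (hk : k ≤ Module.finrank F U) :
    ∃ w : Fin k → (ι → F), (∀ i, w i ∈ U) ∧ (∀ i j, i ≠ j → polar Q (w i) (w j) = 0) ∧ ∀ i, Q (w i) ≠ 0 := by
  classical
  have hR := nondegenerate_comp_subtype hU
  obtain ⟨b, hb⟩ := orth_basis h2 (Q.comp U.subtype)
  have hne : ∀ i, Q.comp U.subtype (b i) ≠ 0 := fun i h0 => by
    refine b.ne_zero i (polar_ext hR fun y => ?_)
    rw [polar_comm, ← b.sum_repr y, polar_sum_left]
    refine Finset.sum_eq_zero fun j _ => ?_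
    rw [polar_smul_left]
    rcases eq_or_ne j i with rfl | hj
    · rw [polar_self, h0]; simp
    · rw [hb j i hj, smul_zero]
  refine ⟨fun i => (b (Fin.castLE hk i) : ι → F), fun i => (b _).2, fun i j hij => ?_, fun i => hne _⟩
  exact hb _ _ fun h => hij (Fin.castLE_injective hk h)

/-- Orthogonal families with prescribed product of values. -/
theorem exists_orth_family_prod (h2 : (2 : F) ≠ 0) {Q : QuadraticForm F (ι → F)} (U : Submodule F (ι → F))
    (hU : Disjoint U (perp Q U)) (k : ℕ) (hk : k + 1 < Module.finrank F U) {δ : F} (hδ : δ ≠ 0) :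
    ∃ w : Fin (k + 1) → (ι → F), (∀ i, w i ∈ U) ∧ (∀ i j, i ≠ j → polar Q (w i) (w j) = 0) ∧ (∀ i, Q (w i) ≠ 0) ∧
      ∏ i, Q (w i) = δ := by
  classical
  obtain ⟨K, hK⟩ : ∃ K, Module.finrank F U = K + 1 := ⟨Module.finrank F U - 1, by omega⟩
  obtain ⟨b, hb, hb1, hbl⟩ := exists_normal_basis h2 (nondegenerate_comp_subtype hU) hK
  obtain ⟨ix, hix⟩ : ∃ ix : Fin (k + 1) → Fin K, ∀ i, (ix i : ℕ) = i :=
    ⟨fun i => ⟨i, by omega⟩, fun i => rfl⟩
  obtain ⟨e, he⟩ : ∃ e : Fin (K + 1) → (ι → F), ∀ i, e i = (b i : ι → F) := ⟨fun i => (b i : ι → F), fun i => rfl⟩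
  have heo : ∀ i j, i ≠ j → polar Q (e i) (e j) = 0 := fun i j hij => by rw [he, he]; exact hb i j hij
  have he1 : ∀ i : Fin (k + 1), Q (e (ix i).castSucc) = 1 := fun i => by rw [he]; exact hb1 (ix i)
  obtain ⟨dl, hdl⟩ : ∃ dl, dl = Q (e (Fin.last K)) := ⟨_, rfl⟩
  have hdl0 : dl ≠ 0 := by rw [hdl, he]; exact hbl
  obtain ⟨a₁, a₂, ha⟩ := exists_two_squares (one_ne_zero : (1 : F) ≠ 0) hdl0 δ
  obtain ⟨z, hz⟩ : ∃ z, z = a₁ • e (ix (Fin.last k)).castSucc + a₂ • e (Fin.last K) := ⟨_, rfl⟩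
  have hne : ∀ i : Fin K, i.castSucc ≠ Fin.last K := fun i => i.castSucc_ne_last
  have hzQ : Q z = δ := by
    rw [hz, QuadraticMap.map_add (⇑Q), QuadraticMap.map_smul, QuadraticMap.map_smul, polar_smul_left,
      polar_smul_right, heo _ _ (hne _), he1, ← hdl, ← ha]
    simp only [smul_eq_mul, mul_zero, add_zero]
    ring
  have hzo : ∀ i : Fin k, polar Q (e (ix i.castSucc).castSucc) z = 0 := fun i => by
    rw [hz, polar_add_right, polar_smul_right, polar_smul_right, heo _ _ (hne _), heo, smul_zero, smul_zero, add_zero]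
    intro h
    have := congrArg Fin.val h
    simp only [Fin.val_castSucc, hix, Fin.val_last] at this
    omega
  refine ⟨Fin.snoc (fun i => e (ix i.castSucc).castSucc) z, fun i => ?_, fun i j hij => ?_, fun i => ?_, ?_⟩
  · induction i using Fin.lastCases with
    | last =>
      rw [Fin.snoc_last, hz, he, he]
      exact add_mem (U.smul_mem _ (b _).2) (U.smul_mem _ (b _).2)
    | cast i => rw [Fin.snoc_castSucc, he]; exact (b _).2
  · induction i using Fin.lastCases with
    | last =>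
      induction j using Fin.lastCases with
      | last => exact absurd rfl hij
      | cast j => rw [Fin.snoc_last, Fin.snoc_castSucc, polar_comm]; exact hzo j
    | cast i =>
      induction j using Fin.lastCases with
      | last => rw [Fin.snoc_last, Fin.snoc_castSucc]; exact hzo i
      | cast j =>
        rw [Fin.snoc_castSucc, Fin.snoc_castSucc]
        refine heo _ _ fun h => hij ?_
        have := congrArg Fin.val h
        simp only [Fin.val_castSucc, hix] at this
        exact Fin.ext (by simpa using this)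
  · induction i using Fin.lastCases with
    | last => rw [Fin.snoc_last, hzQ]; exact hδ
    | cast i => rw [Fin.snoc_castSucc, he1]; exact one_ne_zero
  · rw [Fin.prod_univ_castSucc, Fin.snoc_last, hzQ, Finset.prod_eq_one fun i _ => by rw [Fin.snoc_castSucc, he1],
      one_mul]

/-- The span of an orthogonal family of nonsingular vectors. -/
theorem sub_of_family (h2 : (2 : F) ≠ 0) {Q : QuadraticForm F (ι → F)} {σ : Type} [Fintype σ] [DecidableEq σ]
    (w : σ → (ι → F)) (hw : ∀ i j, i ≠ j → polar Q (w i) (w j) = 0) (hw0 : ∀ i, Q (w i) ≠ 0) {M : ℕ} (hM : 1 ≤ M)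
    (hσ : Fintype.card σ = 2 * M) :
    SubOK Q (2 * M) (IsSquare ((-1 : F) ^ M * (2 ^ (2 * M) * ∏ i, Q (w i)))) (Submodule.span F (Set.range w)) := by
  obtain ⟨L, hL⟩ : ∃ L : (σ → F) →ₗ[F] (ι → F), L = Fintype.linearCombination F w := ⟨_, rfl⟩
  have hLs : ∀ i, L (Pi.single i 1) = w i := fun i => by
    rw [hL, Fintype.linearCombination_apply_single, one_smul]
  have hLv : ∀ v, L v = ∑ i, v i • w i := fun v => by rw [hL, Fintype.linearCombination_apply]
  have hkey : ∀ v i, polar Q (L v) (w i) = v i * (2 * Q (w i)) := fun v i => by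
    rw [hLv, polar_sum_left, Finset.sum_eq_single i (fun j _ hj => by rw [polar_smul_left, hw j i hj, smul_zero])
      (by simp), polar_smul_left, polar_self, smul_eq_mul, nsmul_eq_mul, Nat.cast_two]
  have hinj : Function.Injective L := (injective_iff_map_eq_zero L).mpr fun v hv => funext fun i => by
    have := hkey v i
    rw [hv, polar_zero_left] at this
    exact (mul_eq_zero.mp this.symm).resolve_right (mul_ne_zero h2 (hw0 i))
  obtain ⟨R, hR⟩ : ∃ R : QuadraticForm F (σ → F), R = Q.comp L := ⟨_, rfl⟩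
  have hRp : ∀ a b, polar R a b = polar Q (L a) (L b) := fun a b => by
    simp only [hR, polar, QuadraticMap.comp_apply, map_add]
  have hRnd : (polarBilin R).Nondegenerate := nondegenerate_iff.mpr fun x hx => funext fun i => by
    have := hx (Pi.single i 1)
    rw [hRp, hLs, hkey] at this
    exact (mul_eq_zero.mp this).resolve_right (mul_ne_zero h2 (hw0 i))
  have hrange : LinearMap.range L = Submodule.span F (Set.range w) := by rw [hL, Fintype.range_linearCombination]
  rw [← hrange]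
  refine sub_of_emb L hinj hRnd one_ne_zero (fun v => by rw [one_mul, hR, QuadraticMap.comp_apply]) hσ ?_
  have hdet : (LinearMap.BilinForm.toMatrix (Pi.basisFun F σ) (polarBilin R)).det = 2 ^ (2 * M) * ∏ i, Q (w i) := by
    rw [← gram_eq_toMatrix, det_gram_orth R _ (fun i j hij => by
      rw [Pi.basisFun_apply, Pi.basisFun_apply, hRp, hLs, hLs]; exact hw i j hij), hσ]
    congr 1
    exact Finset.prod_congr rfl fun i _ => by rw [Pi.basisFun_apply, hR, QuadraticMap.comp_apply, hLs]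
  have hV : Module.finrank F (σ → F) = 2 * M := by rw [Module.finrank_fintype_fun_eq_card, hσ]
  rw [← hdet, ← exists_isotropic_half_iff h2 ⟨fun x y => by simp [polar_comm R x y]⟩ hRnd hM hV]
  constructor
  · rintro ⟨S, hS, hd⟩
    refine ⟨S, ?_, fun x hx y hy => ?_⟩
    · have := two_finrank_le_of_singular hRnd hS
      omega
    · rw [polarBilin_apply_apply, polar, hS _ (S.add_mem hx hy), hS x hx, hS y hy, sub_zero, sub_zero]
  · rintro ⟨X, hX, hiso⟩
    refine ⟨X, fun v hv => ?_, by omega⟩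
    have := hiso v hv v hv
    rw [polarBilin_apply_apply, polar_self, nsmul_eq_mul, Nat.cast_two] at this
    exact (mul_eq_zero.mp this).resolve_left h2

/-- Two orthogonal nondegenerate eigenspaces contain subspaces of every type. -/
theorem exists_sub_pieces (h2 : (2 : F) ≠ 0) {Q : QuadraticForm F (ι → F)} {U U' : Submodule F (ι → F)}
    (hU : Disjoint U (perp Q U)) (hU' : Disjoint U' (perp Q U')) (horth : ∀ u ∈ U, ∀ v ∈ U', polar Q u v = 0)
    {m : ℕ} (hme : Even m) (hm : 2 ≤ m) (ha : 2 ≤ Module.finrank F U)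
    (hmn : m < Module.finrank F U + Module.finrank F U') (ε : Prop) :
    ∃ (σ : Type) (w : σ → (ι → F)), (∀ i, w i ∈ U ∨ w i ∈ U') ∧ SubOK Q m ε (Submodule.span F (Set.range w)) := by
  classical
  obtain ⟨M, hM⟩ := hme
  obtain ⟨k, hk⟩ : ∃ k, k + 1 = min (Module.finrank F U - 1) m :=
    ⟨min (Module.finrank F U - 1) m - 1, by omega⟩
  obtain ⟨w₂, h21, h22, h23⟩ := exists_orth_family h2 U' hU' (m - (k + 1)) (by omega)
  obtain ⟨Pr, hPr⟩ : ∃ Pr, Pr = (-1 : F) ^ M * (2 ^ (2 * M) * ∏ i, Q (w₂ i)) := ⟨_, rfl⟩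
  have hPr0 : Pr ≠ 0 := by
    rw [hPr]
    exact mul_ne_zero (pow_ne_zero _ (neg_ne_zero.mpr one_ne_zero))
      (mul_ne_zero (pow_ne_zero _ h2) (Finset.prod_ne_zero_iff.mpr fun i _ => h23 i))
  obtain ⟨t, ht0, ht⟩ : ∃ t : F, t ≠ 0 ∧ (IsSquare t ↔ ε) := by
    by_cases hε : ε
    · exact ⟨1, one_ne_zero, iff_of_true IsSquare.one hε⟩
    · obtain ⟨ν, hν⟩ := FiniteField.exists_nonsquare (F := F) (fun h => h2 (by
        have := ringChar.eq_iff.1 h; exact CharTwo.two_eq_zero))
      exact ⟨ν, fun h => hν (h ▸ IsSquare.zero), iff_of_false hν hε⟩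
  obtain ⟨w₁, h11, h12, h13, h14⟩ := exists_orth_family_prod h2 U hU k (δ := t * Pr⁻¹) (by omega)
    (mul_ne_zero ht0 (inv_ne_zero hPr0))
  refine ⟨Fin (k + 1) ⊕ Fin (m - (k + 1)), Sum.elim w₁ w₂, fun i => ?_, ?_⟩
  · rcases i with i | i
    exacts [Or.inl (h11 i), Or.inr (h21 i)]
  · have h := sub_of_family h2 (Q := Q) (Sum.elim w₁ w₂) (fun i j hij => by
      rcases i with i | i <;> rcases j with j | j
      · exact h12 i j fun h => hij (h ▸ rfl)
      · exact horth _ (h11 i) _ (h21 j)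
      · rw [polar_comm]; exact horth _ (h11 j) _ (h21 i)
      · exact h22 i j fun h => hij (h ▸ rfl)) (fun i => by rcases i with i | i; exacts [h13 i, h23 i])
      (M := M) (by omega) (by rw [Fintype.card_sum, Fintype.card_fin, Fintype.card_fin]; omega)
    rw [show 2 * M = m by omega] at h
    refine ⟨h.1, h.2.1, h.2.2.trans ?_⟩
    rw [← ht, Fintype.prod_sum_type]
    simp only [Sum.elim_inl, Sum.elim_inr]
    rw [h14, show (-1 : F) ^ M * (2 ^ m * (t * Pr⁻¹ * ∏ i, Q (w₂ i))) = t * (Pr⁻¹ * Pr) by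
      rw [hPr, show 2 * M = m by omega]; ring, inv_mul_cancel₀ hPr0, mul_one]

variable [DecidableEq ι]

/-- An involutive isometry fixes a subspace of every type. -/
theorem exists_sub_invol (h2 : (2 : F) ≠ 0) {Q : QuadraticForm F (ι → F)} (hQ : (polarBilin Q).Nondegenerate)
    {X : Matrix ι ι F} (hX : X * X = 1) (hXQ : ∀ v, Q (X *ᵥ v) = Q v) {m : ℕ} (hme : Even m) (hm : 2 ≤ m)
    (hmn : m < Fintype.card ι) (hn : 3 ≤ Fintype.card ι) (ε : Prop) :
    ∃ W, SubOK Q m ε W ∧ W.map (Matrix.toLin' X) ≤ W := by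
  obtain ⟨U, hU⟩ : ∃ U, U = LinearMap.ker (Matrix.toLin' X - 1 : Module.End F (ι → F)) := ⟨_, rfl⟩
  obtain ⟨U', hU'⟩ : ∃ U', U' = LinearMap.ker (Matrix.toLin' X + 1 : Module.End F (ι → F)) := ⟨_, rfl⟩
  have mU : ∀ {v}, v ∈ U ↔ X *ᵥ v = v := fun {v} => by
    rw [hU, LinearMap.mem_ker, LinearMap.sub_apply, Matrix.toLin'_apply, Module.End.one_apply, sub_eq_zero]
  have mU' : ∀ {v}, v ∈ U' ↔ X *ᵥ v = -v := fun {v} => by
    rw [hU', LinearMap.mem_ker, LinearMap.add_apply, Matrix.toLin'_apply, Module.End.one_apply, add_eq_zero_iff_eq_neg]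
  have horth : ∀ u ∈ U, ∀ v ∈ U', polar Q u v = 0 := fun u hu v hv => by
    have h1 : polar Q (X *ᵥ u) (X *ᵥ v) = polar Q u v := by simp only [polar, ← Matrix.mulVec_add, hXQ]
    rw [mU.mp hu, mU'.mp hv, polar_neg_right] at h1
    exact (mul_eq_zero.mp (show (2 : F) * polar Q u v = 0 by linear_combination -h1)).resolve_left h2
  have hsup : U ⊔ U' = ⊤ := eq_top_iff.mpr fun v _ => by
    have hXX : X *ᵥ (X *ᵥ v) = v := by rw [Matrix.mulVec_mulVec, hX, Matrix.one_mulVec]
    refine Submodule.mem_sup.mpr ⟨(2 : F)⁻¹ • (v + X *ᵥ v), ?_, (2 : F)⁻¹ • (v - X *ᵥ v), ?_, ?_⟩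
    · rw [mU, Matrix.mulVec_smul, Matrix.mulVec_add, hXX, add_comm]
    · rw [mU', Matrix.mulVec_smul, Matrix.mulVec_sub, hXX, ← smul_neg, neg_sub]
    · rw [← smul_add, add_add_sub_cancel, ← two_smul F v, smul_smul, inv_mul_cancel₀ h2, one_smul]
  have hd : ∀ (A B : Submodule F (ι → F)), A ⊔ B = ⊤ → (∀ u ∈ A, ∀ v ∈ B, polar Q u v = 0) →
      Disjoint A (perp Q A) := fun A B hAB hor => by
    rw [Submodule.disjoint_def]
    intro x hx hxp
    refine polar_ext hQ fun y => ?_
    obtain ⟨a, ha, b, hb, rfl⟩ := Submodule.mem_sup.mp (hAB ▸ Submodule.mem_top : y ∈ A ⊔ B)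
    rw [polar_add_right, mem_perp.mp hxp a ha, hor x hx b hb, add_zero]
  have hdU := hd U U' hsup horth
  have hdU' := hd U' U (by rw [sup_comm]; exact hsup) fun u hu v hv => by rw [polar_comm]; exact horth v hv u hu
  have hinf : U ⊓ U' = ⊥ := eq_bot_iff.mpr fun v hv => by
    have h1 := mU.mp hv.1
    rw [mU'.mp hv.2] at h1
    rw [Submodule.mem_bot]
    exact (smul_eq_zero.mp (show (2 : F) • v = 0 by rw [two_smul]; nth_rw 2 [← h1]; abel)).resolve_left h2
  have hdim := Submodule.finrank_sup_add_finrank_inf_eq U U'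
  rw [hsup, hinf, finrank_top, finrank_bot, add_zero, Module.finrank_fintype_fun_eq_card] at hdim
  have hinv : ∀ (σ : Type) (w : σ → (ι → F)), (∀ i, w i ∈ U ∨ w i ∈ U') →
      (Submodule.span F (Set.range w)).map (Matrix.toLin' X) ≤ Submodule.span F (Set.range w) := fun σ w hw => by
    rw [Submodule.map_span_le]
    rintro _ ⟨i, rfl⟩
    rw [Matrix.toLin'_apply]
    rcases hw i with h | h
    · rw [mU.mp h]; exact Submodule.subset_span ⟨i, rfl⟩
    · rw [mU'.mp h]; exact neg_mem (Submodule.subset_span ⟨i, rfl⟩)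
  by_cases ha : 2 ≤ Module.finrank F U
  · obtain ⟨σ, w, hw, hok⟩ := exists_sub_pieces h2 hdU hdU' horth hme hm ha (by omega) ε
    exact ⟨_, hok, hinv σ w hw⟩
  · obtain ⟨σ, w, hw, hok⟩ := exists_sub_pieces h2 hdU' hdU
      (fun u hu v hv => by rw [polar_comm]; exact horth v hv u hu) hme hm (by omega) (by omega) ε
    exact ⟨_, hok, hinv σ w fun i => (hw i).symm⟩

end CfsgLib.OrthOddSub
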