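import Cfsg.Agent.SubElusive.OrthOddSemi
import Cfsg.Agent.SubElusive.OrthOddInv

/-!
Elements of prime order other than the characteristic fixing nondegenerate subspaces of given type, odd dimension.
-/

set_option autoImplicit false
set_option linter.style.haveILetI false

open Matrix QuadraticMap CfsgLib.Forms CfsgLib.SemiClasses

namespace CfsgLib.OrthOddSub

variable {F : Type*} [Field F] [Fintype F] {p r : ℕ} [Fact p.Prime] [CharP F p] [hr : Fact r.Prime]

theorem two_ne_zero_of_odd (hodd : Odd (Fintype.card F)) : (2 : F) ≠ 0 := fun h => by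
  have h1 : ringChar F = 2 := by
    refine CharP.ringChar_of_prime_eq_zero Nat.prime_two ?_
    exact_mod_cast h
  exact Nat.not_odd_iff_even.mpr (Nat.even_iff.mpr (FiniteField.even_card_of_char_two h1)) hodd

/-- The criterion for primes other than the characteristic. -/
theorem crit {q : ℕ} (hq : Fintype.card F = q) (hqodd : Odd q) (d m : ℕ) (hd : 3 ≤ d) (hm : 2 ≤ m) (hme : Even m)
    (hmn : m ≤ 2 * d) (hrp : r ≠ p) (ε : Prop)
    (hdvd : r ∣ Nat.card {W : Submodule F (Unit ⊕ (Fin d ⊕ Fin d) → F) // SubOK (quadOdd F d) m ε W})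
    (i c : ℕ) (hi : i = orderOf (q : ZMod r)) (hc : c = if Even i then i else 2 * i) :
    ((∀ x : GL (Unit ⊕ (Fin d ⊕ Fin d)) F, x ∈ Cfsg.Geo.omegaGL ⇑(quadOdd F d) → orderOf x = r →
      ∃ W, SubOK (quadOdd F d) m ε W ∧
        W.map (Matrix.toLin' (x : Matrix (Unit ⊕ (Fin d ⊕ Fin d)) (Unit ⊕ (Fin d ⊕ Fin d)) F)) ≤ W) ↔
      (r = 2 ∨ (2 < r ∧ ((0 < m % c ∧ m % c < (2 * d + 1) % c) ∨ (m % c = 0 ∧ (ε ↔ (Odd i ∨ Even (m / i)))))))) ∧
    (2 < r → 0 < c ∧ (2 * d + 1) % c < m ∧ m % c % 2 = 0 ∧ (2 * d + 1) % c % 2 = 1) := by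
  subst hq
  have h2 := two_ne_zero_of_odd hqodd
  have hQ := nondegenerate_quadOdd (F := F) d h2
  have hι : Fintype.card (Unit ⊕ (Fin d ⊕ Fin d)) = 2 * d + 1 := by simp; omega
  by_cases hr2 : r = 2
  · refine ⟨iff_of_true (fun x hx hxo => ?_) (Or.inl hr2), fun h => by omega⟩
    obtain ⟨y, -, rfl⟩ := mem_omegaGL.mp hx
    refine exists_sub_invol h2 hQ ?_ (mem_isometryGroup.mp y.2) hme hm (by omega) (by omega) ε
    rw [← Units.val_mul, ← pow_two, ← hr2, ← hxo, pow_orderOf_eq_one, Units.val_one]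
  have hr3 : 2 < r := by have := hr.out.two_le; omega
  have hrq : ¬ r ∣ Fintype.card F := fun h => hrp ((Nat.prime_dvd_prime_iff_eq hr.out Fact.out).mp (by
    obtain ⟨e, -, he⟩ := FiniteField.card F p
    exact hr.out.dvd_of_dvd_pow (he ▸ h)))
  obtain ⟨j, hj1, hj2, hj⟩ := count_bound h2 hrq hQ hι hme hm hmn ε hdvd
  have hij : i ∣ 2 * j := hi ▸ orderOf_dvd_of_pow_eq_one hj
  have hipos : 0 < i := by
    obtain ⟨u, hu⟩ := exists_unit_card (F := F) (p := p) (r := r) dvd_rfl hrp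
    rw [hi, ← hu, orderOf_units]
    exact orderOf_pos u
  have hcj : c ∣ 2 * j := by
    rw [hc]
    split_ifs with he
    · exact hij
    · exact Nat.mul_dvd_mul_left 2 ((Nat.Coprime.dvd_of_dvd_mul_left
        (Nat.Coprime.symm (Nat.prime_two.coprime_iff_not_dvd.mpr fun h => he (even_iff_two_dvd.mpr h))) hij))
  have hcev : 2 ∣ c := by
    rw [hc]; split_ifs with he
    · exact even_iff_two_dvd.mp he
    · exact dvd_mul_right 2 i
  have hcpos : 0 < c := by rw [hc]; split_ifs <;> omega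
  obtain ⟨mm, hmm⟩ := hme
  have hcle : c ≤ 2 * j := Nat.le_of_dvd (by omega) hcj
  have hk : (2 * d + 1) % c < m := by
    obtain ⟨t, ht⟩ := hcj
    have e : 2 * d + 1 = (2 * d + 1 - 2 * j) + c * t := by omega
    rw [e, Nat.add_mul_mod_self_left]
    have := Nat.mod_le (2 * d + 1 - 2 * j) c
    omega
  refine ⟨?_, fun _ => ⟨hcpos, hk, by rw [Nat.mod_mod_of_dvd _ hcev]; omega,
    by rw [Nat.mod_mod_of_dvd _ hcev]; omega⟩⟩
  rw [crit_odd hrp hr2 h2 hi hc d m (by omega) ⟨mm, hmm⟩ hm hmn ε (by omega) hk]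
  exact ⟨fun h => Or.inr ⟨hr3, h⟩, fun h => h.elim (fun h => absurd h hr2) And.right⟩

end CfsgLib.OrthOddSub
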