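import Cfsg.Agent.SubElusive.OrthTSCount
import Cfsg.Agent.SubElusive.OrthOdd
import Cfsg.Agent.SubElusive.SympTI

/-!
Elements of prime order of odd-dimensional orthogonal groups and invariant totally singular subspaces.
-/

set_option autoImplicit false
set_option linter.style.haveILetI false

open Matrix QuadraticMap CfsgLib.Forms CfsgLib.SemiClasses

namespace CfsgLib.OrthTS

section Mult

variable {F L : Type*} [Field F] [Fintype F] [Field L] [Finite L] [Algebra F L] {p r : ℕ} [Fact p.Prime]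
  [CharP F p] [hr : Fact r.Prime] {ζ : L}

/-- The multiplicities on an invariant totally singular subspace and on its dual fit into those of the space. -/
theorem sing_mult (hζ : IsPrimitiveRoot ζ r) (hrp : r ≠ p) {u : (ZMod r)ˣ}
    (hu : (u : ZMod r) = (Fintype.card F : ℕ)) {ι : Type} [Fintype ι] [DecidableEq ι] {Q : QuadraticForm F (ι → F)}
    (hQ : (polarBilin Q).Nondegenerate) {x : Matrix ι ι F} (hxr : x ^ r = 1) (hxQ : ∀ v, Q (x *ᵥ v) = Q v)
    (W : Submodule F (ι → F)) (hW : ∀ v ∈ W, x *ᵥ v ∈ W) (hs : ∀ v ∈ W, Q v = 0) :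
    ∃ g : ZMod r → ℕ, (∀ y, g (y * (u : ZMod r)) = g y) ∧ ∑ y, g y = Module.finrank F W ∧
      (∀ y, g y + g (-y) ≤ mult ζ x y) ∧
      ∃ S : Submodule F (ι → F), S ≤ W ∧ (∀ v ∈ S, x *ᵥ v = v) ∧ Module.finrank F S = g 0 := by
  classical
  obtain ⟨m, hm⟩ : ∃ m, m = Module.finrank F W := ⟨_, rfl⟩
  obtain ⟨f, hfdef⟩ : ∃ f : Module.End F (ι → F), f = Matrix.toLinAlgEquiv' x := ⟨_, rfl⟩
  have hfx : ∀ v, f v = x *ᵥ v := fun v => by rw [hfdef]; rfl
  have hfr : f ^ r = 1 := by rw [hfdef, ← map_pow, hxr, map_one]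
  have hW' : ∀ v ∈ W, f v ∈ W := fun v hv => by rw [hfx]; exact hW v hv
  let b := Module.finBasisOfFinrankEq F W hm.symm
  obtain ⟨A, hA⟩ : ∃ A : Matrix (Fin m) (Fin m) F, A = LinearMap.toMatrixAlgEquiv b (f.restrict hW') := ⟨_, rfl⟩
  have hres : (f.restrict hW' : Module.End F W) ^ r = 1 := by
    rw [Module.End.pow_restrict r hW']; ext v; simp [hfr]
  have hAr : A ^ r = 1 := by rw [hA, ← map_pow, hres, map_one]
  have hAd : IsUnit A.det := (Matrix.isUnit_iff_isUnit_det A).mp (IsUnit.of_pow_eq_one hAr hr.out.ne_zero)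
  have hAb : ∀ i, f (b i : ι → F) = ∑ k, A k i • (b k : ι → F) := fun i => by
    have h1 : (f.restrict hW' : Module.End F W) (b i) = ∑ k, A k i • b k := by
      conv_lhs => rw [← b.sum_repr ((f.restrict hW' : Module.End F W) (b i))]
      refine Finset.sum_congr rfl fun k _ => ?_
      rw [hA, LinearMap.toMatrixAlgEquiv_apply]
    have h2 := congrArg Subtype.val h1
    rw [LinearMap.coe_restrict_apply, AddSubmonoidClass.coe_finsetSum] at h2
    exact h2
  let φ : (ι → F) →ₗ[F] (Fin m → F) := LinearMap.pi fun i => polarBilin Q (b i : ι → F)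
  have hφ : ∀ v i, φ v i = polar Q (b i : ι → F) v := fun v i => rfl
  have hφW : W ≤ LinearMap.ker φ := fun v hv => LinearMap.mem_ker.mpr
    (funext fun i => polar_eq_zero_of_sing hs (b i).2 hv)
  have hker : LinearMap.ker φ ≤ perp Q W := fun v hv => mem_perp.mpr fun w hw => by
    have hspan : w ∈ Submodule.span F (Set.range fun i => (b i : ι → F)) := by
      have := congrArg (Submodule.map W.subtype) b.span_eq
      rw [Submodule.map_span, Submodule.map_top, Submodule.range_subtype, ← Set.range_comp] at this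
      exact this.symm ▸ hw
    obtain ⟨c, rfl⟩ := (Submodule.mem_span_range_iff_exists_fun F).mp hspan
    rw [polar_comm, polar_sum_left]
    refine Finset.sum_eq_zero fun i _ => ?_
    rw [polar_smul_left, ← hφ, LinearMap.mem_ker.mp hv, Pi.zero_apply, smul_zero]
  have hφs : Function.Surjective φ := by
    rw [← LinearMap.range_eq_top]
    refine Submodule.eq_top_of_finrank_eq ?_
    have h1 := φ.finrank_range_add_finrank_ker
    have h2 := Submodule.finrank_mono hker
    have h3 := Submodule.finrank_le (LinearMap.range φ)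
    have h4 := Submodule.finrank_le W
    rw [finrank_perp hQ, ← hm] at h2
    rw [Module.finrank_fin_fun] at h3 ⊢
    omega
  obtain ⟨C, hC⟩ : ∃ C, C = A⁻¹.transpose := ⟨_, rfl⟩
  have hequi : ∀ v, φ (f v) = C *ᵥ φ v := fun v => by
    have h1 : A.transpose *ᵥ φ (f v) = φ v := by
      funext i
      rw [hφ, Matrix.mulVec, dotProduct]
      have h2 : polar Q (f (b i : ι → F)) (f v) = polar Q (b i : ι → F) v := by
        simp only [polar, hfx, ← Matrix.mulVec_add, hxQ]
      rw [← h2, hAb, polar_sum_left]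
      exact Finset.sum_congr rfl fun k _ => by
        rw [polar_smul_left, smul_eq_mul, Matrix.transpose_apply]; rfl
    rw [← h1, hC, Matrix.mulVec_mulVec, ← Matrix.transpose_mul, Matrix.mul_nonsing_inv _ hAd, Matrix.transpose_one,
      Matrix.one_mulVec]
  obtain ⟨R, hRm, hR⟩ : ∃ R : Polynomial F, R.Monic ∧ x.charpoly = A.charpoly * R * C.charpoly := by
    have hWc : W ≤ W.comap f := fun v hv => hW' v hv
    let ψ : ((ι → F) ⧸ W) →ₗ[F] (Fin m → F) := W.liftQ φ hφW
    have hψs : Function.Surjective ψ := fun c => by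
      obtain ⟨v, rfl⟩ := hφs c
      exact ⟨W.mkQ v, rfl⟩
    let g := W.mapQ W f hWc
    have hψ : ∀ v, ψ (g v) = C *ᵥ ψ v := fun v => by
      obtain ⟨v, rfl⟩ := W.mkQ_surjective v
      exact hequi v
    have hK : LinearMap.ker ψ ≤ (LinearMap.ker ψ).comap g := fun v hv => by
      rw [Submodule.mem_comap, LinearMap.mem_ker, hψ, LinearMap.mem_ker.mp hv, Matrix.mulVec_zero]
    let e := ψ.quotKerEquivOfSurjective hψs
    have hconj : e.conj ((LinearMap.ker ψ).mapQ (LinearMap.ker ψ) g hK) = Matrix.toLin' C := by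
      refine LinearMap.ext fun c => ?_
      obtain ⟨v, rfl⟩ := hψs c
      rw [LinearEquiv.conj_apply_apply, show e.symm (ψ v) = Submodule.Quotient.mk v from
        e.symm_apply_eq.mpr (ψ.quotKerEquivOfSurjective_apply_mk hψs v).symm, Submodule.mapQ_apply,
        Matrix.toLin'_apply, ← hψ]
      exact ψ.quotKerEquivOfSurjective_apply_mk hψs (g v)
    have hcA : LinearMap.charpoly (f.restrict hW') = A.charpoly := by
      rw [hA]; exact (LinearMap.charpoly_toMatrix _ b).symm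
    have hcC : LinearMap.charpoly (Matrix.toLin' C) = C.charpoly := by
      rw [← LinearMap.charpoly_toMatrix (Matrix.toLin' C) (Pi.basisFun F (Fin m)), LinearMap.toMatrix_eq_toMatrix',
        LinearMap.toMatrix'_toLin']
    have hcx : LinearMap.charpoly f = x.charpoly := by
      rw [← LinearMap.charpoly_toMatrix f (Pi.basisFun F ι), LinearMap.toMatrix_eq_toMatrix', hfdef]
      exact congrArg Matrix.charpoly (LinearMap.toMatrix'_toLin' x)
    refine ⟨(g.restrict hK).charpoly, LinearMap.charpoly_monic _, ?_⟩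
    rw [← hcx, SubElusive.charpoly_eq_mul W f hWc, mul_assoc, SubElusive.charpoly_eq_mul (LinearMap.ker ψ) g hK,
      ← hcC, ← hconj, LinearEquiv.charpoly_conj]
    exact congrArg (· * _) hcA
  obtain ⟨Lb, hL⟩ : ∃ Lb : (Fin m → F) →ₗ[F] (ι → F), Lb = W.subtype ∘ₗ b.equivFun.symm.toLinearMap := ⟨_, rfl⟩
  have hLv : ∀ a, Lb a = ∑ k, a k • (b k : ι → F) := fun a => by
    rw [hL, LinearMap.comp_apply, LinearEquiv.coe_coe, b.equivFun_symm_apply]
    simp
  have hfL : ∀ a, f (Lb a) = Lb (A *ᵥ a) := fun a => by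
    rw [hLv, hLv, map_sum]
    simp only [map_smul, hAb, Matrix.mulVec, dotProduct, Finset.smul_sum, smul_smul, Finset.sum_smul]
    rw [Finset.sum_comm]
    exact Finset.sum_congr rfl fun k _ => Finset.sum_congr rfl fun l _ => by rw [mul_comm]
  have hLi : Function.Injective Lb := by rw [hL]; exact Subtype.val_injective.comp b.equivFun.symm.injective
  refine ⟨mult ζ A, fun y => by rw [hu]; exact mult_frob hζ A y, by rw [sum_mult hζ hAr, Fintype.card_fin, hm],
    fun y => ?_, (LinearMap.ker (Matrix.toLinAlgEquiv' A - 1 : Module.End F (Fin m → F))).map Lb, ?_, ?_, ?_⟩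
  rotate_left
  · rintro _ ⟨a, -, rfl⟩
    rw [hL]; exact (b.equivFun.symm a).2
  · rintro _ ⟨a, ha, rfl⟩
    have ha' : A *ᵥ a = a := sub_eq_zero.mp (LinearMap.mem_ker.mp ha :)
    rw [← hfx, hfL, ha']
  · rw [← (Submodule.equivMapOfInjective Lb hLi _).finrank_eq, SubElusive.mult_zero_eq hrp hAr]
  have hneg : mult ζ A (-y) = mult ζ C y := by
    rw [hC, mult_transpose, ← mult_inv hζ hrp hAr (-y), neg_neg]
  have hAm := ((Matrix.charpoly_monic A).map (algebraMap F L))
  have hCm := ((Matrix.charpoly_monic C).map (algebraMap F L))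
  have hRm' := hRm.map (algebraMap F L)
  rw [hneg]
  simp only [mult, hR, Polynomial.map_mul]
  rw [Polynomial.rootMultiplicity_mul ((hAm.mul hRm').mul hCm).ne_zero,
    Polynomial.rootMultiplicity_mul (hAm.mul hRm').ne_zero]
  omega

variable (hζ : IsPrimitiveRoot ζ r) (hrp : r ≠ p) (hr2 : r ≠ 2) {u : (ZMod r)ˣ}
  (hu : (u : ZMod r) = (Fintype.card F : ℕ)) (h2 : (2 : F) ≠ 0)

include hζ hrp hr2 hu h2

/-- An element with given multiplicities fixing a totally singular subspace. -/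
theorem exists_ts_elem {h : (ZMod r)ˣ}
    (hinv : ∀ f : ZMod r → ℕ, ((∀ x, f (x * (u : ZMod r)) = f x) ∧ (∀ x, f (-x) = f x)) ↔ ∀ x, f (x * (h : ZMod r)) = f x)
    {d m : ℕ} (f g : ZMod r → ℕ) (hf : ∀ x, f (x * (h : ZMod r)) = f x)
    (hg : ∀ x, g (x * (u : ZMod r)) = g x) (hgf : ∀ x, g x + g (-x) ≤ f x) (hfs : ∑ x, f x = 2 * d + 1)
    (hgs : ∑ x, g x = m) (h0 : 2 * g 0 < f 0) :
    ∃ B : ↥(Cfsg.isometryGroup F ⇑(quadOdd F d)), B ^ r = 1 ∧
      (∀ x, mult ζ (((B : GL (Unit ⊕ (Fin d ⊕ Fin d)) F)) : Matrix (Unit ⊕ (Fin d ⊕ Fin d)) (Unit ⊕ (Fin d ⊕ Fin d)) F) x = f x) ∧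
      ∃ W : Submodule F (Unit ⊕ (Fin d ⊕ Fin d) → F), Module.finrank F W = m ∧ (∀ w ∈ W, quadOdd F d w = 0) ∧
        W.map (Matrix.toLin' (((B : GL (Unit ⊕ (Fin d ⊕ Fin d)) F)) : Matrix (Unit ⊕ (Fin d ⊕ Fin d)) (Unit ⊕ (Fin d ⊕ Fin d)) F)) ≤ W := by
  classical
  obtain ⟨f₂, hf₂⟩ : ∃ f₂ : ZMod r → ℕ, f₂ = fun x => f x - (g x + g (-x)) := ⟨_, rfl⟩
  have hf₂f : ∀ x, g x + g (-x) + f₂ x = f x := fun x => by rw [hf₂]; exact Nat.add_sub_cancel' (hgf x)
  have hgs' : ∑ x, g (-x) = m := (Equiv.sum_comp (Equiv.neg (ZMod r)) g).trans hgs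
  have hs₂ : m + m + ∑ x, f₂ x = 2 * d + 1 := by
    rw [← hfs, ← Finset.sum_congr rfl fun x _ => hf₂f x, Finset.sum_add_distrib, Finset.sum_add_distrib, hgs, hgs']
  have hf₂h : ∀ x, f₂ (x * (h : ZMod r)) = f₂ x := (hinv f₂).mp
    ⟨fun x => by rw [hf₂]; simp only [((hinv f).mpr hf).1, hg, ← neg_mul],
      fun x => by rw [hf₂]; simp only [((hinv f).mpr hf).2, neg_neg]; rw [add_comm (g (-x))]⟩
  obtain ⟨B₂, hB₂, hB₂m, -⟩ := OrthOddSub.exists_elem_sub hζ hrp hr2 hu h2 hinv (d := d - m) (m := 0) Even.zero f₂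
    (fun _ => 0) hf₂h (fun _ => rfl) (fun _ => Nat.zero_le _) (by omega) Finset.sum_const_zero
    (show 0 < f₂ 0 by rw [hf₂]; simp only [neg_zero]; omega) (ε := True) (fun _ => iff_of_true trivial (Or.inr (by simp)))
  obtain ⟨C, hC, hCm⟩ := exists_of_mult (F := F) hζ hrp g (fun x => by rw [← hu]; exact hg x) hgs
  have hC' : C.1 ^ r = 1 := by rw [← Units.val_pow_eq_pow_val, hC, Units.val_one]
  have hCi : C.1⁻¹.transpose ^ r = 1 := by
    rw [← Matrix.transpose_pow, Matrix.inv_pow', hC', inv_one, Matrix.transpose_one]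
  obtain ⟨c, hc, φ, hφ⟩ := exists_iso_scaled
    (nondegenerate_sumForm (nondegenerate_quadPlus (F := F) m) (nondegenerate_quadOdd (F := F) (d - m) h2))
    (m := d) (by simp; omega)
  obtain ⟨T, hTdef⟩ : ∃ T, T = Matrix.fromBlocks (Matrix.fromBlocks C.1 0 0 C.1⁻¹.transpose) 0 0
      ((B₂ : GL (Unit ⊕ (Fin (d - m) ⊕ Fin (d - m))) F) :
        Matrix (Unit ⊕ (Fin (d - m) ⊕ Fin (d - m))) (Unit ⊕ (Fin (d - m) ⊕ Fin (d - m))) F) := ⟨_, rfl⟩
  have hTr : T ^ r = 1 := by
    rw [hTdef, CfsgLib.NilType.blocks_pow, CfsgLib.NilType.blocks_pow, hC', hCi, pow_eq_one_of_mem hB₂,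
      Matrix.fromBlocks_one, Matrix.fromBlocks_one]
  obtain ⟨B, hB, hBv, hBm⟩ := OrthOddSub.conj_gl (ζ := ζ) hTr φ
  have hP : ∀ v : Fin m ⊕ Fin m → F,
      quadPlus F m (Matrix.fromBlocks C.1 0 0 C.1⁻¹.transpose *ᵥ v) = quadPlus F m v := fun v => by
    rw [coe_quadPlus, fromBlocks_one_mulVec]
    show (C.1 *ᵥ (v ∘ Sum.inl)) ⬝ᵥ (C.1⁻¹.transpose *ᵥ (v ∘ Sum.inr)) = (v ∘ Sum.inl) ⬝ᵥ (v ∘ Sum.inr)
    rw [Matrix.dotProduct_mulVec, Matrix.vecMul_transpose, Matrix.mulVec_mulVec,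
      Matrix.nonsing_inv_mul _ (Matrix.isUnits_det_units C), Matrix.one_mulVec]
  have hBQ : ∀ v, quadOdd F d ((B : Matrix (Unit ⊕ (Fin d ⊕ Fin d)) (Unit ⊕ (Fin d ⊕ Fin d)) F) *ᵥ v) =
      quadOdd F d v := fun v => by
    obtain ⟨w, rfl⟩ := φ.surjective v
    have hT' : sumForm (quadPlus F m) (quadOdd F (d - m)) (T *ᵥ w) =
        sumForm (quadPlus F m) (quadOdd F (d - m)) w := by
      rw [hTdef, fromBlocks_one_mulVec, sumForm_apply, sumForm_apply (Q₁ := quadPlus F m), Sum.elim_comp_inl,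
        Sum.elim_comp_inr, hP, mem_isometryGroup.mp B₂.2]
    have e1 := hφ (T *ᵥ w)
    rw [hT', ← hφ w, _root_.smul_apply, _root_.smul_apply] at e1
    rw [hBv]
    exact mul_left_cancel₀ hc (by simpa using e1)
  obtain ⟨L', hL'⟩ : ∃ L' : (Fin m → F) →ₗ[F] (Unit ⊕ (Fin d ⊕ Fin d) → F),
      ∀ a, L' a = φ (Sum.elim (Sum.elim a 0) 0) :=
    ⟨φ.toLinearMap ∘ₗ OrthOddSub.inlL F (Fin m ⊕ Fin m) _ ∘ₗ OrthOddSub.inlL F (Fin m) (Fin m), fun _ => rfl⟩
  refine ⟨⟨B, mem_isometryGroup.mpr hBQ⟩, Subtype.ext (by rw [SubmonoidClass.coe_pow, hB, OneMemClass.coe_one]),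
    fun x => ?_, LinearMap.range L', ?_, ?_, ?_⟩
  · rw [hBm, hTdef, mult_blocks, mult_blocks, hCm, mult_transpose, hB₂m]
    have h1 := mult_inv hζ hrp hC' (-x)
    rw [neg_neg] at h1
    rw [h1, hCm]
    exact hf₂f x
  · rw [LinearMap.finrank_range_of_inj, Module.finrank_fin_fun]
    intro a a' e
    rw [hL', hL'] at e
    exact funext fun j => congrFun (φ.injective e) (Sum.inl (Sum.inl j))
  · rintro _ ⟨a, rfl⟩
    have e := hφ (Sum.elim (Sum.elim a 0) 0)
    rw [_root_.smul_apply, sumForm_apply, Sum.elim_comp_inl, Sum.elim_comp_inr, QuadraticMap.map_zero, coe_quadPlus,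
      smul_eq_mul] at e
    rw [hL']
    exact (mul_eq_zero.mp (e.trans (by simp [Cfsg.quadFormPlus]))).resolve_left hc
  · rintro _ ⟨_, ⟨a, rfl⟩, rfl⟩
    refine ⟨C.1 *ᵥ a, ?_⟩
    rw [Matrix.toLin'_apply, hL', hL', hBv, hTdef, fromBlocks_one_mulVec, Sum.elim_comp_inl, Sum.elim_comp_inr,
      fromBlocks_one_mulVec, Sum.elim_comp_inl, Sum.elim_comp_inr, Matrix.mulVec_zero, Matrix.mulVec_zero]

end Mult

variable {F : Type*} [Field F] [Fintype F] {p r : ℕ} [Fact p.Prime] [CharP F p] [hr : Fact r.Prime]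

/-- The primes dividing the number of totally singular subspaces. -/
theorem ts_data (h2 : (2 : F) ≠ 0) {d m : ℕ} (hm : m ≤ d)
    (hdvd : r ∣ Nat.card {W : Submodule F (Unit ⊕ (Fin d ⊕ Fin d) → F) //
      Module.finrank F W = m ∧ ∀ w ∈ W, quadOdd F d w = 0}) :
    r ≠ p ∧ ∃ j, d < j + m ∧ j ≤ d ∧ ((Fintype.card F : ℕ) : ZMod r) ^ (2 * j) = 1 := by
  classical
  obtain ⟨q, hq⟩ : ∃ q, q = Fintype.card F := ⟨_, rfl⟩
  have hq2 : 2 ≤ q := hq ▸ Fintype.one_lt_card
  have hE : ∀ k, k < m → ∀ U : Submodule F (Unit ⊕ (Fin d ⊕ Fin d) → F), Module.finrank F U = k →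
      (∀ v ∈ U, quadOdd F d v = 0) →
      Nat.card {v // v ∈ perp (quadOdd F d) U ∧ quadOdd F d v = 0} = q ^ k * q ^ (2 * (d - k)) := by
    intro k hk U hUd hUs
    obtain ⟨c, hc, φ, hφ⟩ := exists_iso_scaled
      (nondegenerate_sumForm (nondegenerate_quadPlus (F := F) k) (nondegenerate_quadOdd (F := F) (d - k) h2))
      (m := d) (by simp; omega)
    rw [card_perp_zero (nondegenerate_quadOdd d h2) (quadOdd F (d - k)) (inv_ne_zero hc) φ (fun v => by
        rw [← hφ v, _root_.smul_apply, smul_eq_mul]; field_simp) U hUd hUs, ← hq, coe_quadOdd,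
      OrthOrder.card_zero_odd, ← hq]
    congr 1
    obtain ⟨j, hj⟩ : ∃ j, d - k = j + 1 := ⟨d - k - 1, by omega⟩
    rw [hj, Nat.add_sub_cancel, mul_assoc, ← pow_succ, Nat.sub_one_mul, Nat.sub_add_cancel
      (Nat.le_mul_of_pos_left _ (pow_pos (by omega) _)), ← pow_add, two_mul]
  have h := card_ts_mul (quadOdd F d) (fun k => q ^ k * q ^ (2 * (d - k))) m hE
  rw [← hq, prod_basis, prod_pow_sub] at h
  have hmain : Nat.card {W : Submodule F (Unit ⊕ (Fin d ⊕ Fin d) → F) //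
      Module.finrank F W = m ∧ ∀ w ∈ W, quadOdd F d w = 0} * ∏ k ∈ Finset.range m, (q ^ (m - k) - 1) =
      ∏ k ∈ Finset.range m, (q ^ (2 * (d - k)) - 1) :=
    Nat.eq_of_mul_eq_mul_left (pow_pos (show 0 < q by omega) (∑ k ∈ Finset.range m, k))
      (by linear_combination h)
  obtain ⟨k, hk, hd'⟩ := (hr.out.prime.dvd_finsetProd_iff _).mp (hmain ▸ dvd_mul_of_dvd_left hdvd _)
  rw [Finset.mem_range] at hk
  refine ⟨fun hrp => ?_, d - k, by omega, by omega, ?_⟩
  · obtain ⟨e, -, he⟩ := FiniteField.card F p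
    have h1 : r ∣ q ^ (2 * (d - k)) :=
      hrp ▸ (hq.trans he ▸ dvd_pow_self p e.ne_zero).trans (dvd_pow_self q (by omega))
    have := Nat.dvd_sub h1 hd'
    rw [Nat.sub_sub_self (Nat.one_le_pow _ _ (by omega))] at this
    exact hr.out.one_lt.ne' (Nat.dvd_one.mp this)
  · rw [← ZMod.natCast_eq_zero_iff, Nat.cast_sub (Nat.one_le_pow _ _ (by omega)), Nat.cast_pow, Nat.cast_one,
      sub_eq_zero, hq] at hd'
    exact hd'

/-- The criterion for odd primes other than the characteristic. -/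
theorem crit_ts (hrp : r ≠ p) (hr2 : r ≠ 2) (h2 : (2 : F) ≠ 0) {i c : ℕ}
    (hi : i = orderOf ((Fintype.card F : ℕ) : ZMod r)) (hc : c = if Even i then i else 2 * i) (d m : ℕ) (hd : 1 ≤ d)
    (hmd : m ≤ d) (hcn : c ≤ 2 * d + 1) (hkm : (2 * d + 1) % c < 2 * m) :
    (∀ x : GL (Unit ⊕ (Fin d ⊕ Fin d)) F, x ∈ Cfsg.Geo.omegaGL ⇑(quadOdd F d) → orderOf x = r →
      ∃ W : Submodule F (Unit ⊕ (Fin d ⊕ Fin d) → F), Module.finrank F W = m ∧ (∀ w ∈ W, quadOdd F d w = 0) ∧
        W.map (Matrix.toLin' (x : Matrix (Unit ⊕ (Fin d ⊕ Fin d)) (Unit ⊕ (Fin d ⊕ Fin d)) F)) ≤ W) ↔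
    (2 * (m % i) < (2 * d + 1) % c ∧ (Odd i ∨ (r - 1) / i + 2 * (m / i) ≤ (2 * d + 1) / i)) := by
  classical
  obtain ⟨u, hu⟩ := exists_unit_card (F := F) (p := p) (r := r) dvd_rfl hrp
  rw [← hu, orderOf_units] at hi
  obtain ⟨P, hP, hLfin, hζ⟩ := exists_root_field F hr.out (natCast_ne_zero hrp)
  obtain ⟨h, hh, hinv⟩ := exists_multiplier u hr2
  have hoh : orderOf h = c := by
    rw [hh, hc, hi]
    rcases Nat.even_or_odd (orderOf u) with he | ho
    · rw [if_neg (Nat.not_odd_iff_even.mpr he), if_pos he]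
    · rw [if_pos ho, if_neg (Nat.not_even_iff_odd.mpr ho)]
  obtain ⟨cc, hcc⟩ : Even c := by
    rw [hc]; split_ifs with he
    · exact he
    · exact even_two_mul _
  have hcpos : 0 < c := hoh ▸ orderOf_pos h
  have hipos : 0 < i := hi ▸ orderOf_pos u
  have hci : c ≤ 2 * i := by rw [hc]; split_ifs <;> omega
  have hir : i ∣ r - 1 := by rw [hi, ← ZMod.card_units r]; exact orderOf_dvd_card
  have hcr : c ≤ r - 1 := by rw [← hoh, ← ZMod.card_units r]; exact orderOf_le_card_univ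
  have hQ := nondegenerate_quadOdd (F := F) d h2
  have hι : Fintype.card (Unit ⊕ (Fin d ⊕ Fin d)) = 2 * d + 1 := by simp; omega
  have hkodd : (2 * d + 1) % c % 2 = 1 := by
    rw [Nat.mod_mod_of_dvd _ ⟨cc, by omega⟩]; omega
  have hklt := Nat.mod_lt (2 * d + 1) hcpos
  have hnegu : Even i → ∀ g : ZMod r → ℕ, (∀ x, g (x * (u : ZMod r)) = g x) → ∀ x, g (-x) = g x := fun he g hg x => by
    have hp : ∀ n, g (x * ((u ^ n : (ZMod r)ˣ) : ZMod r)) = g x := fun n => by
      induction n with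
      | zero => simp
      | succ n ih => rw [pow_succ, Units.val_mul, ← mul_assoc, hg, ih]
    simpa [neg_one_mem_of_even u hr2 (hi ▸ he)] using hp (orderOf u / 2)
  constructor
  · intro hall
    have witness : ∀ f : ZMod r → ℕ, (∀ x, f (x * (h : ZMod r)) = f x) → ∑ x, f x = 2 * d + 1 →
        f 0 % 2 = 1 → f 0 ≠ 2 * d + 1 →
        ∃ g : ZMod r → ℕ, (∀ x, g (x * (u : ZMod r)) = g x) ∧ ∑ x, g x = m ∧ ∀ x, g x + g (-x) ≤ f x := by
      intro f hf hfs hf0 hfne
      obtain ⟨B, hB, hBm, -⟩ := exists_ts_elem hζ hrp hr2 hu h2 hinv (m := 0) f (fun _ => 0) hf (fun _ => rfl)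
        (fun _ => Nat.zero_le _) hfs Finset.sum_const_zero (by omega)
      have hB1 : (B : GL (Unit ⊕ (Fin d ⊕ Fin d)) F) ≠ 1 := fun he => by
        have := hBm 0
        rw [he, Units.val_one, mult_one hζ, if_pos rfl, hι] at this
        exact hfne this.symm
      have hBr : (B : GL (Unit ⊕ (Fin d ⊕ Fin d)) F) ^ r = 1 := by
        rw [← SubmonoidClass.coe_pow, hB, OneMemClass.coe_one]
      have hBo : (B : GL (Unit ⊕ (Fin d ⊕ Fin d)) F) ∈ Cfsg.Geo.omegaGL ⇑(quadOdd F d) :=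
        mem_omegaGL.mpr ⟨B, OrthUnip.mem_omega_of_odd_pow h2 _ hQ (by omega) B
          (hr.out.odd_of_ne_two hr2) hB, rfl⟩
      obtain ⟨W, hWd, hWs, hWinv⟩ := hall _ hBo (orderOf_eq_prime hBr hB1)
      obtain ⟨g, hg, hgs, hgf, -⟩ := sing_mult hζ hrp hu hQ (pow_eq_one_of_mem hB) (mem_isometryGroup.mp B.2) W
        (fun v hv => hWinv ⟨v, hv, Matrix.toLin'_apply _ _⟩) hWs
      exact ⟨g, hg, hgs.trans hWd, fun x => (hgf x).trans_eq (hBm x)⟩
    have hmod : ∀ g : ZMod r → ℕ, (∀ x, g (x * (u : ZMod r)) = g x) → ∑ x, g x = m → g 0 < i →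
        g 0 = m % i := by
      intro g hg hgs hlt
      obtain ⟨j, hj, -⟩ := SubElusive.orbit_data u g hg
      rw [hgs, ← hi] at hj
      rw [← hj, Nat.add_mul_mod_self_left, Nat.mod_eq_of_lt hlt]
    have hsum1 : ∀ a b : ℕ, ∑ x : ZMod r, (if x = 0 then a else b) = a + (r - 1) * b := fun a b => by
      rw [sum_zmod, if_pos rfl]
      simp [Nat.totient_prime hr.out]
    refine ⟨?_, (Nat.even_or_odd i).symm.imp_right fun he => ?_⟩
    · obtain ⟨K, hK, hsub⟩ := SubElusive.orbit_data h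
        (fun x : ZMod r => if x = 0 then (2 * d + 1) % c else (2 * d + 1) / c)
        (fun x => by simp only [mul_eq_zero, h.ne_zero, or_false])
      rw [hoh] at hK hsub
      simp only [if_pos] at hK
      rw [hsum1] at hK
      have hKn : (2 * d + 1) / c ≤ K := Nat.le_of_mul_le_mul_left (by
        have := Nat.mul_le_mul_right ((2 * d + 1) / c) hcr
        omega) hcpos
      obtain ⟨f, hf, hf0, -, hfs⟩ := hsub ((2 * d + 1) % c) (by rw [if_pos rfl]) _ hKn
      rw [Nat.mod_add_div] at hfs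
      obtain ⟨g, hg, hgs, hgf⟩ := witness f hf hfs (by rw [hf0]; exact hkodd) (by rw [hf0]; omega)
      have h1 := hgf 0
      rw [neg_zero, hf0] at h1
      rw [← hmod g hg hgs (by omega)]
      omega
    · -- the second witness
      have hneg := hnegu he
      have hceq : c = i := by rw [hc, if_pos he]
      obtain ⟨t, ht⟩ := hir
      rw [ht, Nat.mul_div_cancel_left _ hipos]
      have hdm := Nat.mod_add_div (2 * d + 1) i
      have hdmm := Nat.mod_add_div m i
      rw [hceq] at hklt hkodd hkm hcn hoh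
      by_contra hcon
      rcases le_or_gt ((2 * d + 1) / i) t with hnt | hnt
      · obtain ⟨K, hK, hsub⟩ := SubElusive.orbit_data h
          (fun x : ZMod r => if x = 0 then (2 * d + 1) % i else 1)
          (fun x => by simp only [mul_eq_zero, h.ne_zero, or_false])
        rw [hoh] at hK hsub
        simp only [if_pos] at hK
        rw [hsum1, mul_one, ht] at hK
        have hKt : K = t := Nat.eq_of_mul_eq_mul_left hipos (by omega)
        obtain ⟨f, hf, hf0, hfle, hfs⟩ := hsub ((2 * d + 1) % i) (by rw [if_pos rfl]) _ (hKt ▸ hnt)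
        rw [hdm] at hfs
        obtain ⟨g, hg, hgs, hgf⟩ := witness f hf hfs (by rw [hf0]; exact hkodd) (by rw [hf0]; omega)
        have hz : ∀ x, x ≠ 0 → g x = 0 := fun x hx => by
          have h1 := (hgf x).trans (hfle x)
          rw [if_neg hx, hneg g hg] at h1
          omega
        have h0 : g 0 = m := by
          rw [← hgs]
          exact (Finset.sum_eq_single 0 (fun y _ hy => hz y hy) (fun h => absurd (Finset.mem_univ _) h)).symm
        have h1 := hgf 0
        rw [neg_zero, hf0, h0] at h1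
        omega
      · obtain ⟨e, he'⟩ : ∃ e, e = ((2 * d + 1) / i - t) % 2 := ⟨_, rfl⟩
        obtain ⟨J, hJ⟩ : ∃ J, J = ((2 * d + 1) / i - t) / 2 := ⟨_, rfl⟩
        obtain ⟨K, hK, hsub⟩ := SubElusive.orbit_data h (fun x : ZMod r => if x = 0 then 0 else J)
          (fun x => by simp only [mul_eq_zero, h.ne_zero, or_false])
        rw [hoh] at hK hsub
        simp only [if_pos] at hK
        rw [hsum1] at hK
        have hKn : J ≤ K := Nat.le_of_mul_le_mul_left (by
          have := Nat.mul_le_mul_right J (hceq ▸ hcr)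
          omega) hipos
        obtain ⟨g', hg', hg'0, -, hg's⟩ := hsub 0 (Nat.zero_le _) J hKn
        obtain ⟨f, hfdef⟩ : ∃ f : ZMod r → ℕ,
            f = fun x => (if x = 0 then (2 * d + 1) % i + i * e else 1) + 2 * g' x := ⟨_, rfl⟩
        have hf : ∀ x, f (x * (h : ZMod r)) = f x := fun x => by
          rw [hfdef]; simp only [mul_eq_zero, h.ne_zero, or_false, hg']
        have hf0 : f 0 = (2 * d + 1) % i + i * e := by rw [hfdef]; simp [hg'0]
        have hfs : ∑ x, f x = 2 * d + 1 := by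
          rw [hfdef, Finset.sum_add_distrib, ← Finset.mul_sum, hg's, hsum1, mul_one, ht, zero_add]
          have hn : (2 * d + 1) / i = t + e + 2 * J := by omega
          conv_rhs => rw [← hdm, hn]
          ring
        have hie : i * e ≤ i := by
          rcases (show e = 0 ∨ e = 1 by omega) with h1 | h1 <;> rw [h1] <;> omega
        have hev2 : i * e % 2 = 0 := by
          obtain ⟨ii, hii⟩ := he
          rw [Nat.mul_mod, show i % 2 = 0 by omega, zero_mul, Nat.zero_mod]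
        have hle2 : i * 2 ≤ i * ((2 * d + 1) / i) ∨ (2 * d + 1) / i ≤ 1 := by
          rcases Nat.lt_or_ge 1 ((2 * d + 1) / i) with h1 | h1
          · exact Or.inl (Nat.mul_le_mul_left _ h1)
          · exact Or.inr h1
        have htpos : 0 < t := by
          rcases Nat.eq_zero_or_pos t with h0 | h0
          · rw [h0, mul_zero] at ht; omega
          · exact h0
        obtain ⟨g, hg, hgs, hgf⟩ := witness f hf hfs (by rw [hf0]; omega) (by rw [hf0]; omega)
        have h1 := hgf 0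
        rw [neg_zero, hf0] at h1
        have hg0 := hmod g hg hgs (by omega)
        have hgle : ∀ x, g x ≤ g' x + if x = 0 then g 0 else 0 := fun x => by
          rcases eq_or_ne x 0 with rfl | hx
          · simp
          · have h3 := hgf x
            rw [hneg g hg, hfdef] at h3
            simp only [if_neg hx] at h3 ⊢
            omega
        have h4 := Finset.sum_le_sum fun x (_ : x ∈ Finset.univ) => hgle x
        rw [Finset.sum_add_distrib, hgs, hg's, Finset.sum_ite_eq' Finset.univ 0, if_pos (Finset.mem_univ _),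
          zero_add] at h4
        have h5 : m / i ≤ J := Nat.le_of_mul_le_mul_left (by omega) hipos
        omega
  · rintro ⟨hlt, hcond⟩ x hx hxo
    obtain ⟨y, -, rfl⟩ := mem_omegaGL.mp hx
    have hy : y ^ r = 1 := Subtype.ext (by
      rw [SubmonoidClass.coe_pow, OneMemClass.coe_one, ← hxo]; exact pow_orderOf_eq_one _)
    have hyM := pow_eq_one_of_mem hy
    obtain ⟨f, hfdef⟩ : ∃ f : ZMod r → ℕ, f = fun x => mult (AdjoinRoot.root P)
        ((y : GL (Unit ⊕ (Fin d ⊕ Fin d)) F) : Matrix (Unit ⊕ (Fin d ⊕ Fin d)) (Unit ⊕ (Fin d ⊕ Fin d)) F) x :=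
      ⟨_, rfl⟩
    have hfh : ∀ x, f (x * (h : ZMod r)) = f x := (hinv f).mp ⟨fun x => by rw [hfdef, hu]; exact mult_frob hζ _ x,
      fun x => by rw [hfdef]; exact mult_neg_of_isometry hζ hrp hQ hyM (mem_isometryGroup.mp y.2) x⟩
    have hfs : ∑ x, f x = 2 * d + 1 := by rw [hfdef]; exact (sum_mult hζ hyM).trans hι
    obtain ⟨k, hk, -⟩ := SubElusive.orbit_data h f hfh
    rw [hoh, hfs] at hk
    have hf0c : f 0 % c = (2 * d + 1) % c := by rw [← hk, Nat.add_mul_mod_self_left]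
    have hf0le := Nat.mod_le (f 0) c
    have hf0odd : f 0 % 2 = 1 := by
      have := Nat.mod_mod_of_dvd (f 0) (show 2 ∣ c from ⟨cc, by omega⟩)
      omega
    obtain ⟨f', hf'⟩ : ∃ f' : ZMod r → ℕ, f' = fun x => f x - if x = 0 then 1 else 0 := ⟨_, rfl⟩
    have hf'le : ∀ x, f' x + (if x = 0 then 1 else 0) = f x := fun x => by
      rw [hf']
      rcases eq_or_ne x 0 with rfl | hx
      · simp only [if_pos]; omega
      · simp [hx]
    have hf's : ∑ x, f' x = 2 * d := by
      have := hfs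
      rw [← Finset.sum_congr rfl (fun x _ => hf'le x), Finset.sum_add_distrib, Finset.sum_ite_eq' Finset.univ 0,
        if_pos (Finset.mem_univ _)] at this
      omega
    have hf0' : f' 0 = f 0 - 1 := by rw [hf']; simp
    obtain ⟨g, hg, hgs, hgf⟩ := SubElusive.exists_half_fun (u := u) hr2 f'
      (fun x => by rw [hf']; simp only [((hinv f).mpr hfh).1, mul_eq_zero, u.ne_zero, or_false])
      (fun x => by rw [hf']; simp only [((hinv f).mpr hfh).2, neg_eq_zero]) hf's
      (by rw [hf0', Nat.even_iff]; omega) hmd (by rw [← hi, hf0']; omega)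
      (fun he => by
        rw [← hi] at he
        have hd1 := hcond.resolve_left (Nat.not_odd_iff_even.mpr he)
        have e1 := Nat.mod_add_div (2 * d + 1) i
        have e2 := Nat.mod_add_div m i
        have e3 := Nat.mul_le_mul_left i hd1
        obtain ⟨t, ht⟩ := hir
        rw [ht, Nat.mul_div_cancel_left _ hipos, mul_add, mul_left_comm i 2] at e3
        rw [hc, if_pos he] at hlt
        omega)
    have hgf' : ∀ x, g x + g (-x) ≤ f x := fun x => (hgf x).trans (by rw [hf']; exact Nat.sub_le _ _)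
    obtain ⟨B, hB, hBm, W, hWd, hWs, hWinv⟩ := exists_ts_elem hζ hrp hr2 hu h2 hinv f g hfh hg hgf' hfs hgs
      (by have := hgf 0; rw [neg_zero, hf0'] at this; omega)
    obtain ⟨z, hz⟩ := isConj_iff.mp ((isConj_iff_mult hζ hrp hr2 hQ B y hB hy).mpr
      (funext fun x => (hBm x).trans (by rw [hfdef])))
    have hzQ := mem_isometryGroup.mp z.2
    refine ⟨W.map (glEquiv (z : GL (Unit ⊕ (Fin d ⊕ Fin d)) F) :
        (Unit ⊕ (Fin d ⊕ Fin d) → F) →ₗ[F] (Unit ⊕ (Fin d ⊕ Fin d) → F)), ?_, ?_, ?_⟩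
    · rw [LinearEquiv.finrank_map_eq, hWd]
    · rintro _ ⟨w, hw, rfl⟩
      rw [LinearEquiv.coe_coe, glEquiv_apply, hzQ, hWs w hw]
    · rintro _ ⟨_, ⟨v, hv, rfl⟩, rfl⟩
      refine ⟨((B : GL (Unit ⊕ (Fin d ⊕ Fin d)) F) : Matrix (Unit ⊕ (Fin d ⊕ Fin d)) (Unit ⊕ (Fin d ⊕ Fin d)) F) *ᵥ v,
        hWinv ⟨v, hv, Matrix.toLin'_apply _ _⟩, ?_⟩
      have hzB := congrArg (fun t : ↥(Cfsg.isometryGroup F ⇑(quadOdd F d)) =>
        ((t : GL (Unit ⊕ (Fin d ⊕ Fin d)) F) : Matrix (Unit ⊕ (Fin d ⊕ Fin d)) (Unit ⊕ (Fin d ⊕ Fin d)) F))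
        (mul_inv_eq_iff_eq_mul.mp hz)
      simp only [Subgroup.coe_mul, Units.val_mul] at hzB
      simp only [LinearEquiv.coe_coe, glEquiv_apply, Matrix.toLin'_apply, Matrix.mulVec_mulVec, hzB]

end CfsgLib.OrthTS
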