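import Cfsg.Agent.SubElusive.OrthOddBase
import Cfsg.Agent.Forms.Witt
import Cfsg.Agent.Forms.Standard
import Cfsg.Agent.Forms.Sum
import Cfsg.Agent.OrthOrder.Count
import Cfsg.Agent.SL2.Basic

/-!
Counting totally singular subspaces through frames.
-/

set_option autoImplicit false
set_option linter.style.haveILetI false

open QuadraticMap CfsgLib.Forms

namespace CfsgLib.OrthTS

variable {F : Type*} [Field F] [Fintype F] {ι : Type} [Fintype ι]

/-- Independent tuples spanning a totally singular subspace. -/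
def Frame (Q : QuadraticForm F (ι → F)) (k : ℕ) : Type _ :=
  {w : Fin k → (ι → F) // LinearIndependent F w ∧ ∀ v ∈ Submodule.span F (Set.range w), Q v = 0}

instance (Q : QuadraticForm F (ι → F)) (k : ℕ) : Finite (Frame Q k) :=
  inferInstanceAs (Finite {w : Fin k → (ι → F) // _})

omit [Fintype F] [Fintype ι] in
theorem polar_eq_zero_of_sing {Q : QuadraticForm F (ι → F)} {U : Submodule F (ι → F)} (hU : ∀ v ∈ U, Q v = 0)
    {u v : ι → F} (hu : u ∈ U) (hv : v ∈ U) : polar Q u v = 0 := by
  rw [polar, hU _ (U.add_mem hu hv), hU u hu, hU v hv, sub_zero, sub_zero]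

omit [Fintype F] in
theorem sing_sup_singleton {Q : QuadraticForm F (ι → F)} {U : Submodule F (ι → F)} (hU : ∀ v ∈ U, Q v = 0)
    {z : ι → F} (hz : z ∈ perp Q U) (hz0 : Q z = 0) : ∀ v ∈ U ⊔ Submodule.span F {z}, Q v = 0 := by
  intro v hv
  obtain ⟨u, hu, y, hy, rfl⟩ := Submodule.mem_sup.mp hv
  obtain ⟨a, rfl⟩ := Submodule.mem_span_singleton.mp hy
  rw [map_add_smul, hU u hu, hz0, polar_comm, mem_perp.mp hz u hu]
  ring

/-- The number of frames, step by step. -/
theorem card_frame (Q : QuadraticForm F (ι → F)) (E : ℕ → ℕ) : ∀ m : ℕ,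
    (∀ k, k < m → ∀ U : Submodule F (ι → F), Module.finrank F U = k → (∀ v ∈ U, Q v = 0) →
      Nat.card {v : ι → F // v ∈ perp Q U ∧ Q v = 0} = E k) →
    Nat.card (Frame Q m) = ∏ k ∈ Finset.range m, (E k - Fintype.card F ^ k) := by
  classical
  intro m
  induction m with
  | zero =>
    intro _
    haveI : Unique (Frame Q 0) :=
      { default := ⟨Fin.elim0, linearIndependent_empty_type, fun v hv => by
          rw [Set.range_eq_empty, Submodule.span_empty, Submodule.mem_bot] at hv
          rw [hv, QuadraticMap.map_zero]⟩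
        uniq := fun w => Subtype.ext (funext fun i => i.elim0) }
    rw [Nat.card_unique, Finset.prod_range_zero]
  | succ m ih =>
    intro hE
    haveI : Fintype (Frame Q m) := Fintype.ofFinite _
    let Ext : Frame Q m → Type _ := fun w => {v : {v : ι → F // v ∈ perp Q (Submodule.span F (Set.range w.1)) ∧ Q v = 0} //
      ¬ v.1 ∈ Submodule.span F (Set.range w.1)}
    let e : Frame Q (m + 1) ≃ Σ w : Frame Q m, Ext w :=
      { toFun := fun w => ⟨⟨Fin.init w.1, w.2.1.comp Fin.castSucc (Fin.castSucc_injective m), fun v hv =>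
          w.2.2 v (Submodule.span_mono (Set.range_comp_subset_range _ _) hv)⟩,
          ⟨⟨w.1 (Fin.last m), mem_perp.mpr fun u hu =>
              polar_eq_zero_of_sing w.2.2 (Submodule.subset_span ⟨_, rfl⟩)
                (Submodule.span_mono (Set.range_comp_subset_range _ _) hu),
            w.2.2 _ (Submodule.subset_span ⟨_, rfl⟩)⟩, by
            have h := w.2.1
            rw [← Fin.snoc_init_self w.1, linearIndependent_finSnoc] at h
            exact h.2⟩⟩
        invFun := fun p => ⟨Fin.snoc p.1.1 p.2.1.1, linearIndependent_finSnoc.mpr ⟨p.1.2.1, p.2.2⟩, by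
          rw [Fin.range_snoc, Submodule.span_insert, sup_comm]
          exact sing_sup_singleton p.1.2.2 p.2.1.2.1 p.2.1.2.2⟩
        left_inv := fun w => Subtype.ext (Fin.snoc_init_self w.1)
        right_inv := fun p => by
          have key : ∀ p p' : (Σ w : Frame Q m, Ext w), p.1.1 = p'.1.1 → p.2.1.1 = p'.2.1.1 → p = p' := by
            rintro ⟨⟨w, h1⟩, ⟨⟨v, h3⟩, h5⟩⟩ ⟨⟨w', h1'⟩, ⟨⟨v', h3'⟩, h5'⟩⟩ rfl rfl
            rfl
          exact key _ _ (Fin.init_snoc (α := fun _ => ι → F) _ _) (Fin.snoc_last (α := fun _ => ι → F) _ _) }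
    have hext : ∀ w : Frame Q m, Nat.card (Ext w) = E m - Fintype.card F ^ m := fun w => by
      obtain ⟨U, hU⟩ : ∃ U, U = Submodule.span F (Set.range w.1) := ⟨_, rfl⟩
      have hUd : Module.finrank F U = m := by rw [hU, finrank_span_eq_card w.2.1, Fintype.card_fin]
      have hUs : ∀ v ∈ U, Q v = 0 := hU ▸ w.2.2
      have h1 : Nat.card {v : {v : ι → F // v ∈ perp Q U ∧ Q v = 0} // v.1 ∈ U} = Fintype.card F ^ m := by
        rw [← hUd, ← Module.card_eq_pow_finrank (K := F) (V := U), ← Nat.card_eq_fintype_card]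
        exact Nat.card_congr
          { toFun := fun v => ⟨v.1.1, v.2⟩
            invFun := fun v => ⟨⟨v.1, mem_perp.mpr fun u hu => polar_eq_zero_of_sing hUs v.2 hu, hUs _ v.2⟩, v.2⟩
            left_inv := fun v => rfl
            right_inv := fun v => rfl }
      have h2 := hE m (Nat.lt_succ_self m) U hUd hUs
      show Nat.card {v : {v : ι → F // v ∈ perp Q (Submodule.span F (Set.range w.1)) ∧ Q v = 0} //
        ¬ v.1 ∈ Submodule.span F (Set.range w.1)} = _
      rw [← hU, ← h1, ← h2, Nat.card_eq_fintype_card, Nat.card_eq_fintype_card, Nat.card_eq_fintype_card,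
        Fintype.card_subtype_compl]
    rw [Nat.card_congr e, Nat.card_sigma, Finset.sum_congr rfl fun w _ => hext w, Finset.sum_const, smul_eq_mul,
      Finset.card_univ, ← Nat.card_eq_fintype_card, ih fun k hk => hE k (by omega), Finset.prod_range_succ]

/-- The number of totally singular subspaces times the number of bases of each. -/
theorem card_ts_mul (Q : QuadraticForm F (ι → F)) (E : ℕ → ℕ) (m : ℕ)
    (hE : ∀ k, k < m → ∀ U : Submodule F (ι → F), Module.finrank F U = k → (∀ v ∈ U, Q v = 0) →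
      Nat.card {v : ι → F // v ∈ perp Q U ∧ Q v = 0} = E k) :
    Nat.card {W : Submodule F (ι → F) // Module.finrank F W = m ∧ ∀ w ∈ W, Q w = 0} *
      ∏ k ∈ Finset.range m, (Fintype.card F ^ m - Fintype.card F ^ k) =
      ∏ k ∈ Finset.range m, (E k - Fintype.card F ^ k) := by
  classical
  let Ω := {W : Submodule F (ι → F) // Module.finrank F W = m ∧ ∀ w ∈ W, Q w = 0}
  let Φ : Frame Q m → Ω := fun w =>
    ⟨Submodule.span F (Set.range w.1), by rw [finrank_span_eq_card w.2.1, Fintype.card_fin], w.2.2⟩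
  have hfib : ∀ W : Ω, Nat.card {w // Φ w = W} =
      ∏ k ∈ Finset.range m, (Fintype.card F ^ m - Fintype.card F ^ k) := fun W => by
    haveI := Fintype.ofFinite W.1
    have h1 := card_linearIndependent (K := F) (V := W.1) (k := m) W.2.1.ge
    rw [W.2.1, Fin.prod_univ_eq_prod_range (fun i => Fintype.card F ^ m - Fintype.card F ^ i) m] at h1
    rw [← h1]
    refine Nat.card_congr (Equiv.ofBijective
      (fun w => (⟨fun i => ⟨w.1.1 i, (congrArg Subtype.val w.2).le (Submodule.subset_span ⟨i, rfl⟩)⟩,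
        LinearIndependent.of_comp W.1.subtype w.1.2.1⟩ : {v : Fin m → W.1 // LinearIndependent F v})) ⟨?_, ?_⟩)
    · intro w w' e
      exact Subtype.ext (Subtype.ext (funext fun i => congrArg Subtype.val (congrFun (congrArg Subtype.val e) i)))
    · rintro ⟨v, hv⟩
      have hv' : LinearIndependent F fun i => (v i : ι → F) := hv.map' W.1.subtype W.1.ker_subtype
      have hle : Submodule.span F (Set.range fun i => (v i : ι → F)) ≤ W.1 := by
        rw [Submodule.span_le]; rintro _ ⟨i, rfl⟩; exact (v i).2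
      refine ⟨⟨⟨fun i => v i, hv', fun a ha => W.2.2 a (hle ha)⟩, Subtype.ext ?_⟩, rfl⟩
      refine Submodule.eq_of_le_of_finrank_eq hle ?_
      rw [finrank_span_eq_card hv', Fintype.card_fin, W.2.1]
  haveI : Fintype Ω := Fintype.ofFinite _
  rw [← card_frame Q E m hE, ← Nat.card_congr (Equiv.sigmaFiberEquiv Φ), Nat.card_sigma,
    Finset.sum_congr rfl fun W _ => hfib W, Finset.sum_const, smul_eq_mul, Finset.card_univ, Nat.card_eq_fintype_card]

/-- Singular vectors orthogonal to a totally singular subspace. -/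
theorem card_perp_zero [DecidableEq ι] {Q : QuadraticForm F (ι → F)} (hQ : (polarBilin Q).Nondegenerate) {k : ℕ}
    {κ : Type} [Fintype κ] [DecidableEq κ] (R : QuadraticForm F (κ → F)) {c : F} (hc : c ≠ 0)
    (g : ((Fin k ⊕ Fin k) ⊕ κ → F) ≃ₗ[F] (ι → F)) (hg : ∀ v, Q (g v) = c * sumForm (quadPlus F k) R v)
    (U : Submodule F (ι → F)) (hUd : Module.finrank F U = k) (hUs : ∀ v ∈ U, Q v = 0) :
    Nat.card {v : ι → F // v ∈ perp Q U ∧ Q v = 0} = Fintype.card F ^ k * Nat.card {v : κ → F // R v = 0} := by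
  classical
  obtain ⟨L, hLv⟩ : ∃ L : (Fin k → F) →ₗ[F] (ι → F), ∀ a, L a = g (Sum.elim (Sum.elim a 0) 0) :=
    ⟨g.toLinearMap ∘ₗ OrthOddSub.inlL F (Fin k ⊕ Fin k) κ ∘ₗ OrthOddSub.inlL F (Fin k) (Fin k), fun _ => rfl⟩
  have hLi : Function.Injective L := fun a b h => funext fun j => by
    rw [hLv, hLv] at h
    exact congrFun (g.injective h) (Sum.inl (Sum.inl j))
  have hLs : ∀ a, Q (L a) = 0 := fun a => by
    rw [hLv, hg, sumForm_apply, Sum.elim_comp_inl, Sum.elim_comp_inr, QuadraticMap.map_zero, coe_quadPlus]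
    simp [Cfsg.quadFormPlus]
  let eU : U ≃ₗ[F] (Fin k → F) := LinearEquiv.ofFinrankEq _ _ (by rw [hUd, Module.finrank_fin_fun])
  obtain ⟨h, hh, hhU⟩ := witt hQ U (L ∘ₗ eU.toLinearMap) (hLi.comp eU.injective) (fun x => by
    rw [hUs _ x.2]; exact hLs _)
  have hpol : ∀ a b, polar Q (h a) (h b) = polar Q a b := fun a b => by simp only [polar, ← map_add, hh]
  have hR0 : ∀ v : (Fin k ⊕ Fin k) ⊕ κ → F, g v ∈ perp Q (LinearMap.range L) ↔ ∀ i, v (Sum.inl (Sum.inr i)) = 0 := by
    intro v
    have e : ∀ a, polar Q (g v) (L a) = c * ∑ i, a i * v (Sum.inl (Sum.inr i)) := fun a => by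
      rw [hLv]
      have : ∀ u w, polar Q (g u) (g w) = c * polar (sumForm (quadPlus F k) R) u w := fun u w => by
        simp only [polar, ← map_add, hg]; ring
      rw [this, polar_sumForm, Sum.elim_comp_inl, Sum.elim_comp_inr, polar_zero_right, add_zero, coe_quadPlus,
        polar_plus]
      simp
    rw [mem_perp]
    constructor
    · intro hv i
      have := hv _ ⟨Pi.single i 1, rfl⟩
      rw [e] at this
      simpa [Pi.single_apply, hc] using this
    · rintro hv _ ⟨a, rfl⟩
      rw [e]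
      simp [hv]
  have hperp : ∀ v, v ∈ perp Q U ↔ h v ∈ perp Q (LinearMap.range L) := fun v => by
    rw [mem_perp, mem_perp]
    constructor
    · rintro hv _ ⟨a, rfl⟩
      have e1 : L a = h (eU.symm a : ι → F) := by
        rw [hhU (eU.symm a), LinearMap.comp_apply, LinearEquiv.coe_coe, eU.apply_symm_apply]
      rw [e1, hpol]
      exact hv _ (eU.symm a).2
    · intro hv u hu
      rw [← hpol, hhU ⟨u, hu⟩]
      exact hv _ ⟨_, rfl⟩
  have e : {v : ι → F // v ∈ perp Q U ∧ Q v = 0} ≃ (Fin k → F) × {v : κ → F // R v = 0} :=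
    { toFun := fun v => (fun i => g.symm (h v.1) (Sum.inl (Sum.inl i)), ⟨(g.symm (h v.1)) ∘ Sum.inr, by
        have h1 := (hR0 (g.symm (h v.1))).mp (by rw [g.apply_symm_apply]; exact (hperp v.1).mp v.2.1)
        have h2 : Q (g (g.symm (h v.1))) = 0 := by rw [g.apply_symm_apply, hh, v.2.2]
        rw [hg, sumForm_apply, coe_quadPlus] at h2
        simp only [Cfsg.quadFormPlus, Function.comp_apply, h1, mul_zero, Finset.sum_const_zero, zero_add] at h2
        exact (mul_eq_zero.mp h2).resolve_left hc⟩)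
      invFun := fun p => ⟨h.symm (g (Sum.elim (Sum.elim p.1 0) p.2.1)), (hperp _).mpr (by
          rw [h.apply_symm_apply, hR0]; intro i; rfl), by
        rw [← hh, h.apply_symm_apply, hg, sumForm_apply, Sum.elim_comp_inl, Sum.elim_comp_inr, coe_quadPlus, p.2.2]
        simp [Cfsg.quadFormPlus]⟩
      left_inv := fun v => Subtype.ext (h.injective (g.symm.injective (by
        rw [h.apply_symm_apply, g.symm_apply_apply]
        funext j
        rcases j with (j | j) | j
        · rfl
        · exact ((hR0 (g.symm (h v.1))).mp (by rw [g.apply_symm_apply]; exact (hperp v.1).mp v.2.1) j).symm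
        · rfl)))
      right_inv := fun p => by
        refine Prod.ext (funext fun i => ?_) (Subtype.ext ?_)
        · simp
        · simp }
  rw [Nat.card_congr e, Nat.card_prod, Nat.card_fun, Nat.card_eq_fintype_card (α := F), Nat.card_fin]

/-- Products of the differences of powers. -/
theorem prod_pow_sub (q m : ℕ) (a : ℕ → ℕ) :
    ∏ k ∈ Finset.range m, (q ^ k * a k - q ^ k) = q ^ (∑ k ∈ Finset.range m, k) * ∏ k ∈ Finset.range m, (a k - 1) := by
  rw [← Finset.prod_pow_eq_pow_sum, ← Finset.prod_mul_distrib]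
  exact Finset.prod_congr rfl fun k _ => by rw [Nat.mul_sub, mul_one]

theorem prod_basis (q m : ℕ) :
    ∏ k ∈ Finset.range m, (q ^ m - q ^ k) = q ^ (∑ k ∈ Finset.range m, k) * ∏ k ∈ Finset.range m, (q ^ (m - k) - 1) := by
  rw [← prod_pow_sub]
  exact Finset.prod_congr rfl fun k hk => by rw [← pow_add, Nat.add_sub_cancel' (Finset.mem_range.mp hk).le]

end CfsgLib.OrthTS
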