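import Cfsg.Agent.SubElusive.OrthOddInv
import Cfsg.Agent.SubElusive.OrthTSCount

/-!
Involutions of odd-dimensional orthogonal groups and invariant totally singular subspaces.
-/

set_option autoImplicit false
set_option linter.style.haveILetI false

open Matrix QuadraticMap CfsgLib.Forms

namespace CfsgLib.OrthTS

variable {F : Type*} [Field F] [Fintype F] {ι : Type} [Fintype ι]

/-- A nondegenerate space contains totally singular subspaces of every dimension below half. -/
theorem exists_singular_in (h2 : (2 : F) ≠ 0) {Q : QuadraticForm F (ι → F)} (U : Submodule F (ι → F))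
    (hU : Disjoint U (perp Q U)) (t : ℕ) (ht : 2 * t < Module.finrank F U) :
    ∃ S : Submodule F (ι → F), S ≤ U ∧ (∀ v ∈ S, Q v = 0) ∧ Module.finrank F S = t := by
  classical
  rcases Nat.eq_zero_or_pos t with rfl | htpos
  · exact ⟨⊥, bot_le, fun v hv => by rw [(Submodule.mem_bot F).mp hv, QuadraticMap.map_zero], finrank_bot F _⟩
  obtain ⟨δ, hδ⟩ : ∃ δ : F, δ = ((-1) ^ t * 2 ^ (2 * t))⁻¹ := ⟨_, rfl⟩
  have hne : (-1 : F) ^ t * 2 ^ (2 * t) ≠ 0 :=
    mul_ne_zero (pow_ne_zero _ (neg_ne_zero.mpr one_ne_zero)) (pow_ne_zero _ h2)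
  obtain ⟨w, hwU, hwo, hw0, hwp⟩ := OrthOddSub.exists_orth_family_prod h2 U hU (2 * t - 1) (δ := δ) (by omega)
    (hδ ▸ inv_ne_zero hne)
  obtain ⟨-, -, hplus⟩ := OrthOddSub.sub_of_family h2 w hwo hw0 (M := t) htpos (by simp; omega)
  have hsq : IsSquare ((-1 : F) ^ t * (2 ^ (2 * t) * ∏ i, Q (w i))) := by
    rw [hwp, hδ, ← mul_assoc, mul_inv_cancel₀ hne]; exact IsSquare.one
  obtain ⟨S, hS, hs, hd⟩ := hplus.mpr hsq
  have hli : LinearIndependent F w := Fintype.linearIndependent_iff.mpr fun c hc i => by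
    have h := congrArg (fun z => polar Q z (w i)) hc
    simp only [polar_zero_left] at h
    rw [polar_sum_left, Finset.sum_eq_single i (fun j _ hj => by rw [polar_smul_left, hwo j i hj, smul_zero])
      (by simp), polar_smul_left, polar_self, smul_eq_mul, nsmul_eq_mul, Nat.cast_two] at h
    exact (mul_eq_zero.mp h).resolve_right (mul_ne_zero h2 (hw0 i))
  refine ⟨S, hS.trans ?_, hs, ?_⟩
  · rw [Submodule.span_le]; rintro _ ⟨i, rfl⟩; exact hwU i
  · rw [finrank_span_eq_card hli, Fintype.card_fin] at hd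
    omega

omit [Fintype F] in
/-- A subspace of given dimension of an orthogonal sum of totally singular subspaces. -/
theorem exists_sub_sup {Q : QuadraticForm F (ι → F)} {U U' S S' : Submodule F (ι → F)} (hinf : U ⊓ U' = ⊥)
    (horth : ∀ u ∈ U, ∀ v ∈ U', polar Q u v = 0) (hS : S ≤ U) (hS' : S' ≤ U') (hs : ∀ v ∈ S, Q v = 0)
    (hs' : ∀ v ∈ S', Q v = 0) {m : ℕ} (hm : m ≤ Module.finrank F S + Module.finrank F S') :
    ∃ (W : Submodule F (ι → F)) (w : Fin m → (ι → F)), Module.finrank F W = m ∧ (∀ v ∈ W, Q v = 0) ∧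
      W = Submodule.span F (Set.range w) ∧ ∀ i, w i ∈ U ∨ w i ∈ U' := by
  classical
  let bS := Module.finBasis F S
  let bS' := Module.finBasis F S'
  obtain ⟨z, hz⟩ : ∃ z : Fin (Module.finrank F S) ⊕ Fin (Module.finrank F S') → (ι → F),
      z = Sum.elim (fun i => (bS i : ι → F)) (fun i => (bS' i : ι → F)) := ⟨_, rfl⟩
  have hzli : LinearIndependent F z := by
    rw [hz]
    refine LinearIndependent.sum_type (bS.linearIndependent.map' S.subtype S.ker_subtype)
      (bS'.linearIndependent.map' S'.subtype S'.ker_subtype) ?_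
    refine Disjoint.mono ?_ ?_ (disjoint_iff.mpr hinf)
    · rw [Submodule.span_le]; rintro _ ⟨i, rfl⟩; exact hS (bS i).2
    · rw [Submodule.span_le]; rintro _ ⟨i, rfl⟩; exact hS' (bS' i).2
  let e : Fin m → Fin (Module.finrank F S) ⊕ Fin (Module.finrank F S') :=
    fun i => finSumFinEquiv.symm (Fin.castLE hm i)
  have hei : Function.Injective e := finSumFinEquiv.symm.injective.comp (Fin.castLE_injective hm)
  refine ⟨Submodule.span F (Set.range (z ∘ e)), z ∘ e, ?_, fun v hv => ?_, rfl, fun i => ?_⟩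
  · rw [finrank_span_eq_card (hzli.comp e hei), Fintype.card_fin]
  · have hle : Submodule.span F (Set.range (z ∘ e)) ≤ S ⊔ S' := by
      rw [Submodule.span_le]
      rintro _ ⟨i, rfl⟩
      rw [hz, Function.comp_apply]
      cases e i with
      | inl j => exact Submodule.mem_sup_left (bS j).2
      | inr j => exact Submodule.mem_sup_right (bS' j).2
    obtain ⟨a, ha, b, hb, rfl⟩ := Submodule.mem_sup.mp (hle hv)
    rw [QuadraticMap.map_add (⇑Q), hs a ha, hs' b hb, horth a (hS ha) b (hS' hb)]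
    simp
  · rw [hz, Function.comp_apply]
    cases e i with
    | inl j => exact Or.inl (hS (bS j).2)
    | inr j => exact Or.inr (hS' (bS' j).2)

variable [DecidableEq ι]

omit [Fintype F] in
/-- The eigenspaces of an involutive isometry. -/
theorem invol_split (h2 : (2 : F) ≠ 0) {Q : QuadraticForm F (ι → F)} (hQ : (polarBilin Q).Nondegenerate)
    {X : Matrix ι ι F} (hX : X * X = 1) (hXQ : ∀ v, Q (X *ᵥ v) = Q v) :
    ∃ U U' : Submodule F (ι → F), (∀ v, v ∈ U ↔ X *ᵥ v = v) ∧ (∀ v, v ∈ U' ↔ X *ᵥ v = -v) ∧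
      (∀ u ∈ U, ∀ v ∈ U', polar Q u v = 0) ∧ U ⊔ U' = ⊤ ∧ U ⊓ U' = ⊥ ∧ Disjoint U (perp Q U) ∧
      Disjoint U' (perp Q U') ∧ Module.finrank F U + Module.finrank F U' = Fintype.card ι := by
  obtain ⟨U, hU⟩ : ∃ U, U = LinearMap.ker (Matrix.toLin' X - 1 : Module.End F (ι → F)) := ⟨_, rfl⟩
  obtain ⟨U', hU'⟩ : ∃ U', U' = LinearMap.ker (Matrix.toLin' X + 1 : Module.End F (ι → F)) := ⟨_, rfl⟩
  have mU : ∀ {v}, v ∈ U ↔ X *ᵥ v = v := fun {v} => by
    rw [hU, LinearMap.mem_ker, LinearMap.sub_apply, Matrix.toLin'_apply, Module.End.one_apply, sub_eq_zero]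
  have mU' : ∀ {v}, v ∈ U' ↔ X *ᵥ v = -v := fun {v} => by
    rw [hU', LinearMap.mem_ker, LinearMap.add_apply, Matrix.toLin'_apply, Module.End.one_apply, add_eq_zero_iff_eq_neg]
  have horth : ∀ u ∈ U, ∀ v ∈ U', polar Q u v = 0 := fun u hu v hv => by
    have h1 : polar Q (X *ᵥ u) (X *ᵥ v) = polar Q u v := by simp only [polar, ← Matrix.mulVec_add, hXQ]
    rw [mU.mp hu, mU'.mp hv, polar_neg_right] at h1
    exact (mul_eq_zero.mp (show (2 : F) * polar Q u v = 0 by linear_combination -h1)).resolve_left h2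
  have hsup : U ⊔ U' = ⊤ := eq_top_iff.mpr fun v _ => by
    have hXX : X *ᵥ (X *ᵥ v) = v := by rw [Matrix.mulVec_mulVec, hX, Matrix.one_mulVec]
    refine Submodule.mem_sup.mpr ⟨(2 : F)⁻¹ • (v + X *ᵥ v), ?_, (2 : F)⁻¹ • (v - X *ᵥ v), ?_, ?_⟩
    · rw [mU, Matrix.mulVec_smul, Matrix.mulVec_add, hXX, add_comm]
    · rw [mU', Matrix.mulVec_smul, Matrix.mulVec_sub, hXX, ← smul_neg, neg_sub]
    · rw [← smul_add, add_add_sub_cancel, ← two_smul F v, smul_smul, inv_mul_cancel₀ h2, one_smul]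
  have hd : ∀ (A B : Submodule F (ι → F)), A ⊔ B = ⊤ → (∀ u ∈ A, ∀ v ∈ B, polar Q u v = 0) →
      Disjoint A (perp Q A) := fun A B hAB hor => by
    rw [Submodule.disjoint_def]
    intro x hx hxp
    refine polar_ext hQ fun y => ?_
    obtain ⟨a, ha, b, hb, rfl⟩ := Submodule.mem_sup.mp (hAB ▸ Submodule.mem_top : y ∈ A ⊔ B)
    rw [polar_add_right, mem_perp.mp hxp a ha, hor x hx b hb, add_zero]
  have hinf : U ⊓ U' = ⊥ := eq_bot_iff.mpr fun v hv => by
    have h1 := mU.mp hv.1
    rw [mU'.mp hv.2] at h1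
    rw [Submodule.mem_bot]
    exact (smul_eq_zero.mp (show (2 : F) • v = 0 by rw [two_smul]; nth_rw 2 [← h1]; abel)).resolve_left h2
  have hdim := Submodule.finrank_sup_add_finrank_inf_eq U U'
  rw [hsup, hinf, finrank_top, finrank_bot, add_zero, Module.finrank_fintype_fun_eq_card] at hdim
  exact ⟨U, U', fun v => mU, fun v => mU', horth, hsup, hinf, hd U U' hsup horth,
    hd U' U (by rw [sup_comm]; exact hsup) (fun u hu v hv => by rw [polar_comm]; exact horth v hv u hu), hdim.symm⟩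

omit [Fintype F] in
theorem invariant_span {X : Matrix ι ι F} {U U' : Submodule F (ι → F)} (mU : ∀ v, v ∈ U ↔ X *ᵥ v = v)
    (mU' : ∀ v, v ∈ U' ↔ X *ᵥ v = -v) {σ : Type} (w : σ → (ι → F)) (hw : ∀ i, w i ∈ U ∨ w i ∈ U') :
    (Submodule.span F (Set.range w)).map (Matrix.toLin' X) ≤ Submodule.span F (Set.range w) := by
  rw [Submodule.map_span_le]
  rintro _ ⟨i, rfl⟩
  rw [Matrix.toLin'_apply]
  rcases hw i with h | h
  · rw [(mU _).mp h]; exact Submodule.subset_span ⟨i, rfl⟩
  · rw [(mU' _).mp h]; exact neg_mem (Submodule.subset_span ⟨i, rfl⟩)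

/-- An involutive isometry fixes totally singular subspaces of every non-maximal dimension. -/
theorem exists_ts_invol (h2 : (2 : F) ≠ 0) {Q : QuadraticForm F (ι → F)} (hQ : (polarBilin Q).Nondegenerate)
    {X : Matrix ι ι F} (hX : X * X = 1) (hXQ : ∀ v, Q (X *ᵥ v) = Q v) {d m : ℕ} (hι : Fintype.card ι = 2 * d + 1)
    (hm : m < d) :
    ∃ W : Submodule F (ι → F), Module.finrank F W = m ∧ (∀ w ∈ W, Q w = 0) ∧ W.map (Matrix.toLin' X) ≤ W := by
  obtain ⟨U, U', mU, mU', horth, -, hinf, hdU, hdU', hdim⟩ := invol_split h2 hQ hX hXQ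
  have hS : ∀ A : Submodule F (ι → F), Disjoint A (perp Q A) → ∃ S : Submodule F (ι → F), S ≤ A ∧
      (∀ v ∈ S, Q v = 0) ∧ Module.finrank F S = (Module.finrank F A - 1) / 2 := fun A hA => by
    rcases Nat.eq_zero_or_pos (Module.finrank F A) with h0 | h0
    · exact ⟨⊥, bot_le, fun v hv => by rw [(Submodule.mem_bot F).mp hv, QuadraticMap.map_zero], by
        rw [finrank_bot]; omega⟩
    · exact exists_singular_in h2 A hA _ (by omega)
  obtain ⟨S, hSU, hs, hSd⟩ := hS U hdU
  obtain ⟨S', hSU', hs', hSd'⟩ := hS U' hdU'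
  obtain ⟨W, w, hWd, hWs, hW, hw⟩ := exists_sub_sup hinf horth hSU hSU' hs hs' (m := m) (by omega)
  exact ⟨W, hWd, hWs, hW ▸ invariant_span mU mU' w hw⟩

omit [Fintype F] in
/-- A product of reflections in an orthogonal family. -/
theorem refl_list {Q : QuadraticForm F (ι → F)} : ∀ l : List (ι → F),
    l.Pairwise (fun a b => polar Q a b = 0) → (∀ u ∈ l, Q u ≠ 0) →
    (∀ v, (∀ u ∈ l, polar Q v u = 0) → (l.map fun u => Cfsg.reflectionMatrix ⇑Q u).prod *ᵥ v = v) ∧
      ∀ v ∈ l, (l.map fun u => Cfsg.reflectionMatrix ⇑Q u).prod *ᵥ v = -v := by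
  intro l
  induction l with
  | nil => intros; exact ⟨fun v _ => Matrix.one_mulVec v, fun v hv => absurd hv List.not_mem_nil⟩
  | cons a l ih =>
    intro hp hne
    rw [List.pairwise_cons] at hp
    obtain ⟨h1, h3⟩ := ih hp.2 fun u hu => hne u (List.mem_cons_of_mem _ hu)
    have ha := hne a List.mem_cons_self
    have hfix : ∀ v, (∀ u ∈ a :: l, polar Q v u = 0) →
        ((a :: l).map fun u => Cfsg.reflectionMatrix ⇑Q u).prod *ᵥ v = v := fun v hv => by
      rw [List.map_cons, List.prod_cons, ← Matrix.mulVec_mulVec, h1 v fun u hu => hv u (List.mem_cons_of_mem _ hu),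
        reflectionMatrix_mulVec, hv a List.mem_cons_self, mul_zero, zero_smul, sub_zero]
    refine ⟨hfix, fun v hv => ?_⟩
    rw [List.map_cons, List.prod_cons, ← Matrix.mulVec_mulVec]
    rcases List.mem_cons.mp hv with rfl | hv
    · rw [h1 v hp.1, reflectionMatrix_mulVec, polar_self, nsmul_eq_mul, Nat.cast_two, mul_left_comm,
        inv_mul_cancel₀ ha, mul_one, two_smul]
      abel
    · rw [h3 v hv, reflectionMatrix_mulVec, polar_neg_left, polar_comm, hp.1 v hv, neg_zero, mul_zero, zero_smul,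
        sub_zero]

/-- Involutions of `Ω` fix maximal totally singular subspaces when `-1` is a square. -/
theorem exists_ts_invol_omega (h2 : (2 : F) ≠ 0) {Q : QuadraticForm F (ι → F)} (hQ : (polarBilin Q).Nondegenerate)
    (g : Cfsg.isometryGroup F ⇑Q) (hg : g ∈ Cfsg.Omega F ⇑Q)
    (hX : ((g : GL ι F) : Matrix ι ι F) * ((g : GL ι F) : Matrix ι ι F) = 1) (hsq : IsSquare (-1 : F))
    {d m : ℕ} (hd : 1 ≤ d) (hι : Fintype.card ι = 2 * d + 1) (hm : m ≤ d) :
    ∃ W : Submodule F (ι → F), Module.finrank F W = m ∧ (∀ w ∈ W, Q w = 0) ∧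
      W.map (Matrix.toLin' ((g : GL ι F) : Matrix ι ι F)) ≤ W := by
  classical
  obtain ⟨U, U', mU, mU', horth, hsup, hinf, hdU, hdU', hdim⟩ := invol_split h2 hQ hX (mem_isometryGroup.mp g.2)
  obtain ⟨w, hwU, hwo, hw0⟩ := OrthOddSub.exists_orth_family h2 U' hdU' (Module.finrank F U') le_rfl
  have hli : LinearIndependent F w := Fintype.linearIndependent_iff.mpr fun c hc i => by
    have h := congrArg (fun z => polar Q z (w i)) hc
    simp only [polar_zero_left] at h
    rw [polar_sum_left, Finset.sum_eq_single i (fun j _ hj => by rw [polar_smul_left, hwo j i hj, smul_zero])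
      (by simp), polar_smul_left, polar_self, smul_eq_mul, nsmul_eq_mul, Nat.cast_two] at h
    exact (mul_eq_zero.mp h).resolve_right (mul_ne_zero h2 (hw0 i))
  have hspan : Submodule.span F (Set.range w) = U' := by
    refine Submodule.eq_of_le_of_finrank_eq (Submodule.span_le.mpr ?_) ?_
    · rintro _ ⟨i, rfl⟩; exact hwU i
    · rw [finrank_span_eq_card hli, Fintype.card_fin]
  obtain ⟨hfix, hneg⟩ := refl_list (Q := Q) (List.ofFn w)
    (List.pairwise_ofFn.mpr fun {i j} hij => hwo i j hij.ne) (fun u hu => by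
      obtain ⟨i, rfl⟩ := List.mem_ofFn.mp hu; exact hw0 i)
  obtain ⟨P, hP⟩ : ∃ P, P = ((List.ofFn w).map fun u => Cfsg.reflectionMatrix ⇑Q u).prod := ⟨_, rfl⟩
  have hPU' : ∀ v ∈ U', P *ᵥ v = -v := fun v hv => by
    rw [← hspan] at hv
    obtain ⟨c, rfl⟩ := (Submodule.mem_span_range_iff_exists_fun F).mp hv
    rw [Matrix.mulVec_sum, ← Finset.sum_neg_distrib]
    exact Finset.sum_congr rfl fun i _ => by
      rw [Matrix.mulVec_smul, hP, hneg _ (List.mem_ofFn.mpr ⟨i, rfl⟩), smul_neg]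
  have hgP : ((g : GL ι F) : Matrix ι ι F) = P := Matrix.ext_iff_mulVec.mpr fun v => by
    obtain ⟨a, ha, b, hb, rfl⟩ := Submodule.mem_sup.mp (hsup ▸ Submodule.mem_top : v ∈ U ⊔ U')
    have hPa : P *ᵥ a = a := hP ▸ hfix a (fun u hu => by
      obtain ⟨i, rfl⟩ := List.mem_ofFn.mp hu; exact horth a ha _ (hwU i))
    rw [Matrix.mulVec_add, Matrix.mulVec_add, (mU a).mp ha, (mU' b).mp hb, hPa, hPU' b hb]
  obtain ⟨heven, hprod⟩ := (mem_Omega_list Q h2 hQ (by omega) g (List.ofFn w)
    (fun u hu => by obtain ⟨i, rfl⟩ := List.mem_ofFn.mp hu; exact hw0 i) (hgP.trans hP)).mp hg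
  rw [List.length_ofFn] at heven
  rw [List.map_ofFn, List.prod_ofFn] at hprod
  obtain ⟨s, hs⟩ := heven
  obtain ⟨S', hSU', hs', hSd'⟩ : ∃ S : Submodule F (ι → F), S ≤ U' ∧ (∀ v ∈ S, Q v = 0) ∧
      Module.finrank F S = s := by
    rcases Nat.eq_zero_or_pos s with rfl | hspos
    · exact ⟨⊥, bot_le, fun v hv => by rw [(Submodule.mem_bot F).mp hv, QuadraticMap.map_zero], finrank_bot F _⟩
    obtain ⟨hd', -, hplus⟩ := OrthOddSub.sub_of_family h2 w hwo hw0 (M := s) hspos (by rw [Fintype.card_fin]; omega)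
    obtain ⟨S, hS, hS0, hSd⟩ := hplus.mpr ((hsq.pow s).mul
      (((IsSquare.sq ((2 : F) ^ s))).mul hprod |> fun h => by
        rw [two_mul, pow_add, ← pow_two]; exact h))
    exact ⟨S, hS.trans hspan.le, hS0, by omega⟩
  obtain ⟨S, hSU, hs0, hSd⟩ := exists_singular_in h2 U hdU (d - s) (by omega)
  obtain ⟨W, w', hWd, hWs, hW, hw'⟩ := exists_sub_sup hinf horth hSU hSU' hs0 hs' (m := m) (by omega)
  exact ⟨W, hWd, hWs, hW ▸ invariant_span mU mU' w' hw'⟩

/-- An involution of `Ω` fixing no maximal totally singular subspace when `-1` is a nonsquare. -/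
theorem exists_invol_no_ts (h2 : (2 : F) ≠ 0) {Q : QuadraticForm F (ι → F)} (hQ : (polarBilin Q).Nondegenerate)
    (hsq : ¬ IsSquare (-1 : F)) {d : ℕ} (hd : 1 ≤ d) (hι : Fintype.card ι = 2 * d + 1) :
    ∃ g : Cfsg.isometryGroup F ⇑Q, g ∈ Cfsg.Omega F ⇑Q ∧ g * g = 1 ∧ g ≠ 1 ∧
      ∀ W : Submodule F (ι → F), Module.finrank F W = d → (∀ w ∈ W, Q w = 0) →
        ¬ W.map (Matrix.toLin' ((g : GL ι F) : Matrix ι ι F)) ≤ W := by
  classical
  obtain ⟨v, hv, hv1⟩ := exists_unit_family h2 hQ 2 (by rw [Module.finrank_fintype_fun_eq_card, hι]; omega)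
  have hn : ∀ i, Q (v i) ≠ 0 := fun i => by rw [hv1]; exact one_ne_zero
  obtain ⟨g, hgdef⟩ : ∃ g, g = reflGL Q (v 0) (hn 0) * reflGL Q (v 1) (hn 1) := ⟨_, rfl⟩
  have hgm : ((g : GL ι F) : Matrix ι ι F) = (([v 0, v 1]).map fun u => Cfsg.reflectionMatrix ⇑Q u).prod := by
    rw [hgdef, Subgroup.coe_mul, Units.val_mul, coe_reflGL, coe_reflGL]; simp
  have h01 : polar Q (v 0) (v 1) = 0 := hv 0 1 (by decide)
  obtain ⟨hfix, hneg⟩ := refl_list (Q := Q) [v 0, v 1] (by simp [h01]) (by simp [hn])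
  rw [← hgm] at hfix hneg
  have hgΩ : g ∈ Cfsg.Omega F ⇑Q :=
    (mem_Omega_list Q h2 hQ (by omega) g [v 0, v 1] (by simp [hn]) hgm).mpr ⟨even_two, by simp [hv1]⟩
  have hg2 : g * g = 1 := by
    have hcomm : Cfsg.reflectionMatrix ⇑Q (v 0) * Cfsg.reflectionMatrix ⇑Q (v 1) =
        Cfsg.reflectionMatrix ⇑Q (v 1) * Cfsg.reflectionMatrix ⇑Q (v 0) := Matrix.ext_iff_mulVec.mpr fun x => by
      simp only [← Matrix.mulVec_mulVec, reflectionMatrix_mulVec, polar_sub_left, polar_smul_left, smul_eq_mul,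
        h01, polar_comm Q (v 1) (v 0)]
      module
    refine Subtype.ext (Units.ext (Matrix.ext_iff_mulVec.mpr fun x => ?_))
    rw [Subgroup.coe_mul, Units.val_mul, OneMemClass.coe_one, Units.val_one, hgdef, Subgroup.coe_mul, Units.val_mul,
      coe_reflGL, coe_reflGL]
    conv_lhs => rw [Matrix.mul_assoc, ← Matrix.mul_assoc (Cfsg.reflectionMatrix ⇑Q (v 1)), ← hcomm, Matrix.mul_assoc]
    simp only [← Matrix.mulVec_mulVec, Matrix.one_mulVec, reflectionMatrix_mulVec, polar_sub_left, polar_smul_left,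
      smul_eq_mul, h01, polar_comm Q (v 1) (v 0), polar_self, hv1]
    module
  refine ⟨g, hgΩ, hg2, fun h1 => ?_, fun W hWd hWs hinv => ?_⟩
  · have := hneg (v 0) (by simp)
    rw [h1, OneMemClass.coe_one, Units.val_one, Matrix.one_mulVec] at this
    have h' : polar Q (v 0) (v 0) = -polar Q (v 0) (v 0) := by
      nth_rw 1 [this]; rw [polar_neg_left]
    rw [polar_self, hv1, nsmul_eq_mul, Nat.cast_two, mul_one] at h'
    exact h2 ((mul_eq_zero.mp (show (2 : F) * 2 = 0 by linear_combination h')).elim id id)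
  · obtain ⟨U, U', mU, mU', horth, hsup, hinf, hdU, hdU', hdim⟩ := invol_split h2 hQ
      (by rw [← Units.val_mul, ← Subgroup.coe_mul, hg2, OneMemClass.coe_one, Units.val_one])
      (mem_isometryGroup.mp g.2)
    obtain ⟨V2, hV2⟩ : ∃ V2, V2 = Submodule.span F (Set.range v) := ⟨_, rfl⟩
    have hV2le : V2 ≤ U' := by
      rw [hV2, Submodule.span_le]
      rintro _ ⟨i, rfl⟩
      rw [SetLike.mem_coe, mU']
      fin_cases i <;> exact hneg _ (by simp)
    have hU'le : U' ≤ V2 := by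
      intro x hx
      have hgx := (mU' x).mp hx
      rw [hgm] at hgx
      simp only [List.map_cons, List.map_nil, List.prod_cons, List.prod_nil, Matrix.mul_one, ← Matrix.mulVec_mulVec,
        reflectionMatrix_mulVec, polar_sub_left, polar_smul_left, hv1, inv_one, one_mul, smul_eq_mul,
        polar_comm Q (v 1) (v 0), h01, mul_zero, sub_zero] at hgx
      have e : x = (2 : F)⁻¹ • (polar Q x (v 1) • v 1 + polar Q x (v 0) • v 0) := by
        have h' : (2 : F) • x = polar Q x (v 1) • v 1 + polar Q x (v 0) • v 0 := by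
          rw [two_smul]
          linear_combination (norm := abel) hgx
        rw [← h', smul_smul, inv_mul_cancel₀ h2, one_smul]
      rw [e, hV2]
      exact Submodule.smul_mem _ _ (add_mem (Submodule.smul_mem _ _ (Submodule.subset_span ⟨1, rfl⟩))
        (Submodule.smul_mem _ _ (Submodule.subset_span ⟨0, rfl⟩)))
    have hv2d : Module.finrank F U' = 2 := by
      rw [le_antisymm hU'le hV2le, hV2, finrank_span_eq_card, Fintype.card_fin]
      refine Fintype.linearIndependent_iff.mpr fun c hc i => ?_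
      have h := congrArg (fun z => polar Q z (v i)) hc
      simp only [polar_zero_left] at h
      rw [polar_sum_left, Finset.sum_eq_single i (fun j _ hj => by rw [polar_smul_left, hv j i hj, smul_zero])
        (by simp), polar_smul_left, polar_self, hv1, smul_eq_mul, nsmul_eq_mul, Nat.cast_two, mul_one] at h
      exact (mul_eq_zero.mp h).resolve_right h2
    have hWU : W ≤ U := fun z hz => by
      have hgz := hinv ⟨z, hz, Matrix.toLin'_apply _ _⟩
      obtain ⟨a, ha, b, hb, rfl⟩ := Submodule.mem_sup.mp (hsup ▸ Submodule.mem_top : z ∈ U ⊔ U')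
      rw [Matrix.mulVec_add, (mU a).mp ha, (mU' b).mp hb] at hgz
      have hbW : b ∈ W := by
        have h' := W.sub_mem hz hgz
        rw [show a + b - (a + -b) = (2 : F) • b by rw [two_smul]; abel] at h'
        exact (W.smul_mem_iff h2).mp h'
      obtain ⟨c, hc⟩ := (Submodule.mem_span_range_iff_exists_fun F).mp (hV2 ▸ hU'le hb)
      have h0 := hWs b hbW
      rw [← hc, orth_sum_apply _ _ _ hv] at h0
      simp only [hv1, mul_one, Fin.sum_univ_two] at h0
      have hc0 : c 0 = 0 := by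
        by_contra hne
        refine hsq ⟨c 1 / c 0, ?_⟩
        field_simp
        linear_combination -h0
      have hc1 : c 1 = 0 := by
        rw [hc0, mul_zero, zero_add] at h0
        exact mul_self_eq_zero.mp h0
      rw [← hc, Fin.sum_univ_two, hc0, hc1, zero_smul, zero_smul, add_zero, add_zero]
      exact ha
    have hnd := nondegenerate_comp_subtype hdU
    have hb := two_finrank_le_of_singular hnd (U := W.comap U.subtype) fun a ha => hWs _ ha
    rw [(Submodule.comapSubtypeEquivOfLe hWU).finrank_eq, hWd] at hb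
    omega

end CfsgLib.OrthTS
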