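import Cfsg.Agent.SubElusive.OrthTSEvenTwo

/-!
Isometries squaring to `-1` and invariant totally singular subspaces.
-/

set_option autoImplicit false
set_option linter.style.haveILetI false

open Matrix QuadraticMap CfsgLib.Forms CfsgLib.SemiClasses

namespace CfsgLib.OrthTS

variable {F : Type*} [Field F] [Fintype F] {ι : Type} [Fintype ι] [DecidableEq ι]

omit [Fintype F] in
theorem quarter_twice {X : Matrix ι ι F} (hX : X * X = -1) (v : ι → F) : X *ᵥ (X *ᵥ v) = -v := by
  rw [Matrix.mulVec_mulVec, hX, Matrix.neg_mulVec, Matrix.one_mulVec]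

omit [Fintype F] in
theorem quarter_skew {Q : QuadraticForm F (ι → F)} {X : Matrix ι ι F} (hX : X * X = -1)
    (hXQ : ∀ v, Q (X *ᵥ v) = Q v) (u v : ι → F) : polar Q (X *ᵥ u) v = -polar Q u (X *ᵥ v) := by
  have h : ∀ a b, polar Q (X *ᵥ a) (X *ᵥ b) = polar Q a b := fun a b => by
    simp only [polar, ← Matrix.mulVec_add, hXQ]
  rw [← h (X *ᵥ u) v, quarter_twice hX, polar_neg_left]

omit [Fintype F] in
theorem quarter_self (h2 : (2 : F) ≠ 0) {Q : QuadraticForm F (ι → F)} {X : Matrix ι ι F} (hX : X * X = -1)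
    (hXQ : ∀ v, Q (X *ᵥ v) = Q v) (v : ι → F) : polar Q v (X *ᵥ v) = 0 := by
  have h := quarter_skew hX hXQ v v
  rw [polar_comm] at h
  exact (mul_eq_zero.mp (show (2 : F) * polar Q v (X *ᵥ v) = 0 by linear_combination h)).resolve_left h2

/-- An orthonormal family adapted to an isometry squaring to `-1`. -/
theorem quarter_family (h2 : (2 : F) ≠ 0) {Q : QuadraticForm F (ι → F)} (hQ : (polarBilin Q).Nondegenerate)
    {X : Matrix ι ι F} (hX : X * X = -1) (hXQ : ∀ v, Q (X *ᵥ v) = Q v) {d : ℕ} (hι : Fintype.card ι = 2 * d) :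
    ∀ k : ℕ, k ≤ d → ∃ w : Fin k → (ι → F), (∀ i, Q (w i) = 1) ∧ (∀ i j, i ≠ j → polar Q (w i) (w j) = 0) ∧
      ∀ i j, polar Q (w i) (X *ᵥ w j) = 0 := by
  classical
  intro k
  induction k with
  | zero => exact fun _ => ⟨Fin.elim0, fun i => i.elim0, fun i => i.elim0, fun i => i.elim0⟩
  | succ k ih =>
    intro hk
    obtain ⟨w, hw1, hwo, hwX⟩ := ih (by omega)
    obtain ⟨z, hz⟩ : ∃ z : Fin k ⊕ Fin k → (ι → F), z = Sum.elim w fun i => X *ᵥ w i := ⟨_, rfl⟩
    have hz1 : ∀ a, Q (z a) = 1 := by rintro (a | a) <;> simp [hz, hw1, hXQ]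
    have hzo : ∀ a b, a ≠ b → polar Q (z a) (z b) = 0 := by
      rintro (a | a) (b | b) hab <;> simp only [hz, Sum.elim_inl, Sum.elim_inr]
      · exact hwo a b fun h => hab (h ▸ rfl)
      · exact hwX a b
      · rw [polar_comm]; exact hwX b a
      · rw [quarter_skew hX hXQ, quarter_twice hX, polar_neg_right, neg_neg]; exact hwo a b fun h => hab (h ▸ rfl)
    obtain ⟨S, hS⟩ : ∃ S, S = Submodule.span F (Set.range z) := ⟨_, rfl⟩
    have hdisj : Disjoint (perp Q S) (perp Q (perp Q S)) := by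
      rw [perp_perp hQ, hS]
      refine (Submodule.disjoint_def.2 fun x hx hx' => ?_).symm
      obtain ⟨c, rfl⟩ := (Submodule.mem_span_range_iff_exists_fun F).1 hx
      refine Finset.sum_eq_zero fun i _ => ?_
      have := mem_perp.1 hx' (z i) (Submodule.subset_span ⟨i, rfl⟩)
      rw [polar_sum_left, Finset.sum_eq_single i (fun j _ hj => by
        rw [polar_smul_left, hzo j i hj, smul_zero]) (by simp), polar_smul_left, polar_self, hz1] at this
      simp [h2] at this
      simp [this]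
    have hdim : 0 + 1 < Module.finrank F (perp Q S) := by
      rw [finrank_perp hQ, Module.finrank_fintype_fun_eq_card, hι]
      have := finrank_range_le_card (R := F) z
      rw [Fintype.card_sum, Fintype.card_fin, Set.finrank, ← hS] at this
      omega
    obtain ⟨v, hvP, -, -, hv1⟩ :=
      OrthOddSub.exists_orth_family_prod h2 (perp Q S) hdisj 0 hdim (one_ne_zero : (1 : F) ≠ 0)
    rw [Fin.prod_univ_one] at hv1
    have hvz : ∀ a, polar Q (v 0) (z a) = 0 := fun a => mem_perp.mp (hvP 0) _ (hS ▸ Submodule.subset_span ⟨a, rfl⟩)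
    have hvw : ∀ i, polar Q (v 0) (w i) = 0 := fun i => by simpa [hz] using hvz (Sum.inl i)
    have hvXw : ∀ i, polar Q (v 0) (X *ᵥ w i) = 0 := fun i => by simpa [hz] using hvz (Sum.inr i)
    refine ⟨Fin.snoc w (v 0), fun i => ?_, fun i j hij => ?_, fun i j => ?_⟩
    · induction i using Fin.lastCases with
      | last => simpa using hv1
      | cast i => simpa using hw1 i
    · induction i using Fin.lastCases with
      | last =>
        induction j using Fin.lastCases with
        | last => exact absurd rfl hij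
        | cast j => simpa using hvw j
      | cast i =>
        induction j using Fin.lastCases with
        | last => simpa [polar_comm Q (w i)] using hvw i
        | cast j => simpa using hwo i j fun h => hij (h ▸ rfl)
    · induction i using Fin.lastCases with
      | last =>
        induction j using Fin.lastCases with
        | last => simpa using quarter_self h2 hX hXQ (v 0)
        | cast j => simpa using hvXw j
      | cast i =>
        induction j using Fin.lastCases with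
        | last =>
          simp only [Fin.snoc_castSucc, Fin.snoc_last]
          rw [polar_comm, quarter_skew hX hXQ, hvXw, neg_zero]
        | cast j => simpa using hwX i j

/-- An isometry squaring to `-1` as a product of reflections. -/
theorem quarter_list (h2 : (2 : F) ≠ 0) {Q : QuadraticForm F (ι → F)} {X : Matrix ι ι F} (hX : X * X = -1)
    (hXQ : ∀ v, Q (X *ᵥ v) = Q v) : ∀ l : List (ι → F),
    l.Pairwise (fun a b => polar Q a b = 0 ∧ polar Q a (X *ᵥ b) = 0) → (∀ u ∈ l, Q u = 1) →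
    (((l.flatMap fun a => [a + X *ᵥ a, a]).map fun v => Q v).prod = 2 ^ l.length ∧
      (∀ v, (∀ u ∈ l, polar Q v u = 0 ∧ polar Q v (X *ᵥ u) = 0) →
        ((l.flatMap fun a => [a + X *ᵥ a, a]).map fun u => Cfsg.reflectionMatrix ⇑Q u).prod *ᵥ v = v) ∧
      ∀ u ∈ l, ((l.flatMap fun a => [a + X *ᵥ a, a]).map fun u => Cfsg.reflectionMatrix ⇑Q u).prod *ᵥ u = X *ᵥ u ∧
        ((l.flatMap fun a => [a + X *ᵥ a, a]).map fun u => Cfsg.reflectionMatrix ⇑Q u).prod *ᵥ (X *ᵥ u) = -u) := by
  intro l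
  induction l with
  | nil => intros; exact ⟨by simp, fun v _ => by simp, fun u hu => absurd hu List.not_mem_nil⟩
  | cons a l ih =>
    intro hp hne
    rw [List.pairwise_cons] at hp
    obtain ⟨h0, h1, h3⟩ := ih hp.2 fun u hu => hne u (List.mem_cons_of_mem _ hu)
    have ha := hne a List.mem_cons_self
    have haX := quarter_self h2 hX hXQ a
    have hQs : Q (a + X *ᵥ a) = 2 := by
      rw [QuadraticMap.map_add (⇑Q), hXQ, ha, haX]; ring
    obtain ⟨P, hP⟩ : ∃ P, P = ((l.flatMap fun a => [a + X *ᵥ a, a]).map fun u => Cfsg.reflectionMatrix ⇑Q u).prod :=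
      ⟨_, rfl⟩
    rw [← hP] at h1 h3
    have hcons : (((a :: l).flatMap fun a => [a + X *ᵥ a, a]).map fun u => Cfsg.reflectionMatrix ⇑Q u).prod =
        Cfsg.reflectionMatrix ⇑Q (a + X *ᵥ a) * (Cfsg.reflectionMatrix ⇑Q a * P) := by
      rw [hP]; simp [List.flatMap_cons]
    have hfix1 : ∀ v, polar Q v a = 0 → polar Q v (X *ᵥ a) = 0 →
        Cfsg.reflectionMatrix ⇑Q (a + X *ᵥ a) *ᵥ (Cfsg.reflectionMatrix ⇑Q a *ᵥ v) = v := fun v e1 e2 => by
      rw [reflectionMatrix_mulVec, reflectionMatrix_mulVec, e1, mul_zero, zero_smul, sub_zero, polar_add_right, e1,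
        e2, add_zero, mul_zero, zero_smul, sub_zero]
    rw [hcons]
    refine ⟨?_, fun v hv => ?_, fun u hu => ?_⟩
    · simp only [List.flatMap_cons, List.map_append, List.map_cons, List.map_nil, List.prod_append, List.prod_cons,
        List.prod_nil, hQs, ha, h0, mul_one, List.length_cons, pow_succ]
      ring
    · rw [← Matrix.mulVec_mulVec, ← Matrix.mulVec_mulVec, h1 v fun u hu => hv u (List.mem_cons_of_mem _ hu)]
      exact hfix1 v (hv a List.mem_cons_self).1 (hv a List.mem_cons_self).2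
    · rw [← Matrix.mulVec_mulVec, ← Matrix.mulVec_mulVec, ← Matrix.mulVec_mulVec, ← Matrix.mulVec_mulVec]
      rcases List.mem_cons.mp hu with rfl | hu
      · have e1 : P *ᵥ u = u := h1 u hp.1
        have e2 : P *ᵥ (X *ᵥ u) = X *ᵥ u := h1 _ fun b hb => by
          obtain ⟨g1, g2⟩ := hp.1 b hb
          rw [quarter_skew hX hXQ, quarter_skew hX hXQ, g2, quarter_twice hX, polar_neg_right, g1]
          simp
        rw [e1, e2]
        simp only [reflectionMatrix_mulVec, hQs, ha, inv_one, one_mul, polar_self, haX, zero_smul, sub_zero,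
          polar_sub_left, polar_smul_left, polar_add_right, hXQ, nsmul_eq_mul, Nat.cast_two, mul_one, smul_eq_mul,
          polar_comm Q (X *ᵥ u) u, mul_zero, zero_add, add_zero]
        constructor
        · match_scalars <;> field_simp <;> ring
        · match_scalars <;> field_simp <;> ring
      · obtain ⟨g1, g2⟩ := hp.1 u hu
        obtain ⟨k1, k2⟩ := h3 u hu
        rw [k1, k2]
        have e1 : polar Q u (X *ᵥ a) = 0 := by rw [polar_comm, quarter_skew hX hXQ, g2, neg_zero]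
        have e2 : polar Q (X *ᵥ u) a = 0 := by rw [polar_comm]; exact g2
        have e3 : polar Q (X *ᵥ u) (X *ᵥ a) = 0 := by
          rw [quarter_skew hX hXQ, quarter_twice hX, polar_neg_right, neg_neg, polar_comm]; exact g1
        refine ⟨hfix1 _ e2 e3, ?_⟩
        rw [Matrix.mulVec_neg, Matrix.mulVec_neg, hfix1 _ (by rw [polar_comm]; exact g1) e1]

/-- The type of a space with an isometry squaring to `-1`, and membership in `Ω`. -/
theorem quarter_struct (h2 : (2 : F) ≠ 0) {Q : QuadraticForm F (ι → F)} (hQ : (polarBilin Q).Nondegenerate)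
    (g : Cfsg.isometryGroup F ⇑Q) (hX : ((g : GL ι F) : Matrix ι ι F) * ((g : GL ι F) : Matrix ι ι F) = -1)
    {d : ℕ} (hd : 1 ≤ d) (hι : Fintype.card ι = 2 * d) :
    (HasHalf Q ↔ IsSquare ((-1 : F) ^ d)) ∧ (g ∈ Cfsg.Omega F ⇑Q ↔ IsSquare ((2 : F) ^ d)) := by
  classical
  have hXQ : ∀ v, Q (((g : GL ι F) : Matrix ι ι F) *ᵥ v) = Q v := mem_isometryGroup.mp g.2
  obtain ⟨X, hXdef⟩ : ∃ X, X = ((g : GL ι F) : Matrix ι ι F) := ⟨_, rfl⟩
  rw [← hXdef] at hX hXQ
  obtain ⟨w, hw1, hwo, hwX⟩ := quarter_family h2 hQ hX hXQ hι d le_rfl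
  obtain ⟨z, hz⟩ : ∃ z : Fin d ⊕ Fin d → (ι → F), z = Sum.elim w fun i => X *ᵥ w i := ⟨_, rfl⟩
  have hz1 : ∀ a, Q (z a) = 1 := by rintro (a | a) <;> simp [hz, hw1, hXQ]
  have hzo : ∀ a b, a ≠ b → polar Q (z a) (z b) = 0 := by
    rintro (a | a) (b | b) hab <;> simp only [hz, Sum.elim_inl, Sum.elim_inr]
    · exact hwo a b fun h => hab (h ▸ rfl)
    · exact hwX a b
    · rw [polar_comm]; exact hwX b a
    · rw [quarter_skew hX hXQ, quarter_twice hX, polar_neg_right, neg_neg]; exact hwo a b fun h => hab (h ▸ rfl)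
  have hz0 : ∀ a, Q (z a) ≠ 0 := fun a => by rw [hz1]; exact one_ne_zero
  have htop : Submodule.span F (Set.range z) = ⊤ := Submodule.eq_top_of_finrank_eq (by
    rw [finrank_span_eq_card (orth_li h2 z hzo hz0), Fintype.card_sum, Fintype.card_fin,
      Module.finrank_fintype_fun_eq_card, hι]
    omega)
  refine ⟨?_, ?_⟩
  · rw [hasHalf_iff_top hQ hι, disc_sub h2 z hzo hz0 hd (by simp; omega) (U := ⊤) (fun _ => trivial)
      (by rw [finrank_top, Module.finrank_fintype_fun_eq_card, hι]), Finset.prod_eq_one fun a _ => hz1 a, mul_one]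
  · obtain ⟨hprod, -, hact⟩ := quarter_list h2 hX hXQ (List.ofFn w)
      (List.pairwise_ofFn.mpr fun {i j} hij => ⟨hwo i j hij.ne, hwX i j⟩)
      (fun u hu => by obtain ⟨i, rfl⟩ := List.mem_ofFn.mp hu; exact hw1 i)
    have hgm : ((g : GL ι F) : Matrix ι ι F) = (((List.ofFn w).flatMap fun a => [a + X *ᵥ a, a]).map
        fun u => Cfsg.reflectionMatrix ⇑Q u).prod := Matrix.ext_iff_mulVec.mpr fun v => by
      obtain ⟨c, rfl⟩ := (Submodule.mem_span_range_iff_exists_fun F).mp
        (htop ▸ Submodule.mem_top : v ∈ Submodule.span F (Set.range z))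
      rw [← hXdef, Matrix.mulVec_sum, Matrix.mulVec_sum]
      refine Finset.sum_congr rfl fun a _ => ?_
      rw [Matrix.mulVec_smul, Matrix.mulVec_smul]
      congr 1
      rcases a with a | a <;> simp only [hz, Sum.elim_inl, Sum.elim_inr]
      · exact (hact _ (List.mem_ofFn.mpr ⟨a, rfl⟩)).1.symm
      · rw [quarter_twice hX]; exact (hact _ (List.mem_ofFn.mpr ⟨a, rfl⟩)).2.symm
    rw [mem_Omega_list Q h2 hQ (by omega) g _ (fun u hu => ?_) hgm, hprod, List.length_ofFn]
    · have : ((List.ofFn w).flatMap fun a => [a + X *ᵥ a, a]).length = 2 * d := by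
        simp [List.length_flatMap, List.sum_ofFn, Function.comp_def, mul_comm]
      rw [this]
      simp
    · obtain ⟨a, ha, hu⟩ := List.mem_flatMap.mp hu
      obtain ⟨i, rfl⟩ := List.mem_ofFn.mp ha
      rcases List.mem_cons.mp hu with rfl | hu
      · rw [QuadraticMap.map_add (⇑Q), hXQ, hw1, quarter_self h2 hX hXQ, add_zero, one_add_one_eq_two]; exact h2
      · rw [List.mem_singleton.mp hu, hw1]; exact one_ne_zero

omit [Fintype F] [DecidableEq ι] in
theorem sing_span {Q : QuadraticForm F (ι → F)} {σ : Type} [Fintype σ] [DecidableEq σ] (z : σ → (ι → F))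
    (h0 : ∀ a, Q (z a) = 0) (ho : ∀ a b, a ≠ b → polar Q (z a) (z b) = 0) :
    ∀ v ∈ Submodule.span F (Set.range z), Q v = 0 := fun v hv => by
  obtain ⟨c, rfl⟩ := (Submodule.mem_span_range_iff_exists_fun F).mp hv
  rw [orth_sum_apply _ _ _ ho]
  exact Finset.sum_eq_zero fun i _ => by rw [h0, mul_zero]

/-- Invariant totally singular subspaces of even dimension. -/
theorem exists_ts_quarter (h2 : (2 : F) ≠ 0) {Q : QuadraticForm F (ι → F)} (hQ : (polarBilin Q).Nondegenerate)
    {X : Matrix ι ι F} (hX : X * X = -1) (hXQ : ∀ v, Q (X *ᵥ v) = Q v) {d m : ℕ} (hι : Fintype.card ι = 2 * d)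
    (hme : Even m) (hm : m ≤ d) :
    ∃ W : Submodule F (ι → F), Module.finrank F W = m ∧ (∀ w ∈ W, Q w = 0) ∧ W.map (Matrix.toLin' X) ≤ W := by
  classical
  obtain ⟨M, rfl⟩ := hme
  obtain ⟨w, hw1, hwo, hwX⟩ := quarter_family h2 hQ hX hXQ hι d le_rfl
  obtain ⟨s, t, hst⟩ := exists_two_squares (one_ne_zero : (1 : F) ≠ 0) (one_ne_zero : (1 : F) ≠ 0) (-1)
  obtain ⟨A, hA⟩ : ∃ A : Fin M → Fin d, ∀ l, (A l : ℕ) = 2 * l := ⟨fun l => ⟨2 * l, by omega⟩, fun _ => rfl⟩
  obtain ⟨B, hB⟩ : ∃ B : Fin M → Fin d, ∀ l, (B l : ℕ) = 2 * l + 1 :=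
    ⟨fun l => ⟨2 * l + 1, by omega⟩, fun _ => rfl⟩
  have hAB : ∀ k l, A k ≠ B l := fun k l h => by
    have := congrArg Fin.val h; rw [hA, hB] at this; omega
  have hAA : ∀ k l, k ≠ l → A k ≠ A l := fun k l hkl h => hkl (Fin.ext (by
    have := congrArg Fin.val h; rw [hA, hA] at this; omega))
  have hBB : ∀ k l, k ≠ l → B k ≠ B l := fun k l hkl h => hkl (Fin.ext (by
    have := congrArg Fin.val h; rw [hB, hB] at this; omega))
  obtain ⟨Y, hY⟩ : ∃ Y : Fin M → (ι → F), ∀ l, Y l = w (A l) + (s • w (B l) + t • (X *ᵥ w (B l))) :=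
    ⟨_, fun _ => rfl⟩
  have hXw : ∀ i j, polar Q (X *ᵥ w i) (w j) = 0 := fun i j => by rw [polar_comm]; exact hwX j i
  have hXX : ∀ i j, polar Q (X *ᵥ w i) (X *ᵥ w j) = polar Q (w i) (w j) := fun i j => by
    simp only [polar, ← Matrix.mulVec_add, hXQ]
  have hYo : ∀ k l, k ≠ l → polar Q (Y k) (Y l) = 0 := fun k l hkl => by
    simp only [hY, polar_add_left, polar_add_right, polar_smul_left, polar_smul_right, hwX, hXw, hXX,
      hwo _ _ (hAA k l hkl), hwo _ _ (hBB k l hkl), hwo _ _ (hAB k l), hwo _ _ (hAB l k).symm, smul_zero, add_zero]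
  have hY0 : ∀ l, Q (Y l) = 0 := fun l => by
    rw [hY, QuadraticMap.map_add (⇑Q), QuadraticMap.map_add (⇑Q), QuadraticMap.map_smul, QuadraticMap.map_smul, hXQ]
    simp only [polar_add_right, polar_smul_left, polar_smul_right, hwX, hwo _ _ (hAB l l), hw1, smul_eq_mul]
    linear_combination hst
  have hYX : ∀ k l, polar Q (Y k) (X *ᵥ Y l) = 0 := fun k l => by
    rcases eq_or_ne k l with rfl | hkl
    · exact quarter_self h2 hX hXQ _
    · simp only [hY, Matrix.mulVec_add, Matrix.mulVec_smul, quarter_twice hX, polar_add_left, polar_add_right,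
        polar_smul_left, polar_smul_right, polar_neg_right, hwX, hXw, hXX, hwo _ _ (hAA k l hkl),
        hwo _ _ (hBB k l hkl), hwo _ _ (hAB k l), hwo _ _ (hAB l k).symm, smul_zero, add_zero, neg_zero]
  obtain ⟨z, hz⟩ : ∃ z : Fin M ⊕ Fin M → (ι → F), z = Sum.elim Y fun l => X *ᵥ Y l := ⟨_, rfl⟩
  have hzo : ∀ a b, a ≠ b → polar Q (z a) (z b) = 0 := by
    rintro (a | a) (b | b) hab <;> simp only [hz, Sum.elim_inl, Sum.elim_inr]
    · exact hYo a b fun h => hab (h ▸ rfl)
    · exact hYX a b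
    · rw [polar_comm]; exact hYX b a
    · rw [quarter_skew hX hXQ, quarter_twice hX, polar_neg_right, neg_neg]; exact hYo a b fun h => hab (h ▸ rfl)
  obtain ⟨T, hT⟩ : ∃ T : Fin M ⊕ Fin M → (ι → F), T = Sum.elim (fun l => w (A l)) fun l => X *ᵥ w (A l) := ⟨_, rfl⟩
  have hdual : ∀ a b, polar Q (z a) (T b) = if a = b then 2 else 0 := by
    have e1 : ∀ k l, polar Q (Y k) (w (A l)) = if k = l then 2 else 0 := fun k l => by
      simp only [hY, polar_add_left, polar_smul_left, hXw, hwo _ _ (hAB l k).symm, smul_zero, add_zero]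
      rcases eq_or_ne k l with rfl | hkl
      · rw [if_pos rfl, polar_self, hw1, nsmul_eq_mul, Nat.cast_two, mul_one]
      · rw [if_neg hkl, hwo _ _ (hAA k l hkl)]
    have e2 : ∀ k l, polar Q (Y k) (X *ᵥ w (A l)) = 0 := fun k l => by
      simp only [hY, polar_add_left, polar_smul_left, hwX, hXX, hwo _ _ (hAB l k).symm, smul_zero, add_zero]
    rintro (a | a) (b | b) <;> simp only [hz, hT, Sum.elim_inl, Sum.elim_inr]
    · simpa using e1 a b
    · simpa using e2 a b
    · rw [quarter_skew hX hXQ, e2]; simp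
    · rw [quarter_skew hX hXQ, quarter_twice hX, polar_neg_right, neg_neg]; simpa using e1 a b
  have hli : LinearIndependent F z := Fintype.linearIndependent_iff.mpr fun c hc b => by
    have h := congrArg (fun v => polar Q v (T b)) hc
    simp only [polar_zero_left, polar_sum_left, polar_smul_left, hdual, smul_eq_mul, mul_ite, mul_zero,
      Finset.sum_ite_eq', Finset.mem_univ, if_true] at h
    exact (mul_eq_zero.mp h).resolve_right h2
  refine ⟨Submodule.span F (Set.range z), by rw [finrank_span_eq_card hli, Fintype.card_sum, Fintype.card_fin],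
    sing_span z (by rintro (a | a) <;> simp [hz, hY0, hXQ]) hzo, ?_⟩
  rw [Submodule.map_span_le]
  rintro _ ⟨a | a, rfl⟩ <;> rw [Matrix.toLin'_apply]
  · exact Submodule.subset_span ⟨Sum.inr a, by simp [hz]⟩
  · rw [show X *ᵥ z (Sum.inr a) = -z (Sum.inl a) by simp [hz, Matrix.mulVec_neg, quarter_twice hX]]
    exact neg_mem (Submodule.subset_span ⟨Sum.inl a, rfl⟩)

omit [Fintype F] in
/-- With a square root of `-1`, the eigenspaces are totally singular of half dimension. -/
theorem exists_ts_quarter_split (h2 : (2 : F) ≠ 0) {Q : QuadraticForm F (ι → F)}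
    (hQ : (polarBilin Q).Nondegenerate) {X : Matrix ι ι F} (hX : X * X = -1) (hXQ : ∀ v, Q (X *ᵥ v) = Q v)
    (hsq : IsSquare (-1 : F)) {d m : ℕ} (hι : Fintype.card ι = 2 * d) (hm : m ≤ d) :
    ∃ W : Submodule F (ι → F), Module.finrank F W = m ∧ (∀ w ∈ W, Q w = 0) ∧ W.map (Matrix.toLin' X) ≤ W := by
  obtain ⟨ρ, hρ⟩ := hsq
  have hρ0 : ρ ≠ 0 := fun h => by rw [h, mul_zero] at hρ; exact neg_ne_zero.mpr one_ne_zero hρ
  obtain ⟨E, hE⟩ : ∃ E : F → Submodule F (ι → F), ∀ a, E a = LinearMap.ker (Matrix.toLin' X - a • (1 : Module.End F (ι → F))) :=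
    ⟨_, fun _ => rfl⟩
  have mE : ∀ a v, v ∈ E a ↔ X *ᵥ v = a • v := fun a v => by
    rw [hE, LinearMap.mem_ker, LinearMap.sub_apply, Matrix.toLin'_apply, LinearMap.smul_apply, Module.End.one_apply,
      sub_eq_zero]
  have hs : ∀ a, a * a = -1 → ∀ v ∈ E a, Q v = 0 := fun a ha v hv => by
    have h := hXQ v
    rw [(mE a v).mp hv, QuadraticMap.map_smul, ha, smul_eq_mul] at h
    exact (mul_eq_zero.mp (show (2 : F) * Q v = 0 by linear_combination -h)).resolve_left h2
  have hsup : E ρ ⊔ E (-ρ) = ⊤ := eq_top_iff.mpr fun v _ => by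
    refine Submodule.mem_sup.mpr ⟨(2 * ρ)⁻¹ • (ρ • v + X *ᵥ v), ?_, (2 * ρ)⁻¹ • (ρ • v - X *ᵥ v), ?_, ?_⟩
    · rw [mE, Matrix.mulVec_smul, Matrix.mulVec_add, Matrix.mulVec_smul, quarter_twice hX, smul_comm ρ]
      congr 1
      rw [smul_add, smul_smul, ← hρ, neg_one_smul, add_comm]
    · rw [mE, Matrix.mulVec_smul, Matrix.mulVec_sub, Matrix.mulVec_smul, quarter_twice hX, smul_comm (-ρ)]
      congr 1
      rw [smul_sub, smul_smul, neg_mul, ← hρ, neg_neg, one_smul, neg_smul]
      abel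
    · rw [← smul_add, add_add_sub_cancel, ← add_smul, smul_smul, ← two_mul,
        inv_mul_cancel₀ (mul_ne_zero h2 hρ0), one_smul]
  have hdim := Submodule.finrank_sup_add_finrank_inf_eq (E ρ) (E (-ρ))
  rw [hsup, finrank_top, Module.finrank_fintype_fun_eq_card, hι] at hdim
  have h1 := two_finrank_le_of_singular hQ (hs (-ρ) (by rw [neg_mul_neg, ← hρ]))
  rw [Module.finrank_fintype_fun_eq_card, hι] at h1
  obtain ⟨S, hS, hSd⟩ : ∃ S : Submodule F (ι → F), S ≤ E ρ ∧ Module.finrank F S = m := by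
    have hmE : m ≤ Module.finrank F (E ρ) := by omega
    let b := Module.finBasis F (E ρ)
    refine ⟨Submodule.span F (Set.range fun j : Fin m => (b (Fin.castLE hmE j) : ι → F)), Submodule.span_le.mpr ?_, ?_⟩
    · rintro _ ⟨j, rfl⟩; exact (b _).2
    · exact (finrank_span_eq_card ((b.linearIndependent.comp _ (Fin.castLE_injective hmE)).map' (E ρ).subtype
        (E ρ).ker_subtype)).trans (Fintype.card_fin m)
  refine ⟨S, hSd, fun v hv => hs ρ hρ.symm v (hS hv), ?_⟩
  rintro _ ⟨v, hv, rfl⟩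
  rw [Matrix.toLin'_apply, (mE ρ v).mp (hS hv)]
  exact S.smul_mem _ hv

omit [Fintype F] in
/-- Without a square root of `-1` invariant subspaces have even dimension. -/
theorem even_of_quarter {X : Matrix ι ι F} (hX : X * X = -1) (hsq : ¬ IsSquare (-1 : F))
    (W : Submodule F (ι → F)) (hW : W.map (Matrix.toLin' X) ≤ W) : Even (Module.finrank F W) := by
  by_contra ho
  obtain ⟨f, hf⟩ : ∃ f : Module.End F W, ∀ w : W, (f w : ι → F) = X *ᵥ (w : ι → F) :=
    ⟨(Matrix.toLin' X).restrict fun v hv => hW ⟨v, hv, rfl⟩, fun _ => rfl⟩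
  have hff : f * f = (-1 : F) • (1 : Module.End F W) := LinearMap.ext fun w => Subtype.ext (by
    rw [Module.End.mul_apply, hf, hf, quarter_twice hX, LinearMap.smul_apply, Module.End.one_apply,
      Submodule.coe_smul, neg_one_smul])
  have h := congrArg LinearMap.det hff
  rw [map_mul, LinearMap.det_smul, map_one, mul_one, (Nat.not_even_iff_odd.mp ho).neg_one_pow] at h
  exact hsq ⟨_, h.symm⟩

/-- An isometry squaring to `-1` when the type allows it. -/
theorem exists_quarter (h2 : (2 : F) ≠ 0) {Q : QuadraticForm F (ι → F)} (hQ : (polarBilin Q).Nondegenerate)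
    {d : ℕ} (hd : 1 ≤ d) (hι : Fintype.card ι = 2 * d) (htype : HasHalf Q ↔ IsSquare ((-1 : F) ^ d)) :
    ∃ g : Cfsg.isometryGroup F ⇑Q, ((g : GL ι F) : Matrix ι ι F) * ((g : GL ι F) : Matrix ι ι F) = -1 := by
  classical
  obtain ⟨b, hb, hb1, hbl⟩ := exists_normal_basis h2 hQ (k := 2 * d - 1)
    (by rw [Module.finrank_fintype_fun_eq_card, hι]; omega)
  have hb0 : ∀ i, Q (b i) ≠ 0 := fun i => by
    induction i using Fin.lastCases with
    | last => exact hbl
    | cast i => rw [hb1]; exact one_ne_zero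
  have hl : IsSquare (Q (b (Fin.last (2 * d - 1)))) := by
    rw [hasHalf_iff_top hQ hι, disc_sub h2 b hb hb0 hd (by simp; omega) (U := ⊤) (fun _ => trivial)
      (by rw [finrank_top, Module.finrank_fintype_fun_eq_card, hι]), Fin.prod_univ_castSucc,
      Finset.prod_eq_one fun i _ => hb1 i, one_mul,
      isSquare_mul_iff' (pow_ne_zero _ (neg_ne_zero.mpr one_ne_zero)) hbl] at htype
    tauto
  obtain ⟨δ, hδ⟩ := hl
  have hδ0 : δ ≠ 0 := fun h => hbl (by rw [hδ, h, mul_zero])
  obtain ⟨v, hv⟩ : ∃ v : Fin (2 * d - 1 + 1) → (ι → F), ∀ i,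
      v i = (if i = Fin.last (2 * d - 1) then δ⁻¹ else 1) • b i := ⟨_, fun _ => rfl⟩
  have hvo : ∀ i j, i ≠ j → polar Q (v i) (v j) = 0 := fun i j hij => by
    rw [hv, hv, polar_smul_left, polar_smul_right, hb i j hij, smul_zero, smul_zero]
  have hv1 : ∀ i, Q (v i) = 1 := fun i => by
    induction i using Fin.lastCases with
    | last => rw [hv, if_pos rfl, QuadraticMap.map_smul, hδ, smul_eq_mul]; field_simp
    | cast i => rw [hv, if_neg i.castSucc_ne_last, one_smul, hb1]
  let e : Fin d ⊕ Fin d ≃ Fin (2 * d - 1 + 1) := finSumFinEquiv.trans (finCongr (by omega))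
  obtain ⟨z, hz⟩ : ∃ z : Fin d ⊕ Fin d → (ι → F), z = v ∘ e := ⟨_, rfl⟩
  have hzo : ∀ a c, a ≠ c → polar Q (z a) (z c) = 0 := fun a c hac => by
    rw [hz]; exact hvo _ _ fun h => hac (e.injective h)
  have hz1 : ∀ a, Q (z a) = 1 := fun a => by rw [hz]; exact hv1 _
  let L : (Fin d ⊕ Fin d → F) ≃ₗ[F] (ι → F) := LinearEquiv.ofBijective (Fintype.linearCombination F z) (by
    have hi : Function.Injective (Fintype.linearCombination F z) :=
      (injective_iff_map_eq_zero _).mpr fun c hc => funext fun i =>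
        Fintype.linearIndependent_iff.mp (orth_li h2 z hzo fun a => by rw [hz1]; exact one_ne_zero) c
          (by rwa [Fintype.linearCombination_apply] at hc) i
    refine ⟨hi, (LinearMap.injective_iff_surjective_of_finrank_eq_finrank ?_).mp hi⟩
    simp [hι]; omega)
  have hLQ : ∀ c, Q (L c) = ∑ a, c a * c a := fun c => by
    show Q (Fintype.linearCombination F z c) = _
    rw [Fintype.linearCombination_apply, orth_sum_apply _ _ _ hzo]
    exact Finset.sum_congr rfl fun a _ => by rw [hz1, mul_one]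
  obtain ⟨T, hT⟩ : ∃ T : Matrix (Fin d ⊕ Fin d) (Fin d ⊕ Fin d) F, T = Matrix.fromBlocks 0 (-1) 1 0 := ⟨_, rfl⟩
  obtain ⟨X, hXd⟩ : ∃ X : Matrix ι ι F,
      X = LinearMap.toMatrix' (L.toLinearMap ∘ₗ Matrix.toLin' T ∘ₗ L.symm.toLinearMap) := ⟨_, rfl⟩
  have hXv : ∀ c, X *ᵥ L c = L (T *ᵥ c) := fun c => by
    rw [hXd, ← Matrix.toLin'_apply, Matrix.toLin'_toMatrix']
    simp
  have hX : X * X = -1 := Matrix.ext_iff_mulVec.mpr fun u => by
    obtain ⟨c, rfl⟩ := L.surjective u
    rw [← Matrix.mulVec_mulVec, hXv, hXv, Matrix.mulVec_mulVec, hT, Matrix.fromBlocks_multiply, Matrix.neg_mulVec,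
      Matrix.one_mulVec]
    simp only [Matrix.zero_mul, Matrix.mul_zero, zero_add, add_zero, Matrix.neg_mul, Matrix.one_mul, Matrix.mul_one]
    rw [show Matrix.fromBlocks (-1 : Matrix (Fin d) (Fin d) F) 0 0 (-1) = -1 by
      simp [← Matrix.fromBlocks_one, Matrix.fromBlocks_neg], Matrix.neg_mulVec, Matrix.one_mulVec, map_neg]
  have hXQ : ∀ u, Q (X *ᵥ u) = Q u := fun u => by
    obtain ⟨c, rfl⟩ := L.surjective u
    rw [hXv, hLQ, hLQ, hT, fromBlocks_mulVec]
    simp [Fintype.sum_sum_type, Matrix.neg_mulVec, add_comm]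
  have hX' : X * -X = 1 := by rw [mul_neg, hX, neg_neg]
  exact ⟨⟨⟨X, -X, hX', by rw [neg_mul, hX, neg_neg]⟩, mem_isometryGroup.mpr hXQ⟩, hX⟩

/-- The statement for `r = 2`. -/
theorem main_two {p : ℕ} [Fact p.Prime] [CharP F p] {Q : QuadraticForm F (ι → F)}
    (hQ : (polarBilin Q).Nondegenerate) {d m : ℕ} (hι : Fintype.card ι = 2 * d) (hd : 3 ≤ d) (hm : m < d) {ε : Prop}
    (hε : HasHalf Q ↔ ε) (hp : p ≠ 2) :
    (∀ x : GL ι F, x ∈ Cfsg.Geo.omegaGL ⇑Q →
      (∃ z : F, ((x ^ 2 : GL ι F) : Matrix ι ι F) = z • (1 : Matrix ι ι F)) →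
      (∀ z : F, (x : Matrix ι ι F) ≠ z • (1 : Matrix ι ι F)) →
      ∃ W : Submodule F (ι → F), Module.finrank F W = m ∧ (∀ w ∈ W, Q w = 0) ∧
        W.map (Matrix.toLin' (x : Matrix ι ι F)) ≤ W) ↔
    (IsSquare (-1 : F) ∨ ((ε → m + 2 ≤ d) ∧ (Even m ∨ ¬ (ε ↔ Even d) ∨ ¬ IsSquare ((2 : F) ^ d)))) := by
  classical
  have h2 : (2 : F) ≠ 0 := Ring.two_ne_zero (by rw [ringChar.eq F p]; exact hp)
  have hsqd : ¬ IsSquare (-1 : F) → (IsSquare ((-1 : F) ^ d) ↔ Even d) := fun hns => by
    rcases Nat.even_or_odd d with he | ho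
    · simp [he]
    · simp [ho.neg_one_pow, hns, Nat.not_even_iff_odd.mpr ho]
  constructor
  · intro hall
    rw [or_iff_not_imp_left]
    intro hns
    refine ⟨fun he => ?_, ?_⟩
    · by_contra hlt
      obtain ⟨g, hg, hX, hgns, hno⟩ := exists_invol_no_ts_even h2 hQ hns (by omega) hι (hε.mpr he)
      obtain ⟨W, hWd, hWs, hW⟩ := hall _ (mem_omegaGL.mpr ⟨g, hg, rfl⟩)
        ⟨1, by rw [pow_two, Units.val_mul, hX, one_smul]⟩ hgns
      exact hno W (by omega) hWs hW
    · by_contra hcon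
      push Not at hcon
      obtain ⟨hmo, hεd, h2d⟩ := hcon
      obtain ⟨g, hX⟩ := exists_quarter h2 hQ (by omega) hι (hε.trans (hεd.trans (hsqd hns).symm))
      have hg := (quarter_struct h2 hQ g hX (by omega) hι).2.mpr h2d
      obtain ⟨W, hWd, -, hW⟩ := hall _ (mem_omegaGL.mpr ⟨g, hg, rfl⟩)
        ⟨-1, by rw [pow_two, Units.val_mul, hX, neg_one_smul]⟩ (fun z hz => hns ⟨z, by
          obtain ⟨i⟩ : Nonempty ι := Fintype.card_pos_iff.mp (by omega)
          have h := congrFun (congrFun hX i) i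
          rw [hz, Matrix.smul_mul, Matrix.one_mul, smul_smul] at h
          simpa using h.symm⟩)
      exact hmo (hWd ▸ even_of_quarter hX hns W hW)
  · intro hc x hx ⟨z, hz⟩ hns
    obtain ⟨y, hy, rfl⟩ := mem_omegaGL.mp hx
    have hyQ := mem_isometryGroup.mp y.2
    obtain ⟨v, hv⟩ := exists_nonsingular hQ (by omega)
    rw [pow_two, Units.val_mul] at hz
    have hzz : z * z = 1 := by
      have h : Q ((((y : GL ι F) : Matrix ι ι F) * ((y : GL ι F) : Matrix ι ι F)) *ᵥ v) = Q v := by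
        rw [← Matrix.mulVec_mulVec, hyQ, hyQ]
      rw [hz, Matrix.smul_mulVec, Matrix.one_mulVec, QuadraticMap.map_smul, smul_eq_mul] at h
      exact mul_right_cancel₀ hv (by rw [h, one_mul])
    rcases mul_self_eq_one_iff.mp hzz with rfl | rfl
    · rw [one_smul] at hz
      refine exists_ts_invol_even h2 hQ y hy hz hns hι hm hε ?_
      exact hc.imp_right And.left
    · rw [neg_one_smul] at hz
      by_cases hsq : IsSquare (-1 : F)
      · exact exists_ts_quarter_split h2 hQ hz hyQ hsq hι hm.le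
      · refine exists_ts_quarter h2 hQ hz hyQ hι ?_ hm.le
        obtain ⟨hT, hO⟩ := quarter_struct h2 hQ y hz (by omega) hι
        rcases hc with h | ⟨-, h | h | h⟩
        · exact absurd h hsq
        · exact h
        · exact absurd (hε.symm.trans (hT.trans (hsqd hsq))) h
        · exact absurd (hO.mp hy) h

end CfsgLib.OrthTS
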