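import Cfsg.Agent.SubElusive.OrthNDEvenUnip
import Cfsg.Agent.SubElusive.OrthTSEvenQuarter

/-!
Involutions in characteristic two fix hyperbolic subspaces.
-/

set_option autoImplicit false
set_option linter.style.haveILetI false

open Matrix QuadraticMap CfsgLib.Forms CfsgLib.SemiClasses CfsgLib.OrthTS

namespace CfsgLib.OrthND

variable {F : Type*} [Field F] [Fintype F] {ι : Type} [Fintype ι] [DecidableEq ι] {Q : QuadraticForm F (ι → F)}
  {D : Module.End F (ι → F)}

/-- An invariant hyperbolic subspace of dimension `k` inside `P`. -/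
def HypInv (Q : QuadraticForm F (ι → F)) (D : Module.End F (ι → F)) (P : Submodule F (ι → F)) (k : ℕ) : Prop :=
  ∃ W : Submodule F (ι → F), W ≤ P ∧ Module.finrank F W = k ∧ Disjoint W (perp Q W) ∧ (∀ v ∈ W, D v ∈ W) ∧
    ∃ U : Submodule F (ι → F), U ≤ W ∧ (∀ v ∈ U, Q v = 0) ∧ 2 * Module.finrank F U = k

omit [Fintype F] [DecidableEq ι] in
/-- The span of a family with nondegenerate Gram matrix. -/
theorem hyp_span {k l : ℕ} (z : Fin k → (ι → F))
    (hdual : ∀ c : Fin k → F, (∀ j, polar Q (∑ i, c i • z i) (z j) = 0) → c = 0)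
    (f : Fin l → Fin k) (hf : Function.Injective f) (hl : 2 * l = k) (hy0 : ∀ i, Q (z (f i)) = 0)
    (hyo : ∀ i j, i ≠ j → polar Q (z (f i)) (z (f j)) = 0)
    (hinv : ∀ i, D (z i) ∈ Submodule.span F (Set.range z)) {P : Submodule F (ι → F)} (hP : ∀ i, z i ∈ P) :
    HypInv Q D P k := by
  classical
  have hli : LinearIndependent F z := Fintype.linearIndependent_iff.mpr fun c hc i => by
    have := hdual c fun j => by rw [hc, polar_zero_left]
    exact congrFun this i
  refine ⟨Submodule.span F (Set.range z), Submodule.span_le.mpr (by rintro _ ⟨i, rfl⟩; exact hP i),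
    (finrank_span_eq_card hli).trans (Fintype.card_fin k), ?_, ?_,
    Submodule.span F (Set.range (z ∘ f)), Submodule.span_mono (Set.range_comp_subset_range f z),
    sing_span _ hy0 hyo, by rw [finrank_span_eq_card (hli.comp f hf), Fintype.card_fin, hl]⟩
  · rw [Submodule.disjoint_def]
    intro x hx hxp
    obtain ⟨c, rfl⟩ := (Submodule.mem_span_range_iff_exists_fun F).mp hx
    rw [hdual c fun j => mem_perp.mp hxp _ (Submodule.subset_span ⟨j, rfl⟩)]
    simp
  · intro v hv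
    have : Submodule.span F (Set.range z) ≤ (Submodule.span F (Set.range z)).comap D :=
      Submodule.span_le.mpr (by rintro _ ⟨i, rfl⟩; exact hinv i)
    exact this hv

omit [Fintype F] [DecidableEq ι] in
theorem HypInv.mono {P P' : Submodule F (ι → F)} {k : ℕ} (h : HypInv Q D P k) (hle : P ≤ P') : HypInv Q D P' k := by
  obtain ⟨W, h1, h⟩ := h
  exact ⟨W, h1.trans hle, h⟩

section Nil

variable (h2 : (2 : F) = 0) (hQ : (polarBilin Q).Nondegenerate) (hD : ∀ v, D (D v) = 0)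
  (hDQ : ∀ v, Q (v + D v) = Q v)

include h2 hD hDQ in
omit [Fintype F] [DecidableEq ι] in
theorem two_facts : (∀ u v, polar Q (D u) v = polar Q u (D v)) ∧ (∀ u v, polar Q (D u) (D v) = 0) ∧
    ∀ v, Q (D v) = polar Q v (D v) := by
  obtain ⟨h1, h3⟩ := nil_facts hDQ (W := (⊤ : Submodule F (ι → F))) fun v _ => hD v
  refine ⟨fun u v => ?_, fun u v => h1 u trivial v trivial, fun v => ?_⟩
  · rw [h3 u trivial v trivial]
    linear_combination -(polar Q u (D v)) * h2
  · have h := hDQ v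
    rw [QuadraticMap.map_add (⇑Q)] at h
    linear_combination h - (polar Q v (D v)) * h2

include h2 in
omit [Fintype F] [DecidableEq ι] in
theorem polar_self_two (v : ι → F) : polar Q v v = 0 := by
  rw [polar_self, nsmul_eq_mul, Nat.cast_two, h2, zero_mul]

include h2 hQ hD hDQ in
omit [Fintype F] in
/-- The relative complement of an invariant nondegenerate subspace. -/
theorem rel_perp {P W : Submodule F (ι → F)} (hP : Disjoint P (perp Q P)) (hPi : ∀ v ∈ P, D v ∈ P)
    (hW : Disjoint W (perp Q W)) (hWi : ∀ v ∈ W, D v ∈ W) (hWP : W ≤ P) :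
    Disjoint (P ⊓ perp Q W) (perp Q (P ⊓ perp Q W)) ∧ (∀ v ∈ P ⊓ perp Q W, D v ∈ P ⊓ perp Q W) ∧
      Module.finrank F P ≤ Module.finrank F ↥(P ⊓ perp Q W) + Module.finrank F W := by
  have hsk := (two_facts h2 hD hDQ).1
  have hn := finrank_perp hQ W
  have hWn := Submodule.finrank_le W
  have htop : W ⊔ perp Q W = ⊤ := by
    refine Submodule.eq_top_of_finrank_eq ?_
    have := Submodule.finrank_sup_add_finrank_inf_eq W (perp Q W)
    rw [hW.eq_bot, finrank_bot] at this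
    omega
  refine ⟨?_, fun v hv => ⟨hPi v hv.1, mem_perp.mpr fun w hw => by rw [hsk]; exact mem_perp.mp hv.2 _ (hWi w hw)⟩, ?_⟩
  · rw [Submodule.disjoint_def]
    rintro x ⟨hxP, hxW⟩ hx
    refine Submodule.disjoint_def.mp hP x hxP (mem_perp.mpr fun y hy => ?_)
    obtain ⟨a, ha, b, hb, rfl⟩ := Submodule.mem_sup.mp (htop ▸ Submodule.mem_top : y ∈ W ⊔ perp Q W)
    rw [polar_add_right, mem_perp.mp hxW a ha, zero_add]
    refine mem_perp.mp hx b ⟨?_, hb⟩
    simpa using P.sub_mem hy (hWP ha)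
  · have h1 := Submodule.finrank_sup_add_finrank_inf_eq P (perp Q W)
    have h3 := Submodule.finrank_le (P ⊔ perp Q W)
    omega

include h2 hQ hD hDQ in
omit [Fintype F] in
/-- Orthogonal sums of invariant hyperbolic subspaces. -/
theorem hyp_sum {P : Submodule F (ι → F)} (hP : Disjoint P (perp Q P)) (hPi : ∀ v ∈ P, D v ∈ P) {k l : ℕ}
    (hk : HypInv Q D P k)
    (hl : ∀ P' ≤ P, Disjoint P' (perp Q P') → (∀ v ∈ P', D v ∈ P') →
      Module.finrank F P ≤ Module.finrank F P' + k → HypInv Q D P' l) :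
    HypInv Q D P (k + l) := by
  obtain ⟨W, hWP, hWd, hW, hWi, U, hUW, hU, hUd⟩ := hk
  obtain ⟨h1, h3, h4⟩ := rel_perp h2 hQ hD hDQ hP hPi hW hWi hWP
  obtain ⟨W', hW'P, hW'd, hW', hW'i, U', hU'W, hU', hU'd⟩ := hl _ inf_le_left h1 h3 (hWd ▸ h4)
  have horth : ∀ a ∈ W, ∀ b ∈ W', polar Q b a = 0 := fun a ha b hb => mem_perp.mp (hW'P hb).2 a ha
  have hdis : W ⊓ W' = ⊥ := eq_bot_iff.mpr fun v hv => (Submodule.mem_bot _).mpr
    (Submodule.disjoint_def.mp hW v hv.1 (hW'P hv.2).2)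
  have hdim := Submodule.finrank_sup_add_finrank_inf_eq W W'
  rw [hdis, finrank_bot] at hdim
  have hdisU : U ⊓ U' = ⊥ := eq_bot_iff.mpr ((inf_le_inf hUW hU'W).trans hdis.le)
  have hdimU := Submodule.finrank_sup_add_finrank_inf_eq U U'
  rw [hdisU, finrank_bot] at hdimU
  refine ⟨W ⊔ W', sup_le hWP (hW'P.trans inf_le_left), by omega, ?_, ?_, U ⊔ U', sup_le_sup hUW hU'W, ?_, by omega⟩
  · rw [Submodule.disjoint_def]
    intro x hx hxp
    obtain ⟨a, ha, b, hb, rfl⟩ := Submodule.mem_sup.mp hx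
    have ha0 : a = 0 := Submodule.disjoint_def.mp hW a ha (mem_perp.mpr fun w hw => by
      have := mem_perp.mp hxp w (Submodule.mem_sup_left hw)
      rwa [polar_add_left, horth w hw b hb, add_zero] at this)
    have hb0 : b = 0 := Submodule.disjoint_def.mp hW' b hb (mem_perp.mpr fun w hw => by
      have := mem_perp.mp hxp w (Submodule.mem_sup_right hw)
      rwa [polar_add_left, polar_comm Q a, horth a ha w hw, zero_add] at this)
    rw [ha0, hb0, add_zero]
  · intro v hv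
    obtain ⟨a, ha, b, hb, rfl⟩ := Submodule.mem_sup.mp hv
    rw [map_add]
    exact Submodule.add_mem_sup (hWi a ha) (hW'i b hb)
  · intro v hv
    obtain ⟨a, ha, b, hb, rfl⟩ := Submodule.mem_sup.mp hv
    rw [QuadraticMap.map_add (⇑Q), hU a ha, hU' b hb, polar_comm, horth a (hUW ha) b (hU'W hb)]
    ring

include h2 in
omit [Fintype F] in
theorem plane_of {P : Submodule F (ι → F)} {v w : ι → F} (hv : v ∈ P) (hw : w ∈ P) (hv0 : Q v = 0)
    (hvw : polar Q v w ≠ 0) (hvi : D v ∈ Submodule.span F (Set.range ![v, w]))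
    (hwi : D w ∈ Submodule.span F (Set.range ![v, w])) : HypInv Q D P 2 := by
  refine hyp_span ![v, w] (fun c hc => ?_) (fun _ : Fin 1 => 0) (fun a b _ => Subsingleton.elim a b) rfl
    (fun _ => by simpa using hv0) (fun i j hij => absurd (Subsingleton.elim i j) hij) (fun i => ?_) (fun i => ?_)
  · have e0 := hc 0
    have e1 := hc 1
    simp only [Fin.sum_univ_two, Matrix.cons_val_zero, Matrix.cons_val_one, polar_add_left, polar_smul_left,
      smul_eq_mul, polar_self_two h2, polar_comm Q w v, mul_zero, add_zero, zero_add] at e0 e1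
    funext i
    fin_cases i
    exacts [(mul_eq_zero.mp e1).resolve_right hvw, (mul_eq_zero.mp e0).resolve_right hvw]
  · fin_cases i
    exacts [hvi, hwi]
  · fin_cases i
    exacts [hv, hw]

include h2 hQ hD hDQ in
/-- A plane, when `Q ∘ D` is not zero. -/
theorem plane_of_ne {P : Submodule F (ι → F)} (hP : Disjoint P (perp Q P)) (hPi : ∀ v ∈ P, D v ∈ P)
    (hP4 : 3 ≤ Module.finrank F P) {v : ι → F} (hv : v ∈ P) (hvD : Q (D v) ≠ 0) : HypInv Q D P 2 := by
  obtain ⟨hsk, horth, hself⟩ := two_facts h2 hD hDQ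
  obtain ⟨Wv, hWv⟩ : ∃ Wv, Wv = Submodule.span F (Set.range ![v, D v]) := ⟨_, rfl⟩
  have hvv : polar Q v (D v) ≠ 0 := hself v ▸ hvD
  have hW : Disjoint Wv (perp Q Wv) := Submodule.disjoint_def.mpr fun x hx hxp => by
    rw [hWv] at hx hxp
    obtain ⟨c, rfl⟩ := (Submodule.mem_span_range_iff_exists_fun F).mp hx
    have e0 := mem_perp.mp hxp v (Submodule.subset_span ⟨0, rfl⟩)
    have e1 := mem_perp.mp hxp (D v) (Submodule.subset_span ⟨1, rfl⟩)
    simp only [Fin.sum_univ_two, Matrix.cons_val_zero, Matrix.cons_val_one, polar_add_left, polar_smul_left,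
      smul_eq_mul, polar_self_two h2, polar_comm Q (D v) v, mul_zero, add_zero, zero_add] at e0 e1
    rw [Fin.sum_univ_two, (mul_eq_zero.mp e1).resolve_right hvv, (mul_eq_zero.mp e0).resolve_right hvv]
    simp
  have hWP : Wv ≤ P := hWv ▸ Submodule.span_le.mpr (by rintro _ ⟨i, rfl⟩; fin_cases i <;> simp [hv, hPi v hv])
  have hWi : ∀ w ∈ Wv, D w ∈ Wv := fun w hw => by
    rw [hWv] at hw ⊢
    obtain ⟨c, rfl⟩ := (Submodule.mem_span_range_iff_exists_fun F).mp hw
    simp only [Fin.sum_univ_two, Matrix.cons_val_zero, Matrix.cons_val_one, map_add, map_smul, hD, smul_zero, add_zero]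
    exact Submodule.smul_mem _ _ (Submodule.subset_span ⟨1, rfl⟩)
  obtain ⟨h1, h3, h4⟩ := rel_perp h2 hQ hD hDQ hP hPi hW hWi hWP
  have h5 : Module.finrank F Wv ≤ 2 := by
    have := finrank_range_le_card (R := F) ![v, D v]
    rwa [Fintype.card_fin, Set.finrank, ← hWv] at this
  obtain ⟨h, hh, hh0, hhD⟩ : ∃ h ∈ P ⊓ perp Q Wv, Q h ≠ 0 ∧ Q (D h) = 0 := by
    by_cases hex : ∃ k ∈ P ⊓ perp Q Wv, Q (D k) ≠ 0
    · obtain ⟨k, hk, hk0⟩ := hex
      exact ⟨D k, h3 k hk, hk0, by rw [hD, QuadraticMap.map_zero]⟩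
    · push Not at hex
      obtain ⟨k, hk, hk0⟩ : ∃ k ∈ P ⊓ perp Q Wv, k ≠ 0 := Submodule.exists_mem_ne_zero_of_ne_bot fun h => by
        rw [h, finrank_bot] at h4
        omega
      by_contra hno
      push Not at hno
      have hz : ∀ a ∈ P ⊓ perp Q Wv, Q a = 0 := fun a ha => by_contra fun h => hno a ha h (hex a ha)
      exact hk0 (Submodule.disjoint_def.mp h1 k hk (mem_perp.mpr fun a ha => polar_eq_zero_of_sing hz hk ha))
  obtain ⟨t, ht⟩ := exists_sq h2 (Q v / Q h)
  have hv'0 : Q (v + t • h) = 0 := by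
    rw [map_add_smul, polar_comm, mem_perp.mp hh.2 v (hWv ▸ Submodule.subset_span ⟨0, rfl⟩), ht,
      div_mul_cancel₀ _ hh0]
    linear_combination Q v * h2
  have hv'D : Q (D (v + t • h)) = Q (D v) := by
    rw [map_add, map_smul, map_add_smul, hhD, horth]
    ring
  have hv'P : v + t • h ∈ P := P.add_mem hv (P.smul_mem _ hh.1)
  refine plane_of h2 hv'P (hPi _ hv'P) hv'0 (hself (v + t • h) ▸ hv'D ▸ hvD) ?_ ?_
  · exact Submodule.subset_span ⟨1, rfl⟩
  · rw [hD]; exact zero_mem _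

include h2 hQ hD hDQ in
/-- A plane or a block of dimension four. -/
theorem plane_or_block {P : Submodule F (ι → F)} (hP : Disjoint P (perp Q P)) (hPi : ∀ v ∈ P, D v ∈ P)
    (hP4 : 3 ≤ Module.finrank F P) : HypInv Q D P 2 ∨ HypInv Q D P 4 := by
  obtain ⟨hsk, horth, hself⟩ := two_facts h2 hD hDQ
  by_cases ha : ∃ v ∈ P, Q (D v) ≠ 0
  · obtain ⟨v, hv, hvD⟩ := ha
    exact Or.inl (plane_of_ne h2 hQ hD hDQ hP hPi hP4 hv hvD)
  push Not at ha
  have hpar : ∀ x ∈ P, x ≠ 0 → ∃ y ∈ P, polar Q x y ≠ 0 := fun x hx hx0 => by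
    by_contra hno
    push Not at hno
    exact hx0 (Submodule.disjoint_def.mp hP x hx (mem_perp.mpr hno))
  by_cases hb : ∃ u ∈ P, D u ≠ 0
  · obtain ⟨u, hu, hu0⟩ := hb
    obtain ⟨v', hv', huv'⟩ := hpar _ (hPi u hu) hu0
    obtain ⟨v, hv, huv⟩ : ∃ v ∈ P, polar Q (D u) v = 1 :=
      ⟨(polar Q (D u) v')⁻¹ • v', P.smul_mem _ hv', by rw [polar_smul_right, smul_eq_mul, inv_mul_cancel₀ huv']⟩
    have e1 : polar Q u (D u) = 0 := hself u ▸ ha u hu
    have e2 : polar Q v (D v) = 0 := hself v ▸ ha v hv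
    have e3 : polar Q u (D v) = 1 := by rw [← hsk]; exact huv
    refine Or.inr (hyp_span ![u, v, D u, D v] (fun c hc => ?_) ![2, 3] (fun a b h => ?_) rfl (fun i => ?_)
      (fun i j hij => ?_) (fun i => ?_) fun i => ?_)
    · have q0 := hc 0
      have q1 := hc 1
      have q2 := hc 2
      have q3 := hc 3
      simp [Fin.sum_univ_four, polar_add_left, polar_smul_left, polar_self_two h2, horth, e1, e2, e3, huv,
        polar_comm Q v (D u), polar_comm Q (D u) u, polar_comm Q (D v) v, polar_comm Q (D v) u] at q0 q1 q2 q3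
      funext i
      fin_cases i <;> simp <;> simp_all
    · fin_cases a <;> fin_cases b <;> simp_all
    · fin_cases i <;> simp [ha u hu, ha v hv]
    · fin_cases i <;> fin_cases j <;> simp_all [horth]
    · fin_cases i
      · exact Submodule.subset_span ⟨2, rfl⟩
      · exact Submodule.subset_span ⟨3, rfl⟩
      · show D (D u) ∈ _
        rw [hD]; exact zero_mem _
      · show D (D v) ∈ _
        rw [hD]; exact zero_mem _
    · fin_cases i <;> simp [hu, hv, hPi]
  push Not at hb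
  obtain ⟨e, he, he0, heQ⟩ := Forms.exists_singular Q P hP4
  obtain ⟨w, hw, hew⟩ := hpar e he he0
  exact Or.inl (plane_of h2 he hw heQ hew (by rw [hb e he]; exact zero_mem _) (by rw [hb w hw]; exact zero_mem _))

include h2 hQ hD hDQ in
/-- Blocks of dimension four. -/
theorem exists_blocks4 (j : ℕ) : ∀ {P : Submodule F (ι → F)}, Disjoint P (perp Q P) → (∀ v ∈ P, D v ∈ P) →
    4 * j + 2 ≤ Module.finrank F P → HypInv Q D P (4 * j) := by
  induction j with
  | zero =>
    intro P _ _ _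
    exact ⟨⊥, bot_le, finrank_bot F _, disjoint_bot_left, fun v hv => by simp [(Submodule.mem_bot F).mp hv],
      ⊥, le_rfl, fun v hv => by simp [(Submodule.mem_bot F).mp hv], by rw [finrank_bot]⟩
  | succ j ih =>
    intro P hP hPi hd
    rw [Nat.mul_succ]
    refine hyp_sum h2 hQ hD hDQ (k := 4 * j) (l := 4) hP hPi (ih hP hPi (by omega)) fun P' _ hP' hP'i hd' => ?_
    rcases plane_or_block h2 hQ hD hDQ hP' hP'i (by omega) with h | h
    · by_cases h4 : HypInv Q D P' 4
      · exact h4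
      refine hyp_sum h2 hQ hD hDQ (k := 2) (l := 2) hP' hP'i h fun P'' hle hP'' hP''i hd'' => ?_
      exact (plane_or_block h2 hQ hD hDQ hP'' hP''i (by omega)).resolve_right fun h' => h4 (h'.mono hle)
    · exact h

include h2 hQ hD hDQ in
/-- A plane, when the type allows it. -/
theorem exists_plane {d : ℕ} (hι : Fintype.card ι = 2 * d) (hd : 3 ≤ d) (hev : Even (Module.finrank F (LinearMap.range D)))
    {ε : Prop} (hε : HasHalf Q ↔ ε) (hεd : ε ↔ Odd d) : HypInv Q D ⊤ 2 := by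
  classical
  obtain ⟨hsk, horth, hself⟩ := two_facts h2 hD hDQ
  have htop : Disjoint (⊤ : Submodule F (ι → F)) (perp Q ⊤) :=
    Submodule.disjoint_def.mpr fun x _ hx => polar_ext hQ fun y => mem_perp.mp hx y trivial
  have hn : Module.finrank F (ι → F) = 2 * d := by rw [Module.finrank_fintype_fun_eq_card, hι]
  by_cases ha : ∃ v, Q (D v) ≠ 0
  · obtain ⟨v, hvD⟩ := ha
    exact plane_of_ne h2 hQ hD hDQ htop (fun _ _ => trivial) (by rw [finrank_top]; omega) (v := v) trivial hvD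
  push Not at ha
  obtain ⟨R, hR⟩ : ∃ R, R = LinearMap.range D := ⟨_, rfl⟩
  obtain ⟨K, hK⟩ : ∃ K, K = LinearMap.ker D := ⟨_, rfl⟩
  have hKR : perp Q R = K := by
    ext x
    rw [hK, LinearMap.mem_ker, mem_perp, hR]
    refine ⟨fun h => polar_ext hQ fun y => ?_, fun h => ?_⟩
    · rw [hsk]; exact h _ ⟨y, rfl⟩
    · rintro _ ⟨y, rfl⟩
      rw [← hsk, h, polar_zero_left]
  have hRs : ∀ v ∈ R, Q v = 0 := by rw [hR]; rintro _ ⟨v, rfl⟩; exact ha v
  have hRK : R ≤ K := by rw [hR, hK]; rintro _ ⟨v, rfl⟩; exact hD v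
  have hs := two_finrank_le_of_singular hQ hRs
  have hrk := D.finrank_range_add_finrank_ker
  rw [← hR, ← hK] at hrk
  rw [← hR, Nat.even_iff] at hev
  rw [hn] at hs hrk
  have hsd : Module.finrank F R ≠ d := fun h => by
    have := hεd.mp (hε.mp ⟨R, hRs, by omega⟩)
    rw [Nat.odd_iff] at this
    omega
  obtain ⟨e, heK, heR, heQ⟩ : ∃ e ∈ K, e ∉ R ∧ Q e = 0 := by
    obtain ⟨C, hC⟩ := Submodule.exists_isCompl R
    have hCd := Submodule.finrank_add_eq_of_isCompl hC
    have h1 := Submodule.finrank_sup_add_finrank_inf_eq C K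
    have h3 := Submodule.finrank_le (C ⊔ K)
    rw [hn] at hCd h3
    by_cases h4 : 3 ≤ Module.finrank F ↥(C ⊓ K)
    · obtain ⟨e, he, he0, heQ⟩ := Forms.exists_singular Q (C ⊓ K) h4
      exact ⟨e, he.2, fun h => he0 (Submodule.disjoint_def.mp hC.disjoint e h he.1), heQ⟩
    by_contra hno
    push Not at hno
    obtain ⟨S, hS, hSd⟩ := hε.mpr (hεd.mpr (Nat.odd_iff.mpr (by omega)))
    have hle : S ⊓ K ≤ S ⊓ R := fun v hv => ⟨hv.1, by_contra fun h => hno v hv.2 h (hS v hv.1)⟩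
    have hle' : S ⊓ R ≤ perp Q (S ⊔ K) := fun v hv => mem_perp.mpr fun y hy => by
      obtain ⟨a, ha', b, hb, rfl⟩ := Submodule.mem_sup.mp hy
      rw [polar_add_right, polar_eq_zero_of_sing hS hv.1 ha', zero_add, polar_comm]
      exact mem_perp.mp (hKR ▸ hb) v hv.2
    have g1 := Submodule.finrank_mono hle
    have g2 := Submodule.finrank_mono hle'
    have g3 := Submodule.finrank_sup_add_finrank_inf_eq S K
    have g4 := Submodule.finrank_le (S ⊔ K)
    rw [finrank_perp hQ, hn] at g2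
    rw [hn] at g4
    rw [hι] at hSd
    omega
  obtain ⟨w, hwK, hew⟩ : ∃ w ∈ K, polar Q e w ≠ 0 := by
    by_contra hno
    push Not at hno
    refine heR ?_
    rw [← perp_perp hQ R, hKR]
    exact mem_perp.mpr hno
  rw [hK, LinearMap.mem_ker] at heK hwK
  exact plane_of h2 trivial trivial heQ hew (by rw [heK]; exact zero_mem _) (by rw [hwK]; exact zero_mem _)

end Nil

/-- Involutions fix hyperbolic subspaces and their complements. -/
theorem exists_hyp_two {p : ℕ} [Fact p.Prime] [CharP F p] (hp : p = 2) (hQ : (polarBilin Q).Nondegenerate) {d b : ℕ}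
    (hι : Fintype.card ι = 2 * d) (hd : 3 ≤ d) (hb : Even b) (hbd : b + 2 ≤ 2 * d) {ε : Prop} (hε : HasHalf Q ↔ ε)
    (hc : b % 4 = 0 ∨ (ε ↔ Odd d)) {x : GL ι F} (hx : x ∈ Cfsg.Geo.omegaGL ⇑Q)
    (hz : ∃ z : F, ((x ^ 2 : GL ι F) : Matrix ι ι F) = z • (1 : Matrix ι ι F)) :
    ∃ W : Submodule F (ι → F), OrthOddSub.SubOK Q b True W ∧ W.map (Matrix.toLin' (x : Matrix ι ι F)) ≤ W ∧
      (¬ ε → OrthOddSub.SubOK Q (2 * d - b) False (perp Q W) ∧
        (perp Q W).map (Matrix.toLin' (x : Matrix ι ι F)) ≤ perp Q W) := by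
  classical
  subst hp
  have h2 : (2 : F) = 0 := by simpa using CharP.cast_eq_zero F 2
  obtain ⟨y, hy, rfl⟩ := mem_omegaGL.mp hx
  have hyQ := mem_isometryGroup.mp y.2
  obtain ⟨z, hz⟩ := hz
  obtain ⟨v₀, hv₀⟩ := exists_nonsingular hQ (by omega)
  rw [pow_two, Units.val_mul] at hz
  have hz1 : z = 1 := by
    have h : Q ((((y : GL ι F) : Matrix ι ι F) * ((y : GL ι F) : Matrix ι ι F)) *ᵥ v₀) = Q v₀ := by
      rw [← Matrix.mulVec_mulVec, hyQ, hyQ]
    rw [hz, Matrix.smul_mulVec, Matrix.one_mulVec, QuadraticMap.map_smul, smul_eq_mul] at h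
    have : (z - 1) * (z - 1) = 0 := by
      have := mul_right_cancel₀ hv₀ (h.trans (one_mul _).symm)
      linear_combination this + (1 - z) * h2
    exact sub_eq_zero.mp (mul_self_eq_zero.mp this)
  rw [hz1, one_smul] at hz
  obtain ⟨D, hDdef⟩ : ∃ D : Module.End F (ι → F), D = Matrix.toLin' (((y : GL ι F) : Matrix ι ι F) - 1) := ⟨_, rfl⟩
  have hDv : ∀ v, D v = ((y : GL ι F) : Matrix ι ι F) *ᵥ v - v := fun v => by
    rw [hDdef, Matrix.toLin'_apply, Matrix.sub_mulVec, Matrix.one_mulVec]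
  have hD : ∀ v, D (D v) = 0 := fun v => by
    have hneg : ∀ a : ι → F, -a = a := fun a => by
      rw [← neg_one_smul F a, show (-1 : F) = 1 by linear_combination -h2, one_smul]
    rw [hDv, hDv, Matrix.mulVec_sub, Matrix.mulVec_mulVec, hz, Matrix.one_mulVec,
      ← neg_sub (((y : GL ι F) : Matrix ι ι F) *ᵥ v) v, hneg, sub_self]
  have hDQ : ∀ v, Q (v + D v) = Q v := fun v => by rw [hDv, add_sub_cancel, hyQ]
  have hev : Even (Module.finrank F (LinearMap.range D)) := by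
    have := (mem_Omega_iff_rank_even h2 hQ (by omega) (by rw [hι]; exact even_two_mul d) y).mp hy
    rwa [hDdef, Matrix.toLin'_apply']
  have htop : Disjoint (⊤ : Submodule F (ι → F)) (perp Q ⊤) :=
    Submodule.disjoint_def.mpr fun x _ hx => polar_ext hQ fun y => mem_perp.mp hx y trivial
  have hn : Module.finrank F (⊤ : Submodule F (ι → F)) = 2 * d := by
    rw [finrank_top, Module.finrank_fintype_fun_eq_card, hι]
  obtain ⟨W, -, hWd, hW, hWi, U, hUW, hU, hUd⟩ : HypInv Q D ⊤ b := by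
    obtain ⟨β, rfl⟩ := hb
    rcases Nat.even_or_odd β with ⟨j, rfl⟩ | ⟨j, rfl⟩
    · rw [show j + j + (j + j) = 4 * j by ring]
      exact exists_blocks4 h2 hQ hD hDQ j htop (fun _ _ => trivial) (by omega)
    · rw [show 2 * j + 1 + (2 * j + 1) = 2 + 4 * j by ring]
      exact hyp_sum h2 hQ hD hDQ htop (fun _ _ => trivial)
        (exists_plane h2 hQ hD hDQ hι hd hev hε (hc.resolve_left (by omega)))
        fun P' _ hP' hP'i hd' => exists_blocks4 h2 hQ hD hDQ j hP' hP'i (by omega)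
  have hinv : ∀ W' : Submodule F (ι → F), (∀ v ∈ W', D v ∈ W') →
      W'.map (Matrix.toLin' ((y : GL ι F) : Matrix ι ι F)) ≤ W' := by
    rintro W' h' _ ⟨v, hv, rfl⟩
    rw [Matrix.toLin'_apply]
    simpa [hDv] using W'.add_mem (h' v hv) hv
  have hndeg : ∀ W' : Submodule F (ι → F), Disjoint W' (perp Q W') →
      Cfsg.Geo.IsNondegenerateOn (polar ⇑Q) W' := fun W' h' w hw hw0 => by
    obtain ⟨u, hu, hne⟩ : ∃ u ∈ W', polar Q w u ≠ 0 := by
      by_contra hno
      push Not at hno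
      exact hw0 (Submodule.disjoint_def.mp h' w hw (mem_perp.mpr hno))
    exact ⟨⟨u, hu, by rwa [polar_comm]⟩, u, hu, hne⟩
  refine ⟨W, ⟨hWd, hndeg W hW, iff_true_intro ⟨U, hUW, hU, by omega⟩⟩, hinv W hWi, fun hne => ?_⟩
  obtain ⟨h1, h3, h4⟩ := rel_perp h2 hQ hD hDQ htop (fun _ _ => trivial) hW hWi le_top
  rw [top_inf_eq] at h1 h3
  have hpd : Module.finrank F (perp Q W) = 2 * d - b := by
    rw [finrank_perp hQ, hWd, Module.finrank_fintype_fun_eq_card, hι]
  refine ⟨⟨hpd, hndeg _ h1, iff_false_intro ?_⟩, hinv _ h3⟩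
  rintro ⟨U', hU'W, hU', hU'd⟩
  have hdis : U ⊓ U' = ⊥ := eq_bot_iff.mpr fun v hv => (Submodule.mem_bot _).mpr
    (Submodule.disjoint_def.mp hW v (hUW hv.1) (hU'W hv.2))
  have hdim := Submodule.finrank_sup_add_finrank_inf_eq U U'
  rw [hdis, finrank_bot] at hdim
  refine hne (hε.mp ⟨U ⊔ U', fun v hv => ?_, by rw [hι]; omega⟩)
  obtain ⟨a, ha, b', hb', rfl⟩ := Submodule.mem_sup.mp hv
  rw [QuadraticMap.map_add (⇑Q), hU a ha, hU' b' hb', polar_comm, mem_perp.mp (hU'W hb') a (hUW ha)]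
  ring

end CfsgLib.OrthND
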