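import Cfsg.Agent.SubElusive.OrthNDEven

/-!
Even-dimensional nondegenerate subspaces of given type: involutions in odd characteristic.
-/

set_option autoImplicit false
set_option linter.style.haveILetI false

open Matrix QuadraticMap CfsgLib.Forms CfsgLib.SemiClasses CfsgLib.OrthTS

namespace CfsgLib.OrthND

variable {F : Type*} [Field F] [Fintype F] {ι : Type} [Fintype ι] [DecidableEq ι] {Q : QuadraticForm F (ι → F)}
  {m d : ℕ}

/-- The type of an invariant subspace of an isometry squaring to `-1`. -/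
theorem type_of_quarter (h2 : (2 : F) ≠ 0) (hQ : (polarBilin Q).Nondegenerate) {X : Matrix ι ι F} (hX : X * X = -1)
    (hXQ : ∀ v, Q (X *ᵥ v) = Q v) {M : ℕ} (hM : 1 ≤ M) {δ : Prop} {W : Submodule F (ι → F)}
    (hW : OrthOddSub.SubOK Q (2 * M) δ W) (hinv : W.map (Matrix.toLin' X) ≤ W) :
    δ ↔ IsSquare ((-1 : F) ^ M) := by
  classical
  obtain ⟨b, e, R, R', -, hR, -, he, hrange, hT⟩ := OrthOddSub.exists_split hQ hW
  obtain ⟨L, hL⟩ : ∃ L, L = e.toLinearMap ∘ₗ OrthOddSub.inlL F (Fin (2 * M)) (Fin b) := ⟨_, rfl⟩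
  have hLv : ∀ v, L v = e (Sum.elim v 0) := fun v => by rw [hL]; rfl
  have hLQ : ∀ v, Q (L v) = R v := fun v => by
    rw [hLv, he, sumForm_apply, Sum.elim_comp_inl, Sum.elim_comp_inr, QuadraticMap.map_zero, add_zero]
  have hLi : Function.Injective L := fun u v h => funext fun j => by
    rw [hLv, hLv] at h
    exact congrFun (e.injective h) (Sum.inl j)
  obtain ⟨Y, hY⟩ : ∃ Y : Matrix (Fin (2 * M)) (Fin (2 * M)) F, ∀ v, Y *ᵥ v = (e.symm (X *ᵥ L v)) ∘ Sum.inl :=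
    ⟨LinearMap.toMatrix' (LinearMap.funLeft F F Sum.inl ∘ₗ e.symm.toLinearMap ∘ₗ Matrix.toLin' X ∘ₗ L), fun v => by
      rw [LinearMap.toMatrix'_mulVec]; rfl⟩
  have hLY : ∀ v, L (Y *ᵥ v) = X *ᵥ L v := fun v => by
    have hmem : X *ᵥ L v ∈ LinearMap.range L := by
      have hLr : LinearMap.range L = W := hL ▸ hrange
      rw [hLr]
      exact hinv ⟨L v, hLr ▸ ⟨v, rfl⟩, Matrix.toLin'_apply _ _⟩
    obtain ⟨y, hy⟩ := hmem
    rw [← hy, hY, ← hy, hLv y, e.symm_apply_apply, Sum.elim_comp_inl, ← hLv]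
  have hYY : Y * Y = -1 := Matrix.ext_iff_mulVec.mpr fun v => hLi (by
    rw [← Matrix.mulVec_mulVec, hLY, hLY, quarter_twice hX, Matrix.neg_mulVec, Matrix.one_mulVec, map_neg])
  have hYQ : ∀ v, R (Y *ᵥ v) = R v := fun v => by rw [← hLQ, hLY, hXQ, hLQ]
  exact hT.symm.trans (quarter_struct h2 hR ⟨⟨Y, -Y, by rw [mul_neg, hYY, neg_neg], by rw [neg_mul, hYY, neg_neg]⟩,
    mem_isometryGroup.mpr hYQ⟩ hYY hM (Fintype.card_fin _)).1

/-- An isometry squaring to `-1` fixes even-dimensional subspaces of its own type. -/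
theorem exists_sub_quarter (h2 : (2 : F) ≠ 0) (hQ : (polarBilin Q).Nondegenerate) {X : Matrix ι ι F} (hX : X * X = -1)
    (hXQ : ∀ v, Q (X *ᵥ v) = Q v) (hι : Fintype.card ι = 2 * d) {M : ℕ} (hM : 1 ≤ M) (hMd : M ≤ d) :
    ∃ W, OrthOddSub.SubOK Q (2 * M) (IsSquare ((-1 : F) ^ M)) W ∧ W.map (Matrix.toLin' X) ≤ W := by
  classical
  obtain ⟨w, hw1, hwo, hwX⟩ := quarter_family h2 hQ hX hXQ hι M hMd
  obtain ⟨z, hz⟩ : ∃ z : Fin M ⊕ Fin M → (ι → F), z = Sum.elim w fun i => X *ᵥ w i := ⟨_, rfl⟩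
  have hz1 : ∀ a, Q (z a) = 1 := by rintro (a | a) <;> simp [hz, hw1, hXQ]
  have hzo : ∀ a b, a ≠ b → polar Q (z a) (z b) = 0 := by
    rintro (a | a) (b | b) hab <;> simp only [hz, Sum.elim_inl, Sum.elim_inr]
    · exact hwo a b fun h => hab (h ▸ rfl)
    · exact hwX a b
    · rw [polar_comm]; exact hwX b a
    · rw [quarter_skew hX hXQ, quarter_twice hX, polar_neg_right, neg_neg]; exact hwo a b fun h => hab (h ▸ rfl)
  obtain ⟨h1, h3, h4⟩ := OrthOddSub.sub_of_family h2 z hzo (fun a => by rw [hz1]; exact one_ne_zero) hM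
    (by rw [Fintype.card_sum, Fintype.card_fin]; omega)
  refine ⟨_, ⟨h1, h3, h4.trans ?_⟩, ?_⟩
  · rw [Finset.prod_eq_one fun a _ => hz1 a, mul_one,
      isSquare_mul_iff' (pow_ne_zero _ (neg_ne_zero.mpr one_ne_zero)) (pow_ne_zero _ h2)]
    simp [(even_two_mul M).isSquare_pow (2 : F)]
  · rw [Submodule.map_span_le]
    rintro _ ⟨a | a, rfl⟩ <;> rw [Matrix.toLin'_apply]
    · exact Submodule.subset_span ⟨Sum.inr a, by simp [hz]⟩
    · rw [show X *ᵥ z (Sum.inr a) = -z (Sum.inl a) by simp [hz, quarter_twice hX]]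
      exact neg_mem (Submodule.subset_span ⟨Sum.inl a, rfl⟩)

/-- The statement for `r = 2` and odd `q`. -/
theorem main_two_even_m (h2 : (2 : F) ≠ 0) (hQ : (polarBilin Q).Nondegenerate) (hι : Fintype.card ι = 2 * d)
    (hd : 3 ≤ d) (hm : Even m) (hm2 : 2 ≤ m) (hmn : m + 2 ≤ 2 * d) {ε δ : Prop} (hε : HasHalf Q ↔ ε) :
    (∀ x : GL ι F, x ∈ Cfsg.Geo.omegaGL ⇑Q →
      (∃ z : F, ((x ^ 2 : GL ι F) : Matrix ι ι F) = z • (1 : Matrix ι ι F)) →
      (∀ z : F, (x : Matrix ι ι F) ≠ z • (1 : Matrix ι ι F)) →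
      ∃ W : Submodule F (ι → F), OrthOddSub.SubOK Q m δ W ∧ W.map (Matrix.toLin' (x : Matrix ι ι F)) ≤ W) ↔
    (¬ ((ε ↔ IsSquare ((-1 : F) ^ d)) ∧ IsSquare ((2 : F) ^ d)) ∨ (δ ↔ IsSquare ((-1 : F) ^ (m / 2)))) := by
  obtain ⟨v, hv⟩ := exists_nonsingular hQ (by omega)
  obtain ⟨M, hM⟩ : ∃ M, m = 2 * M := ⟨m / 2, by obtain ⟨k, hk⟩ := hm; omega⟩
  rw [show m / 2 = M by omega]
  subst hM
  constructor
  · rw [or_iff_not_imp_left, not_not]
    rintro hall ⟨hεd, h2d⟩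
    obtain ⟨g, hX⟩ := exists_quarter h2 hQ (by omega) hι (hε.trans hεd)
    have hg := (quarter_struct h2 hQ g hX (by omega) hι).2.mpr h2d
    have hgQ := mem_isometryGroup.mp g.2
    obtain ⟨W, hW, hWi⟩ := hall _ (mem_omegaGL.mpr ⟨g, hg, rfl⟩)
      ⟨-1, by rw [pow_two, Units.val_mul, hX, neg_one_smul]⟩ (fun z hz => by
        have h1 := hgQ v
        rw [hz, Matrix.smul_mulVec, Matrix.one_mulVec, QuadraticMap.map_smul, smul_eq_mul] at h1
        have h4 : ((g : GL ι F) : Matrix ι ι F) *ᵥ (((g : GL ι F) : Matrix ι ι F) *ᵥ v) = -v := quarter_twice hX v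
        rw [hz, Matrix.smul_mulVec, Matrix.one_mulVec, Matrix.smul_mulVec, Matrix.one_mulVec, smul_smul,
          mul_right_cancel₀ hv (h1.trans (one_mul _).symm), one_smul] at h4
        have hv0 : v ≠ 0 := fun h => hv (by rw [h, QuadraticMap.map_zero])
        exact hv0 ((smul_eq_zero.mp (show (2 : F) • v = 0 by rw [two_smul]; nth_rw 2 [h4]; abel)).resolve_left h2))
    exact type_of_quarter h2 hQ hX hgQ (by omega) hW hWi
  · intro hc x hx ⟨z, hz⟩ hns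
    obtain ⟨y, hy, rfl⟩ := mem_omegaGL.mp hx
    have hyQ := mem_isometryGroup.mp y.2
    rw [pow_two, Units.val_mul] at hz
    have hzz : z * z = 1 := by
      have h : Q ((((y : GL ι F) : Matrix ι ι F) * ((y : GL ι F) : Matrix ι ι F)) *ᵥ v) = Q v := by
        rw [← Matrix.mulVec_mulVec, hyQ, hyQ]
      rw [hz, Matrix.smul_mulVec, Matrix.one_mulVec, QuadraticMap.map_smul, smul_eq_mul] at h
      exact mul_right_cancel₀ hv (by rw [h, one_mul])
    rcases mul_self_eq_one_iff.mp hzz with rfl | rfl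
    · rw [one_smul] at hz
      exact OrthOddSub.exists_sub_invol h2 hQ hz hyQ hm hm2 (by omega) (by omega) δ
    · rw [neg_one_smul] at hz
      obtain ⟨hT, hO⟩ := quarter_struct h2 hQ y hz (by omega) hι
      obtain ⟨W, ⟨h1, h3, h4⟩, hWi⟩ := exists_sub_quarter h2 hQ hz hyQ hι (M := M) (by omega) (by omega)
      rcases hc with h | h
      · exact absurd ⟨hε.symm.trans hT, hO.mp hy⟩ h
      · exact ⟨W, ⟨h1, h3, h4.trans h.symm⟩, hWi⟩

end CfsgLib.OrthND
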