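import Cfsg.Agent.SubElusive.OrthNDOdd

/-!
Even-dimensional nondegenerate subspaces of given type in even-dimensional quadratic spaces: odd primes.
-/

set_option autoImplicit false
set_option linter.style.haveILetI false

open Matrix QuadraticMap CfsgLib.Forms CfsgLib.SemiClasses CfsgLib.OrthTS

namespace CfsgLib.OrthND

section General

variable {F : Type*} [Field F] [Fintype F] {ι : Type} [Fintype ι] [DecidableEq ι] {m d : ℕ}

omit [DecidableEq ι] in
/-- Subspaces of given even dimension and type are those isometric to a model. -/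
theorem sub_iff_iso [DecidableEq ι] {Q : QuadraticForm F (ι → F)} (hQ : (polarBilin Q).Nondegenerate) (hm : Even m)
    {δ : Prop} {R₀ : QuadraticForm F (Fin m → F)} (hR₀ : (polarBilin R₀).Nondegenerate) (hδ : HasHalf R₀ ↔ δ)
    (W : Submodule F (ι → F)) : OrthOddSub.SubOK Q m δ W ↔ IsoSub Q R₀ W := by
  constructor
  · intro hW
    obtain ⟨b, e, R, R', -, hR, -, he, hrange, hT⟩ := OrthOddSub.exists_split hQ hW
    obtain ⟨M, hM⟩ := hm
    obtain ⟨g, hg⟩ := exists_iso_of_type hR₀ hR (m := M) (by rw [Fintype.card_fin]; omega)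
      (by rw [Fintype.card_fin]; omega) (hδ.trans hT.symm)
    obtain ⟨L, hL, hLr, hLQ⟩ := hrange ▸ isoSub_model e he
    exact ⟨L ∘ₗ g.toLinearMap, hL.comp g.injective, by
      rw [LinearMap.range_comp, LinearEquiv.range, Submodule.map_top, hLr], fun v => (hLQ _).trans (hg v)⟩
  · intro hW
    obtain ⟨h1, h2, h3⟩ := hW.subOK hR₀
    exact ⟨h1, h2, h3.trans hδ⟩

omit [DecidableEq ι] in
theorem exists_form (n : ℕ) (hn : Even n) (hn2 : 2 ≤ n) (δ : Prop) :
    ∃ R : QuadraticForm F (Fin n → F), (polarBilin R).Nondegenerate ∧ (HasHalf R ↔ δ) := by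
  classical
  obtain ⟨M, hM⟩ := hn
  have hkey : ∀ (κ : Type) [Fintype κ] [DecidableEq κ] (Q₁ : QuadraticForm F (κ → F)),
      (polarBilin Q₁).Nondegenerate → Fintype.card κ = n → (HasHalf Q₁ ↔ δ) →
      ∃ R : QuadraticForm F (Fin n → F), (polarBilin R).Nondegenerate ∧ (HasHalf R ↔ δ) := by
    intro κ _ _ Q₁ hQ₁ hcard hT
    let g : (Fin n → F) ≃ₗ[F] (κ → F) :=
      LinearEquiv.funCongrLeft F F (Fintype.equivOfCardEq (by rw [Fintype.card_fin, hcard]))
    refine ⟨Q₁.comp g.toLinearMap, nondegenerate_iff.mpr fun x hx => g.injective ?_,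
      (hasHalf_congr g fun v => rfl).trans hT⟩
    rw [map_zero]
    refine polar_ext hQ₁ fun y => ?_
    have := hx (g.symm y)
    simpa [polar, QuadraticMap.comp_apply, map_add] using this
  by_cases hδ : δ
  · exact hkey _ (quadPlus F M) (nondegenerate_quadPlus M) (by simp; omega) (iff_of_true (hasHalf_quadPlus M) hδ)
  · obtain ⟨c, hc⟩ := exists_irreducible_quadratic F
    exact hkey _ (quadMinus F (M - 1) 1 c) (nondegenerate_quadMinus _ (anis_of_irred hc)) (by simp; omega)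
      (iff_of_false (not_hasHalf_quadMinus _ (anis_of_irred hc)) hδ)

/-- A split with given types. -/
theorem exists_model_split {Q : QuadraticForm F (ι → F)} (hQ : (polarBilin Q).Nondegenerate) {ε : Prop}
    (hε : HasHalf Q ↔ ε) (hι : Fintype.card ι = 2 * d) (hm : Even m) (hm2 : 2 ≤ m) (hmn : m + 2 ≤ 2 * d) (δ : Prop) :
    ∃ (b : ℕ) (e : (Fin m ⊕ Fin b → F) ≃ₗ[F] (ι → F)) (R₀ : QuadraticForm F (Fin m → F))
      (R₁ : QuadraticForm F (Fin b → F)), m + b = 2 * d ∧ (polarBilin R₀).Nondegenerate ∧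
      (polarBilin R₁).Nondegenerate ∧ (HasHalf R₀ ↔ δ) ∧ (HasHalf R₁ ↔ (ε ↔ δ)) ∧
      ∀ v, Q (e v) = sumForm R₀ R₁ v := by
  obtain ⟨M, hM⟩ := hm
  obtain ⟨R₀, hR₀, hδ⟩ := exists_form (F := F) m ⟨M, hM⟩ hm2 δ
  obtain ⟨R₁, hR₁, hτ⟩ := exists_form (F := F) (2 * d - m) ⟨d - M, by omega⟩ (by omega) (ε ↔ δ)
  obtain ⟨g, hg⟩ := exists_iso_of_type (nondegenerate_sumForm hR₀ hR₁) hQ (m := d) (by simp; omega) hι (by
    rw [hasHalf_sum_iff hR₀ hR₁ (by rw [Fintype.card_fin]; exact ⟨M, hM⟩)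
      (by rw [Fintype.card_fin]; exact ⟨d - M, by omega⟩), hδ, hτ, hε]
    by_cases δ <;> simp_all)
  exact ⟨2 * d - m, g, R₀, R₁, by omega, hR₀, hR₁, hδ, hτ, hg⟩

omit [DecidableEq ι] in
theorem card_isom_type [DecidableEq ι] {Q : QuadraticForm F (ι → F)} (hQ : (polarBilin Q).Nondegenerate)
    (hι : Fintype.card ι = 2 * d) (hd : 1 ≤ d) {ε : Prop} (hε : HasHalf Q ↔ ε) :
    ∃ A : ℕ, ((ε ∧ A + 1 = Fintype.card F ^ d) ∨ (¬ ε ∧ A = Fintype.card F ^ d + 1)) ∧
      Nat.card (isom Q) = 2 * Fintype.card F ^ (d * (d - 1)) * A *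
        ∏ i ∈ Finset.range (d - 1), (Fintype.card F ^ (2 * (i + 1)) - 1) := by
  classical
  obtain ⟨D, rfl⟩ : ∃ D, d = D + 1 := ⟨d - 1, by omega⟩
  by_cases hs : ε
  · obtain ⟨g, hg⟩ := exists_iso_plus hQ hι (hε.mpr hs)
    refine ⟨Fintype.card F ^ (D + 1) - 1, Or.inl ⟨hs, Nat.sub_add_cancel (Nat.one_le_pow _ _ Fintype.card_pos)⟩, ?_⟩
    rw [← Nat.card_congr (isoEquiv Q).toEquiv, SubElusive.card_iso_congr g hg,
      Nat.card_congr (isoEquiv (quadPlus F (D + 1))).toEquiv, OrthOrder.card_isom_plus D]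
    simp
  · obtain ⟨c, hc⟩ := exists_irreducible_quadratic F
    obtain ⟨-, g, hg⟩ := exists_iso_minus hQ hι (mt hε.mp hs) (anis_of_irred hc)
    refine ⟨_, Or.inr ⟨hs, rfl⟩, ?_⟩
    rw [← Nat.card_congr (isoEquiv Q).toEquiv, SubElusive.card_iso_congr g hg,
      Nat.card_congr (isoEquiv (quadMinus F (D + 1 - 1) 1 c)).toEquiv, OrthOrder.card_isom_minus (anis_of_irred hc)]
    simp

/-- The primes dividing the number of subspaces. -/
theorem count_data_even {r b' : ℕ} [hr : Fact r.Prime] (hrq : ¬ r ∣ Fintype.card F)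
    {Q : QuadraticForm F (ι → F)} (hQ : (polarBilin Q).Nondegenerate) (hι : Fintype.card ι = 2 * d)
    {ε : Prop} (hε : HasHalf Q ↔ ε) {b : ℕ} {R₀ : QuadraticForm F (Fin m → F)} {R₁ : QuadraticForm F (Fin b → F)}
    (hR₁ : (polarBilin R₁).Nondegenerate) (hb : b = 2 * b') (hb1 : 1 ≤ b') (hbd : b' < d) {τ : Prop}
    (hτ : HasHalf R₁ ↔ τ) (e : (Fin m ⊕ Fin b → F) ≃ₗ[F] (ι → F)) (he : ∀ v, Q (e v) = sumForm R₀ R₁ v)
    (hdvd : r ∣ Nat.card {W : Submodule F (ι → F) // IsoSub Q R₀ W}) :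
    (∃ j, b' < j ∧ j < d ∧ ((Fintype.card F : ℕ) : ZMod r) ^ (2 * j) = 1) ∨
      ((ε ∧ ((Fintype.card F : ℕ) : ZMod r) ^ d = 1) ∨ (¬ ε ∧ ((Fintype.card F : ℕ) : ZMod r) ^ d = -1)) ∨
      ((τ ∧ ((Fintype.card F : ℕ) : ZMod r) ^ b' = -1) ∨ (¬ τ ∧ ((Fintype.card F : ℕ) : ZMod r) ^ b' = 1)) := by
  classical
  obtain ⟨A, hA, hcQ⟩ := card_isom_type hQ hι (by omega) hε
  obtain ⟨B, hB, hcR⟩ := card_isom_type hR₁ (d := b') (by rw [Fintype.card_fin, hb]) hb1 hτ
  have h := (mul_dvd_mul_right hdvd _).trans (card_dvd hQ e he)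
  obtain ⟨q, hq⟩ : ∃ q, q = Fintype.card F := ⟨_, rfl⟩
  have hq2 : 2 ≤ q := hq ▸ Fintype.one_lt_card
  have hq1 : ∀ a, 1 ≤ q ^ a := fun a => Nat.one_le_pow _ _ (by omega)
  rw [← hq] at hcQ hcR hA hB
  obtain ⟨B', hB', hBB⟩ : ∃ B', ((τ ∧ B' = q ^ b' + 1) ∨ (¬ τ ∧ B' + 1 = q ^ b')) ∧ B * B' = q ^ (2 * b') - 1 := by
    have e2 : q ^ (2 * b') = q ^ b' * q ^ b' := by rw [← pow_add, two_mul]
    rcases hB with ⟨ht, hB⟩ | ⟨ht, hB⟩
    · refine ⟨q ^ b' + 1, Or.inl ⟨ht, rfl⟩, ?_⟩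
      rw [e2, ← hB]
      rw [show (B + 1) * (B + 1) = B * (B + 1 + 1) + 1 by ring, Nat.add_sub_cancel]
    · obtain ⟨C, hC⟩ : ∃ C, q ^ b' = C + 1 := ⟨q ^ b' - 1, by have := hq1 b'; omega⟩
      refine ⟨C, Or.inr ⟨ht, hC.symm⟩, ?_⟩
      rw [e2, hB, hC, show (C + 1) * (C + 1) = (C + 1 + 1) * C + 1 by ring, Nat.add_sub_cancel]
  have hq2' : ∀ i, 0 < q ^ (2 * (i + 1)) - 1 := fun i => by
    have : 2 ≤ q ^ (2 * (i + 1)) := hq2.trans (Nat.le_self_pow (by omega) _)
    omega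
  obtain ⟨c, hc⟩ : ∃ c, b' = c + 1 := ⟨b' - 1, by omega⟩
  have hBpos : 0 < B := by
    rcases hB with ⟨-, hB⟩ | ⟨-, hB⟩
    · have : 2 ≤ q ^ b' := hq2.trans (Nat.le_self_pow (by omega) _)
      omega
    · omega
  rw [hcQ, hcR, ← Finset.prod_range_mul_prod_Ico (fun i => q ^ (2 * (i + 1)) - 1) (show b' ≤ d - 1 by omega),
    hc, Finset.prod_range_succ, ← hc, ← hBB,
    show d * (d - 1) = b' * (b' - 1) + (d * (d - 1) - b' * (b' - 1)) from (Nat.add_sub_cancel'
      (Nat.mul_le_mul hbd.le (by omega))).symm, pow_add, show b' - 1 = c by omega] at h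
  have key : r ∣ q ^ (d * (d - 1) - b' * c) * A * B' * ∏ i ∈ Finset.Ico b' (d - 1), (q ^ (2 * (i + 1)) - 1) := by
    refine Nat.dvd_of_mul_dvd_mul_right (show 0 < 2 * q ^ (b' * c) * B * ∏ i ∈ Finset.range c, (q ^ (2 * (i + 1)) - 1)
      from Nat.mul_pos (Nat.mul_pos (Nat.mul_pos two_pos (pow_pos (by omega) _)) hBpos)
        (Finset.prod_pos fun i _ => hq2' i)) ?_
    exact dvd_trans h (dvd_of_eq (by ring))
  rcases hr.out.dvd_mul.mp key with h1 | hP
  · rcases hr.out.dvd_mul.mp h1 with h2 | hB2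
    · have hA'' := (hr.out.dvd_mul.mp h2).resolve_left fun h => hrq (hq ▸ hr.out.dvd_of_dvd_pow h)
      rw [← ZMod.natCast_eq_zero_iff] at hA''
      refine Or.inr (Or.inl ?_)
      rcases hA with ⟨hs, hA⟩ | ⟨hs, hA⟩
      · refine Or.inl ⟨hs, ?_⟩
        rw [← hq, ← Nat.cast_pow, ← hA, Nat.cast_add, hA'', zero_add, Nat.cast_one]
      · refine Or.inr ⟨hs, ?_⟩
        rw [hA, Nat.cast_add, Nat.cast_pow, Nat.cast_one, add_eq_zero_iff_eq_neg, hq] at hA''
        exact hA''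
    · rw [← ZMod.natCast_eq_zero_iff] at hB2
      refine Or.inr (Or.inr ?_)
      rcases hB' with ⟨hs, hB'⟩ | ⟨hs, hB'⟩
      · refine Or.inl ⟨hs, ?_⟩
        rw [hB', Nat.cast_add, Nat.cast_pow, Nat.cast_one, add_eq_zero_iff_eq_neg, hq] at hB2
        exact hB2
      · refine Or.inr ⟨hs, ?_⟩
        rw [← hq, ← Nat.cast_pow, ← hB', Nat.cast_add, hB2, zero_add, Nat.cast_one]
  · obtain ⟨i, hi, hdi⟩ := (hr.out.prime.dvd_finsetProd_iff _).mp hP
    rw [Finset.mem_Ico] at hi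
    rw [← ZMod.natCast_eq_zero_iff, Nat.cast_sub (hq1 _), Nat.cast_pow, Nat.cast_one, sub_eq_zero, hq] at hdi
    exact Or.inl ⟨i + 1, by omega, by omega, hdi⟩

end General

section Crit

variable {F : Type*} [Field F] [Fintype F] {p r : ℕ} [Fact p.Prime] [CharP F p] [hr : Fact r.Prime]
  {ι : Type} [Fintype ι] [DecidableEq ι] {Q : QuadraticForm F (ι → F)} {m b d : ℕ}
  {R₀ : QuadraticForm F (Fin m → F)} {R₁ : QuadraticForm F (Fin b → F)}

/-- The shape of the criterion. -/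
def CritEven (i c d m : ℕ) (ε δ : Prop) : Prop :=
  ((2 * d) % c = 0 ∧ ¬ (ε ↔ MType i (2 * d))) ∨
  ((2 * d) % c = 0 ∧ m % c = 0 ∧ (δ ↔ MType i m)) ∨
  (0 < (2 * d) % c ∧ m % c ≤ (2 * d) % c ∧ (m % c = 0 → (δ ↔ MType i m)) ∧
    (m % c = (2 * d) % c → ((ε ↔ δ) ↔ MType i (2 * d - m))))

omit [Fintype F] [Fact p.Prime] [CharP F p] hr in
theorem mtype_add {i a x : ℕ} (hi : 0 < i) (hev : Even i) :
    MType i (i * x + a) ↔ Even (x + a / i) := by
  rw [MType, or_iff_right (Nat.not_odd_iff_even.mpr hev), add_comm (i * x) a, Nat.add_mul_div_left _ _ hi, add_comm]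

omit [Fintype F] [Fact p.Prime] [CharP F p] hr in
/-- The sum and the difference of the two quotients have the same parity. -/
theorem even_flip {i n m : ℕ} (hi : 0 < i) (hmn : m ≤ n) (h : m % i = n % i) :
    Even ((n + m - 2 * (n % i)) / i) ↔ Even ((n - m) / i) := by
  obtain ⟨N, hN⟩ : ∃ N, N = n / i := ⟨_, rfl⟩
  obtain ⟨M, hM⟩ : ∃ M, M = m / i := ⟨_, rfl⟩
  have h1 := Nat.mod_add_div n i
  have h2 := Nat.mod_add_div m i
  rw [← hN] at h1
  rw [← hM] at h2
  have hMN : M ≤ N := hN ▸ hM ▸ Nat.div_le_div_right hmn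
  rw [show n + m - 2 * (n % i) = i * (N + M) by rw [mul_add]; omega,
    show n - m = i * (N - M) by rw [Nat.mul_sub]; omega, Nat.mul_div_cancel_left _ hi, Nat.mul_div_cancel_left _ hi,
    Nat.even_add, Nat.even_sub hMN]

omit [Fintype F] [Fact p.Prime] [CharP F p] hr in
/-- The criterion, arranged by the residue of `m`. -/
theorem critEven_norm {i c d m : ℕ} {ε δ C : Prop} (hC : 0 < (2 * d) % c → CritEven i c d m ε δ → C) :
    CritEven i c d m ε δ ↔
      ((2 * d) % c = 0 ∧ (¬ (ε ↔ MType i (2 * d)) ∨ (m % c = 0 ∧ (δ ↔ MType i m)))) ∨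
      (C ∧ ((0 < m % c ∧ m % c < (2 * d) % c) ∨
        (0 < m % c ∧ m % c = (2 * d) % c ∧ ((ε ↔ δ) ↔ MType i (2 * d - m))) ∨
        (0 < (2 * d) % c ∧ m % c = 0 ∧ (δ ↔ MType i m)))) := by
  constructor
  · intro h
    have hC' := fun hk => hC hk h
    rcases h with ⟨hk, h⟩ | ⟨hk, hl, h⟩ | ⟨hk, hle, h0, h1⟩
    · exact Or.inl ⟨hk, Or.inl h⟩
    · exact Or.inl ⟨hk, Or.inr ⟨hl, h⟩⟩
    · refine Or.inr ⟨hC' hk, ?_⟩
      rcases Nat.eq_zero_or_pos (m % c) with hl | hl
      · exact Or.inr (Or.inr ⟨hk, hl, h0 hl⟩)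
      · rcases Nat.lt_or_eq_of_le hle with h | h
        · exact Or.inl ⟨hl, h⟩
        · exact Or.inr (Or.inl ⟨hl, h, h1 h⟩)
  · rintro (⟨hk, h | h⟩ | ⟨-, ⟨hl, h⟩ | ⟨hl, h, hT⟩ | ⟨hk, hl, h⟩⟩)
    · exact Or.inl ⟨hk, h⟩
    · exact Or.inr (Or.inl ⟨hk, h⟩)
    · exact Or.inr (Or.inr ⟨by omega, h.le, fun h' => by omega, fun h' => by omega⟩)
    · exact Or.inr (Or.inr ⟨by omega, h.le, fun h' => by omega, fun _ => hT⟩)
    · exact Or.inr (Or.inr ⟨hk, by omega, fun _ => h, fun h' => by omega⟩)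

variable (hrp : r ≠ p) (hr2 : r ≠ 2) {i c : ℕ}
  (hi : i = orderOf ((Fintype.card F : ℕ) : ZMod r)) (hc : c = if Even i then i else 2 * i)
  (hQ : (polarBilin Q).Nondegenerate) (hι : Fintype.card ι = 2 * d) (hd : 3 ≤ d) (hm : Even m) (hm2 : 2 ≤ m)
  {ε δ : Prop} (hε : HasHalf Q ↔ ε) (hR₀ : (polarBilin R₀).Nondegenerate) (hR₁ : (polarBilin R₁).Nondegenerate)
  (hδ : HasHalf R₀ ↔ δ) (hτ : HasHalf R₁ ↔ (ε ↔ δ))
  (hb : m + b = 2 * d) (hb2 : 2 ≤ b) (e : (Fin m ⊕ Fin b → F) ≃ₗ[F] (ι → F))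
  (he : ∀ v, Q (e v) = sumForm R₀ R₁ v) (hcn : c ≤ 2 * d)

include hrp hr2 hi hc hQ hι hd hm hm2 hε hR₀ hR₁ hδ hτ hb hb2 he hcn

/-- The criterion for odd primes other than the characteristic. -/
theorem crit_even_m : AllFix Q r (IsoSub Q R₀) ↔ CritEven i c d m ε δ := by
  classical
  obtain ⟨u, hu⟩ := exists_unit_card (F := F) (p := p) (r := r) dvd_rfl hrp
  rw [← hu, orderOf_units] at hi
  obtain ⟨P, hP, hLfin, hζ⟩ := exists_root_field F hr.out (natCast_ne_zero hrp)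
  obtain ⟨h, hh, hinv⟩ := exists_multiplier u hr2
  have hoh : orderOf h = c := by
    rw [hh, hc, hi]
    rcases Nat.even_or_odd (orderOf u) with he | ho
    · rw [if_neg (Nat.not_odd_iff_even.mpr he), if_pos he]
    · rw [if_pos ho, if_neg (Nat.not_even_iff_odd.mpr ho)]
  have hipos : 0 < i := hi ▸ orderOf_pos u
  obtain ⟨cc, hcc⟩ : Even c := by
    rw [hc]; split_ifs with he'
    · exact he'
    · exact even_two_mul _
  have hcpos : 0 < c := hoh ▸ orderOf_pos h
  obtain ⟨μ, hμ⟩ := hm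
  obtain ⟨b', hb'⟩ : ∃ b', b = 2 * b' := ⟨d - μ, by omega⟩
  have hklt := Nat.mod_lt (2 * d) hcpos
  have hℓlt := Nat.mod_lt m hcpos
  have hdm := Nat.mod_add_div (2 * d) c
  have hdmm := Nat.mod_add_div m c
  have hℓev : m % c % 2 = 0 := by rw [Nat.mod_mod_of_dvd _ ⟨cc, by omega⟩]; omega
  have hkev : (2 * d) % c % 2 = 0 := by rw [Nat.mod_mod_of_dvd _ ⟨cc, by omega⟩]; omega
  have hpar : ∀ a, c * a % 2 = 0 := fun a => by rw [Nat.mul_mod, show c % 2 = 0 by omega, zero_mul, Nat.zero_mod]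
  -- the types are additive on multiples of `c`
  have hTadd : (2 * d) % c = 0 → m % c = 0 → (MType i (2 * d - m) ↔ (MType i (2 * d) ↔ MType i m)) := by
    intro hk hl
    rcases Nat.even_or_odd i with hev | hod
    · have hci : c = i := by rw [hc, if_pos hev]
      rw [hci] at hk hl
      obtain ⟨x, hx⟩ := Nat.dvd_of_mod_eq_zero hk
      obtain ⟨y, hy⟩ := Nat.dvd_of_mod_eq_zero hl
      have e1 : 2 * d - m = i * (x - y) := by rw [hx, hy, ← Nat.mul_sub]
      have hxy : y ≤ x := Nat.le_of_mul_le_mul_left (by omega) hipos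
      simp only [MType, Nat.not_odd_iff_even.mpr hev, false_or]
      rw [e1, hx, hy, Nat.mul_div_cancel_left _ hipos, Nat.mul_div_cancel_left _ hipos,
        Nat.mul_div_cancel_left _ hipos, Nat.even_sub hxy]
    · simp [MType, hod]
  constructor
  · intro hall
    by_contra hcon
    have hc1 : (2 * d) % c = 0 → (ε ↔ MType i (2 * d)) := fun hk => by
      by_contra h'; exact hcon (Or.inl ⟨hk, h'⟩)
    have hNpos : 0 < 2 * d / c := Nat.div_pos hcn hcpos
    have h0f := Nat.mul_pos hcpos hNpos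
    obtain ⟨f, hf, hf0, hfs, -⟩ := exists_fun_zero (h := h) hoh ((2 * d) % c) (2 * d / c)
    rw [hdm] at hfs
    obtain ⟨B, hB, hBm, -⟩ := exists_ts_elem_even hζ hrp hr2 hu hQ hι hε hinv (m := 0) f (fun _ => 0) hf
      (fun _ => rfl) (fun _ => Nat.zero_le _) hfs Finset.sum_const_zero
      (fun h0 => by
        rw [h0, Nat.mul_zero, Nat.sub_zero, ← hi]
        exact hc1 (hf0.symm.trans (by omega)))
    have hB1 : (B : GL ι F) ≠ 1 := fun he' => by
      have := hBm 0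
      rw [he', Units.val_one, mult_one hζ, if_pos rfl, hι, hf0] at this
      omega
    have hBr : (B : GL ι F) ^ r = 1 := by rw [← SubmonoidClass.coe_pow, hB, OneMemClass.coe_one]
    have hBo : (B : GL ι F) ∈ Cfsg.Geo.omegaGL ⇑Q :=
      mem_omegaGL.mpr ⟨B, mem_omega_odd hQ (by omega) B (hr.out.odd_of_ne_two hr2) hB, rfl⟩
    obtain ⟨W, hW, hWinv⟩ := hall _ hBo (orderOf_eq_prime hBr hB1)
    obtain ⟨b₂, R, A, R', A', hb₂, hR, hRT, hA, hAQ, hR', hA', hA'Q, hQT, hsum, -⟩ :=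
      OrthOddSub.exists_blocks (ζ := AdjoinRoot.root P) hQ hBr (mem_isometryGroup.mp B.2) (hW.subOK hR₀) hWinv
    rw [hasHalf_sum_iff hR hR' (by rw [Fintype.card_fin]; exact ⟨μ, hμ⟩)
      (by rw [Fintype.card_fin]; exact ⟨b', by omega⟩), hRT, hε, hδ] at hQT
    obtain ⟨g, hg⟩ : ∃ g : ZMod r → ℕ, g = fun x => mult (AdjoinRoot.root P) A x := ⟨_, rfl⟩
    obtain ⟨g', hg'⟩ : ∃ g' : ZMod r → ℕ, g' = fun x => mult (AdjoinRoot.root P) A' x := ⟨_, rfl⟩
    obtain ⟨j, hj, -⟩ := SubElusive.orbit_data h g ((hinv g).mp ⟨fun x => by rw [hg, hu]; exact mult_frob hζ _ x,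
      fun x => by rw [hg]; exact mult_neg_of_isometry hζ hrp hR hA hAQ x⟩)
    have hgs : ∑ x, g x = m := by rw [hg]; exact (sum_mult hζ hA).trans (Fintype.card_fin m)
    rw [hoh, hgs] at hj
    have hsum0 : g 0 + g' 0 = (2 * d) % c := by rw [hg, hg']; exact (hsum 0).trans ((hBm 0).trans hf0)
    have hmod : m % c = g 0 := by rw [← hj, Nat.add_mul_mod_self_left, Nat.mod_eq_of_lt (by omega)]
    have hTW : m % c = 0 → (δ ↔ MType i m) := fun hz => by
      rw [hmod, hg] at hz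
      rw [← hδ, ← hRT, hasHalf_of_moving hζ hrp hu hr2 hR hA hAQ hz, Fintype.card_fin, hi, MType]
    have hTP : m % c = (2 * d) % c → ((ε ↔ δ) ↔ MType i (2 * d - m)) := fun hz => by
      have h1 : g' 0 = 0 := by omega
      rw [hg'] at h1
      have e1 := hasHalf_of_moving hζ hrp hu hr2 hR' hA' hA'Q h1
      rw [Fintype.card_fin] at e1
      rw [show 2 * d - m = b₂ by omega, hi, MType, ← e1]
      clear * - hQT
      tauto
    rcases Nat.eq_zero_or_pos ((2 * d) % c) with hk | hk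
    · exact hcon (Or.inr (Or.inl ⟨hk, by omega, hTW (by omega)⟩))
    · exact hcon (Or.inr (Or.inr ⟨hk, by omega, hTW, hTP⟩))
  · intro hcrit x hx hxo
    obtain ⟨y, -, rfl⟩ := mem_omegaGL.mp hx
    have hy : y ^ r = 1 := Subtype.ext (by
      rw [SubmonoidClass.coe_pow, OneMemClass.coe_one, ← hxo]; exact pow_orderOf_eq_one _)
    have hyM := pow_eq_one_of_mem hy
    obtain ⟨f, hfdef⟩ : ∃ f : ZMod r → ℕ, f = fun x => mult (AdjoinRoot.root P) ((y : GL ι F) : Matrix ι ι F) x :=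
      ⟨_, rfl⟩
    have hfh : ∀ x, f (x * (h : ZMod r)) = f x := (hinv f).mp ⟨fun x => by rw [hfdef, hu]; exact mult_frob hζ _ x,
      fun x => by rw [hfdef]; exact mult_neg_of_isometry hζ hrp hQ hyM (mem_isometryGroup.mp y.2) x⟩
    have hfs : ∑ x, f x = 2 * d := by rw [hfdef]; exact (sum_mult hζ hyM).trans hι
    have hf0T : f 0 = 0 → (ε ↔ MType i (2 * d)) := fun hz => by
      rw [← hε, hi, MType, hasHalf_of_moving hζ hrp hu hr2 hQ hyM (mem_isometryGroup.mp y.2)
        (by rwa [hfdef] at hz), hι]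
    obtain ⟨K, hK, hsub⟩ := SubElusive.orbit_data h f hfh
    rw [hoh, hfs] at hK
    rw [hoh] at hsub
    obtain ⟨E, hE⟩ : ∃ E, E = f 0 / c := ⟨_, rfl⟩
    have hfk : f 0 % c = (2 * d) % c := by rw [← hK, Nat.add_mul_mod_self_left]
    have hfdm := Nat.mod_add_div (f 0) c
    rw [hfk, ← hE] at hfdm
    have hEK : E + K = 2 * d / c := Nat.eq_of_mul_eq_mul_left hcpos (by rw [mul_add]; omega)
    have hMN : m / c ≤ 2 * d / c := Nat.div_le_div_right (by omega)
    generalize hMdef : m / c = M at *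
    generalize hNdef : 2 * d / c = N at *
    obtain ⟨α, β, hαβ, hα, hβ, hα0, hα1⟩ : ∃ α β, α + c * β = m ∧ α ≤ f 0 ∧ β ≤ K ∧
        (α = 0 → (δ ↔ MType i m)) ∧ (α = f 0 → ((ε ↔ δ) ↔ MType i (2 * d - m))) := by
      -- any split of the blocks; the few exceptional ones are checked
      have mk : ∀ a, a ≤ E → a ≤ M → M ≤ K + a → m % c + c * a ≤ f 0 →
          (m % c = 0 → a = 0 → (δ ↔ MType i m)) →
          (m % c + c * a = f 0 → ((ε ↔ δ) ↔ MType i (2 * d - m))) →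
          ∃ α β, α + c * β = m ∧ α ≤ f 0 ∧ β ≤ K ∧ (α = 0 → (δ ↔ MType i m)) ∧
            (α = f 0 → ((ε ↔ δ) ↔ MType i (2 * d - m))) := by
        intro a ha1 ha2 ha3 ha4 h0 h1
        refine ⟨m % c + c * a, M - a, ?_, ha4, by omega, fun hz => h0 (by omega) ?_, h1⟩
        · rw [add_assoc, ← mul_add, Nat.add_sub_cancel' ha2, hdmm]
        · rcases Nat.mul_eq_zero.mp (show c * a = 0 by omega) with h' | h'
          · omega
          · exact h'
      rcases hcrit with ⟨hk, hσ⟩ | ⟨hk, hl, hT⟩ | ⟨hk, hle, hT0, hT1⟩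
      · have hE1 : 1 ≤ E := by
          by_contra h'
          have h0 : E = 0 := by omega
          rw [h0, mul_zero] at hfdm
          exact hσ (hf0T (by omega))
        have hMlt : M < N := by
          by_contra hge
          have h1 : M = N := by omega
          rw [h1] at hdmm
          omega
        rcases Nat.eq_zero_or_pos (m % c) with hl | hl
        · have hM1 : 1 ≤ M := by
            by_contra h'
            rw [show M = 0 by omega, mul_zero] at hdmm
            omega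
          have hT' : ¬ (δ ↔ MType i m) → ((ε ↔ δ) ↔ MType i (2 * d - m)) := fun hn => by
            rw [hTadd hk hl]
            by_cases δ <;> by_cases ε <;> simp_all
          have hlt : ∀ a, a < E → c * a + c ≤ c * E := fun a ha => by
            rw [← Nat.mul_succ]; exact Nat.mul_le_mul_left c ha
          by_cases hT : δ ↔ MType i m
          · refine mk (M - K) (by omega) (by omega) (by omega) ?_ (fun _ _ => hT) (fun hz => ?_)
            · have := hlt (M - K) (by omega); omega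
            · have := hlt (M - K) (by omega); omega
          · rcases Nat.lt_or_ge (M) E with hME | hME
            · refine mk (M) hME.le le_rfl (by omega) ?_ (fun _ h' => by omega) (fun hz => ?_)
              · have := hlt _ hME; omega
              · have := hlt _ hME; omega
            · exact mk E le_rfl hME (by omega) (by omega) (fun _ h' => by omega) (fun _ => hT' hT)
        · have hlt : ∀ a, a < E → c * a + c ≤ c * E := fun a ha => by
            rw [← Nat.mul_succ]; exact Nat.mul_le_mul_left c ha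
          have := hlt (M - K) (by omega)
          exact mk (M - K) (by omega) (by omega) (by omega) (by omega) (fun h' => by omega) (fun hz => by omega)
      · have := Nat.mul_le_mul_left c (show M - K ≤ E by omega)
        refine mk (M - K) (by omega) (by omega) (by omega) (by omega) (fun _ _ => hT) (fun hz => ?_)
        -- the whole fixed space is used
        rcases Nat.eq_zero_or_pos E with hE0 | hE0
        · rw [hTadd hk hl]
          have hσ := hf0T (by rw [hE0, mul_zero] at hfdm; omega)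
          by_cases δ <;> by_cases ε <;> simp_all
        · by_cases hσ : ε ↔ MType i (2 * d)
          · rw [hTadd hk hl]
            by_cases δ <;> by_cases ε <;> simp_all
          · exfalso
            have heq : M - K = E := Nat.eq_of_mul_eq_mul_left hcpos (by omega)
            have : M = N := by omega
            rw [this] at hdmm
            omega
      · have := Nat.mul_le_mul_left c (show M - K ≤ E by omega)
        refine mk (M - K) (by omega) (by omega) (by omega) (by omega) (fun hz _ => hT0 hz) (fun hz => ?_)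
        apply hT1
        rcases lt_or_eq_of_le (show M - K ≤ E by omega) with hlt | heq
        · have : c * (M - K) + c ≤ c * E := by
            rw [← Nat.mul_succ]; exact Nat.mul_le_mul_left c hlt
          omega
        · rw [heq] at hz; omega
    obtain ⟨g, hgh, hg0, hgf, hgs⟩ := hsub α hα β hβ
    rw [hαβ] at hgs
    obtain ⟨f₁, hf₁⟩ : ∃ f₁ : ZMod r → ℕ, f₁ = fun x => f x - g x := ⟨_, rfl⟩
    have hsum : ∀ x, g x + f₁ x = f x := fun x => by rw [hf₁]; exact Nat.add_sub_cancel' (hgf x)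
    have hf₁s : ∑ x, f₁ x = b := by
      have := (Finset.sum_congr rfl fun x _ => hsum x).trans hfs
      rw [Finset.sum_add_distrib, hgs] at this
      omega
    obtain ⟨A, hA, hAm, -⟩ := exists_ts_elem_even hζ hrp hr2 hu hR₀ (d := μ) (m := 0) (by rw [Fintype.card_fin]; omega)
      hδ hinv g (fun _ => 0) hgh (fun _ => rfl) (fun _ => Nat.zero_le _) (by omega) Finset.sum_const_zero
      (fun h0 => by
        rw [h0, Nat.mul_zero, Nat.sub_zero, show 2 * μ = m by omega, ← hi]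
        exact hα0 (by omega))
    obtain ⟨A', hA', hAm', -⟩ := exists_ts_elem_even hζ hrp hr2 hu hR₁ (d := b') (m := 0)
      (by rw [Fintype.card_fin]; omega) hτ hinv f₁ (fun _ => 0) (fun x => by rw [hf₁]; simp only [hfh, hgh])
      (fun _ => rfl) (fun _ => Nat.zero_le _) (by omega) Finset.sum_const_zero
      (fun h0 => by
        rw [h0, Nat.mul_zero, Nat.sub_zero, show 2 * b' = 2 * d - m by omega, ← hi]
        refine hα1 ?_
        have := hsum 0
        omega)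
    obtain ⟨T, hT⟩ : ∃ T, T = Matrix.fromBlocks ((A : GL (Fin m) F) : Matrix (Fin m) (Fin m) F) 0 0
        ((A' : GL (Fin b) F) : Matrix (Fin b) (Fin b) F) := ⟨_, rfl⟩
    have hTr : T ^ r = 1 := by
      rw [hT, CfsgLib.NilType.blocks_pow, pow_eq_one_of_mem hA, pow_eq_one_of_mem hA', Matrix.fromBlocks_one]
    obtain ⟨B, hB, hBv, hBm⟩ := OrthOddSub.conj_gl (ζ := AdjoinRoot.root P) hTr e
    have hBQ : ∀ v, Q ((B : Matrix ι ι F) *ᵥ v) = Q v := fun v => by
      obtain ⟨w, rfl⟩ := e.surjective v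
      rw [hBv, he, he, hT, fromBlocks_one_mulVec, sumForm_apply, sumForm_apply, Sum.elim_comp_inl, Sum.elim_comp_inr,
        mem_isometryGroup.mp A.2, mem_isometryGroup.mp A'.2]
    obtain ⟨z, hz⟩ := isConj_iff.mp ((isConj_iff_mult hζ hrp hr2 hQ ⟨B, mem_isometryGroup.mpr hBQ⟩ y
      (Subtype.ext (by rw [SubmonoidClass.coe_pow, OneMemClass.coe_one]; exact hB)) hy).mpr
      (funext fun x => by rw [hBm, hT, mult_blocks, hAm, hAm', hsum, hfdef]))
    refine ⟨(LinearMap.range (e.toLinearMap ∘ₗ OrthOddSub.inlL F (Fin m) (Fin b))).map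
      (glEquiv (z : GL ι F) : (ι → F) →ₗ[F] (ι → F)), (isoSub_model e he).map _ (glEquiv (z : GL ι F)).injective
        (fun v => by rw [LinearEquiv.coe_coe, glEquiv_apply]; exact mem_isometryGroup.mp z.2 v), ?_⟩
    rintro _ ⟨_, ⟨_, ⟨v, rfl⟩, rfl⟩, rfl⟩
    refine ⟨e (OrthOddSub.inlL F _ _ (((A : GL (Fin m) F) : Matrix (Fin m) (Fin m) F) *ᵥ v)), ⟨_, rfl⟩, ?_⟩
    have hzB := congrArg (fun t : ↥(Cfsg.isometryGroup F ⇑Q) => ((t : GL ι F) : Matrix ι ι F))
      (mul_inv_eq_iff_eq_mul.mp hz)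
    simp only [Subgroup.coe_mul, Units.val_mul] at hzB
    simp only [LinearEquiv.coe_coe, glEquiv_apply, Matrix.toLin'_apply, LinearMap.comp_apply]
    rw [Matrix.mulVec_mulVec, ← hzB, ← Matrix.mulVec_mulVec]
    congr 1
    rw [hBv, OrthOddSub.inlL_apply, OrthOddSub.inlL_apply, hT, fromBlocks_one_mulVec, Sum.elim_comp_inl,
      Sum.elim_comp_inr, Matrix.mulVec_zero]

omit hcn

/-- The criterion with the constraints coming from the count. -/
theorem main_even_m (hdvd : r ∣ Nat.card {W : Submodule F (ι → F) // IsoSub Q R₀ W}) :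
    ((∀ x : GL ι F, x ∈ Cfsg.Geo.omegaGL ⇑Q →
      (∃ z : F, ((x ^ r : GL ι F) : Matrix ι ι F) = z • (1 : Matrix ι ι F)) →
      (∀ z : F, (x : Matrix ι ι F) ≠ z • (1 : Matrix ι ι F)) →
      ∃ W : Submodule F (ι → F), IsoSub Q R₀ W ∧ W.map (Matrix.toLin' (x : Matrix ι ι F)) ≤ W) ↔
      CritEven i c d m ε δ) ∧
    (0 < (2 * d) % c → CritEven i c d m ε δ → c ≤ m) := by
  classical
  have hrq : ¬ r ∣ Fintype.card F := fun hd' => hrp ((Nat.prime_dvd_prime_iff_eq hr.out Fact.out).mp (by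
    obtain ⟨k, -, hk⟩ := FiniteField.card F p
    exact hr.out.dvd_of_dvd_pow (hk ▸ hd')))
  haveI : Fact (2 < r) := ⟨by have := hr.out.two_le; omega⟩
  obtain ⟨u, hu⟩ := exists_unit_card (F := F) (p := p) (r := r) dvd_rfl hrp
  have hipos : 0 < i := by rw [hi, ← hu, orderOf_units]; exact orderOf_pos u
  have hcpos : 0 < c := by rw [hc]; split_ifs <;> omega
  obtain ⟨μ, hμ⟩ := hm
  obtain ⟨b', hb'⟩ : ∃ b', b = 2 * b' := ⟨d - μ, by omega⟩
  have hcdvd : ∀ {j}, ((Fintype.card F : ℕ) : ZMod r) ^ (2 * j) = 1 → c ∣ 2 * j := fun {j} hj => by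
    have hij : i ∣ 2 * j := hi ▸ orderOf_dvd_of_pow_eq_one hj
    rw [hc]
    split_ifs with he'
    · exact hij
    · exact Nat.mul_dvd_mul_left 2 ((Nat.Coprime.dvd_of_dvd_mul_left
        (Nat.Coprime.symm (Nat.prime_two.coprime_iff_not_dvd.mpr fun h => he' (even_iff_two_dvd.mpr h))) hij))
  have hdata : c ≤ 2 * d ∧ (m < c → 0 < (2 * d) % c → CritEven i c d m ε δ → False) := by
    rcases count_data_even hrq hQ hι hε hR₁ hb' (by omega) (by omega) hτ e he hdvd with ⟨j, hj1, hj2, hj⟩ | hq | hq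
    · have hcj := hcdvd hj
      have := Nat.le_of_dvd (by omega) hcj
      obtain ⟨s, hs⟩ := hcj
      have hk : (2 * d) % c ≤ 2 * (d - j) := by
        rw [show 2 * d = 2 * (d - j) + c * s by omega, Nat.add_mul_mod_self_left]; exact Nat.mod_le _ _
      refine ⟨by omega, fun hmc hkp hcr => ?_⟩
      rcases hcr with ⟨h0, -⟩ | ⟨h0, -, -⟩ | ⟨-, hle, -, -⟩
      · omega
      · omega
      · rw [Nat.mod_eq_of_lt hmc] at hle; omega
    · have hcd : c ∣ 2 * d := hcdvd (by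
        rcases hq with ⟨-, hq⟩ | ⟨-, hq⟩
        · rw [mul_comm, pow_mul, hq, one_pow]
        · rw [mul_comm, pow_mul, hq, neg_one_sq])
      exact ⟨Nat.le_of_dvd (by omega) hcd, fun _ h0 _ => by rw [Nat.mod_eq_zero_of_dvd hcd] at h0; omega⟩
    · obtain ⟨s, hs⟩ := hcdvd (j := b') (by
        rcases hq with ⟨-, hq⟩ | ⟨-, hq⟩
        · rw [mul_comm, pow_mul, hq, neg_one_sq]
        · rw [mul_comm, pow_mul, hq, one_pow])
      have : c ≤ c * s := Nat.le_mul_of_pos_right c (Nat.pos_of_ne_zero fun h0 => by rw [h0, mul_zero] at hs; omega)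
      refine ⟨by omega, fun hmc hkp hcr => ?_⟩
      have hk : (2 * d) % c = m := by
        rw [show 2 * d = m + c * s by omega, Nat.add_mul_mod_self_left, Nat.mod_eq_of_lt hmc]
      rcases hcr with ⟨h0, -⟩ | ⟨h0, -, -⟩ | ⟨-, -, -, hT⟩
      · omega
      · omega
      · have hT' := hT (by rw [Nat.mod_eq_of_lt hmc, hk])
        rw [show 2 * d - m = 2 * b' by omega] at hT'
        rcases hq with ⟨ht, hq⟩ | ⟨ht, hq⟩
        · have h2' : i ∣ b' * 2 := hi ▸ orderOf_dvd_of_pow_eq_one (by rw [pow_mul, hq, neg_one_sq])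
          have hnd : ¬ i ∣ b' := fun h' => ZMod.neg_one_ne_one (hq.symm.trans (by
            rw [← orderOf_dvd_iff_pow_eq_one, ← hi]; exact h'))
          have hev : Even i := by
            by_contra ho
            exact hnd (Nat.Coprime.dvd_of_dvd_mul_right
              (Nat.Coprime.symm (Nat.prime_two.coprime_iff_not_dvd.mpr fun h => ho (even_iff_two_dvd.mpr h))) h2')
          obtain ⟨v, hv⟩ := h2'
          rcases hT'.mp ht with ho | ⟨w, hw⟩
          · exact Nat.not_even_iff_odd.mpr ho hev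
          · rw [show 2 * b' = i * v by omega, Nat.mul_div_cancel_left _ hipos] at hw
            exact hnd ⟨w, by
              have : i * v = i * w + i * w := by rw [hw, mul_add]
              omega⟩
        · obtain ⟨v, hv⟩ : i ∣ b' := hi ▸ orderOf_dvd_of_pow_eq_one hq
          refine ht (hT'.mpr (Or.inr ⟨v, ?_⟩))
          rw [hv, show 2 * (i * v) = i * (v + v) by ring, Nat.mul_div_cancel_left _ hipos]
  refine ⟨?_, fun hk hcr => by_contra fun hlt => hdata.2 (by omega) hk hcr⟩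
  rw [scalar_allFix hr2 hQ (by omega),
    crit_even_m hrp hr2 hi hc hQ hι hd ⟨μ, hμ⟩ hm2 hε hR₀ hR₁ hδ hτ hb hb2 e he hdata.1]

end Crit

end CfsgLib.OrthND
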