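import Cfsg.Agent.SubElusive.OrthExtAvoid
import Cfsg.Agent.SubElusive.OrthNDEven

/-!
The index of the centraliser of a root: primes dividing it.
-/

set_option autoImplicit false
set_option linter.style.haveILetI false

open Matrix QuadraticMap CfsgLib.Forms CfsgLib.SemiClasses CfsgLib.OrthTS

namespace CfsgLib.OrthExt

variable {F : Type*} [Field F] [Fintype F] {ι : Type} [Fintype ι] [DecidableEq ι] {Q : QuadraticForm F (ι → F)}
  {η : F}

theorem prod_split {M : Type*} [CommMonoid M] (g : ℕ → M) (e : ℕ) :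
    ∏ j ∈ Finset.range (2 * e), g j = (∏ l ∈ Finset.range e, g (2 * l)) * ∏ l ∈ Finset.range e, g (2 * l + 1) := by
  induction e with
  | zero => simp
  | succ e ih =>
    rw [Nat.mul_succ, Finset.prod_range_succ, Finset.prod_range_succ, ih, Finset.prod_range_succ, Finset.prod_range_succ,
      mul_assoc, mul_assoc]
    ac_rfl

/-- An invariant totally singular half space for a root in plus type. -/
theorem exists_inv_half (h2 : (2 : F) ≠ 0) (hQ : (polarBilin Q).Nondegenerate) (hη : ¬ IsSquare η) {d e : ℕ}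
    (hd : 2 ≤ d) (hde : d = 2 * e) (hι : Fintype.card ι = 2 * d) (hh : HasHalf Q) {T : Module.End F (ι → F)}
    (hT : IsRoot Q η T) :
    ∃ S : Submodule F (ι → F), Module.finrank F S = d ∧ (∀ v ∈ S, Q v = 0) ∧ ∀ v ∈ S, T v ∈ S := by
  classical
  obtain ⟨g, hg⟩ := exists_iso_plus hQ hι hh
  obtain ⟨a, ha⟩ : ∃ a : Fin d → F, a = fun i : Fin d => if (i : ℕ) < e then η else 1 := ⟨_, rfl⟩
  have haa : ∀ i, a i * a i.rev = η := fun i => by
    rw [ha]
    dsimp only
    rw [Fin.val_rev]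
    have := i.2
    split_ifs <;> (first | omega | ring)
  obtain ⟨T₀, hT₀⟩ : ∃ T₀ : Module.End F (Fin d ⊕ Fin d → F), ∀ v, T₀ v =
      Sum.elim (fun i => a i * v (Sum.inl i.rev)) (fun i => a i.rev * v (Sum.inr i.rev)) :=
    ⟨{ toFun := fun v => Sum.elim (fun i => a i * v (Sum.inl i.rev)) (fun i => a i.rev * v (Sum.inr i.rev))
       map_add' := fun u v => funext fun s => by rcases s with i | i <;> simp [mul_add]
       map_smul' := fun c v => funext fun s => by rcases s with i | i <;> simp [mul_left_comm] }, fun v => rfl⟩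
  have h₀ : IsRoot (quadPlus F d) η T₀ := by
    refine ⟨fun u v => ?_, fun v => ?_⟩
    · rw [coe_quadPlus, polar_plus, polar_plus, Finset.sum_add_distrib, Finset.sum_add_distrib]
      congr 1
      · refine Fintype.sum_equiv Fin.revPerm _ _ fun i => ?_
        simp only [hT₀, Fin.revPerm_apply, Sum.elim_inl, Sum.elim_inr, Fin.rev_rev]; ring
      · refine Fintype.sum_equiv Fin.revPerm _ _ fun i => ?_
        simp only [hT₀, Fin.revPerm_apply, Sum.elim_inl, Sum.elim_inr, Fin.rev_rev]; ring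
    · rw [hT₀ (T₀ v)]
      funext s
      rcases s with i | i <;> simp only [hT₀, Sum.elim_inl, Sum.elim_inr, Fin.rev_rev, Pi.smul_apply, smul_eq_mul]
      · rw [← mul_assoc, haa]
      · rw [← mul_assoc, mul_comm (a i.rev), haa]
  have hgp : ∀ u v, polar (quadPlus F d) (g u) (g v) = polar Q u v := fun u v => by
    simp only [polar, ← map_add, hg]
  obtain ⟨T₁, hT₁⟩ : ∃ T₁ : Module.End F (ι → F), ∀ v, T₁ v = g.symm (T₀ (g v)) :=
    ⟨g.symm.toLinearMap ∘ₗ T₀ ∘ₗ g.toLinearMap, fun v => rfl⟩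
  have h₁ : IsRoot Q η T₁ := ⟨fun u v => by
      rw [← hgp, ← hgp u, hT₁, hT₁, g.apply_symm_apply, g.apply_symm_apply, h₀.1],
    fun v => by rw [hT₁, hT₁, g.apply_symm_apply, h₀.2, map_smul, g.symm_apply_apply]⟩
  obtain ⟨h, hh', hhT⟩ := root_conj h2 hQ hη hd hι hT h₁
  obtain ⟨S₀, hS₀⟩ : ∃ S₀ : Submodule F (Fin d ⊕ Fin d → F),
      S₀ = LinearMap.ker (LinearMap.funLeft F F (Sum.inl : Fin d → Fin d ⊕ Fin d)) := ⟨_, rfl⟩
  have hmem : ∀ v, v ∈ S₀ ↔ ∀ i, v (Sum.inl i) = 0 := fun v => by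
    rw [hS₀, LinearMap.mem_ker, funext_iff]; rfl
  have hS₀d : Module.finrank F S₀ = d := by
    have h := LinearMap.finrank_range_add_finrank_ker
      (LinearMap.funLeft F F (Sum.inl : Fin d → Fin d ⊕ Fin d))
    rw [LinearMap.range_eq_top.mpr (fun w : Fin d → F => ⟨Sum.elim w (0 : Fin d → F), funext fun i => rfl⟩),
      finrank_top, ← hS₀] at h
    simp at h ⊢
    omega
  refine ⟨S₀.map ((h.trans g).symm : (Fin d ⊕ Fin d → F) →ₗ[F] (ι → F)), ?_, fun v hv => ?_, fun v hv => ?_⟩
  · rw [LinearEquiv.finrank_map_eq, hS₀d]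
  · rw [Submodule.mem_map_equiv, LinearEquiv.symm_symm, LinearEquiv.trans_apply, hmem] at hv
    rw [← hh' v, ← hg, coe_quadPlus]
    exact Finset.sum_eq_zero fun i _ => by rw [hv, zero_mul]
  · rw [Submodule.mem_map_equiv, LinearEquiv.symm_symm, LinearEquiv.trans_apply, hmem] at hv ⊢
    intro i
    rw [hhT, hT₁, g.apply_symm_apply, hT₀, Sum.elim_inl, hv, mul_zero]

/-- Coordinates over the quadratic extension. -/
theorem exists_coord (h2 : (2 : F) ≠ 0) (hQ : (polarBilin Q).Nondegenerate) (hη : ¬ IsSquare η) {d : ℕ}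
    (hd : 2 ≤ d) (hι : Fintype.card ι = 2 * d) {T : Module.End F (ι → F)} (hT : IsRoot Q η T) :
    ∃ (E : (Fin d → QuadraticAlgebra F η 0) ≃ₗ[F] (ι → F)) (c : Fin d → QuadraticAlgebra F η 0), (∀ i, c i ≠ 0) ∧
      (∀ k, T (E k) = E fun i => QuadraticAlgebra.omega * k i) ∧ ∀ k, Q (E k) = (∑ i, c i * (k i * k i)).im := by
  classical
  obtain ⟨D, rfl⟩ : ∃ D, d = D + 1 := ⟨d - 1, by omega⟩
  have hη0 : η ≠ 0 := fun h => hη (h ▸ IsSquare.zero)
  obtain ⟨v, hv1, hvo, hvT⟩ := exists_family hT h2 hQ hη hι D le_rfl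
  obtain ⟨z, hz⟩ : ∃ z, z = Sum.elim v fun i => T (v i) := ⟨_, rfl⟩
  have hzo : ∀ a b, a ≠ b → polar Q (z a) (z b) = 0 := by
    rintro (a | a) (b | b) hab <;> simp only [hz, Sum.elim_inl, Sum.elim_inr]
    · exact hvo a b fun h => hab (h ▸ rfl)
    · exact hvT a b
    · rw [polar_comm]; exact hvT b a
    · rw [polar_root hT, hvo a b fun h => hab (h ▸ rfl), mul_zero]
  have hz0 : ∀ a, Q (z a) ≠ 0 := by rintro (a | a) <;> simp [hz, hv1, map_root hT h2, hη0]
  obtain ⟨U, hU⟩ : ∃ U, U = Submodule.span F (Set.range z) := ⟨_, rfl⟩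
  have hli := orth_li h2 z hzo hz0
  have hdisj : Disjoint (perp Q U) (perp Q (perp Q U)) := by
    rw [perp_perp hQ, hU]
    refine (Submodule.disjoint_def.2 fun x hx hx' => ?_).symm
    obtain ⟨c, rfl⟩ := (Submodule.mem_span_range_iff_exists_fun F).1 hx
    refine Finset.sum_eq_zero fun i _ => ?_
    have := mem_perp.1 hx' (z i) (Submodule.subset_span ⟨i, rfl⟩)
    rw [polar_sum_left, Finset.sum_eq_single i (fun j _ hj => by
      rw [polar_smul_left, hzo j i hj, smul_zero]) (by simp), polar_smul_left, polar_self, smul_eq_mul,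
      nsmul_eq_mul, Nat.cast_two] at this
    rw [(mul_eq_zero.mp this).resolve_right (mul_ne_zero h2 (hz0 i)), zero_smul]
  have hfin : Module.finrank F (perp Q U) = 2 := by
    rw [hU, finrank_perp hQ, finrank_span_eq_card hli, Module.finrank_fintype_fun_eq_card, hι, Fintype.card_sum,
      Fintype.card_fin]
    omega
  obtain ⟨w, hwP, -, hw0⟩ := OrthOddSub.exists_orth_family h2 (perp Q U) hdisj 1 (by omega)
  have hwv : ∀ a, polar Q (w 0) (z a) = 0 := fun a => mem_perp.mp (hwP 0) _ (hU ▸ Submodule.subset_span ⟨a, rfl⟩)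
  obtain ⟨e, he⟩ : ∃ e : Fin (D + 1) → (ι → F), e = Fin.snoc v (w 0) := ⟨_, rfl⟩
  have heo : ∀ i j, i ≠ j → polar Q (e i) (e j) = 0 ∧ polar Q (e i) (T (e j)) = 0 := by
    intro i j hij
    induction i using Fin.lastCases with
    | last =>
      induction j using Fin.lastCases with
      | last => exact absurd rfl hij
      | cast j =>
        simp only [he, Fin.snoc_last, Fin.snoc_castSucc]
        exact ⟨by simpa [hz] using hwv (Sum.inl j), by simpa [hz] using hwv (Sum.inr j)⟩
    | cast i =>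
      induction j using Fin.lastCases with
      | last =>
        simp only [he, Fin.snoc_last, Fin.snoc_castSucc]
        refine ⟨by rw [polar_comm]; simpa [hz] using hwv (Sum.inl i), ?_⟩
        rw [← hT.1, polar_comm]; simpa [hz] using hwv (Sum.inr i)
      | cast j =>
        simp only [he, Fin.snoc_castSucc]
        exact ⟨hvo i j fun h => hij (h ▸ rfl), hvT i j⟩
  have he0 : ∀ i, Q (e i) ≠ 0 := fun i => by
    induction i using Fin.lastCases with
    | last => rw [he, Fin.snoc_last]; exact hw0 0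
    | cast i => rw [he, Fin.snoc_castSucc, hv1]; exact one_ne_zero
  obtain ⟨E₀, hE₀⟩ : ∃ E₀ : (Fin (D + 1) → QuadraticAlgebra F η 0) →ₗ[F] (ι → F),
      ∀ k, E₀ k = ∑ i, ((k i).re • e i + (k i).im • T (e i)) :=
    ⟨{ toFun := fun k => ∑ i, ((k i).re • e i + (k i).im • T (e i))
       map_add' := fun u v => by
         rw [← Finset.sum_add_distrib]
         refine Finset.sum_congr rfl fun i _ => ?_
         simp only [Pi.add_apply, QuadraticAlgebra.re_add, QuadraticAlgebra.im_add]
         module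
       map_smul' := fun c v => by
         rw [RingHom.id_apply, Finset.smul_sum]
         refine Finset.sum_congr rfl fun i _ => ?_
         simp only [Pi.smul_apply, QuadraticAlgebra.re_smul, QuadraticAlgebra.im_smul, smul_eq_mul]
         module }, fun k => rfl⟩
  have hTT : ∀ i j, polar Q (T (e i)) (T (e j)) = η * polar Q (e i) (e j) := fun i j => polar_root hT _ _
  have hinj : Function.Injective E₀ := (injective_iff_map_eq_zero _).mpr fun k hk => funext fun j => by
    rw [hE₀] at hk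
    have h1 := congrArg (fun y => polar Q y (e j)) hk
    have h3 := congrArg (fun y => polar Q y (T (e j))) hk
    simp only [polar_zero_left, polar_sum_left, polar_add_left, polar_smul_left] at h1 h3
    rw [Finset.sum_eq_single j (fun i _ hi => by rw [hT.1, (heo i j hi).1, (heo i j hi).2]; simp) (by simp)] at h1
    rw [Finset.sum_eq_single j (fun i _ hi => by rw [hTT, (heo i j hi).1, (heo i j hi).2]; simp) (by simp)] at h3
    rw [hTT, polar_self] at h3
    rw [hT.1, polar_self] at h1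
    simp only [smul_eq_mul, nsmul_eq_mul, Nat.cast_two] at h1 h3
    obtain ⟨P, hP⟩ : ∃ P, P = polar Q (e j) (T (e j)) := ⟨_, rfl⟩
    rw [← hP] at h1 h3
    have hdet : P * P - 4 * η * (Q (e j) * Q (e j)) ≠ 0 := fun h => hη ⟨P / (2 * Q (e j)), by
      field_simp [he0 j]; linear_combination -h⟩
    have hy : (k j).im = 0 := (mul_eq_zero.mp (show (P * P - 4 * η * (Q (e j) * Q (e j))) * (k j).im = 0 by
      linear_combination P * h1 - 2 * Q (e j) * h3)).resolve_left hdet
    rw [hy, zero_mul, add_zero] at h1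
    exact QuadraticAlgebra.ext ((mul_eq_zero.mp h1).resolve_right (mul_ne_zero h2 (he0 j))) hy
  obtain ⟨E, hE⟩ : ∃ E : (Fin (D + 1) → QuadraticAlgebra F η 0) ≃ₗ[F] (ι → F), ∀ k, E k = E₀ k :=
    ⟨LinearMap.linearEquivOfInjective E₀ hinj (by rw [Module.finrank_pi_fintype, Module.finrank_fintype_fun_eq_card, hι]; simp [QuadraticAlgebra.finrank_eq_two]; omega), fun k => rfl⟩
  refine ⟨E, fun i => ⟨polar Q (e i) (T (e i)) / 2, Q (e i)⟩, fun i h => he0 i (congrArg QuadraticAlgebra.im h),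
    fun k => ?_, fun k => ?_⟩
  · rw [hE, hE, hE₀, hE₀, map_sum]
    refine Finset.sum_congr rfl fun i _ => ?_
    rw [map_add, map_smul, map_smul, hT.2]
    simp [smul_smul]
    module
  · obtain ⟨imL, him⟩ : ∃ imL : QuadraticAlgebra F η 0 →+ F, ∀ x, imL x = x.im :=
      ⟨{ toFun := fun x => x.im, map_zero' := rfl, map_add' := fun _ _ => rfl }, fun x => rfl⟩
    have h := orth_sum_apply (Q := Q) Finset.univ (fun _ => (1 : F)) (fun i => (k i).re • e i + (k i).im • T (e i))
      (fun i j hij => by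
        have h4 : polar Q (T (e i)) (e j) = 0 := (hT.1 _ _).trans (heo i j hij).2
        simp [polar_add_left, polar_add_right, polar_smul_left, polar_smul_right, hTT, h4, (heo i j hij).1,
          (heo i j hij).2])
    simp only [one_smul, one_mul] at h
    rw [hE, hE₀, h, ← him, map_sum]
    refine Finset.sum_congr rfl fun i _ => ?_
    rw [him, QuadraticMap.map_add (⇑Q), QuadraticMap.map_smul, QuadraticMap.map_smul, map_root hT h2, polar_smul_left,
      polar_smul_right]
    simp only [QuadraticAlgebra.im_mul, QuadraticAlgebra.re_mul, smul_eq_mul]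
    field_simp
    ring

/-- The number theory. -/
theorem not_four {r q : ℕ} [Fact r.Prime] (hq : 1 ≤ q) (l : ℕ) (h : r ∣ q ^ (2 * (2 * l + 1)) - 1) :
    ¬ 4 ∣ orderOf ((q : ℕ) : ZMod r) := fun h4 => by
  have h1 : ((q : ℕ) : ZMod r) ^ (2 * (2 * l + 1)) = 1 := by
    rw [← ZMod.natCast_eq_zero_iff, Nat.cast_sub (Nat.one_le_pow _ _ hq), Nat.cast_pow, Nat.cast_one, sub_eq_zero] at h
    exact h
  have := h4.trans (orderOf_dvd_of_pow_eq_one h1)
  omega

/-- A prime dividing the index of the centraliser of a root. -/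
theorem not_four_dvd (h2 : (2 : F) ≠ 0) (hQ : (polarBilin Q).Nondegenerate) (hη : ¬ IsSquare η) {d : ℕ}
    (hd : 2 ≤ d) (hι : Fintype.card ι = 2 * d) {T : Module.End F (ι → F)} (hT : IsRoot Q η T) {r : ℕ}
    [hr : Fact r.Prime] (hrq : ¬ r ∣ Fintype.card F) {N : Subgroup (GL ι F)}
    (hN : ∀ y : Cfsg.isometryGroup F ⇑Q,
      (∀ v, ((y : GL ι F) : Matrix ι ι F) *ᵥ T v = T (((y : GL ι F) : Matrix ι ι F) *ᵥ v)) → (y : GL ι F) ∈ N)
    (hdvd : r ∣ N.relIndex (Cfsg.Geo.omegaGL ⇑Q)) : ¬ 4 ∣ orderOf ((Fintype.card F : ℕ) : ZMod r) := by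
  classical
  haveI hfact : Fact (∀ t : F, t ^ 2 ≠ η + 0 * t) := ⟨fun t h => hη ⟨t, by linear_combination -h⟩⟩
  haveI : Finite (QuadraticAlgebra F η 0) := Finite.of_equiv _ (QuadraticAlgebra.equivProd η 0).symm
  letI : Fintype (QuadraticAlgebra F η 0) := Fintype.ofFinite _
  have hL2 : (2 : QuadraticAlgebra F η 0) ≠ 0 := fun h => h2 (by
    have := congrArg QuadraticAlgebra.re h
    rw [QuadraticAlgebra.re_ofNat] at this
    simpa using this)
  have hcL : Fintype.card (QuadraticAlgebra F η 0) = Fintype.card F ^ 2 := by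
    rw [Fintype.card_congr (QuadraticAlgebra.equivProd η 0), Fintype.card_prod, pow_two]
  obtain ⟨E, c, hc, hET, hEQ⟩ := exists_coord h2 hQ hη hd hι hT
  obtain ⟨f, hfdef⟩ : ∃ f : QuadraticForm (QuadraticAlgebra F η 0) (Fin d → QuadraticAlgebra F η 0),
      f = QuadraticMap.weightedSumSquares (QuadraticAlgebra F η 0) c := ⟨_, rfl⟩
  have hfv : ∀ k, f k = ∑ i, c i * (k i * k i) := fun k => by rw [hfdef, weightedSumSquares_apply]; rfl
  have hEf : ∀ k, Q (E k) = (f k).im := fun k => by rw [hEQ, hfv]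
  have hfnd : (polarBilin f).Nondegenerate := nondegenerate_iff.mpr fun x hx => funext fun j => by
    have h := hx (Pi.single j 1)
    simp only [polar, hfv, ← Finset.sum_sub_distrib] at h
    rw [Finset.sum_eq_single j (fun i _ hi => by simp [Pi.single_eq_of_ne hi]) (by simp)] at h
    simp only [Pi.add_apply, Pi.single_eq_same] at h
    exact (mul_eq_zero.mp (show (2 * c j) * x j = 0 by linear_combination h)).resolve_left (mul_ne_zero hL2 (hc j))
  have hsmul : ∀ (k : Fin d → QuadraticAlgebra F η 0) (z : QuadraticAlgebra F η 0),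
      z • k = z.re • k + z.im • fun i => QuadraticAlgebra.omega * k i := fun k z => funext fun i => by
    ext <;> simp <;> ring
  -- the embedding
  obtain ⟨φ, hφ⟩ : ∃ φ : isom f →* isom Q, ∀ g k, ((φ g : isom Q) : (ι → F) ≃ₗ[F] (ι → F)) (E k) =
      E ((g : (Fin d → QuadraticAlgebra F η 0) ≃ₗ[QuadraticAlgebra F η 0] _) k) := by
    refine ⟨{ toFun := fun g => ⟨E.symm.trans ((LinearEquiv.restrictScalars F
                (g : (Fin d → QuadraticAlgebra F η 0) ≃ₗ[QuadraticAlgebra F η 0] _)).trans E), fun v => ?_⟩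
              map_one' := ?_, map_mul' := fun a b => ?_ }, fun g k => ?_⟩
    · obtain ⟨k, rfl⟩ := E.surjective v
      simp only [LinearEquiv.trans_apply, LinearEquiv.symm_apply_apply, LinearEquiv.restrictScalars_apply]
      rw [hEf, hEf, g.2 k]
    · refine Subtype.ext (LinearEquiv.ext fun v => ?_)
      simp
    · refine Subtype.ext (LinearEquiv.ext fun v => ?_)
      simp
    · show E ((g : (Fin d → QuadraticAlgebra F η 0) ≃ₗ[QuadraticAlgebra F η 0] _) (E.symm (E k))) = _
      rw [E.symm_apply_apply]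
  have hφi : Function.Injective φ := fun a b h => Subtype.ext (LinearEquiv.ext fun k => E.injective (by
    rw [← hφ, ← hφ, h]))
  obtain ⟨D, hD⟩ : ∃ D, D = φ.range.map (isoEquiv Q).symm.toMonoidHom := ⟨_, rfl⟩
  have hDc : Nat.card D = Nat.card (isom f) := by
    rw [hD, Subgroup.card_map_of_injective (isoEquiv Q).symm.injective]
    exact Nat.card_congr (MonoidHom.ofInjective hφi).toEquiv.symm
  have hDN : ∀ y ∈ D, (y : GL ι F) ∈ N := fun y hy => hN y fun v => by
    rw [hD] at hy
    obtain ⟨_, ⟨g, rfl⟩, rfl⟩ := hy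
    obtain ⟨k, rfl⟩ := E.surjective v
    have key : ∀ k, ((((isoEquiv Q).symm (φ g) : Cfsg.isometryGroup F ⇑Q) : GL ι F) : Matrix ι ι F) *ᵥ E k =
        E ((g : (Fin d → QuadraticAlgebra F η 0) ≃ₗ[QuadraticAlgebra F η 0] _) k) := fun k => by
      rw [← glEquiv_apply, ← coe_isoEquiv, MulEquiv.apply_symm_apply, hφ]
    simp only [MulEquiv.coe_toMonoidHom]
    rw [hET, key, key, hET]
    exact congrArg E ((g : (Fin d → QuadraticAlgebra F η 0) ≃ₗ[QuadraticAlgebra F η 0]
      (Fin d → QuadraticAlgebra F η 0)).map_smul QuadraticAlgebra.omega k)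
  -- the divisibility
  have hmain : r * Nat.card (isom f) ∣ Nat.card (isom Q) := by
    rw [← hDc, ← Nat.card_congr (isoEquiv Q).toEquiv]
    obtain ⟨O, hO⟩ : ∃ O, O = Cfsg.Omega F ⇑Q := ⟨_, rfl⟩
    haveI : O.Normal := hO ▸ inferInstance
    have h4 : O.index = 4 := hO ▸ index_Omega Q h2 hQ (by omega)
    have e1 : Nat.card ↥(O ⊓ D) * O.relIndex D = Nat.card D := by
      rw [← Subgroup.inf_relIndex_right O D, ← Subgroup.relIndex_bot_left, ← Subgroup.relIndex_bot_left,
        Subgroup.relIndex_mul_relIndex _ _ _ bot_le inf_le_right]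
    have e2 : Nat.card ↥(N ⊓ Cfsg.Geo.omegaGL ⇑Q) * N.relIndex (Cfsg.Geo.omegaGL ⇑Q) =
        Nat.card (Cfsg.Geo.omegaGL ⇑Q) := by
      rw [← Subgroup.inf_relIndex_right N, ← Subgroup.relIndex_bot_left, ← Subgroup.relIndex_bot_left,
        Subgroup.relIndex_mul_relIndex _ _ _ bot_le inf_le_right]
    have e3 : Nat.card ↥(O ⊓ D) ∣ Nat.card ↥(N ⊓ Cfsg.Geo.omegaGL ⇑Q) := by
      rw [← Subgroup.card_map_of_injective (Cfsg.isometryGroup F ⇑Q).subtype_injective (K := O ⊓ D)]
      refine Subgroup.card_dvd_of_le ?_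
      rintro _ ⟨y, ⟨hyO, hyD⟩, rfl⟩
      exact ⟨hDN y hyD, mem_omegaGL.mpr ⟨y, hO ▸ hyO, rfl⟩⟩
    have e4 : Nat.card (Cfsg.Geo.omegaGL ⇑Q) = Nat.card O := by
      rw [hO]
      exact Subgroup.card_map_of_injective (Cfsg.isometryGroup F ⇑Q).subtype_injective
    rw [← e1, ← O.card_mul_index, h4, ← e4, ← e2, show ∀ a b : ℕ, r * (a * b) = a * r * b from fun a b => by ring]
    exact Nat.mul_dvd_mul (Nat.mul_dvd_mul e3 hdvd) (h4 ▸ Subgroup.relIndex_dvd_index_of_normal _ _)
  have hrz : ∀ a, ¬ r ∣ Fintype.card F ^ a := fun a h => hrq (hr.out.dvd_of_dvd_pow h)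
  obtain ⟨q, hq⟩ : ∃ q, q = Fintype.card F := ⟨_, rfl⟩
  have hq1 : 2 ≤ q := hq ▸ Fintype.one_lt_card
  have hpos : ∀ a, 1 ≤ a → 0 < q ^ a - 1 := fun a ha => by
    have := Nat.le_self_pow (show a ≠ 0 by omega) q
    omega
  obtain ⟨A, hA, hcQ⟩ := OrthND.card_isom_type hQ hι (by omega) (Iff.rfl (a := HasHalf Q))
  rw [← hq] at hA hcQ hrz ⊢
  rcases Nat.even_or_odd' d with ⟨e, hde | hde⟩
  · -- even
    have htype : HasHalf f ↔ HasHalf Q := by
      constructor
      · rintro ⟨S', hS', hd'⟩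
        refine ⟨(S'.restrictScalars F).map (E : _ →ₗ[F] (ι → F)), ?_, ?_⟩
        · rintro _ ⟨k, hk, rfl⟩
          rw [LinearEquiv.coe_coe, hEf, hS' k hk, QuadraticAlgebra.im_zero]
        · have h := Module.finrank_mul_finrank F (QuadraticAlgebra F η 0) ↥S'
          rw [QuadraticAlgebra.finrank_eq_two] at h
          rw [LinearEquiv.finrank_map_eq, show Module.finrank F ↥(S'.restrictScalars F) = Module.finrank F ↥S' from rfl,
            ← h, hι]
          rw [Fintype.card_fin] at hd'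
          omega
      · intro hh
        obtain ⟨S, hSd, hS0, hST⟩ := exists_inv_half h2 hQ hη hd hde hι hh hT
        obtain ⟨S', hS'⟩ : ∃ S' : Submodule (QuadraticAlgebra F η 0) (Fin d → QuadraticAlgebra F η 0),
            ∀ k, k ∈ S' ↔ E k ∈ S := by
          refine ⟨{ carrier := {k | E k ∈ S}, add_mem' := fun ha hb => ?_, zero_mem' := ?_,
                    smul_mem' := fun z k hk => ?_ }, fun k => Iff.rfl⟩
          · simp only [Set.mem_ofPred_eq, map_add] at *; exact S.add_mem ha hb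
          · simp
          · simp only [Set.mem_ofPred_eq] at *
            rw [hsmul, map_add, map_smul, map_smul, ← hET]
            exact S.add_mem (S.smul_mem _ hk) (S.smul_mem _ (hST _ hk))
        refine ⟨S', fun k hk => ?_, ?_⟩
        · have h1 : ∀ k ∈ S', (f k).im = 0 := fun k hk => (hEf k).symm.trans (hS0 _ ((hS' k).mp hk))
          have h3 := h1 _ (S'.smul_mem ⟨1, 1⟩ hk)
          rw [QuadraticMap.map_smul, smul_eq_mul] at h3
          simp only [QuadraticAlgebra.im_mul, QuadraticAlgebra.re_mul] at h3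
          exact QuadraticAlgebra.ext ((mul_eq_zero.mp (show (2 : F) * (f k).re = 0 by
            linear_combination h3 - (1 + η) * h1 k hk)).resolve_left h2) (h1 k hk)
        · have h := Module.finrank_mul_finrank F (QuadraticAlgebra F η 0) ↥S'
          have h' : Module.finrank F ↥S' = d := by
            refine Eq.trans ?_ hSd
            rw [show Module.finrank F ↥S' = Module.finrank F ↥(S'.restrictScalars F) from rfl,
              ← LinearEquiv.finrank_map_eq E (S'.restrictScalars F)]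
            refine congrArg (fun U : Submodule F (ι → F) => Module.finrank F U) (Submodule.ext fun v => ?_)
            rw [Submodule.mem_map_equiv, Submodule.restrictScalars_mem, hS', E.apply_symm_apply]
          rw [QuadraticAlgebra.finrank_eq_two, h'] at h
          rw [Fintype.card_fin]
          omega
    obtain ⟨A', hA', hcf⟩ := OrthND.card_isom_type hfnd (d := e) (by rw [Fintype.card_fin, hde]) (by omega) htype
    rw [hcL, ← hq, ← pow_mul] at hA'
    rw [hcL, ← hq, ← pow_mul] at hcf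
    have hAA : A' = A := by
      rw [hde] at hA
      rcases hA with ⟨h1, h1'⟩ | ⟨h1, h1'⟩ <;> rcases hA' with ⟨h3, h3'⟩ | ⟨h3, h3'⟩
      · omega
      · exact absurd h1 h3
      · exact absurd h3 h1
      · omega
    rw [hcf, hcQ, hAA] at hmain
    obtain ⟨e', rfl⟩ : ∃ e', e = e' + 1 := ⟨e - 1, by omega⟩
    have hsplit : ∏ i ∈ Finset.range (d - 1), (q ^ (2 * (i + 1)) - 1) =
        (∏ l ∈ Finset.range (e' + 1), (q ^ (2 * (2 * l + 1)) - 1)) *
          ∏ l ∈ Finset.range e', ((q ^ 2) ^ (2 * (l + 1)) - 1) := by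
      rw [show d - 1 = 2 * e' + 1 by omega, Finset.prod_range_succ, prod_split, Finset.prod_range_succ]
      simp only [← pow_mul]
      ring_nf
    obtain ⟨N', hN'⟩ : ∃ N', d * (d - 1) = 2 * ((e' + 1) * e') + N' := ⟨d * (d - 1) - 2 * ((e' + 1) * e'), by
      have h1 : 2 * ((e' + 1) * e') ≤ d * (d - 1) := by
        rw [← mul_assoc]; exact Nat.mul_le_mul (by omega) (by omega)
      omega⟩
    rw [hsplit, hN', pow_add, Nat.add_sub_cancel] at hmain
    have key : r ∣ q ^ N' * ∏ l ∈ Finset.range (e' + 1), (q ^ (2 * (2 * l + 1)) - 1) := by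
      refine Nat.dvd_of_mul_dvd_mul_right (k := 2 * q ^ (2 * ((e' + 1) * e')) * A *
        ∏ l ∈ Finset.range e', ((q ^ 2) ^ (2 * (l + 1)) - 1)) ?_ ?_
      · refine Nat.mul_pos (Nat.mul_pos (Nat.mul_pos two_pos (pow_pos (by omega) _)) ?_) (Finset.prod_pos fun l _ => ?_)
        · rcases hA with ⟨-, h⟩ | ⟨-, h⟩
          · have := hpos d (by omega); omega
          · omega
        · rw [← pow_mul]; exact hpos _ (by omega)
      · refine dvd_trans hmain (dvd_of_eq ?_)
        ring
    obtain ⟨l, -, hl⟩ := (hr.out.prime.dvd_finsetProd_iff _).mp ((hr.out.dvd_mul.mp key).resolve_left (hrz _))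
    exact not_four (by omega) l hl
  · -- odd
    obtain ⟨c₀, hc₀, g₀, hg₀⟩ := exists_iso_scaled hfnd (m := e) (by rw [Fintype.card_fin, hde])
    have hcf : Nat.card (isom f) = 2 * q ^ (2 * e ^ 2) * ∏ l ∈ Finset.range e, ((q ^ 2) ^ (2 * (l + 1)) - 1) := by
      rw [pow_mul, hq, ← hcL, ← OrthOrder.card_isom_odd hL2 e, ← Nat.card_congr (isoEquiv f).toEquiv,
        ← Nat.card_congr (isoEquiv (quadOdd (QuadraticAlgebra F η 0) e)).toEquiv, SubElusive.card_iso_congr g₀ hg₀,
        SubElusive.card_iso_smul hc₀]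
    have hsplit : ∏ i ∈ Finset.range (d - 1), (q ^ (2 * (i + 1)) - 1) =
        (∏ l ∈ Finset.range e, (q ^ (2 * (2 * l + 1)) - 1)) *
          ∏ l ∈ Finset.range e, ((q ^ 2) ^ (2 * (l + 1)) - 1) := by
      rw [show d - 1 = 2 * e by omega, prod_split]
      simp only [← pow_mul]
      ring_nf
    obtain ⟨N', hN'⟩ : ∃ N', d * (d - 1) = 2 * e ^ 2 + N' := ⟨d * (d - 1) - 2 * e ^ 2, by
      have h1 : 2 * e ^ 2 ≤ d * (d - 1) := by
        rw [pow_two, ← mul_assoc]; exact Nat.mul_le_mul (by omega) (by omega)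
      omega⟩
    rw [hcf, hcQ, hsplit, hN', pow_add] at hmain
    have key : r ∣ q ^ N' * A * ∏ l ∈ Finset.range e, (q ^ (2 * (2 * l + 1)) - 1) := by
      refine Nat.dvd_of_mul_dvd_mul_right (k := 2 * q ^ (2 * e ^ 2) *
        ∏ l ∈ Finset.range e, ((q ^ 2) ^ (2 * (l + 1)) - 1)) ?_ ?_
      · refine Nat.mul_pos (Nat.mul_pos two_pos (pow_pos (by omega) _)) (Finset.prod_pos fun l _ => ?_)
        rw [← pow_mul]; exact hpos _ (by omega)
      · refine dvd_trans hmain (dvd_of_eq ?_)
        ring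
    rcases hr.out.dvd_mul.mp key with h | h
    · have h' := (hr.out.dvd_mul.mp h).resolve_left (hrz _)
      refine not_four (l := e) (by omega) ?_
      rw [← ZMod.natCast_eq_zero_iff, Nat.cast_sub (Nat.one_le_pow _ _ (by omega)), Nat.cast_pow, Nat.cast_one,
        sub_eq_zero, ← hde, mul_comm 2 d, pow_mul]
      rw [← ZMod.natCast_eq_zero_iff] at h'
      rcases hA with ⟨-, h1⟩ | ⟨-, h1⟩
      · have h3 := congrArg (fun n : ℕ => (n : ZMod r)) h1
        push_cast at h3
        rw [← h3, h', zero_add, one_pow]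
      · rw [h1] at h'
        push_cast at h'
        rw [eq_neg_of_add_eq_zero_left h', neg_one_sq]
    · obtain ⟨l, -, hl⟩ := (hr.out.prime.dvd_finsetProd_iff _).mp h
      exact not_four (by omega) l hl

end CfsgLib.OrthExt
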