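import Cfsg.Agent.SubElusive.OrthTSEven

/-!
The criteria for totally singular subspaces in even dimension, odd primes other than the characteristic.
-/

set_option autoImplicit false
set_option linter.style.haveILetI false

open Matrix QuadraticMap CfsgLib.Forms CfsgLib.SemiClasses

namespace CfsgLib.OrthTS

section Wit

variable {r : ℕ} [hr : Fact r.Prime]

theorem sum_ite_zero (a b : ℕ) : ∑ x : ZMod r, (if x = 0 then a else b) = a + (r - 1) * b := by
  rw [sum_zmod, if_pos rfl]
  simp [Nat.totient_prime hr.out]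

/-- An invariant function with prescribed value at zero. -/
theorem exists_fun_zero {h : (ZMod r)ˣ} {c : ℕ} (hh : orderOf h = c) (a B : ℕ) :
    ∃ f : ZMod r → ℕ, (∀ x, f (x * (h : ZMod r)) = f x) ∧ f 0 = a ∧ ∑ x, f x = a + c * B ∧
      (c * B ≤ r - 1 → ∀ x, x ≠ 0 → f x ≤ 1) := by
  classical
  have hcr : c ≤ r - 1 := by rw [← hh, ← ZMod.card_units r]; exact orderOf_le_card_univ
  have hcpos : 0 < c := hh ▸ orderOf_pos h
  by_cases hB : c * B ≤ r - 1
  · obtain ⟨K, hK, hsub⟩ := SubElusive.orbit_data h (fun x : ZMod r => if x = 0 then a else 1)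
      (fun x => by simp only [mul_eq_zero, h.ne_zero, or_false])
    rw [hh] at hK hsub
    simp only [if_pos] at hK
    rw [sum_ite_zero, mul_one] at hK
    obtain ⟨f, hf, hf0, hfle, hfs⟩ := hsub a (by rw [if_pos rfl]) B
      (Nat.le_of_mul_le_mul_left (by omega) hcpos)
    exact ⟨f, hf, hf0, hfs, fun _ x hx => (hfle x).trans_eq (if_neg hx)⟩
  · obtain ⟨K, hK, hsub⟩ := SubElusive.orbit_data h (fun x : ZMod r => if x = 0 then a else B)
      (fun x => by simp only [mul_eq_zero, h.ne_zero, or_false])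
    rw [hh] at hK hsub
    simp only [if_pos] at hK
    rw [sum_ite_zero] at hK
    obtain ⟨f, hf, hf0, -, hfs⟩ := hsub a (by rw [if_pos rfl]) B (Nat.le_of_mul_le_mul_left (by
      have := Nat.mul_le_mul_right B hcr
      omega) hcpos)
    exact ⟨f, hf, hf0, hfs, fun h' => absurd h' hB⟩

/-- An invariant function odd away from zero. -/
theorem exists_fun_odd {h : (ZMod r)ˣ} {c : ℕ} (hh : orderOf h = c) (a J : ℕ) :
    ∃ f g' : ZMod r → ℕ, (∀ x, f (x * (h : ZMod r)) = f x) ∧ f 0 = a ∧ ∑ x, f x = a + (r - 1) + 2 * (c * J) ∧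
      g' 0 = 0 ∧ ∑ x, g' x = c * J ∧ ∀ x, x ≠ 0 → f x = 1 + 2 * g' x := by
  classical
  obtain ⟨g', hg', hg'0, hg's, -⟩ := exists_fun_zero hh 0 J
  refine ⟨fun x => (if x = 0 then a else 1) + 2 * g' x, g',
    fun x => by simp only [mul_eq_zero, h.ne_zero, or_false, hg'], by simp [hg'0], ?_, hg'0, by simpa using hg's,
    fun x hx => by simp [hx]⟩
  rw [Finset.sum_add_distrib, ← Finset.mul_sum, hg's, sum_ite_zero]
  ring

theorem mod_of_small {u : (ZMod r)ˣ} {g : ZMod r → ℕ} (hg : ∀ x, g (x * (u : ZMod r)) = g x) {m : ℕ}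
    (hs : ∑ x, g x = m) : ∃ j, g 0 + orderOf u * j = m ∧ (g 0 < orderOf u → g 0 = m % orderOf u) := by
  obtain ⟨j, hj, -⟩ := SubElusive.orbit_data u g hg
  rw [hs] at hj
  exact ⟨j, hj, fun hlt => by rw [← hj, Nat.add_mul_mod_self_left, Nat.mod_eq_of_lt hlt]⟩

end Wit

section Suf

variable {r : ℕ} [hr : Fact r.Prime]

theorem even_suf (hr2 : r ≠ 2) {u : (ZMod r)ˣ} {i : ℕ} (hu : orderOf u = i) (hi2 : i % 2 = 0) {k N t d m : ℕ}
    (hdm : k + i * N = 2 * d) (hk : k < i) (hkev : k % 2 = 0) (ht : r - 1 = i * t) (hm : m < d) {ε : Prop}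
    (hA : (0 < k ∨ (ε ↔ Even N)) → 2 * (m % i) < k ∨ (2 * (m % i) = k ∧ (ε ↔ Even N)))
    (hB : (k = 0 ∧ ¬ (ε ↔ Even N)) → 2 * (m % i) ≤ i)
    (hC : 0 < m / i → t + 2 * (m / i) ≤ N ∧ ((k = 0 ∧ ¬ (ε ↔ Even N)) → t + 2 * (m / i) < N))
    {f : ZMod r → ℕ} (hfu : ∀ x, f (x * (u : ZMod r)) = f x) (hfn : ∀ x, f (-x) = f x) (hfs : ∑ x, f x = 2 * d)
    (hpos : f 0 = 0 → (ε ↔ Even N)) :
    ∃ g : ZMod r → ℕ, (∀ x, g (x * (u : ZMod r)) = g x) ∧ ∑ x, g x = m ∧ (∀ x, g x + g (-x) ≤ f x) ∧
      (f 0 = 2 * g 0 → (ε ↔ Even (N - f 0 / i))) := by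
  classical
  have hipos : 0 < i := hu ▸ orderOf_pos u
  have hdmm := Nat.mod_add_div m i
  have hℓlt := Nat.mod_lt m hipos
  obtain ⟨f₁, hf₁⟩ : ∃ f₁ : ZMod r → ℕ, f₁ = fun x => if x = 0 then 0 else f x / 2 := ⟨_, rfl⟩
  obtain ⟨f₂, hf₂⟩ : ∃ f₂ : ZMod r → ℕ, f₂ = fun x => if x = 0 then 0 else f x % 2 := ⟨_, rfl⟩
  obtain ⟨w, hw, -⟩ := SubElusive.orbit_data u f₁
    (fun x => by rw [hf₁]; simp only [mul_eq_zero, u.ne_zero, or_false, hfu])
  obtain ⟨o, ho, -⟩ := SubElusive.orbit_data u f₂
    (fun x => by rw [hf₂]; simp only [mul_eq_zero, u.ne_zero, or_false, hfu])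
  obtain ⟨B, hB', -⟩ := SubElusive.orbit_data u f hfu
  rw [show f₁ 0 = 0 by rw [hf₁]; simp, zero_add, hu] at hw
  rw [show f₂ 0 = 0 by rw [hf₂]; simp, zero_add, hu] at ho
  rw [hfs, hu] at hB'
  have hsplit : f 0 + 2 * (i * w) + i * o = 2 * d := by
    rw [hw, ho, Finset.mul_sum, ← hfs, ← show ∑ x : ZMod r, (if x = 0 then f 0 else 0) = f 0 by
      rw [Finset.sum_ite_eq' Finset.univ 0, if_pos (Finset.mem_univ _)], ← Finset.sum_add_distrib,
      ← Finset.sum_add_distrib]
    refine Finset.sum_congr rfl fun x _ => ?_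
    rw [hf₁, hf₂]
    rcases eq_or_ne x 0 with rfl | hx
    · simp
    · simp only [if_neg hx, zero_add]; omega
  have hot : o ≤ t := by
    refine Nat.le_of_mul_le_mul_left ?_ hipos
    rw [← ht, ho]
    calc ∑ x, f₂ x ≤ ∑ x : ZMod r, (if x = 0 then 0 else 1) := Finset.sum_le_sum fun x _ => by
          rw [hf₂]
          rcases eq_or_ne x 0 with rfl | hx
          · simp
          · simp only [if_neg hx]; omega
      _ = r - 1 := by rw [sum_ite_zero, mul_one, zero_add]
  have hBo : B = 2 * w + o := Nat.eq_of_mul_eq_mul_left hipos (by rw [mul_add, mul_left_comm]; omega)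
  have hfc : f 0 % i = k := by
    have h := congrArg (· % i) (hB'.trans hdm.symm)
    simpa [Nat.add_mul_mod_self_left, Nat.mod_eq_of_lt hk] using h
  have hfdm := Nat.mod_add_div (f 0) i
  rw [hfc] at hfdm
  obtain ⟨e, hedef⟩ : ∃ e, e = f 0 / i := ⟨_, rfl⟩
  rw [← hedef] at hfdm
  have hBe : e + B = N := Nat.eq_of_mul_eq_mul_left hipos (by rw [mul_add]; omega)
  have hev : f 0 % 2 = 0 := by
    have : i * e % 2 = 0 := by rw [Nat.mul_mod, show i % 2 = 0 by omega, zero_mul, Nat.zero_mod]
    omega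
  obtain ⟨δ, hδ⟩ : ∃ δ, δ = if (ε ↔ Even (N - e)) then 0 else 1 := ⟨_, rfl⟩
  have hpar : (Even (N - e) ↔ Even N) ↔ e % 2 = 0 := by
    rw [Nat.even_sub (by omega : e ≤ N)]
    rcases Nat.even_or_odd e with h' | h'
    · simp [h', Nat.even_iff.mp h']
    · simp [Nat.not_even_iff_odd.mpr h', Nat.odd_iff.mp h']
      rw [Nat.odd_iff, Nat.even_iff]; omega
  have hcase : ((0 < k ∨ (ε ↔ Even N)) ∧ (2 * (m % i) + 2 * δ ≤ k + i * (e % 2))) ∨
      ((k = 0 ∧ ¬ (ε ↔ Even N)) ∧ 1 ≤ e ∧ (e % 2 = 1 → δ = 0) ∧ (e % 2 = 0 → 2 ≤ e) ∧ δ ≤ 1 ∧ 2 * (m % i) ≤ i) := by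
    by_cases h0 : 0 < k ∨ (ε ↔ Even N)
    · refine Or.inl ⟨h0, ?_⟩
      rcases hA h0 with hlt | ⟨heq, hσ⟩
      · rw [hδ]; split_ifs <;> omega
      · rw [hδ]
        split_ifs with hmatch
        · omega
        · have : e % 2 = 1 := by
            by_contra hne
            exact hmatch (hσ.trans (hpar.mpr (by omega)).symm)
          rw [this]
          omega
    · push Not at h0
      obtain ⟨hk0, hσ⟩ := h0
      have he1 : 1 ≤ e := by
        by_contra hne
        obtain rfl : e = 0 := by omega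
        exact absurd (hpos (by omega)) (by tauto)
      have hk0' : k = 0 := by omega
      have hσ' : ¬ (ε ↔ Even N) := by tauto
      refine Or.inr ⟨⟨hk0', hσ'⟩, he1, fun h1 => ?_, fun h1 => by omega, by rw [hδ]; split_ifs <;> omega,
        hB ⟨hk0', hσ'⟩⟩
      rw [hδ, if_pos]
      have : ¬ (Even (N - e) ↔ Even N) := fun h' => by have := hpar.mp h'; omega
      tauto
  have he2 : i * (e % 2) ≤ i * e := Nat.mul_le_mul_left i (Nat.mod_le e 2)
  have hi2' : 2 ≤ i := by omega
  have hℓa : 2 * (m % i) + 2 * δ ≤ f 0 := by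
    rcases hcase with ⟨-, h1⟩ | ⟨⟨hk0, -⟩, h1, h2, h3, h4, h5⟩
    · omega
    · rcases (show e % 2 = 0 ∨ e % 2 = 1 by omega) with h' | h'
      · have := Nat.mul_le_mul_left i (h3 h'); omega
      · have := Nat.mul_le_mul_left i h1; have := h2 h'; omega
  have hma : m ≤ f 0 / 2 - δ + i * w := by
    rcases Nat.eq_zero_or_pos (m / i) with h0 | h0
    · rw [h0, mul_zero] at hdmm; omega
    obtain ⟨h6, h7⟩ := hC h0
    have hX : ∀ s, 2 * (m / i) + s ≤ e + 2 * w → i * (2 * (m / i)) + i * s ≤ i * e + 2 * (i * w) := fun s hs => by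
      have := Nat.mul_le_mul_left i hs
      rwa [mul_add, mul_add, mul_left_comm i 2 w] at this
    rw [mul_left_comm] at hX
    rcases hcase with ⟨-, h1⟩ | ⟨hk', h1, h2, h3, h4, h5⟩
    · have := hX (e % 2) (by omega)
      omega
    · have h8 := h7 hk'
      rcases (show e % 2 = 0 ∨ e % 2 = 1 by omega) with h' | h'
      · have := hX 2 (by omega); omega
      · have := hX 1 (by omega); have := h2 h'; omega
  obtain ⟨g, hg, hgs, hgf, hg0⟩ := exists_half_even (u := u) f hfu hfn (a := f 0 / 2 - δ) (m := m) (by omega)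
    (by rw [hu]; omega) (w := w) (by rw [hu, hw, hf₁]) (by rw [hu]; exact hma)
  refine ⟨g, hg, hgs, hgf, fun heq => ?_⟩
  rw [← hedef]
  by_contra hne
  rw [hδ, if_neg hne] at hg0 hℓa
  omega

end Suf

variable {F : Type*} [Field F] [Fintype F] {p r : ℕ} [Fact p.Prime] [CharP F p] [hr : Fact r.Prime]
  (hrp : r ≠ p) (hr2 : r ≠ 2) {i c : ℕ}
  (hi : i = orderOf ((Fintype.card F : ℕ) : ZMod r)) (hc : c = if Even i then i else 2 * i)
  {ι : Type} [Fintype ι] [DecidableEq ι] {Q : QuadraticForm F (ι → F)}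
  (hQ : (polarBilin Q).Nondegenerate) {d m : ℕ} (hι : Fintype.card ι = 2 * d) (hd : 3 ≤ d) (hm : m < d)
  {ε : Prop} (hε : HasHalf Q ↔ ε) (hcn : c ≤ 2 * d)

include hrp hr2 hi hc hQ hι hd hm hε hcn

/-- The criterion when `i` is odd. -/
theorem crit_i_odd (ho : Odd i) :
    AllTS Q r m ↔
      (((2 * d) % c = 0 ∧ ¬ ε) ∨ 2 * (m % i) < (2 * d) % c ∨ (2 * (m % i) = (2 * d) % c ∧ ε)) := by
  classical
  obtain ⟨u, h, hu, hh, hinv, hiff⟩ := allTS_iff hrp hr2 hi hc hQ (m := m) hι hd hε
  rw [hiff]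
  have hc2 : c = 2 * i := by rw [hc, if_neg (Nat.not_even_iff_odd.mpr ho)]
  have hipos : 0 < i := hu ▸ orderOf_pos u
  have hk := Nat.mod_lt (2 * d) (show 0 < c by omega)
  have hT : ∀ N, MType i N := fun N => Or.inl ho
  constructor
  · intro hall
    by_cases h0 : (2 * d) % c = 0 ∧ ¬ ε
    · exact Or.inl h0
    obtain ⟨f, hf, hf0, hfs, -⟩ := exists_fun_zero hh ((2 * d) % c) ((2 * d) / c)
    rw [Nat.mod_add_div] at hfs
    obtain ⟨g, hg, hgs, hgf, hgT⟩ := hall f hf hfs (by omega)
      (fun hz => iff_of_true (by_contra fun hne => h0 ⟨hf0.symm.trans hz, hne⟩) (hT _))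
    have h1 := hgf 0
    rw [neg_zero, hf0] at h1
    obtain ⟨j, hj, hsmall⟩ := mod_of_small hg hgs
    rw [hu] at hsmall
    have hg0 := hsmall (by omega)
    rcases lt_or_eq_of_le (show 2 * (m % i) ≤ (2 * d) % c by omega) with hlt | heq
    · exact Or.inr (Or.inl hlt)
    · exact Or.inr (Or.inr ⟨heq, (hgT (by omega)).mpr (hT _)⟩)
  · intro hcond f hf hfs hfne hf0T
    obtain ⟨K, hK, -⟩ := SubElusive.orbit_data h f hf
    rw [hh, hfs] at hK
    have hfc : f 0 % c = (2 * d) % c := by rw [← hK, Nat.add_mul_mod_self_left]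
    have hfle := Nat.mod_le (f 0) c
    have hev : f 0 % 2 = 0 := by
      have := Nat.mod_mod_of_dvd (f 0) (show 2 ∣ c from ⟨i, hc2⟩)
      have := Nat.mod_mod_of_dvd (2 * d) (show 2 ∣ c from ⟨i, hc2⟩)
      omega
    obtain ⟨δ, hδ⟩ : ∃ δ, δ = if ε then 0 else 1 := ⟨_, rfl⟩
    have hδf : 2 * δ ≤ f 0 := by
      rw [hδ]; split_ifs with he
      · omega
      · have : f 0 ≠ 0 := fun hz => he ((hf0T hz).mpr (hT _))
        omega
    obtain ⟨f', hf'⟩ : ∃ f' : ZMod r → ℕ, f' = fun x => f x - if x = 0 then 2 * δ else 0 := ⟨_, rfl⟩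
    have hf'le : ∀ x, f' x + (if x = 0 then 2 * δ else 0) = f x := fun x => by
      rw [hf']
      rcases eq_or_ne x 0 with rfl | hx
      · simp only [if_pos]; omega
      · simp [hx]
    have hf's : ∑ x, f' x = 2 * (d - δ) := by
      have := hfs
      rw [← Finset.sum_congr rfl (fun x _ => hf'le x), Finset.sum_add_distrib, Finset.sum_ite_eq' Finset.univ 0,
        if_pos (Finset.mem_univ _)] at this
      omega
    have hf0' : f' 0 = f 0 - 2 * δ := by rw [hf']; simp
    obtain ⟨hfu, hfn⟩ := (hinv f).mpr hf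
    obtain ⟨g, hg, hgs, hgf⟩ := SubElusive.exists_half_fun (u := u) hr2 f'
      (fun x => by rw [hf']; simp only [hfu, mul_eq_zero, u.ne_zero, or_false])
      (fun x => by rw [hf']; simp only [hfn, neg_eq_zero]) hf's
      (by rw [hf0', Nat.even_iff]; omega) (show m ≤ d - δ by rw [hδ]; split_ifs <;> omega) (by
        rw [hu, hf0', hδ]
        have := Nat.mod_lt m hipos
        rcases hcond with ⟨hk0, hne⟩ | hlt | ⟨heq, he⟩
        · rw [if_neg hne]
          have : f 0 ≠ 0 := fun hz => hne ((hf0T hz).mpr (hT _))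
          have : c ≤ f 0 := Nat.le_of_dvd (by omega) (Nat.dvd_of_mod_eq_zero (hfc.trans hk0))
          omega
        · split_ifs <;> omega
        · rw [if_pos he]; omega)
      (fun he => absurd (hu ▸ he) (Nat.not_even_iff_odd.mpr ho))
    refine ⟨g, hg, hgs, fun x => (hgf x).trans (by rw [hf']; exact Nat.sub_le _ _), fun heq => iff_of_true ?_ (hT _)⟩
    by_contra hne
    have := hgf 0
    rw [neg_zero, hf0', hδ, if_neg hne] at this
    rw [hδ, if_neg hne] at hδf
    omega

/-- The criterion when `i` is even. -/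
theorem crit_i_even (he : Even i) :
    AllTS Q r m ↔
      (((0 < (2 * d) % c ∨ (ε ↔ Even (2 * d / i))) →
          2 * (m % i) < (2 * d) % c ∨ (2 * (m % i) = (2 * d) % c ∧ (ε ↔ Even (2 * d / i)))) ∧
        (((2 * d) % c = 0 ∧ ¬ (ε ↔ Even (2 * d / i))) → 2 * (m % i) ≤ i) ∧
        (0 < m / i → (r - 1) / i + 2 * (m / i) ≤ 2 * d / i ∧
          (((2 * d) % c = 0 ∧ ¬ (ε ↔ Even (2 * d / i))) → (r - 1) / i + 2 * (m / i) < 2 * d / i))) := by
  classical
  obtain ⟨u, h, hu, hh, hinv, hiff⟩ := allTS_iff hrp hr2 hi hc hQ (m := m) hι hd hε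
  rw [hiff]
  have hc2 : c = i := by rw [hc, if_pos he]
  have hipos : 0 < i := hu ▸ orderOf_pos u
  rw [hc2]
  rw [hc2] at hh hcn
  have hk := Nat.mod_lt (2 * d) hipos
  obtain ⟨ii, hii⟩ := he
  have hkev : (2 * d) % i % 2 = 0 := by rw [Nat.mod_mod_of_dvd _ ⟨ii, by omega⟩]; omega
  obtain ⟨t, ht⟩ : i ∣ r - 1 := by rw [← hu, ← ZMod.card_units r]; exact orderOf_dvd_card
  have htpos : 0 < t := by
    rcases Nat.eq_zero_or_pos t with h0 | h0
    · rw [h0, mul_zero] at ht; have := hr.out.two_le; omega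
    · exact h0
  rw [ht, Nat.mul_div_cancel_left _ hipos]
  have hdm := Nat.mod_add_div (2 * d) i
  have hdmm := Nat.mod_add_div m i
  have hℓlt := Nat.mod_lt m hipos
  obtain ⟨k, hkdef⟩ : ∃ k, k = (2 * d) % i := ⟨_, rfl⟩
  obtain ⟨N, hN⟩ : ∃ N, N = 2 * d / i := ⟨_, rfl⟩
  rw [← hkdef] at hdm hk hkev ⊢
  rw [← hN] at hdm ⊢
  have hTe : ∀ e, e ≤ N → (MType i (2 * d - (k + i * e)) ↔ Even (N - e)) := fun e he' => by
    rw [MType, or_iff_right (Nat.not_odd_iff_even.mpr ⟨ii, hii⟩)]
    have h1 : i * e + i * (N - e) = i * N := by rw [← mul_add, Nat.add_sub_cancel' he']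
    rw [show 2 * d - (k + i * e) = i * (N - e) by omega, Nat.mul_div_cancel_left _ hipos]
  have hT0 : MType i (2 * d) ↔ Even N := by
    rw [MType, or_iff_right (Nat.not_odd_iff_even.mpr ⟨ii, hii⟩), hN]
  constructor
  · intro hall
    have hsmall : ∀ e, e < N → e ≤ 1 → (k + i * e = 0 → (ε ↔ Even N)) →
        2 * (m % i) < k + i * e ∨ (2 * (m % i) = k + i * e ∧ (ε ↔ Even (N - e))) := by
      intro e heN he1 hall0
      obtain ⟨f, hf, hf0, hfs, -⟩ := exists_fun_zero hh (k + i * e) (N - e)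
      have h1 : i * e + i * (N - e) = i * N := by rw [← mul_add, Nat.add_sub_cancel' heN.le]
      rw [show k + i * e + i * (N - e) = 2 * d by omega] at hfs
      obtain ⟨g, hg, hgs, hgf, hgT⟩ := hall f hf hfs (by
        have := Nat.mul_lt_mul_of_pos_left heN hipos
        omega) (fun hz => (hall0 (hf0 ▸ hz)).trans hT0.symm)
      have h2 := hgf 0
      rw [neg_zero, hf0] at h2
      obtain ⟨j, -, hsm⟩ := mod_of_small hg hgs
      rw [hu] at hsm
      have hie : i * e ≤ i := by
        rcases (show e = 0 ∨ e = 1 by omega) with rfl | rfl <;> omega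
      have hg0 := hsm (by omega)
      rcases lt_or_eq_of_le (show 2 * (m % i) ≤ k + i * e by omega) with hlt | heq
      · exact Or.inl hlt
      · refine Or.inr ⟨heq, ?_⟩
        rw [← hTe e heN.le, ← hf0]
        exact hgT (by omega)
    have hNpos : 0 < N := hN ▸ Nat.div_pos hcn hipos
    refine ⟨fun hσ => ?_, fun ⟨hk0, hσ⟩ => ?_, fun hM => ?_⟩
    · simpa using hsmall 0 hNpos (by omega) (fun hz => hσ.resolve_left (by omega))
    · rcases Nat.lt_or_ge 1 N with h1 | h1
      · rcases hsmall 1 h1 le_rfl (fun hz => by omega) with h' | h' <;> omega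
      · rw [show N = 1 by omega] at hdm
        have := Nat.mod_le m i
        omega
    · -- the bounds through the number of classes
      have hiM : i ≤ i * (m / i) := Nat.le_mul_of_pos_right i hM
      have hMN : 2 * (m / i) ≤ N := by
        have h1 : i * (2 * (m / i)) < i * (N + 1) := by
          rw [mul_add, mul_one, mul_left_comm]; omega
        have := Nat.lt_of_mul_lt_mul_left h1
        omega
      have hbig : ∀ e J, e + t + 2 * J = N → (k + i * e = 0 → (ε ↔ Even N)) →
          (e ≤ 1 ∨ (e = 2 ∧ k = 0 ∧ ¬ (ε ↔ Even N))) → m / i ≤ J := by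
        intro e J hsum hall0 he2
        obtain ⟨f, g', hf, hf0, hfs, hg'0, hg's, hfodd⟩ := exists_fun_odd hh (k + i * e) J
        have h1 : i * e + i * t + 2 * (i * J) = i * N := by rw [← hsum]; ring
        rw [ht, show k + i * e + i * t + 2 * (i * J) = 2 * d by omega] at hfs
        obtain ⟨g, hg, hgs, hgf, hgT⟩ := hall f hf hfs (by
          have := Nat.mul_le_mul_left i htpos
          omega) (fun hz => (hall0 (hf0 ▸ hz)).trans hT0.symm)
        have hneg : ∀ x, g (-x) = g x := fun x => by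
          have hp : ∀ n, g (x * ((u ^ n : (ZMod r)ˣ) : ZMod r)) = g x := fun n => by
            induction n with
            | zero => simp
            | succ n ih => rw [pow_succ, Units.val_mul, ← mul_assoc, hg, ih]
          simpa [neg_one_mem_of_even u hr2 (hu.symm ▸ ⟨ii, hii⟩)] using hp (orderOf u / 2)
        have h2 := hgf 0
        rw [neg_zero, hf0] at h2
        have hgle : ∀ x, g x ≤ g' x + if x = 0 then g 0 else 0 := fun x => by
          rcases eq_or_ne x 0 with rfl | hx
          · simp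
          · have h3 := hgf x
            rw [hneg, hfodd x hx] at h3
            simp only [if_neg hx]
            omega
        have h4 := Finset.sum_le_sum fun x (_ : x ∈ Finset.univ) => hgle x
        rw [Finset.sum_add_distrib, hgs, hg's, Finset.sum_ite_eq' Finset.univ 0, if_pos (Finset.mem_univ _)] at h4
        obtain ⟨j, hj, hsm⟩ := mod_of_small hg hgs
        rw [hu] at hj hsm
        rcases he2 with he1 | ⟨rfl, hk0, hσ⟩
        · have hie : i * e ≤ i := by
            rcases (show e = 0 ∨ e = 1 by omega) with rfl | rfl <;> omega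
          have hg0 := hsm (by omega)
          exact Nat.le_of_mul_le_mul_left (by omega) hipos
        · rcases Nat.lt_or_ge (g 0) i with hlt | hge
          · have hg0 := hsm hlt
            exact Nat.le_of_mul_le_mul_left (by omega) hipos
          · refine absurd ?_ hσ
            have := hgT (by omega)
            rw [hf0, hTe 2 (by omega), Nat.even_sub (by omega)] at this
            simpa using this
      refine ⟨?_, fun ⟨hk0, hσ⟩ => ?_⟩
      · by_contra hlt
        rcases le_or_gt N t with hNt | hNt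
        · obtain ⟨e, he1, he0, heN⟩ : ∃ e, e ≤ 1 ∧ (k + i * e = 0 → (ε ↔ Even N)) ∧ e < N := by
            by_cases h0 : k = 0 ∧ ¬ (ε ↔ Even N)
            · exact ⟨1, le_rfl, fun hz => by omega, by omega⟩
            · exact ⟨0, by omega, fun hz => by_contra fun h' => h0 ⟨by omega, h'⟩, hNpos⟩
          obtain ⟨f, hf, hf0, hfs, hf1⟩ := exists_fun_zero hh (k + i * e) (N - e)
          have h1 : i * e + i * (N - e) = i * N := by rw [← mul_add, Nat.add_sub_cancel' heN.le]
          rw [show k + i * e + i * (N - e) = 2 * d by omega] at hfs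
          obtain ⟨g, hg, hgs, hgf, -⟩ := hall f hf hfs (by
            have := Nat.mul_lt_mul_of_pos_left heN hipos
            omega) (fun hz => (he0 (hf0 ▸ hz)).trans hT0.symm)
          have hneg : ∀ x, g (-x) = g x := fun x => by
            have hp : ∀ n, g (x * ((u ^ n : (ZMod r)ˣ) : ZMod r)) = g x := fun n => by
              induction n with
              | zero => simp
              | succ n ih => rw [pow_succ, Units.val_mul, ← mul_assoc, hg, ih]
            simpa [neg_one_mem_of_even u hr2 (hu.symm ▸ ⟨ii, hii⟩)] using hp (orderOf u / 2)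
          have hz : ∀ x, x ≠ 0 → g x = 0 := fun x hx => by
            have h3 := (hgf x).trans (hf1 (by rw [ht]; exact Nat.mul_le_mul_left i (by omega)) x hx)
            rw [hneg] at h3
            omega
          have h0 : g 0 = m := by
            rw [← hgs]
            exact (Finset.sum_eq_single 0 (fun y _ hy => hz y hy) (fun h => absurd (Finset.mem_univ _) h)).symm
          have h2 := hgf 0
          rw [neg_zero, hf0, h0] at h2
          have hie : i * e ≤ i := by
            rcases (show e = 0 ∨ e = 1 by omega) with rfl | rfl <;> omega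
          omega
        · by_cases h2 : (N - t) % 2 = 0 ∧ k = 0 ∧ ¬ (ε ↔ Even N)
          · have := hbig 2 ((N - t - 2) / 2) (by omega) (fun hz => by omega) (Or.inr ⟨rfl, h2.2⟩)
            omega
          · have := hbig ((N - t) % 2) ((N - t) / 2) (by omega) (fun hz => by_contra fun h' => h2 ⟨by
              rcases (show (N - t) % 2 = 0 ∨ (N - t) % 2 = 1 by omega) with he | he
              · exact he
              · rw [he] at hz; omega, by omega, h'⟩) (Or.inl (by omega))
            omega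
      · by_contra hlt
        rcases le_or_gt (t + 2 * (m / i)) N with h1 | h1
        · have := hbig 2 (m / i - 1) (by omega) (fun hz => by omega) (Or.inr ⟨rfl, hk0, hσ⟩)
          omega
        · rcases Nat.lt_or_ge N (t + 2) with h2 | h2
          · -- no room: contradicts the first bound
            rcases le_or_gt N t with hNt | hNt
            · obtain ⟨f, hf, hf0, hfs, hf1⟩ := exists_fun_zero hh (k + i * 1) (N - 1)
              have h3 : i * 1 + i * (N - 1) = i * N := by rw [← mul_add, Nat.add_sub_cancel' hNpos]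
              rw [show k + i * 1 + i * (N - 1) = 2 * d by omega] at hfs
              obtain ⟨g, hg, hgs, hgf, -⟩ := hall f hf hfs (by omega) (fun hz => by omega)
              obtain ⟨j, hj, -⟩ := mod_of_small hg hgs
              have hz : ∀ x, x ≠ 0 → g x + g (-x) ≤ 1 := fun x hx =>
                (hgf x).trans (hf1 (by rw [ht]; exact Nat.mul_le_mul_left i (by omega)) x hx)
              have h4 : ∑ x, (g x + g (-x)) ≤ ∑ x : ZMod r, (if x = 0 then f 0 else g x + g (-x)) :=
                Finset.sum_le_sum fun x _ => by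
                  split_ifs with hx
                  · subst hx; exact hgf 0
                  · exact le_rfl
              have hneg : ∀ x, g (-x) = g x := fun x => by
                have hp : ∀ n, g (x * ((u ^ n : (ZMod r)ˣ) : ZMod r)) = g x := fun n => by
                  induction n with
                  | zero => simp
                  | succ n ih => rw [pow_succ, Units.val_mul, ← mul_assoc, hg, ih]
                simpa [neg_one_mem_of_even u hr2 (hu.symm ▸ ⟨ii, hii⟩)] using hp (orderOf u / 2)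
              have h5 : g 0 = m := by
                rw [← hgs]
                exact (Finset.sum_eq_single 0 (fun y _ hy => by have := hz y hy; rw [hneg] at this; omega)
                  (fun h => absurd (Finset.mem_univ _) h)).symm
              have h6 := hgf 0
              rw [neg_zero, hf0, h5] at h6
              omega
            · have := hbig 1 0 (by omega) (fun hz => by omega) (Or.inl le_rfl)
              omega
          · by_cases hpar : (N - t) % 2 = 0
            · have := hbig 2 ((N - t - 2) / 2) (by omega) (fun hz => by omega) (Or.inr ⟨rfl, hk0, hσ⟩)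
              omega
            · have := hbig 1 ((N - t) / 2) (by omega) (fun hz => by omega) (Or.inl le_rfl)
              omega
  · intro ⟨hA, hB, hC⟩ f hf hfs hfne hf0T
    obtain ⟨hfu, hfn⟩ := (hinv f).mpr hf
    obtain ⟨g, hg, hgs, hgf, hgT⟩ := even_suf hr2 hu (by omega) hdm hk hkev ht hm hA hB hC hfu hfn hfs
      (fun hz => (hf0T hz).trans hT0)
    refine ⟨g, hg, hgs, hgf, fun heq => ?_⟩
    obtain ⟨K, hK, -⟩ := SubElusive.orbit_data u f hfu
    rw [hu, hfs] at hK
    have hfc : f 0 % i = k := by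
      have h := congrArg (· % i) (hK.trans hdm.symm)
      simpa [Nat.add_mul_mod_self_left, Nat.mod_eq_of_lt hk] using h
    have hfdm := Nat.mod_add_div (f 0) i
    rw [hfc] at hfdm
    rw [show 2 * d - f 0 = 2 * d - (k + i * (f 0 / i)) by rw [hfdm], hTe (f 0 / i) (Nat.le_of_mul_le_mul_left (by omega) hipos)]
    exact hgT heq

end CfsgLib.OrthTS
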