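import Cfsg.Agent.SubElusive.OrthExtTwo
import Cfsg.Agent.SubElusive.OrthExtIndex
import Cfsg.Agent.SubElusive.OrthTSEvenCrit

/-!
Elements of prime order and quadratic field extension subgroups of even-dimensional orthogonal groups.
-/

set_option autoImplicit false
set_option linter.style.haveILetI false

open Matrix QuadraticMap CfsgLib.Forms CfsgLib.SemiClasses CfsgLib.OrthTS

namespace CfsgLib.OrthExt

variable {F : Type*} [Field F] {ι : Type} [Fintype ι] [DecidableEq ι] [Nonempty ι]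

theorem span_one_gen {j : Matrix ι ι F} {K : Subalgebra F (Matrix ι ι F)} (hrank : Module.finrank F K = 2) (hj : j ∈ K)
    (hns : ∀ z : F, j ≠ z • 1) {k : Matrix ι ι F} (hk : k ∈ K) : ∃ a b : F, k = a • 1 + b • j := by
  have hli : LinearIndependent F ![(1 : K), ⟨j, hj⟩] := by
    refine LinearIndependent.pair_iff.2 fun a b hab => ?_
    have h1 : a • (1 : Matrix ι ι F) + b • j = 0 := congrArg Subtype.val hab
    by_cases hb : b = 0
    · subst hb
      rw [zero_smul, add_zero] at h1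
      exact ⟨(smul_eq_zero.1 h1).resolve_right one_ne_zero, rfl⟩
    · refine absurd ?_ (hns (-(b⁻¹ * a)))
      have := congrArg (fun m : Matrix ι ι F => b⁻¹ • m) h1
      simp only [smul_add, smul_smul, inv_mul_cancel₀ hb, one_smul, smul_zero] at this
      rw [neg_smul, eq_neg_iff_add_eq_zero, add_comm, this]
  let bas := basisOfLinearIndependentOfCardEqFinrank hli (by rw [hrank]; rfl)
  have h := bas.sum_repr ⟨k, hk⟩
  rw [Fin.sum_univ_two] at h
  refine ⟨bas.repr ⟨k, hk⟩ 0, bas.repr ⟨k, hk⟩ 1, ?_⟩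
  have h' := congrArg Subtype.val h
  simp only [bas, coe_basisOfLinearIndependentOfCardEqFinrank, Matrix.cons_val_zero, Matrix.cons_val_one] at h'
  exact h'.symm

/-- A self-adjoint quadratic field subalgebra is generated by a root. -/
theorem exists_gen (h2 : (2 : F) ≠ 0) {Q : QuadraticForm F (ι → F)} {K : Subalgebra F (Matrix ι ι F)}
    (hK : Cfsg.Geo.IsFieldSubalgebra 2 K) (hKf : Cfsg.Geo.IsSelfAdjointFor (polar ⇑Q) K) :
    ∃ (M : Matrix ι ι F) (η : F) (T : Module.End F (ι → F)), M ∈ K ∧ ¬ IsSquare η ∧ IsRoot Q η T ∧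
      (∀ v, T v = M *ᵥ v) ∧ M * M = η • 1 ∧ ∀ z : F, M ≠ z • 1 := by
  classical
  obtain ⟨j, hj, hns⟩ : ∃ j ∈ K, ∀ z : F, j ≠ z • 1 := by
    by_contra hcon
    push Not at hcon
    have hle : Subalgebra.toSubmodule K ≤ Submodule.span F {(1 : Matrix ι ι F)} := fun k hk => by
      obtain ⟨z, rfl⟩ := hcon k hk
      exact Submodule.smul_mem _ _ (Submodule.mem_span_singleton_self 1)
    have h := Submodule.finrank_mono hle
    rw [finrank_span_singleton one_ne_zero, Subalgebra.finrank_toSubmodule, hK.finrank_eq] at h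
    omega
  obtain ⟨α, β, hsq⟩ := span_one_gen hK.finrank_eq hj hns (K.mul_mem hj hj)
  obtain ⟨M, hM⟩ : ∃ M, M = j - (β / 2) • (1 : Matrix ι ι F) := ⟨_, rfl⟩
  have hMK : M ∈ K := hM ▸ K.sub_mem hj (K.smul_mem K.one_mem _)
  have hMns : ∀ z : F, M ≠ z • 1 := fun z hz => hns (z + β / 2) (by
    rw [add_smul, ← hz, hM, sub_add_cancel])
  obtain ⟨η, hη⟩ : ∃ η, η = α + β / 2 * (β / 2) := ⟨_, rfl⟩
  have hMM : M * M = η • 1 := by
    obtain ⟨γ, hγ⟩ : ∃ γ, γ = β / 2 := ⟨_, rfl⟩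
    have hβ : β = 2 * γ := by rw [hγ]; field_simp
    rw [hM, hη, ← hγ]
    simp only [sub_mul, mul_sub, smul_mul_assoc, mul_smul_comm, one_mul, mul_one, hsq, smul_smul, hβ]
    module
  refine ⟨M, η, Matrix.toLin' M, hMK, ?_, ⟨fun u v => ?_, fun v => ?_⟩, fun v => Matrix.toLin'_apply _ _, hMM, hMns⟩
  · rintro ⟨s, hs⟩
    have hne : M - s • 1 ≠ 0 := fun h => hMns s (sub_eq_zero.1 h)
    obtain ⟨y, -, hy⟩ := hK.inv _ (K.sub_mem hMK (K.smul_mem K.one_mem s)) hne
    have hyl : y * (M - s • 1) = 1 := mul_eq_one_comm.1 hy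
    have h0 : (M - s • 1) * (M + s • 1) = 0 := by
      rw [sub_mul, mul_add, mul_add, hMM, hs]
      simp only [mul_smul_comm, smul_mul_assoc, mul_one, one_mul, smul_smul]
      abel
    refine hMns (-s) ?_
    have h1 : M + s • 1 = 0 := by
      calc M + s • 1 = (y * (M - s • 1)) * (M + s • 1) := by rw [hyl, one_mul]
        _ = 0 := by rw [mul_assoc, h0, mul_zero]
    rw [neg_smul, eq_neg_iff_add_eq_zero, h1]
  · rw [Matrix.toLin'_apply, Matrix.toLin'_apply]
    exact hKf M hMK u v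
  · rw [Matrix.toLin'_apply, Matrix.toLin'_apply, Matrix.mulVec_mulVec, hMM, Matrix.smul_mulVec, Matrix.one_mulVec]

/-- Elements sending the generator to its sign multiple normalise. -/
theorem mem_normalizer {K : Subalgebra F (Matrix ι ι F)} (hrank : Module.finrank F K = 2) {j : Matrix ι ι F}
    (hj : j ∈ K) (hns : ∀ z : F, j ≠ z • 1) (g : GL ι F) (ε : F) (hε : ε * ε = 1)
    (h : (g : Matrix ι ι F) * j = ε • (j * (g : Matrix ι ι F))) : g ∈ Cfsg.Geo.subalgebraNormalizer K := by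
  have hc : (g : Matrix ι ι F) * j * ((g⁻¹ : GL ι F) : Matrix ι ι F) = ε • j := by
    rw [h, smul_mul_assoc, mul_assoc, ← Units.val_mul, mul_inv_cancel, Units.val_one, mul_one]
  intro k
  constructor
  · intro hk
    obtain ⟨a, b, rfl⟩ := span_one_gen hrank hj hns hk
    rw [mul_add, add_mul, mul_smul_comm, smul_mul_assoc, mul_smul_comm, smul_mul_assoc, mul_one,
      ← Units.val_mul, mul_inv_cancel, Units.val_one, hc]
    exact K.add_mem (K.smul_mem K.one_mem a) (K.smul_mem (K.smul_mem hj ε) b)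
  · intro hk
    obtain ⟨a, b, hab⟩ := span_one_gen hrank hj hns hk
    have : k = a • 1 + (b * ε) • j := by
      have e1 : k = ((g⁻¹ : GL ι F) : Matrix ι ι F) * ((g : Matrix ι ι F) * k * ((g⁻¹ : GL ι F) : Matrix ι ι F)) *
          (g : Matrix ι ι F) := by
        rw [mul_assoc (g : Matrix ι ι F), ← mul_assoc, ← Units.val_mul, inv_mul_cancel, Units.val_one, one_mul,
          mul_assoc, ← Units.val_mul, inv_mul_cancel, Units.val_one, mul_one]
      have e2 : ((g⁻¹ : GL ι F) : Matrix ι ι F) * j * (g : Matrix ι ι F) = ε • j := by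
        have e3 : j * (g : Matrix ι ι F) = ε • ((g : Matrix ι ι F) * j) := by rw [h, smul_smul, hε, one_smul]
        rw [mul_assoc, e3, mul_smul_comm, ← mul_assoc, ← Units.val_mul, inv_mul_cancel, Units.val_one, one_mul]
      rw [e1, hab, mul_add, add_mul, mul_smul_comm, smul_mul_assoc, mul_smul_comm, smul_mul_assoc, mul_one,
        ← Units.val_mul, inv_mul_cancel, Units.val_one, e2, smul_smul]
    rw [this]
    exact K.add_mem (K.smul_mem K.one_mem a) (K.smul_mem hj _)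

/-- A normalising element of odd order commutes with the generator. -/
theorem comm_of_normalizer (h2 : (2 : F) ≠ 0) {K : Subalgebra F (Matrix ι ι F)} (hK : Cfsg.Geo.IsFieldSubalgebra 2 K)
    {j : Matrix ι ι F} (hj : j ∈ K) (hns : ∀ z : F, j ≠ z • 1) {η : F} (hsq : j * j = η • 1) {y : GL ι F}
    (hy : y ∈ Cfsg.Geo.subalgebraNormalizer K) {r : ℕ} (hr : Odd r) (hyr : (y : Matrix ι ι F) ^ r = 1) :
    (y : Matrix ι ι F) * j = j * (y : Matrix ι ι F) := by
  have hyinv : ((y⁻¹ : GL ι F) : Matrix ι ι F) * (y : Matrix ι ι F) = 1 := by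
    rw [← Units.val_mul, inv_mul_cancel, Units.val_one]
  obtain ⟨J, hJ⟩ : ∃ J, J = (y : Matrix ι ι F) * j * ((y⁻¹ : GL ι F) : Matrix ι ι F) := ⟨_, rfl⟩
  have hJK : J ∈ K := hJ ▸ (hy j).1 hj
  have hJJ : J * J = η • 1 := by
    rw [hJ, show (y : Matrix ι ι F) * j * ((y⁻¹ : GL ι F) : Matrix ι ι F) *
        ((y : Matrix ι ι F) * j * ((y⁻¹ : GL ι F) : Matrix ι ι F)) = (y : Matrix ι ι F) * j *
        (((y⁻¹ : GL ι F) : Matrix ι ι F) * (y : Matrix ι ι F)) * (j * ((y⁻¹ : GL ι F) : Matrix ι ι F)) by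
          simp only [mul_assoc],
      hyinv, mul_one, mul_assoc (y : Matrix ι ι F), ← mul_assoc j, hsq, smul_mul_assoc, one_mul, mul_smul_comm,
      ← Units.val_mul, mul_inv_cancel, Units.val_one]
  have hcomm : j * J = J * j := by
    obtain ⟨a, b, hab⟩ := span_one_gen hK.finrank_eq hj hns hJK
    rw [hab]
    simp only [mul_add, add_mul, mul_smul_comm, smul_mul_assoc, mul_one, one_mul]
  have hyj : (y : Matrix ι ι F) * j = J * (y : Matrix ι ι F) := by rw [hJ, mul_assoc, hyinv, mul_one]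
  by_cases hne : J - j = 0
  · rw [hyj, sub_eq_zero.1 hne]
  · obtain ⟨w, -, hw⟩ := hK.inv _ (K.sub_mem hJK hj) hne
    have hwl : w * (J - j) = 1 := mul_eq_one_comm.1 hw
    have h0 : (J - j) * (J + j) = 0 := by rw [sub_mul, mul_add, mul_add, hJJ, hsq, hcomm]; abel
    have h1 : J = -j := by
      rw [eq_neg_iff_add_eq_zero, ← one_mul (J + j), ← hwl, mul_assoc, h0, mul_zero]
    rw [h1, neg_mul] at hyj
    have hpow : ∀ k : ℕ, (y : Matrix ι ι F) ^ k * j = ((-1 : F) ^ k) • (j * (y : Matrix ι ι F) ^ k) := by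
      intro k
      induction k with
      | zero => simp
      | succ k ih =>
        rw [pow_succ (y : Matrix ι ι F), mul_assoc, hyj, mul_neg, ← mul_assoc, ih, smul_mul_assoc, mul_assoc j,
          ← neg_smul, pow_succ (-1 : F), mul_neg_one]
    have h3 := hpow r
    rw [hyr, one_mul, mul_one, hr.neg_one_pow, neg_smul, one_smul, eq_neg_iff_add_eq_zero, ← two_smul F,
      smul_eq_zero] at h3
    exact absurd (h3.resolve_left h2) fun h => hns 0 (by rw [h, zero_smul])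

variable [Fintype F]

/-- All elements of order `r` fix a point iff `r = 2`. -/
theorem main {p : ℕ} [Fact p.Prime] [CharP F p] (hodd : Odd (Fintype.card F)) {Q : QuadraticForm F (ι → F)}
    (hQ : (polarBilin Q).Nondegenerate) {d : ℕ} (hd : 4 ≤ d) (hι : Fintype.card ι = 2 * d)
    (K : Subalgebra F (Matrix ι ι F)) (hK : Cfsg.Geo.IsFieldSubalgebra 2 K)
    (hKf : Cfsg.Geo.IsSelfAdjointFor (polar ⇑Q) K) {r : ℕ} [hr : Fact r.Prime]
    (hΩ : r ∣ (Cfsg.Geo.subalgebraNormalizer K).relIndex (Cfsg.Geo.omegaGL ⇑Q)) :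
    (∀ x ∈ Cfsg.Geo.omegaGL ⇑Q, (∃ z : F, ((x ^ r : GL ι F) : Matrix ι ι F) = z • (1 : Matrix ι ι F)) →
      (∀ z : F, (x : Matrix ι ι F) ≠ z • (1 : Matrix ι ι F)) →
      ∃ g ∈ Cfsg.Geo.omegaGL ⇑Q, g⁻¹ * x * g ∈ Cfsg.Geo.subalgebraNormalizer K) ↔ r = 2 := by
  classical
  obtain ⟨k₀, hk₀, hcard⟩ := FiniteField.card F p
  have hp2 : p ≠ 2 := fun h => by
    rw [hcard, h] at hodd
    exact Nat.not_odd_iff_even.mpr ((even_two).pow_of_ne_zero k₀.pos.ne') hodd
  have h2 : (2 : F) ≠ 0 := Ring.two_ne_zero (by rw [ringChar.eq F p]; exact hp2)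
  obtain ⟨M, η, T, hMK, hη, hT, hTM, hMM, hMns⟩ := exists_gen h2 hK hKf
  have hnorm : ∀ (g : GL ι F) (κ : F), κ * κ = 1 →
      (∀ v, (g : Matrix ι ι F) *ᵥ T v = κ • T ((g : Matrix ι ι F) *ᵥ v)) →
      g ∈ Cfsg.Geo.subalgebraNormalizer K := fun g κ hκ h => mem_normalizer hK.finrank_eq hMK hMns g κ hκ
    (Matrix.ext_iff_mulVec.mpr fun v => by
      rw [← Matrix.mulVec_mulVec, Matrix.smul_mulVec, ← Matrix.mulVec_mulVec, ← hTM, ← hTM, h])
  constructor
  · intro hall
    by_contra hr2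
    have hrodd := hr.out.odd_of_ne_two hr2
    have contra : ∀ x : GL ι F, x ∈ Cfsg.Geo.omegaGL ⇑Q → x ^ r = 1 → x ≠ 1 →
        (∀ T' : Module.End F (ι → F), IsRoot Q η T' →
          ¬ ∀ v, T' ((x : Matrix ι ι F) *ᵥ v) = (x : Matrix ι ι F) *ᵥ T' v) → False := by
      intro x hx hxr hx1 havoid
      obtain ⟨y, -, hyx⟩ := mem_omegaGL.mp hx
      have hxQ : ∀ v, Q ((x : Matrix ι ι F) *ᵥ v) = Q v := hyx ▸ mem_isometryGroup.mp y.2
      obtain ⟨g, hg, hgx⟩ := hall x hx ⟨1, by rw [hxr, one_smul, Units.val_one]⟩ fun z hz => hx1 (by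
        obtain ⟨v, hv⟩ := exists_nonsingular hQ (by omega)
        have h1 := hxQ v
        rw [hz, Matrix.smul_mulVec, Matrix.one_mulVec, QuadraticMap.map_smul, smul_eq_mul] at h1
        have hz2 : z * z = 1 := mul_right_cancel₀ hv (h1.trans (one_mul _).symm)
        have h3 : ((x ^ r : GL ι F) : Matrix ι ι F) = (z ^ r) • (1 : Matrix ι ι F) := by
          rw [Units.val_pow_eq_pow_val, hz, smul_pow, one_pow]
        obtain ⟨k, hk⟩ := hrodd
        rw [hxr, Units.val_one, hk, pow_succ, pow_mul, pow_two, hz2, one_pow, one_mul] at h3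
        exact Units.ext (by rw [hz, ← h3, Units.val_one]))
      have hn : ((g⁻¹ * x * g : GL ι F) : Matrix ι ι F) ^ r = 1 := by
        rw [← Units.val_pow_eq_pow_val, show (g⁻¹ * x * g : GL ι F) = g⁻¹ * x * g⁻¹⁻¹ by rw [inv_inv], conj_pow, hxr,
          mul_one, inv_inv, inv_mul_cancel, Units.val_one]
      have hc := comm_of_normalizer h2 hK hMK hMns hMM hgx hrodd hn
      obtain ⟨gy, -, hgy⟩ := mem_omegaGL.mp hg
      obtain ⟨T', hT'⟩ : ∃ T' : Module.End F (ι → F),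
          ∀ v, T' v = (g : Matrix ι ι F) *ᵥ T (((g⁻¹ : GL ι F) : Matrix ι ι F) *ᵥ v) :=
        ⟨Matrix.toLin' (g : Matrix ι ι F) ∘ₗ T ∘ₗ Matrix.toLin' ((g⁻¹ : GL ι F) : Matrix ι ι F), fun v => rfl⟩
      have hgQ : ∀ v, Q ((g : Matrix ι ι F) *ᵥ v) = Q v := hgy ▸ mem_isometryGroup.mp gy.2
      have hgp : ∀ u v, polar Q ((g : Matrix ι ι F) *ᵥ u) ((g : Matrix ι ι F) *ᵥ v) = polar Q u v := fun u v => by
        simp only [polar, ← Matrix.mulVec_add, hgQ]
      have hgi : ∀ v, (g : Matrix ι ι F) *ᵥ (((g⁻¹ : GL ι F) : Matrix ι ι F) *ᵥ v) = v := fun v => by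
        rw [Matrix.mulVec_mulVec, ← Units.val_mul, mul_inv_cancel, Units.val_one, Matrix.one_mulVec]
      have hig : ∀ v, ((g⁻¹ : GL ι F) : Matrix ι ι F) *ᵥ ((g : Matrix ι ι F) *ᵥ v) = v := fun v => by
        rw [Matrix.mulVec_mulVec, ← Units.val_mul, inv_mul_cancel, Units.val_one, Matrix.one_mulVec]
      refine havoid T' ⟨fun u v => ?_, fun v => ?_⟩ fun v => ?_
      · calc polar Q (T' u) v = polar Q (T' u) ((g : Matrix ι ι F) *ᵥ (((g⁻¹ : GL ι F) : Matrix ι ι F) *ᵥ v)) := by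
              rw [hgi]
          _ = polar Q (((g⁻¹ : GL ι F) : Matrix ι ι F) *ᵥ u) (T (((g⁻¹ : GL ι F) : Matrix ι ι F) *ᵥ v)) := by
              rw [hT', hgp, hT.1]
          _ = polar Q u (T' v) := by rw [← hgp, hgi, ← hT']
      · rw [hT', hT', hig, hT.2, Matrix.mulVec_smul, hgi]
      · have h3 := congrArg (fun A : Matrix ι ι F => (g : Matrix ι ι F) *ᵥ (A *ᵥ (((g⁻¹ : GL ι F) : Matrix ι ι F) *ᵥ v))) hc
        simp only [← Matrix.mulVec_mulVec, Units.val_mul, hgi, ← hTM] at h3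
        rw [hT', hT']
        exact h3.symm
    by_cases hrp : r = p
    · subst hrp
      obtain ⟨x, hx, hxp, hx1, hxT⟩ := exists_root_witness (η := η) hp2 hQ hη (by omega)
      exact contra x hx hxp hx1 hxT
    · have hrq : ¬ r ∣ Fintype.card F := fun h =>
        hrp ((Nat.prime_dvd_prime_iff_eq hr.out Fact.out).mp (hr.out.dvd_of_dvd_pow (hcard ▸ h)))
      have h4 := not_four_dvd h2 hQ hη (by omega) hι hT hrq
        (fun y hy => hnorm y 1 (one_mul 1) fun v => by rw [one_smul, hy v]) hΩ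
      obtain ⟨x₀, hx₀⟩ := exists_prime_orderOf_dvd_card' (G := ↥(Cfsg.Geo.omegaGL ⇑Q)) r
        (hΩ.trans (Subgroup.relIndex_dvd_card _ _))
      obtain ⟨y₀, -, hyx₀⟩ := mem_omegaGL.mp x₀.2
      have hy₀o : orderOf y₀ = r := by rw [← Subgroup.orderOf_coe, hyx₀, Subgroup.orderOf_coe, hx₀]
      obtain ⟨u, hu⟩ := exists_unit_card (F := F) (p := p) (r := r) dvd_rfl hrp
      obtain ⟨P, hP, hLfin, hζ⟩ := exists_root_field F hr.out (natCast_ne_zero hrp)
      obtain ⟨h, hh, hinv⟩ := exists_multiplier u hr2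
      have hy₀r : y₀ ^ r = 1 := hy₀o ▸ pow_orderOf_eq_one y₀
      have hyM := pow_eq_one_of_mem hy₀r
      obtain ⟨f₀, hf₀⟩ : ∃ f₀ : ZMod r → ℕ, f₀ = fun x => mult (AdjoinRoot.root P) ((y₀ : GL ι F) : Matrix ι ι F) x :=
        ⟨_, rfl⟩
      have hf₀h : ∀ x, f₀ (x * (h : ZMod r)) = f₀ x := (hinv f₀).mp ⟨fun x => by rw [hf₀, hu]; exact mult_frob hζ _ x,
        fun x => by rw [hf₀]; exact mult_neg_of_isometry hζ hrp hQ hyM (mem_isometryGroup.mp y₀.2) x⟩
      have hf₀s : ∑ x, f₀ x = 2 * d := by rw [hf₀]; exact (sum_mult hζ hyM).trans hι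
      have hf₀ne : f₀ 0 ≠ 2 * d := fun he => by
        have hz : ∀ x, x ≠ 0 → f₀ x = 0 := fun x hx => by
          have h1 := Finset.add_sum_erase Finset.univ f₀ (Finset.mem_univ (0 : ZMod r))
          rw [hf₀s, he] at h1
          have := Finset.single_le_sum (f := f₀) (fun _ _ => Nat.zero_le _)
            (Finset.mem_erase.mpr ⟨hx, Finset.mem_univ x⟩)
          omega
        have h1 := (isConj_iff_mult hζ hrp hr2 hQ y₀ 1 hy₀r (one_pow r)).mpr (funext fun x => by
          rw [OneMemClass.coe_one, Units.val_one, mult_one hζ, hι]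
          rcases eq_or_ne x 0 with rfl | hx
          · rw [if_pos rfl]; rw [hf₀] at he; exact he
          · rw [if_neg hx]; have := hz x hx; rwa [hf₀] at this)
        rw [isConj_one_left] at h1
        rw [h1, orderOf_one] at hy₀o
        exact hr.out.one_lt.ne hy₀o
      obtain ⟨k, hk, -⟩ := SubElusive.orbit_data h f₀ hf₀h
      rw [hf₀s] at hk
      have hk1 : 1 ≤ k := Nat.pos_of_ne_zero fun hk0 => hf₀ne (by rw [hk0, mul_zero, add_zero] at hk; exact hk)
      have hck : orderOf h ≤ orderOf h * k := Nat.le_mul_of_pos_right _ hk1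
      obtain ⟨f, hf, hf0, hfs, hf1⟩ := exists_fun_zero (rfl : orderOf h = orderOf h) (2 * d - orderOf h) 1
      rw [mul_one, Nat.sub_add_cancel (show orderOf h ≤ 2 * d by omega)] at hfs
      have hcr : orderOf h * 1 ≤ r - 1 := by
        rw [mul_one, ← ZMod.card_units r]; exact orderOf_le_card_univ
      obtain ⟨B, hB, hBm, -⟩ := exists_ts_elem_even hζ hrp hr2 hu hQ hι (Iff.rfl (a := HasHalf Q)) hinv (m := 0) f
        (fun _ => 0) hf (fun _ => rfl) (fun _ => Nat.zero_le _) hfs Finset.sum_const_zero (fun h0 => by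
          rw [hf0, mul_zero] at h0
          rw [hf0, h0, Nat.sub_zero]
          have hz : f₀ 0 = 0 := by omega
          rw [MType, hasHalf_of_moving hζ hrp hu hr2 hQ hyM (mem_isometryGroup.mp y₀.2) (by rwa [hf₀] at hz), hι])
      have hhpos := orderOf_pos h
      obtain ⟨x₁, hx₁, hfx₁⟩ : ∃ x₁ : ZMod r, x₁ ≠ 0 ∧ f x₁ = 1 := by
        by_contra hcon
        push Not at hcon
        have hz : ∀ x ∈ Finset.univ, x ≠ (0 : ZMod r) → f x = 0 := fun x _ hx => by
          have := hf1 hcr x hx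
          have := hcon x hx
          omega
        rw [Finset.sum_eq_single 0 hz (fun h => absurd (Finset.mem_univ _) h), hf0] at hfs
        omega
      have hBM := pow_eq_one_of_mem hB
      have hBr : (B : GL ι F) ^ r = 1 := by rw [← SubmonoidClass.coe_pow, hB, OneMemClass.coe_one]
      have hB1 : (B : GL ι F) ≠ 1 := fun he => by
        have := hBm x₁
        rw [he, Units.val_one, mult_one hζ, if_neg hx₁, hfx₁] at this
        exact zero_ne_one this
      refine contra _ (mem_omegaGL.mpr ⟨B, mem_omega_odd hQ (by omega) B hrodd hB, rfl⟩) hBr hB1 fun T' hT' => ?_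
      refine avoid_simple hζ h2 hQ hη hBM (mem_isometryGroup.mp B.2) ?_ hr2 rfl ?_ h4 hx₁
        ((hBm x₁).trans hfx₁) hT'
      · rw [← map_natCast (algebraMap F (AdjoinRoot P))]
        exact (map_ne_zero _).mpr (natCast_ne_zero hrp)
      · rw [← hu, orderOf_units]; exact orderOf_pos u
  · rintro rfl x hx ⟨z, hz⟩ hns
    obtain ⟨y, hy, hyx⟩ := mem_omegaGL.mp hx
    rw [pow_two, Units.val_mul] at hz
    obtain ⟨g, hg, T', κ, hκ, hgT, hyT⟩ := exists_conj_two h2 hQ hη (d := d) (by omega) hι hT y hy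
      (c := z) (by rw [hyx]; exact hz) (fun w => by rw [hyx]; exact hns w)
    refine ⟨(g : GL ι F), mem_omegaGL.mpr ⟨g, hg, rfl⟩, hnorm _ κ hκ fun v => ?_⟩
    have hig : ∀ v, (((g : GL ι F))⁻¹ : GL ι F).val *ᵥ (((g : GL ι F) : Matrix ι ι F) *ᵥ v) = v := fun v => by
      rw [Matrix.mulVec_mulVec, ← Units.val_mul, inv_mul_cancel, Units.val_one, Matrix.one_mulVec]
    have hgi : ∀ v, ((g : GL ι F) : Matrix ι ι F) *ᵥ ((((g : GL ι F))⁻¹ : GL ι F).val *ᵥ v) = v := fun v => by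
      rw [Matrix.mulVec_mulVec, ← Units.val_mul, mul_inv_cancel, Units.val_one, Matrix.one_mulVec]
    simp only [Units.val_mul, ← Matrix.mulVec_mulVec, ← hyx]
    rw [hgT, hyT, Matrix.mulVec_smul]
    congr 1
    have h3 := hgT ((((g : GL ι F))⁻¹ : GL ι F).val *ᵥ
      (((y : GL ι F) : Matrix ι ι F) *ᵥ (((g : GL ι F) : Matrix ι ι F) *ᵥ v)))
    rw [hgi] at h3
    rw [← h3, hig]

end CfsgLib.OrthExt
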