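import Cfsg.Agent.SubElusive.OrthNDOddCrit
import Cfsg.Agent.OrthUnip.Main

/-!
Unipotent elements fixing no odd-dimensional nondegenerate subspace of a given class.
-/

set_option autoImplicit false
set_option linter.style.haveILetI false

open Matrix QuadraticMap CfsgLib.Forms CfsgLib.SemiClasses CfsgLib.OrthTS

namespace CfsgLib.OrthND

variable {F : Type*} [Field F] [Fintype F] {p : ℕ} [hp : Fact p.Prime] [CharP F p]
  {ι : Type} [Fintype ι] [DecidableEq ι] {Q : QuadraticForm F (ι → F)}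

/-- An isometry `1 + D` with `D³ = 0` as an element of `Ω`. -/
theorem exists_of_nil (hp2 : p ≠ 2) (hQ : (polarBilin Q).Nondegenerate) (hn : Fintype.card ι ≠ 4)
    (D : Module.End F (ι → F)) (hD : ∀ v, D (D (D v)) = 0) (hDQ : ∀ v, Q (v + D v) = Q v) (hD0 : D ≠ 0) :
    ∃ x : GL ι F, x ∈ Cfsg.Geo.omegaGL ⇑Q ∧ x ^ p = 1 ∧ x ≠ 1 ∧ ∀ v, (x : Matrix ι ι F) *ᵥ v = v + D v := by
  haveI : Nonempty ι := by
    by_contra h
    rw [not_nonempty_iff] at h
    exact hD0 (LinearMap.ext fun v => Subsingleton.elim _ _)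
  haveI : CharP (Module.End F (ι → F)) p :=
    charP_of_injective_algebraMap (algebraMap F (Module.End F (ι → F))).injective p
  have h3 : D ^ p = 0 := by
    have : D ^ 3 = 0 := LinearMap.ext fun v => by
      rw [pow_succ, pow_succ, pow_one, Module.End.mul_apply, Module.End.mul_apply, hD]; rfl
    rw [← Nat.add_sub_cancel' (show 3 ≤ p by have := hp.out.two_le; omega), pow_add, this, zero_mul]
  obtain ⟨M, hM⟩ : ∃ M, M = LinearMap.toMatrix' (1 + D) := ⟨_, rfl⟩
  have hMp : M ^ p = 1 := by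
    have h1 := map_pow (LinearMap.toMatrixAlgEquiv' (R := F) (n := ι)) (1 + D) p
    rw [add_pow_char_of_commute p (Commute.one_left D), one_pow, h3, add_zero, map_one] at h1
    rw [hM]; exact h1.symm
  obtain ⟨x, hx⟩ := IsUnit.of_pow_eq_one hMp hp.out.ne_zero
  have hxv : ∀ v, (x : Matrix ι ι F) *ᵥ v = v + D v := fun v => by
    rw [hx, hM, LinearMap.toMatrix'_mulVec]; rfl
  have hxp : x ^ p = 1 := Units.ext (by rw [Units.val_pow_eq_pow_val, hx, hMp, Units.val_one])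
  refine ⟨x, mem_omegaGL.mpr ⟨⟨x, mem_isometryGroup.mpr fun v => by rw [hxv, hDQ]⟩,
    mem_omega_odd hQ hn _ (hp.out.odd_of_ne_two hp2) (Subtype.ext hxp), rfl⟩, hxp, fun h1 => hD0 ?_, hxv⟩
  refine LinearMap.ext fun v => ?_
  have := hxv v
  rw [h1, Units.val_one, Matrix.one_mulVec] at this
  simpa using this.symm

omit [Fintype F] [CharP F p] hp [DecidableEq ι] in
/-- Facts about `1 + D` on an invariant subspace killed by `D²`. -/
theorem nil_facts {D : Module.End F (ι → F)} (hDQ : ∀ v, Q (v + D v) = Q v) {W : Submodule F (ι → F)}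
    (h0 : ∀ v ∈ W, D (D v) = 0) :
    (∀ u ∈ W, ∀ v ∈ W, polar Q (D u) (D v) = 0) ∧ (∀ u ∈ W, ∀ v ∈ W, polar Q (D u) v = -polar Q u (D v)) := by
  have h : ∀ u v, polar Q (D u) v + polar Q u (D v) + polar Q (D u) (D v) = 0 := fun u v => by
    have h1 : polar Q (u + D u) (v + D v) = polar Q u v := by
      simp only [polar, hDQ, show u + D u + (v + D v) = u + v + D (u + v) by rw [map_add]; abel]
    rw [polar_add_left, polar_add_right, polar_add_right] at h1
    linear_combination h1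
  have hTS : ∀ u ∈ W, ∀ v ∈ W, polar Q (D u) (D v) = 0 := fun u hu v hv => by
    have := h u (D v)
    rw [h0 v hv, polar_zero_right, polar_zero_right, add_zero, add_zero] at this
    exact this
  exact ⟨hTS, fun u hu v hv => by
    have := h u v
    rw [hTS u hu v hv, add_zero] at this
    linear_combination this⟩

omit [Fintype F] [CharP F p] hp in
/-- An invariant odd-dimensional subspace killed by `D²` when `Q` has rank one on the fixed space. -/
theorem nil_class (h2 : (2 : F) ≠ 0) {m : ℕ} (hm : Odd m) {R : QuadraticForm F (Fin m → F)}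
    (hR : (polarBilin R).Nondegenerate) {D : Module.End F (ι → F)} (hDQ : ∀ v, Q (v + D v) = Q v)
    (φ : (ι → F) →ₗ[F] F) {β : F} (hker : ∀ v, D v = 0 → Q v = β * (φ v * φ v))
    (L : (Fin m → F) →ₗ[F] (ι → F)) (hL : Function.Injective L) (hLQ : ∀ v, Q (L v) = R v)
    (hinv : ∀ v, D (L v) ∈ LinearMap.range L) (h0 : ∀ v, D (D (L v)) = 0) :
    m % 4 = 1 ∧ ∃ (S : Submodule F (Fin m → F)) (u : Fin m → F), (∀ v ∈ S, R v = 0) ∧
      2 * Module.finrank F S + 1 = m ∧ u ∈ perp R S ∧ R u ≠ 0 ∧ ∃ t : F, R u = β * (t * t) := by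
  classical
  choose E hE using hinv
  let E' : Module.End F (Fin m → F) :=
    { toFun := E
      map_add' := fun a b => hL (by rw [map_add, hE, hE, hE, map_add, map_add])
      map_smul' := fun c a => hL (by rw [RingHom.id_apply, map_smul, hE, hE, map_smul, map_smul]) }
  have hE' : ∀ v, L (E' v) = D (L v) := hE
  have hR' : ∀ a b, polar R a b = polar Q (L a) (L b) := fun a b => by simp only [polar, ← map_add, hLQ]
  obtain ⟨hTS, hskew⟩ := nil_facts hDQ (W := LinearMap.range L) (by rintro _ ⟨v, rfl⟩; exact h0 v)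
  have hskew' : ∀ a b, polar R (E' a) b = -polar R a (E' b) := fun a b => by
    rw [hR', hR', hE', hE']; exact hskew _ ⟨a, rfl⟩ _ ⟨b, rfl⟩
  have hrTS : ∀ v ∈ LinearMap.range E', R v = 0 := by
    rintro _ ⟨a, rfl⟩
    have h := hTS _ ⟨a, rfl⟩ _ ⟨a, rfl⟩
    rw [polar_self, nsmul_eq_mul, Nat.cast_two, ← hE', hLQ] at h
    exact (mul_eq_zero.mp h).resolve_left h2
  obtain ⟨K, hK⟩ : ∃ K, K = LinearMap.ker E' := ⟨_, rfl⟩
  have hKD : ∀ v ∈ K, D (L v) = 0 := fun v hv => by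
    rw [hK] at hv
    rw [← hE', LinearMap.mem_ker.mp hv, map_zero]
  have hKQ : ∀ v ∈ K, R v = β * (φ (L v) * φ (L v)) := fun v hv => by rw [← hLQ]; exact hker _ (hKD v hv)
  have hKp : ∀ a ∈ K, ∀ c ∈ K, polar R a c = β * (2 * (φ (L a) * φ (L c))) := fun a ha c hc => by
    rw [polar, hKQ _ (K.add_mem ha hc), hKQ a ha, hKQ c hc, map_add, map_add]; ring
  obtain ⟨S, hS⟩ : ∃ S, S = K ⊓ LinearMap.ker (φ ∘ₗ L) := ⟨_, rfl⟩
  have hSs : ∀ v ∈ S, R v = 0 := fun v hv => by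
    rw [hS] at hv
    rw [hKQ v hv.1, show φ (L v) = 0 from hv.2]; ring
  have hr1 := two_finrank_le_of_singular hR hrTS
  have hs1 := two_finrank_le_of_singular hR hSs
  rw [Module.finrank_fin_fun] at hr1 hs1
  have hrk := E'.finrank_range_add_finrank_ker
  rw [Module.finrank_fin_fun, ← hK] at hrk
  have hS2 : Module.finrank F K ≤ Module.finrank F S + 1 := by
    have h1 := Submodule.finrank_sup_add_finrank_inf_eq K (LinearMap.ker (φ ∘ₗ L))
    have h3 := (φ ∘ₗ L).finrank_range_add_finrank_ker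
    have h4 := Submodule.finrank_le (LinearMap.range (φ ∘ₗ L))
    have h5 := Submodule.finrank_le (K ⊔ LinearMap.ker (φ ∘ₗ L))
    rw [Module.finrank_self] at h4
    rw [Module.finrank_fin_fun] at h3 h5
    rw [← hS] at h1
    omega
  obtain ⟨μ, hμ⟩ := hm
  obtain ⟨u, huK, hu0⟩ : ∃ u ∈ K, R u ≠ 0 := by
    by_contra hno
    push Not at hno
    have := two_finrank_le_of_singular hR hno
    rw [Module.finrank_fin_fun] at this
    omega
  refine ⟨?_, S, u, hSs, by omega, ?_, hu0, _, hKQ u huK⟩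
  · -- the rank is even
    obtain ⟨C, hC⟩ := Submodule.exists_isCompl K
    have hCd := Submodule.finrank_add_eq_of_isCompl hC
    rw [Module.finrank_fin_fun] at hCd
    let B : LinearMap.BilinForm F C := (polarBilin R).compl₁₂ (E' ∘ₗ C.subtype) C.subtype
    have hBa : ∀ a c : C, B a c = polar R (E' a) c := fun a c => rfl
    have hA : B.IsAlt := fun a => by
      have h := hskew' (a : Fin m → F) a
      rw [polar_comm R (a : Fin m → F)] at h
      have h3 : (2 : F) * B a a = 0 := by rw [hBa]; linear_combination h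
      exact (mul_eq_zero.1 h3).resolve_left h2
    obtain ⟨M, k₀, bas, -, -, -, hrad⟩ := Cfsg.Agent.S0752.result B hA
    rcases Nat.eq_zero_or_pos k₀ with rfl | hpos
    · have := Module.finrank_eq_card_basis bas
      simp at this
      omega
    · exfalso
      obtain ⟨a, had⟩ : ∃ a, a = bas (Sum.inr ⟨0, hpos⟩) := ⟨_, rfl⟩
      have hz : E' (a : Fin m → F) = 0 := by
        refine polar_ext hR fun y => ?_
        obtain ⟨k, c, hkc, -⟩ := Submodule.existsUnique_add_of_isCompl hC y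
        have h1 : polar R (E' (a : Fin m → F)) (k : Fin m → F) = 0 := by
          rw [hskew', LinearMap.mem_ker.mp (hK ▸ k.2 : (k : Fin m → F) ∈ LinearMap.ker E'), polar_zero_right, neg_zero]
        rw [← hkc, polar_add_right, h1, zero_add, ← hBa, had]
        exact hrad _ c
      have hmem : (a : Fin m → F) ∈ K ⊓ C := ⟨hK ▸ LinearMap.mem_ker.mpr hz, a.2⟩
      rw [hC.inf_eq_bot, Submodule.mem_bot] at hmem
      exact bas.ne_zero (Sum.inr ⟨0, hpos⟩) (had ▸ Subtype.ext hmem)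
  · refine mem_perp.mpr fun s hs => ?_
    rw [hS] at hs
    rw [hKp u huK s hs.1, show φ (L s) = 0 from hs.2]; ring

omit [CharP F p] hp in
/-- The square class attached to an odd-dimensional form. -/
theorem class_const (h2 : (2 : F) ≠ 0) {m : ℕ} (hm : Odd m) {R : QuadraticForm F (Fin m → F)}
    (hR : (polarBilin R).Nondegenerate) :
    ∃ c₀ : F, c₀ ≠ 0 ∧ ∀ (S : Submodule F (Fin m → F)) (u : Fin m → F), (∀ v ∈ S, R v = 0) →
      2 * Module.finrank F S + 1 = m → u ∈ perp R S → R u ≠ 0 → ∃ t : F, t ≠ 0 ∧ R u = c₀ * (t * t) := by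
  classical
  obtain ⟨μ, hμ⟩ := hm
  have htop : Disjoint (⊤ : Submodule F (Fin m → F)) (perp R ⊤) := Submodule.disjoint_def.mpr fun x _ hx =>
    polar_ext hR fun y => mem_perp.mp hx y trivial
  obtain ⟨S₀, -, hS₀, hS₀d⟩ := exists_singular_in h2 (Q := R) ⊤ htop μ
    (by rw [finrank_top, Module.finrank_fin_fun]; omega)
  have hpd : Module.finrank F (perp R S₀) = μ + 1 := by
    rw [finrank_perp hR, Module.finrank_fin_fun, hS₀d]; omega
  have hle : S₀ ≤ perp R S₀ := fun v hv => mem_perp.mpr fun s hs => polar_eq_zero_of_sing hS₀ hv hs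
  obtain ⟨u₀, hu₀, hu₀Q⟩ : ∃ u₀ ∈ perp R S₀, R u₀ ≠ 0 := by
    by_contra hno
    push Not at hno
    have := two_finrank_le_of_singular hR hno
    rw [Module.finrank_fin_fun] at this
    omega
  have hspan : perp R S₀ = S₀ ⊔ Submodule.span F {u₀} := by
    refine (Submodule.eq_of_le_of_finrank_le (sup_le hle ((Submodule.span_singleton_le_iff_mem _ _).mpr hu₀)) ?_).symm
    have hlt : S₀ < S₀ ⊔ Submodule.span F {u₀} := lt_of_le_of_ne le_sup_left fun h => hu₀Q (hS₀ u₀ (by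
      rw [h]; exact Submodule.mem_sup_right (Submodule.mem_span_singleton_self u₀)))
    have := Submodule.finrank_lt_finrank_of_lt hlt
    omega
  refine ⟨R u₀, hu₀Q, fun S u hS hSd hu hu0 => ?_⟩
  let τ : S ≃ₗ[F] S₀ := LinearEquiv.ofFinrankEq _ _ (by omega)
  obtain ⟨g, hg, hgS⟩ := witt hR S (S₀.subtype ∘ₗ τ.toLinearMap) (Subtype.val_injective.comp τ.injective)
    (fun s => by rw [hS _ s.2]; exact hS₀ _ (τ s).2)
  have hgu : g u ∈ perp R S₀ := mem_perp.mpr fun s hs => by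
    obtain ⟨s', hs'⟩ := τ.surjective ⟨s, hs⟩
    have e : g (s' : Fin m → F) = s := (hgS s').trans (congrArg Subtype.val hs')
    rw [← e]
    have : polar R (g u) (g (s' : Fin m → F)) = polar R u s' := by simp only [polar, ← map_add, hg]
    rw [this]
    exact mem_perp.mp hu _ s'.2
  rw [hspan] at hgu
  obtain ⟨s, hs, y, hy, hsy⟩ := Submodule.mem_sup.mp hgu
  obtain ⟨t, rfl⟩ := Submodule.mem_span_singleton.mp hy
  have e : R u = R u₀ * (t * t) := by
    rw [← hg u, ← hsy, QuadraticMap.map_add (⇑R), hS₀ s hs, QuadraticMap.map_smul, polar_smul_right,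
      polar_comm R s u₀, mem_perp.mp hu₀ s hs]
    simp only [smul_eq_mul, mul_zero, add_zero, zero_add]
    ring
  exact ⟨t, fun ht => hu0 (by rw [e, ht]; ring), e⟩

omit [CharP F p] hp in
/-- The complement of a subspace isometric to one summand is isometric to the other. -/
theorem perp_iso (hQ : (polarBilin Q).Nondegenerate) {m b : ℕ} {R₀ : QuadraticForm F (Fin m → F)}
    {R₁ : QuadraticForm F (Fin b → F)} (e : (Fin m ⊕ Fin b → F) ≃ₗ[F] (ι → F))
    (he : ∀ v, Q (e v) = sumForm R₀ R₁ v) (L : (Fin m → F) →ₗ[F] (ι → F)) (hL : Function.Injective L)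
    (hLQ : ∀ v, Q (L v) = R₀ v) (hR₀ : (polarBilin R₀).Nondegenerate) :
    ∃ L' : (Fin b → F) →ₗ[F] (ι → F), Function.Injective L' ∧ (∀ v, Q (L' v) = R₁ v) ∧
      LinearMap.range L' = perp Q (LinearMap.range L) ∧ Disjoint (LinearMap.range L) (LinearMap.range L') := by
  classical
  obtain ⟨L₀, hL₀⟩ : ∃ L₀ : (Fin m → F) →ₗ[F] (ι → F), ∀ v, L₀ v = e (Sum.elim v 0) :=
    ⟨e.toLinearMap ∘ₗ OrthOddSub.inlL F (Fin m) (Fin b), fun _ => rfl⟩
  have hL₀i : Function.Injective L₀ := fun u v h => funext fun j => by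
    rw [hL₀, hL₀] at h
    exact congrFun (e.injective h) (Sum.inl j)
  have hL₀Q : ∀ v, Q (L₀ v) = R₀ v := fun v => by
    rw [hL₀, he, sumForm_apply, Sum.elim_comp_inl, Sum.elim_comp_inr, QuadraticMap.map_zero, add_zero]
  let φ : LinearMap.range L₀ →ₗ[F] (ι → F) := L ∘ₗ (LinearEquiv.ofInjective L₀ hL₀i).symm.toLinearMap
  have hφL : ∀ v, φ ⟨L₀ v, v, rfl⟩ = L v := fun v => by
    show L ((LinearEquiv.ofInjective L₀ hL₀i).symm ⟨L₀ v, v, rfl⟩) = _
    congr 1
    exact (LinearEquiv.ofInjective L₀ hL₀i).symm_apply_apply v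
  obtain ⟨g, hg, hgφ⟩ := witt hQ (LinearMap.range L₀) φ (hL.comp (LinearEquiv.ofInjective L₀ hL₀i).symm.injective)
    (by rintro ⟨_, v, rfl⟩; rw [hφL, hLQ, hL₀Q])
  have hgL : ∀ v, g (L₀ v) = L v := fun v => (hgφ ⟨L₀ v, v, rfl⟩).trans (hφL v)
  obtain ⟨L', hL'⟩ : ∃ L' : (Fin b → F) →ₗ[F] (ι → F), ∀ v, L' v = g (e (Sum.elim 0 v)) :=
    ⟨g.toLinearMap ∘ₗ e.toLinearMap ∘ₗ
      ({ toFun := fun v => Sum.elim 0 v
         map_add' := fun u v => by funext i; cases i <;> simp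
         map_smul' := fun a v => by funext i; cases i <;> simp } : (Fin b → F) →ₗ[F] (Fin m ⊕ Fin b → F)), fun _ => rfl⟩
  have hL'i : Function.Injective L' := fun u v h => funext fun j => by
    rw [hL', hL'] at h
    exact congrFun (e.injective (g.injective h)) (Sum.inr j)
  have horth : ∀ u v, polar Q (L' v) (L u) = 0 := fun u v => by
    rw [hL', ← hgL, hL₀]
    have e1 : ∀ a c, polar Q (g (e a)) (g (e c)) = polar (sumForm R₀ R₁) a c := fun a c => by
      simp only [polar, ← map_add, hg, he]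
    rw [e1, polar_sumForm, Sum.elim_comp_inl, Sum.elim_comp_inr, Sum.elim_comp_inl, Sum.elim_comp_inr,
      polar_zero_left, polar_zero_right, add_zero]
  refine ⟨L', hL'i, fun v => ?_, ?_, ?_⟩
  · rw [hL', hg, he, sumForm_apply, Sum.elim_comp_inl, Sum.elim_comp_inr, QuadraticMap.map_zero, zero_add]
  · refine Submodule.eq_of_le_of_finrank_eq ?_ ?_
    · rintro _ ⟨v, rfl⟩
      refine mem_perp.mpr ?_
      rintro _ ⟨u, rfl⟩
      exact horth u v
    · have := e.finrank_eq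
      rw [Module.finrank_fintype_fun_eq_card, Module.finrank_fintype_fun_eq_card, Fintype.card_sum, Fintype.card_fin,
        Fintype.card_fin] at this
      rw [finrank_perp hQ, LinearMap.finrank_range_of_inj hL'i, LinearMap.finrank_range_of_inj hL,
        Module.finrank_fin_fun, Module.finrank_fin_fun, Module.finrank_fintype_fun_eq_card]
      omega
  · rw [Submodule.disjoint_def]
    rintro _ ⟨u, rfl⟩ ⟨v, hv⟩
    have hu0 : u = 0 := polar_ext hR₀ fun y => by
      have : polar R₀ u y = polar Q (L u) (L y) := by simp only [polar, ← map_add, hLQ]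
      rw [this, ← hv]
      exact horth y v
    rw [hu0, map_zero]

omit [CharP F p] hp [Fintype F] in
theorem skew_mat (k : ℕ) : ∃ N : Matrix (Fin k ⊕ Fin k) (Fin k ⊕ Fin k) F,
    (∀ w, (N *ᵥ w) ⬝ᵥ w = 0) ∧ ∀ w, N *ᵥ w = 0 → w = 0 := by
  classical
  refine ⟨Matrix.fromBlocks 0 1 (-1) 0, fun w => ?_, fun w hw => ?_⟩
  · rw [Matrix.fromBlocks_mulVec]
    simp [dotProduct, Fintype.sum_sum_type, Matrix.neg_mulVec, mul_comm]
  · rw [Matrix.fromBlocks_mulVec] at hw
    simp [Matrix.neg_mulVec] at hw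
    funext j
    rcases j with j | j
    · have := congrFun hw (Sum.inr j); simpa using this
    · have := congrFun hw (Sum.inl j); simpa using this

/-- For `d` odd: a partition with no suitable part. -/
theorem witness_odd (hp2 : p ≠ 2) (hQ : (polarBilin Q).Nondegenerate) {d m : ℕ} (hι : Fintype.card ι = 2 * d)
    (hd : 3 ≤ d) (hdo : Odd d) (hm : Odd m) {R₀ : QuadraticForm F (Fin m → F)}
    (hR₀ : (polarBilin R₀).Nondegenerate) :
    ∃ x : GL ι F, x ∈ Cfsg.Geo.omegaGL ⇑Q ∧ x ^ p = 1 ∧ x ≠ 1 ∧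
      ∀ W : Submodule F (ι → F), IsoSub Q R₀ W → ¬ W.map (Matrix.toLin' (x : Matrix ι ι F)) ≤ W := by
  classical
  have h2 : (2 : F) ≠ 0 := Ring.two_ne_zero (by rw [ringChar.eq F p]; exact hp2)
  have hp3 : 3 ≤ p := by have := hp.out.two_le; omega
  obtain ⟨δ, hδ⟩ := hdo
  obtain ⟨a, A, K, hsum, hA, hK, hbad⟩ : ∃ a A K : ℕ, a * 2 + 2 * K = 2 * d ∧ (a = 1 ∨ a = 3) ∧ Even K ∧
      (A = a ∧ (∀ j, m ≠ a + 4 * j) ∧ 1 ≤ K + (a - 1)) := by
    rcases (show m % 4 = 1 ∨ m % 4 = 3 by obtain ⟨μ, rfl⟩ := hm; omega) with h | h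
    · exact ⟨3, 3, 2 * (δ - 1), by omega, Or.inr rfl, even_two_mul _, rfl, fun j => by omega, by omega⟩
    · exact ⟨1, 1, 2 * δ, by omega, Or.inl rfl, even_two_mul _, rfl, fun j => by omega, by omega⟩
  obtain ⟨-, hbad, hne⟩ := hbad
  obtain ⟨μ, hμ⟩ : ∃ μ : Multiset ℕ, μ = Multiset.replicate 2 a + Multiset.replicate K 2 := ⟨_, rfl⟩
  have hmem : ∀ e ∈ μ, e = a ∨ e = 2 := fun e he => by
    rw [hμ, Multiset.mem_add] at he
    exact he.imp Multiset.eq_of_mem_replicate Multiset.eq_of_mem_replicate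
  obtain ⟨x, hxm, hxp, hrk⟩ := OrthUnip.exists_unip hp2 Q hQ (by omega) μ
    (fun e he => by rcases hmem e he with rfl | rfl <;> omega)
    (fun e he => by
      rw [hμ, Multiset.count_add, Multiset.count_replicate, Multiset.count_replicate]
      obtain ⟨kk, hkk⟩ := hK
      have hae : a ≠ e := fun h => by rw [← h, Nat.even_iff] at he; omega
      rw [if_neg hae, zero_add]
      split_ifs
      · exact ⟨kk, hkk⟩
      · exact Even.zero)
    ⟨a, by rw [hμ]; exact Multiset.mem_add.mpr (Or.inl (Multiset.mem_replicate.mpr ⟨two_ne_zero, rfl⟩)),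
      by rcases hA with rfl | rfl <;> decide⟩
    (by rw [hμ, Multiset.sum_add, Multiset.sum_replicate, Multiset.sum_replicate, smul_eq_mul, smul_eq_mul, hι]; omega)
  have hx1 : x ≠ 1 := fun h => by
    have h0 : Matrix.toLin' ((1 : GL ι F) : Matrix ι ι F) - 1 = 0 := by
      rw [Units.val_one, Matrix.toLin'_one, Module.End.one_eq_id, sub_self]
    have := hrk 1
    rw [h, h0, OrthUnip.rkOn, pow_one, Submodule.map_zero, finrank_bot, OrthUnip.rankSum, hμ, Multiset.map_add,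
      Multiset.sum_add, Multiset.map_replicate, Multiset.map_replicate, Multiset.sum_replicate,
      Multiset.sum_replicate, smul_eq_mul, smul_eq_mul] at this
    omega
  refine ⟨x, hxm, hxp, hx1, fun W hW hinv => ?_⟩
  obtain ⟨y, -, rfl⟩ := mem_omegaGL.mp hxm
  have hyQ := mem_isometryGroup.mp y.2
  have hX : ∀ u v, polarBilin Q (Matrix.toLin' ((y : GL ι F) : Matrix ι ι F) u)
      (Matrix.toLin' ((y : GL ι F) : Matrix ι ι F) v) = polarBilin Q u v := fun u v => by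
    simp only [polarBilin_apply_apply, polar, Matrix.toLin'_apply, ← Matrix.mulVec_add, hyQ]
  have hXp : Matrix.toLin' ((y : GL ι F) : Matrix ι ι F) ^ p = 1 := by
    have h1 := map_pow (Matrix.toLinAlgEquiv' (R := F) (n := ι)) ((y : GL ι F) : Matrix ι ι F) p
    rw [← Units.val_pow_eq_pow_val, hxp, Units.val_one, map_one] at h1
    exact h1.symm
  haveI : Nonempty ι := Fintype.card_pos_iff.1 (by omega)
  haveI : CharP (Module.End F (ι → F)) p :=
    charP_of_injective_algebraMap (algebraMap F (Module.End F (ι → F))).injective p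
  have hN : (Matrix.toLin' ((y : GL ι F) : Matrix ι ι F) - 1) ^ p = 0 := by
    rw [sub_pow_char_of_commute p (Commute.one_right _), one_pow, hXp, sub_self]
  obtain ⟨hWd, hWn, -⟩ := hW.subOK hR₀
  obtain ⟨ν, hle, hνs, hνe, -⟩ := OrthUnip.sub_multiset h2 (B := polarBilin Q) (fun u v => polar_comm _ u v)
    (fun u h => nondegenerate_iff.1 hQ u h) hX hp.out.one_le hN hXp hrk
    (fun e he => by rcases hmem e he with rfl | rfl <;> omega) (W := W) (fun u hu h => by_contra fun h0 => by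
      obtain ⟨-, ⟨v, hv, hne'⟩⟩ := hWn u hu h0
      exact hne' (h v hv)) hinv
  have hν : ∀ e ∈ ν, e = a ∨ e = 2 := fun e he => hmem e (Multiset.mem_of_le hle he)
  have hs := OrthUnip.sum_small ν (fun e he => by rcases hν e he with rfl | rfl <;> omega)
  have hca : ν.count a ≤ 2 := by
    refine (Multiset.count_le_of_le a hle).trans ?_
    rw [hμ, Multiset.count_add, Multiset.count_replicate_self, Multiset.count_replicate, if_neg (by omega)]
  obtain ⟨j, hj⟩ := hνe 2 even_two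
  obtain ⟨μm, hμm⟩ := hm
  rcases hA with rfl | rfl
  · have h3 : ν.count 3 = 0 := Multiset.count_eq_zero.mpr fun h => by have := hν 3 h; omega
    exact hbad j (by omega)
  · have h1 : ν.count 1 = 0 := Multiset.count_eq_zero.mpr fun h => by have := hν 1 h; omega
    exact hbad j (by omega)

/-- For minus type with `d` even: one block of size three, with the class of the fixed vector chosen. -/
theorem witness_minus (hp2 : p ≠ 2) (hQ : (polarBilin Q).Nondegenerate) {d m b : ℕ} (hι : Fintype.card ι = 2 * d)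
    (hd : 3 ≤ d) (hde : Even d) (hm : Odd m) (hb : m + b = 2 * d) {R₀ : QuadraticForm F (Fin m → F)}
    (hR₀ : (polarBilin R₀).Nondegenerate) {R₁ : QuadraticForm F (Fin b → F)} (hR₁ : (polarBilin R₁).Nondegenerate)
    (e : (Fin m ⊕ Fin b → F) ≃ₗ[F] (ι → F)) (he : ∀ v, Q (e v) = sumForm R₀ R₁ v) :
    ∃ x : GL ι F, x ∈ Cfsg.Geo.omegaGL ⇑Q ∧ x ^ p = 1 ∧ x ≠ 1 ∧
      ∀ W : Submodule F (ι → F), IsoSub Q R₀ W → ¬ W.map (Matrix.toLin' (x : Matrix ι ι F)) ≤ W := by
  classical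
  have h2 : (2 : F) ≠ 0 := Ring.two_ne_zero (by rw [ringChar.eq F p]; exact hp2)
  obtain ⟨μ, hμ⟩ := hm
  obtain ⟨hk2, hk⟩ : ∃ k, d - 1 = 2 * k + 1 := by
    obtain ⟨δ, hδ⟩ := hde; exact ⟨δ - 1, by omega⟩
  obtain ⟨hde2, hδ⟩ := hde
  obtain ⟨c₀, hc₀0, hc₀⟩ := class_const h2 ⟨μ, hμ⟩ hR₀
  obtain ⟨c₁, hc₁0, hc₁⟩ := class_const h2 (m := b) ⟨d - μ - 1, by omega⟩ hR₁
  obtain ⟨η, hη⟩ := FiniteField.exists_nonsquare (F := F) (by rw [ringChar.eq F p]; exact hp2)
  have hη0 : η ≠ 0 := fun h => hη (h ▸ IsSquare.zero)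
  obtain ⟨β, hβ⟩ : ∃ β, β = η * if m % 4 = 1 then c₀ else c₁ := ⟨_, rfl⟩
  have hβ0 : β ≠ 0 := by rw [hβ]; split_ifs <;> exact mul_ne_zero hη0 (by assumption)
  obtain ⟨v₀, hv₀⟩ := Forms.exists_value hQ (by rw [Module.finrank_fintype_fun_eq_card]; omega) hβ0
  have hv₀0 : v₀ ≠ 0 := fun h => hβ0 (by rw [← hv₀, h, QuadraticMap.map_zero])
  have hsub : OrthOddSub.SubOK Q 1 (Cfsg.Geo.IsPlusTypeOn ⇑Q (Submodule.span F {v₀})) (Submodule.span F {v₀}) := by
    refine ⟨finrank_span_singleton hv₀0, fun u hu hu0 => ?_, Iff.rfl⟩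
    obtain ⟨a, rfl⟩ := Submodule.mem_span_singleton.mp hu
    have ha : a ≠ 0 := fun h => hu0 (by rw [h, zero_smul])
    have h1 : polar Q v₀ (a • v₀) ≠ 0 := by
      rw [polar_smul_right, polar_self, hv₀, smul_eq_mul, nsmul_eq_mul, Nat.cast_two]
      exact mul_ne_zero ha (mul_ne_zero h2 hβ0)
    exact ⟨⟨v₀, Submodule.mem_span_singleton_self _, h1⟩,
      ⟨v₀, Submodule.mem_span_singleton_self _, by rwa [polar_comm]⟩⟩
  obtain ⟨b', e', R, R', hcard, -, hR', he', hrange, -⟩ := OrthOddSub.exists_split hQ hsub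
  obtain ⟨cc, hcc, φ, hφ⟩ := exists_iso_scaled hR' (m := d - 1) (by rw [Fintype.card_fin]; omega)
  have hφ' : ∀ v, cc * quadOdd F (d - 1) (φ v) = R' v := fun v => by rw [← hφ, _root_.smul_apply, smul_eq_mul]
  obtain ⟨x₀, hx₀⟩ : ∃ x₀ : Fin 1 → F, e' (OrthOddSub.inlL F (Fin 1) (Fin b') x₀) = v₀ := by
    have h : v₀ ∈ LinearMap.range (e'.toLinearMap ∘ₗ OrthOddSub.inlL F (Fin 1) (Fin b')) := by
      rw [hrange]; exact Submodule.mem_span_singleton_self _
    exact h
  have hx00 : x₀ 0 ≠ 0 := fun h => hv₀0 (by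
    rw [← hx₀, show x₀ = 0 from funext fun j => by rw [Subsingleton.elim j 0]; exact h, map_zero, map_zero])
  have hRv : ∀ y : Fin 1 → F, R y = β * ((y 0 / x₀ 0) * (y 0 / x₀ 0)) := fun y => by
    have hy : y = (y 0 / x₀ 0) • x₀ := funext fun j => by
      rw [Subsingleton.elim j 0, Pi.smul_apply, smul_eq_mul, div_mul_cancel₀ _ hx00]
    have h := he' (OrthOddSub.inlL F (Fin 1) (Fin b') x₀)
    rw [hx₀, hv₀, OrthOddSub.inlL_apply, sumForm_apply, Sum.elim_comp_inl, Sum.elim_comp_inr, QuadraticMap.map_zero,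
      add_zero] at h
    conv_lhs => rw [hy]
    rw [QuadraticMap.map_smul, smul_eq_mul, ← h]
    ring
  -- the nilpotent map on the complement
  obtain ⟨N, hN0, hNi⟩ := skew_mat (F := F) hk2
  let σ : Fin (d - 1) ≃ Unit ⊕ (Fin hk2 ⊕ Fin hk2) := (Fintype.equivOfCardEq (by simp; omega))
  obtain ⟨i₀, hi₀⟩ : ∃ i₀, i₀ = σ.symm (Sum.inl ()) := ⟨_, rfl⟩
  obtain ⟨M, hM⟩ : ∃ M : (Fin (d - 1) → F) →ₗ[F] (Fin (d - 1) → F),
      ∀ w, M w = fun i => Sum.elim (0 : Unit → F) (N *ᵥ fun j => w (σ.symm (Sum.inr j))) (σ i) :=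
    ⟨{ toFun := fun w => fun i => Sum.elim (0 : Unit → F) (N *ᵥ fun j => w (σ.symm (Sum.inr j))) (σ i)
       map_add' := fun w w' => funext fun i => by
         simp only [Pi.add_apply, show (fun j => w (σ.symm (Sum.inr j)) + w' (σ.symm (Sum.inr j))) =
           (fun j => w (σ.symm (Sum.inr j))) + fun j => w' (σ.symm (Sum.inr j)) from rfl, Matrix.mulVec_add]
         cases σ i <;> simp
       map_smul' := fun c w => funext fun i => by
         simp only [Pi.smul_apply, RingHom.id_apply, show (fun j => c • w (σ.symm (Sum.inr j))) =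
           c • fun j => w (σ.symm (Sum.inr j)) from rfl, Matrix.mulVec_smul]
         cases σ i <;> simp }, fun _ => rfl⟩
  have hMw : ∀ w, (M w) ⬝ᵥ w = 0 := fun w => by
    have e1 : (M w) ⬝ᵥ w = ∑ s, Sum.elim (0 : Unit → F) (N *ᵥ fun j => w (σ.symm (Sum.inr j))) s * w (σ.symm s) :=
      Fintype.sum_equiv σ _ _ fun i => by rw [hM]; simp
    have h := hN0 fun j => w (σ.symm (Sum.inr j))
    simp only [dotProduct] at h
    rw [e1, Fintype.sum_sum_type]
    simp [h]
  obtain ⟨D₁, hD₁⟩ : ∃ D₁ : Module.End F (Unit ⊕ (Fin (d - 1) ⊕ Fin (d - 1)) → F), ∀ y, D₁ y =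
      Sum.elim (fun _ => y (Sum.inr (Sum.inr i₀)))
        (Sum.elim (M (fun i => y (Sum.inr (Sum.inr i))) -
          (2 * y (Sum.inl ()) + y (Sum.inr (Sum.inr i₀))) • (Pi.single i₀ 1 : Fin (d - 1) → F)) 0) :=
    ⟨{ toFun := fun y => Sum.elim (fun _ => y (Sum.inr (Sum.inr i₀)))
        (Sum.elim (M (fun i => y (Sum.inr (Sum.inr i))) -
          (2 * y (Sum.inl ()) + y (Sum.inr (Sum.inr i₀))) • (Pi.single i₀ 1 : Fin (d - 1) → F)) 0)
       map_add' := fun y y' => by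
         simp only [Pi.add_apply, show (fun i => y (Sum.inr (Sum.inr i)) + y' (Sum.inr (Sum.inr i))) =
           (fun i => y (Sum.inr (Sum.inr i))) + fun i => y' (Sum.inr (Sum.inr i)) from rfl, map_add]
         funext s; rcases s with s | (s | s) <;> simp; ring
       map_smul' := fun c y => by
         simp only [Pi.smul_apply, RingHom.id_apply, show (fun i => c • y (Sum.inr (Sum.inr i))) =
           c • fun i => y (Sum.inr (Sum.inr i)) from rfl, map_smul]
         funext s; rcases s with s | (s | s) <;> simp; ring }, fun _ => rfl⟩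
  have hsing : ∀ (s : F) (w : Fin (d - 1) → F), ∑ i, (s • (Pi.single i₀ 1 : Fin (d - 1) → F)) i * w i = s * w i₀ :=
    fun s w => by
      simp only [Pi.smul_apply, Pi.single_apply, smul_eq_mul, mul_ite, mul_one, mul_zero, ite_mul, zero_mul,
        Finset.sum_ite_eq', Finset.mem_univ, if_true]
  have hD₁Q : ∀ y, quadOdd F (d - 1) (y + D₁ y) = quadOdd F (d - 1) y := fun y => by
    rw [hD₁, coe_quadOdd]
    simp only [Cfsg.quadFormOdd, Pi.add_apply, Sum.elim_inl, Sum.elim_inr, Pi.zero_apply, add_zero, add_mul,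
      Pi.sub_apply, sub_mul, Finset.sum_add_distrib, Finset.sum_sub_distrib, hsing]
    have h := hMw fun i => y (Sum.inr (Sum.inr i))
    simp only [dotProduct] at h
    rw [h]
    ring
  have hM0 : M 0 = 0 := map_zero M
  have hD₁₂ : ∀ y, D₁ (D₁ y) = (-2 * y (Sum.inr (Sum.inr i₀))) •
      (Sum.elim 0 (Sum.elim (Pi.single i₀ 1 : Fin (d - 1) → F) 0) : Unit ⊕ (Fin (d - 1) ⊕ Fin (d - 1)) → F) := fun y => by
    rw [hD₁ (D₁ y), hD₁ y]
    funext s
    simp only [Sum.elim_inr, Sum.elim_inl, Pi.zero_apply, add_zero, show (fun _ : Fin (d - 1) => (0 : F)) = 0 from rfl,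
      hM0, zero_sub]
    rcases s with s | (s | s) <;> simp [Pi.single_apply]
    split_ifs <;> simp
  have hD₁ker : ∀ y, D₁ y = 0 → quadOdd F (d - 1) y = 0 := fun y hy => by
    rw [hD₁] at hy
    have h1 : y (Sum.inr (Sum.inr i₀)) = 0 := congrFun hy (Sum.inl ())
    have h3 : ∀ i, M (fun i => y (Sum.inr (Sum.inr i))) i -
        ((2 * y (Sum.inl ()) + y (Sum.inr (Sum.inr i₀))) • (Pi.single i₀ 1 : Fin (d - 1) → F)) i = 0 := fun i =>
      congrFun hy (Sum.inr (Sum.inl i))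
    have hz : y (Sum.inl ()) = 0 := by
      have h := h3 i₀
      simp [hM, hi₀] at h
      rw [hi₀] at h1
      rw [h1] at h
      exact (mul_eq_zero.mp (show (2 : F) * y (Sum.inl ()) = 0 by linear_combination -h)).resolve_left h2
    have hw : (fun j => y (Sum.inr (Sum.inr (σ.symm (Sum.inr j))))) = (0 : Fin hk2 ⊕ Fin hk2 → F) :=
      hNi _ (funext fun j => by
        have h := h3 (σ.symm (Sum.inr j))
        have hne : σ.symm (Sum.inr j) ≠ i₀ := fun h' => by
          rw [hi₀] at h'; exact Sum.inr_ne_inl (σ.symm.injective h')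
        simpa [hM, hne] using h)
    rw [coe_quadOdd]
    simp only [Cfsg.quadFormOdd, hz]
    have hall : ∀ i, y (Sum.inr (Sum.inr i)) = 0 := fun i => by
      obtain ⟨s, rfl⟩ := σ.symm.surjective i
      rcases s with s | s
      · rw [← hi₀]; exact h1
      · exact congrFun hw s
    simp [hall]
  obtain ⟨D, hD⟩ : ∃ D : Module.End F (ι → F), ∀ v, D v = e' (Sum.elim 0 (φ.symm (D₁ (φ ((e'.symm v) ∘ Sum.inr))))) :=
    ⟨e'.toLinearMap ∘ₗ ({ toFun := fun v => Sum.elim 0 v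
                          map_add' := fun u v => by funext i; cases i <;> simp
                          map_smul' := fun a v => by funext i; cases i <;> simp } :
        (Fin b' → F) →ₗ[F] (Fin 1 ⊕ Fin b' → F)) ∘ₗ φ.symm.toLinearMap ∘ₗ D₁ ∘ₗ φ.toLinearMap ∘ₗ
      LinearMap.funLeft F F Sum.inr ∘ₗ e'.symm.toLinearMap, fun _ => rfl⟩
  obtain ⟨ℓ, hℓ⟩ : ∃ ℓ, ℓ = e' (Sum.elim 0 (φ.symm (Sum.elim 0 (Sum.elim (Pi.single i₀ 1 : Fin (d - 1) → F) 0)))) :=
    ⟨_, rfl⟩
  have hDD : ∀ v, D (D v) = e' (Sum.elim 0 (φ.symm (D₁ (D₁ (φ ((e'.symm v) ∘ Sum.inr)))))) := fun v => by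
    rw [hD (D v), hD v, e'.symm_apply_apply, Sum.elim_comp_inr, φ.apply_symm_apply]
  have hDDs : ∀ v, ∃ t : F, D (D v) = t • ℓ := fun v => ⟨-2 * φ ((e'.symm v) ∘ Sum.inr) (Sum.inr (Sum.inr i₀)), by
    rw [hDD, hD₁₂, hℓ, map_smul, ← map_smul e']
    congr 1
    funext s; rcases s with s | s <;> simp⟩
  have hD3 : ∀ v, D (D (D v)) = 0 := fun v => by
    rw [hDD (D v), hD v, e'.symm_apply_apply, Sum.elim_comp_inr, φ.apply_symm_apply, hD₁₂ (D₁ _)]
    rw [hD₁]
    simp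
  have hDQ : ∀ v, Q (v + D v) = Q v := fun v => by
    obtain ⟨y, rfl⟩ := e'.surjective v
    rw [hD, e'.symm_apply_apply, ← map_add, he', he', sumForm_apply, sumForm_apply]
    rw [show (y + Sum.elim (0 : Fin 1 → F) (φ.symm (D₁ (φ (y ∘ Sum.inr))))) ∘ Sum.inl = y ∘ Sum.inl from funext fun i => by simp,
      show (y + Sum.elim (0 : Fin 1 → F) (φ.symm (D₁ (φ (y ∘ Sum.inr))))) ∘ Sum.inr = y ∘ Sum.inr + φ.symm (D₁ (φ (y ∘ Sum.inr))) from
        funext fun i => by simp]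
    congr 1
    rw [← hφ', ← hφ', map_add, φ.apply_symm_apply, hD₁Q]
  obtain ⟨ψ, hψ⟩ : ∃ ψ : (ι → F) →ₗ[F] F, ∀ v, ψ v = (e'.symm v) (Sum.inl 0) / x₀ 0 :=
    ⟨(x₀ 0)⁻¹ • (LinearMap.proj (Sum.inl 0) ∘ₗ e'.symm.toLinearMap), fun v => by
      simp [div_eq_inv_mul]⟩
  have hker : ∀ v, D v = 0 → Q v = β * (ψ v * ψ v) := fun v hv => by
    rw [hD, e'.map_eq_zero_iff] at hv
    have h1 : D₁ (φ ((e'.symm v) ∘ Sum.inr)) = 0 := by
      have : φ.symm (D₁ (φ ((e'.symm v) ∘ Sum.inr))) = 0 := funext fun i => congrFun hv (Sum.inr i)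
      exact φ.symm.map_eq_zero_iff.mp this
    have h3 := hD₁ker _ h1
    conv_lhs => rw [← e'.apply_symm_apply v, he', sumForm_apply, ← hφ', h3, mul_zero, add_zero, hRv]
    rw [hψ, Function.comp_apply]
  have hD0 : D ≠ 0 := fun h => by
    have h1 := LinearMap.congr_fun h (e' (Sum.elim 0 (φ.symm (Sum.elim 0 (Sum.elim 0 (Pi.single i₀ 1))))))
    rw [hD, e'.symm_apply_apply, Sum.elim_comp_inr, φ.apply_symm_apply, LinearMap.zero_apply, e'.map_eq_zero_iff] at h1
    have h3 : φ.symm (D₁ (Sum.elim 0 (Sum.elim 0 (Pi.single i₀ 1)))) = 0 := funext fun i => congrFun h1 (Sum.inr i)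
    have h4 := congrFun (φ.symm.map_eq_zero_iff.mp h3) (Sum.inl ())
    rw [hD₁] at h4
    simp at h4
  obtain ⟨x, hx, hxp, hx1, hxv⟩ := exists_of_nil hp2 hQ (by omega) D hD3 hDQ hD0
  refine ⟨x, hx, hxp, hx1, ?_⟩
  rintro _ ⟨L, hL, rfl, hLQ⟩ hinv
  obtain ⟨L', hL', hL'Q, hperp, hdisj⟩ := perp_iso hQ e he L hL hLQ hR₀
  have hDW : ∀ v, D (L v) ∈ LinearMap.range L := fun v => by
    have h : L v + D (L v) ∈ LinearMap.range L := hinv ⟨L v, ⟨v, rfl⟩, by rw [Matrix.toLin'_apply, hxv]⟩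
    simpa using (LinearMap.range L).sub_mem h ⟨v, rfl⟩
  have hxi : Function.Injective (Matrix.toLin' (x : Matrix ι ι F)) := fun u v h => by
    rw [Matrix.toLin'_apply, Matrix.toLin'_apply] at h
    exact Matrix.mulVec_injective_iff_isUnit.mpr x.isUnit h
  have hmapeq : (LinearMap.range L).map (Matrix.toLin' (x : Matrix ι ι F)) = LinearMap.range L :=
    Submodule.eq_of_le_of_finrank_eq hinv (Submodule.equivMapOfInjective _ hxi _).finrank_eq.symm
  have hDW' : ∀ v, D (L' v) ∈ LinearMap.range L' := fun v => by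
    suffices h : L' v + D (L' v) ∈ LinearMap.range L' by
      simpa using (LinearMap.range L').sub_mem h ⟨v, rfl⟩
    rw [hperp]
    refine mem_perp.mpr fun w hw => ?_
    obtain ⟨w', hw', rfl⟩ : w ∈ (LinearMap.range L).map (Matrix.toLin' (x : Matrix ι ι F)) := hmapeq.symm ▸ hw
    rw [Matrix.toLin'_apply, hxv]
    have e1 : polar Q (L' v + D (L' v)) (w' + D w') = polar Q (L' v) w' := by
      simp only [polar, hDQ, show L' v + D (L' v) + (w' + D w') = L' v + w' + D (L' v + w') by rw [map_add]; abel]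
    rw [e1]
    exact mem_perp.mp (hperp ▸ ⟨v, rfl⟩ : L' v ∈ perp Q (LinearMap.range L)) w' hw'
  have hone : (∀ v, D (D (L v)) = 0) ∨ ∀ v, D (D (L' v)) = 0 := by
    by_contra hno
    push Not at hno
    obtain ⟨⟨u, hu⟩, v, hv⟩ := hno
    obtain ⟨s, hs⟩ := hDDs (L u)
    obtain ⟨t, ht⟩ := hDDs (L' v)
    have hs0 : s ≠ 0 := fun h => hu (by rw [hs, h, zero_smul])
    have ht0 : t ≠ 0 := fun h => hv (by rw [ht, h, zero_smul])
    have h1 : ∀ z ∈ LinearMap.range L, D z ∈ LinearMap.range L := by rintro _ ⟨z, rfl⟩; exact hDW z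
    have h1' : ∀ z ∈ LinearMap.range L', D z ∈ LinearMap.range L' := by rintro _ ⟨z, rfl⟩; exact hDW' z
    have m1 : ℓ ∈ LinearMap.range L := ((LinearMap.range L).smul_mem_iff hs0).mp (hs ▸ h1 _ (hDW u))
    have m2 : ℓ ∈ LinearMap.range L' := ((LinearMap.range L').smul_mem_iff ht0).mp (ht ▸ h1' _ (hDW' v))
    exact hu (by rw [hs, Submodule.disjoint_def.mp hdisj _ m1 m2, smul_zero])
  have hclash : ∀ {n : ℕ} {R : QuadraticForm F (Fin n → F)} (c : F), c ≠ 0 → β = η * c →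
      (∀ (S : Submodule F (Fin n → F)) (u : Fin n → F), (∀ v ∈ S, R v = 0) →
        2 * Module.finrank F S + 1 = n → u ∈ perp R S → R u ≠ 0 → ∃ t : F, t ≠ 0 ∧ R u = c * (t * t)) →
      ∀ (S : Submodule F (Fin n → F)) (u : Fin n → F), (∀ v ∈ S, R v = 0) → 2 * Module.finrank F S + 1 = n →
        u ∈ perp R S → R u ≠ 0 → (∃ t : F, R u = β * (t * t)) → False := by
    intro n R c hc0 hβc hcls S u h1 h3 h4 h5 ⟨t, ht⟩
    obtain ⟨t', ht', hu⟩ := hcls S u h1 h3 h4 h5
    have htz : t ≠ 0 := fun h => h5 (by rw [ht, h]; ring)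
    refine hη ⟨t' / t, ?_⟩
    rw [hu, hβc] at ht
    field_simp
    exact mul_left_cancel₀ hc0 (by linear_combination -ht)
  rcases hone with h0 | h0
  · obtain ⟨h4, S, u, hS, hSd, hu, hu0, ht⟩ := nil_class h2 ⟨μ, hμ⟩ hR₀ hDQ ψ hker L hL hLQ hDW h0
    exact hclash c₀ hc₀0 (by rw [hβ, if_pos h4]) hc₀ S u hS hSd hu hu0 ht
  · obtain ⟨h4, S, u, hS, hSd, hu, hu0, ht⟩ :=
      nil_class h2 (m := b) ⟨d - μ - 1, by omega⟩ hR₁ hDQ ψ hker L' hL' hL'Q hDW' h0
    exact hclash c₁ hc₁0 (by rw [hβ, if_neg (by omega)]) hc₁ S u hS hSd hu hu0 ht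

/-- For `r = p` some element of order `p` fixes no member of the class. -/
theorem main_char (hp2 : p ≠ 2) (hQ : (polarBilin Q).Nondegenerate) {d m b : ℕ} (hι : Fintype.card ι = 2 * d)
    (hd : 3 ≤ d) (hm : Odd m) (hb : m + b = 2 * d) {R₀ : QuadraticForm F (Fin m → F)}
    (hR₀ : (polarBilin R₀).Nondegenerate) {R₁ : QuadraticForm F (Fin b → F)} (hR₁ : (polarBilin R₁).Nondegenerate)
    (e : (Fin m ⊕ Fin b → F) ≃ₗ[F] (ι → F)) (he : ∀ v, Q (e v) = sumForm R₀ R₁ v) :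
    ¬ ∀ x : GL ι F, x ∈ Cfsg.Geo.omegaGL ⇑Q →
      (∃ z : F, ((x ^ p : GL ι F) : Matrix ι ι F) = z • (1 : Matrix ι ι F)) →
      (∀ z : F, (x : Matrix ι ι F) ≠ z • (1 : Matrix ι ι F)) →
      ∃ W : Submodule F (ι → F), IsoSub Q R₀ W ∧ W.map (Matrix.toLin' (x : Matrix ι ι F)) ≤ W := by
  intro hall
  haveI : Nonempty ι := Fintype.card_pos_iff.1 (by omega)
  obtain ⟨x, hx, hxp, hx1, hno⟩ : ∃ x : GL ι F, x ∈ Cfsg.Geo.omegaGL ⇑Q ∧ x ^ p = 1 ∧ x ≠ 1 ∧
      ∀ W : Submodule F (ι → F), IsoSub Q R₀ W → ¬ W.map (Matrix.toLin' (x : Matrix ι ι F)) ≤ W := by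
    rcases Nat.even_or_odd d with hde | hdo
    · exact witness_minus hp2 hQ hι hd hde hm hb hR₀ hR₁ e he
    · exact witness_odd hp2 hQ hι hd hdo hm hR₀
  obtain ⟨W, hW, hi⟩ := hall x hx ⟨1, by rw [hxp, Units.val_one, one_smul]⟩ (OrthUnip.not_scalar hxp hx1)
  exact hno W hW hi

end CfsgLib.OrthND
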