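import Cfsg.Agent.SubElusive.OrthNDEven
import Cfsg.Agent.SubElusive.OrthNDUnip
import Cfsg.Agent.Forms.RankParity
import Cfsg.Agent.Forms.AltRank

/-!
Elements `1 + D` with `D` alternating and `D² = 0`, and the even-dimensional subspaces they fix.
-/

set_option autoImplicit false
set_option linter.style.haveILetI false

open Matrix QuadraticMap CfsgLib.Forms CfsgLib.SemiClasses CfsgLib.OrthTS

namespace CfsgLib.OrthND

variable {F : Type*} [Field F] [Fintype F] {ι : Type} [Fintype ι] [DecidableEq ι] {Q : QuadraticForm F (ι → F)}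

omit [Fintype F] in
/-- An alternating endomorphism has even rank. -/
theorem even_range (hQ : (polarBilin Q).Nondegenerate) (E : Module.End F (ι → F))
    (h : ∀ a, polar Q (E a) a = 0) : Even (Module.finrank F (LinearMap.range E)) := by
  classical
  obtain ⟨P, hP⟩ : ∃ P : (ι → F) →ₗ[F] (ι → F), ∀ v i, P v i = polar Q v (Pi.single i 1) :=
    ⟨LinearMap.pi fun i => (polarBilin Q).flip (Pi.single i 1), fun v i => by simp⟩
  have hPdot : ∀ u v, u ⬝ᵥ P v = polar Q v u := fun u v => by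
    conv_rhs => rw [← Finset.univ_sum_single u]
    rw [polar_comm, polar_sum_left, dotProduct]
    refine Finset.sum_congr rfl fun i _ => ?_
    rw [show (Pi.single i (u i) : ι → F) = u i • (Pi.single i 1 : ι → F) by rw [← Pi.single_smul']; simp,
      polar_smul_left, polar_comm Q (Pi.single i 1 : ι → F) v, hP, smul_eq_mul]
  have hPi : Function.Injective P := (injective_iff_map_eq_zero P).mpr fun v hv =>
    polar_ext hQ fun y => by rw [← hPdot, hv, dotProduct_zero]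
  have hA := CfsgLib.AltRank.even_rank (LinearMap.toMatrix' (P ∘ₗ E)) fun v => by
    rw [LinearMap.toMatrix'_mulVec, LinearMap.comp_apply, hPdot, h]
  rw [Matrix.rank, show (LinearMap.toMatrix' (P ∘ₗ E)).mulVecLin = P ∘ₗ E by
      rw [← Matrix.toLin'_apply', Matrix.toLin'_toMatrix'], LinearMap.range_comp,
    ← (Submodule.equivMapOfInjective P hPi (LinearMap.range E)).finrank_eq] at hA
  exact hA

/-- `1 + D` for `D² = 0` of even rank as an element of `Ω`. -/
theorem exists_of_sq {p : ℕ} [hp : Fact p.Prime] [CharP F p] (hQ : (polarBilin Q).Nondegenerate)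
    (hn : 5 ≤ Fintype.card ι) (hev : Even (Fintype.card ι)) (D : Module.End F (ι → F)) (hD : ∀ v, D (D v) = 0)
    (hDQ : ∀ v, Q (v + D v) = Q v) (hD0 : D ≠ 0) (hr : Even (Module.finrank F (LinearMap.range D))) :
    ∃ x : GL ι F, x ∈ Cfsg.Geo.omegaGL ⇑Q ∧ x ^ p = 1 ∧ x ≠ 1 ∧
      ∀ v, (x : Matrix ι ι F) *ᵥ v = v + D v := by
  rcases eq_or_ne p 2 with rfl | hp2
  swap
  · exact exists_of_nil hp2 hQ (by omega) D (fun v => hD (D v)) hDQ hD0
  have h2 : (2 : F) = 0 := by simpa using CharP.cast_eq_zero F 2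
  obtain ⟨M, hM⟩ : ∃ M, M = LinearMap.toMatrix' (1 + D) := ⟨_, rfl⟩
  have hMv : ∀ v, M *ᵥ v = v + D v := fun v => by rw [hM, LinearMap.toMatrix'_mulVec]; rfl
  have hdd : ∀ v : ι → F, v + v = 0 := fun v => by rw [← two_smul F v, h2, zero_smul]
  have hMM : M ^ 2 = 1 := Matrix.ext_iff_mulVec.mpr fun v => by
    rw [pow_two, ← Matrix.mulVec_mulVec, hMv, hMv, Matrix.one_mulVec, map_add, hD, add_zero,
      add_assoc, hdd, add_zero]
  obtain ⟨x, hx⟩ := IsUnit.of_pow_eq_one hMM two_ne_zero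
  have hxv : ∀ v, (x : Matrix ι ι F) *ᵥ v = v + D v := fun v => by rw [hx, hMv]
  have hxp : x ^ 2 = 1 := Units.ext (by rw [Units.val_pow_eq_pow_val, hx, hMM, Units.val_one])
  refine ⟨x, mem_omegaGL.mpr ⟨⟨x, mem_isometryGroup.mpr fun v => by rw [hxv, hDQ]⟩, ?_, rfl⟩, hxp,
    fun h1 => hD0 (LinearMap.ext fun v => ?_), hxv⟩
  · rw [mem_Omega_iff_rank_even h2 hQ hn hev, Matrix.rank]
    rw [show ((x : Matrix ι ι F) - 1).mulVecLin = D from LinearMap.ext fun v => by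
      rw [Matrix.mulVecLin_apply, Matrix.sub_mulVec, hxv, Matrix.one_mulVec, add_sub_cancel_left]]
    exact hr
  · have := hxv v
    rw [h1, Units.val_one, Matrix.one_mulVec] at this
    simpa using this.symm

/-- Invariant subspaces when the fixed space is nearly totally singular. -/
theorem nil_fix (hQ : (polarBilin Q).Nondegenerate) {D : Module.End F (ι → F)}
    (hDalt : ∀ v, polar Q (D v) v = 0) (hDs : ∀ v, Q (D v) = 0) {S : Submodule F (ι → F)}
    (hSK : S ≤ LinearMap.ker D) (hS : ∀ v ∈ S, Q v = 0) {t : ℕ}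
    (ht : Module.finrank F (LinearMap.ker D) ≤ Module.finrank F S + t) {M : ℕ} {δ : Prop}
    {W : Submodule F (ι → F)} (hW : OrthOddSub.SubOK Q (2 * M) δ W) (hinv : ∀ v ∈ W, D v ∈ W) :
    (t ≤ 1 → δ) ∧ (t = 0 → Even M) ∧ (t = 2 → ¬ δ → Odd M) := by
  classical
  obtain ⟨b, e, R, R', -, hR, -, he, hrange, hT⟩ := OrthOddSub.exists_split hQ hW
  obtain ⟨L, hL, hLr, hLQ⟩ := hrange ▸ isoSub_model e he
  have hmem : ∀ v, ∃ y, L y = D (L v) := fun v => by
    have : D (L v) ∈ LinearMap.range L := by rw [hLr]; exact hinv _ (hLr ▸ ⟨v, rfl⟩)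
    exact this
  choose E hE using hmem
  let E' : Module.End F (Fin (2 * M) → F) :=
    { toFun := E
      map_add' := fun a b => hL (by rw [map_add, hE, hE, hE, map_add, map_add])
      map_smul' := fun c a => hL (by rw [RingHom.id_apply, map_smul, hE, hE, map_smul, map_smul]) }
  have hE' : ∀ v, L (E' v) = D (L v) := hE
  have hRp : ∀ a c, polar R a c = polar Q (L a) (L c) := fun a c => by simp only [polar, ← map_add, hLQ]
  have hev := even_range hR E' fun a => by rw [hRp, hE', hDalt]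
  have hr := two_finrank_le_of_singular hR (U := LinearMap.range E') (by
    rintro _ ⟨a, rfl⟩; rw [← hLQ, hE', hDs])
  have hs := two_finrank_le_of_singular hR (U := S.comap L) fun a ha => by rw [← hLQ]; exact hS _ ha
  rw [Module.finrank_fin_fun] at hr hs
  have hrk := E'.finrank_range_add_finrank_ker
  rw [Module.finrank_fin_fun] at hrk
  have hK : Module.finrank F (LinearMap.ker E') ≤ Module.finrank F (S.comap L) + t := by
    have hle : (LinearMap.ker E').map L ⊔ S ≤ LinearMap.ker D := sup_le (by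
      rintro _ ⟨a, ha, rfl⟩
      rw [LinearMap.mem_ker, ← hE', LinearMap.mem_ker.mp ha, map_zero]) hSK
    have h1 := Submodule.finrank_mono hle
    have h3 := Submodule.finrank_sup_add_finrank_inf_eq ((LinearMap.ker E').map L) S
    have h4 : Module.finrank F ↥((LinearMap.ker E').map L ⊓ S) ≤ Module.finrank F (S.comap L) := by
      rw [(Submodule.equivMapOfInjective L hL (S.comap L)).finrank_eq]
      refine Submodule.finrank_mono ?_
      rintro v ⟨⟨a, -, rfl⟩, ha⟩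
      exact ⟨a, ha, rfl⟩
    rw [← (Submodule.equivMapOfInjective L hL (LinearMap.ker E')).finrank_eq] at h3
    omega
  have hplus : Module.finrank F (LinearMap.range E') = M ∨ Module.finrank F (S.comap L) = M → δ := fun h => hT.mp (by
    rcases h with h | h
    · exact ⟨LinearMap.range E', by rintro _ ⟨a, rfl⟩; rw [← hLQ, hE', hDs], by rw [Fintype.card_fin]; omega⟩
    · exact ⟨S.comap L, fun a ha => by rw [← hLQ]; exact hS _ ha, by rw [Fintype.card_fin]; omega⟩)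
  refine ⟨fun ht1 => hplus (by omega), fun ht0 => ?_, fun ht2 hn => ?_⟩
  · rwa [show M = Module.finrank F (LinearMap.range E') by omega]
  · have h1 : Module.finrank F (LinearMap.range E') ≠ M := fun h => hn (hplus (Or.inl h))
    have h3 : Module.finrank F (S.comap L) ≠ M := fun h => hn (hplus (Or.inr h))
    rw [show M = Module.finrank F (LinearMap.range E') + 1 by omega]
    exact hev.add_one

omit [Fintype F] in
/-- An alternating matrix of maximal rank. -/
theorem exists_alt_max (n : ℕ) : ∃ (M : Matrix (Fin n) (Fin n) F) (φ : (Fin n → F) →ₗ[F] (Fin (n % 2) → F)),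
    (∀ w, (M *ᵥ w) ⬝ᵥ w = 0) ∧ (∀ w, M *ᵥ w = 0 → φ w = 0 → w = 0) ∧ (2 ≤ n → M ≠ 0) := by
  classical
  obtain ⟨N, hN0, hNi⟩ := skew_mat (F := F) (n / 2)
  let σ : Fin n ≃ (Fin (n / 2) ⊕ Fin (n / 2)) ⊕ Fin (n % 2) := Fintype.equivOfCardEq (by simp; omega)
  obtain ⟨M, hM⟩ : ∃ M : Matrix (Fin n) (Fin n) F, M = (Matrix.fromBlocks N 0 0 0).submatrix σ σ := ⟨_, rfl⟩
  have hMw : ∀ w, M *ᵥ w = Sum.elim (N *ᵥ fun j => w (σ.symm (Sum.inl j))) (0 : Fin (n % 2) → F) ∘ σ := fun w => by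
    rw [hM, Matrix.submatrix_mulVec_equiv, Matrix.fromBlocks_mulVec, Matrix.zero_mulVec, Matrix.zero_mulVec,
      Matrix.zero_mulVec, add_zero, zero_add]
    rfl
  have hMi : ∀ w, M *ᵥ w = 0 → ∀ j, w (σ.symm (Sum.inl j)) = 0 := fun w hw j => by
    refine congrFun (hNi (fun j => w (σ.symm (Sum.inl j))) (funext fun k => ?_)) j
    have h := congrFun hw (σ.symm (Sum.inl k))
    rw [hMw, Function.comp_apply, σ.apply_symm_apply] at h
    exact h
  refine ⟨M, LinearMap.funLeft F F fun i => σ.symm (Sum.inr i), fun w => ?_, fun w hw hφ => funext fun i => ?_,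
    fun hn h0 => ?_⟩
  · rw [hMw, dotProduct, ← σ.symm.sum_comp, Fintype.sum_sum_type]
    simp only [Function.comp_apply, σ.apply_symm_apply, Sum.elim_inl, Sum.elim_inr, Pi.zero_apply, zero_mul,
      Finset.sum_const_zero, add_zero]
    exact hN0 _
  · obtain ⟨s, rfl⟩ := σ.symm.surjective i
    rcases s with s | s
    exacts [hMi w hw s, congrFun hφ s]
  · have h := hMi (fun _ => (1 : F)) (by rw [h0, Matrix.zero_mulVec]) (Sum.inl ⟨0, by omega⟩)
    exact one_ne_zero h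

omit [Fintype F] in
theorem finrank_inf_ker {n : ℕ} (K : Submodule F (ι → F)) (φ : (ι → F) →ₗ[F] (Fin n → F)) :
    Module.finrank F K ≤ Module.finrank F ↥(K ⊓ LinearMap.ker φ) + n := by
  have h := (φ.domRestrict K).finrank_range_add_finrank_ker
  have h1 := Submodule.finrank_le (LinearMap.range (φ.domRestrict K))
  rw [Module.finrank_fin_fun] at h1
  have h2 : Module.finrank F (LinearMap.ker (φ.domRestrict K)) ≤ Module.finrank F ↥(K ⊓ LinearMap.ker φ) := by
    rw [(Submodule.equivMapOfInjective K.subtype K.subtype_injective _).finrank_eq]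
    refine Submodule.finrank_mono ?_
    rintro _ ⟨a, ha, rfl⟩
    exact ⟨a.2, ha⟩
  omega

variable {p : ℕ} [hp : Fact p.Prime] [CharP F p]

/-- The witness in the split space. -/
theorem witness_plus {d m : ℕ} (hd : 3 ≤ d) (hm : Even m) (δ : Prop) (hc : δ → Even d ∧ ¬ Even (m / 2)) :
    ¬ ∀ x : GL (Fin d ⊕ Fin d) F, x ∈ Cfsg.Geo.omegaGL ⇑(quadPlus F d) →
      (∃ z : F, ((x ^ p : GL (Fin d ⊕ Fin d) F) : Matrix (Fin d ⊕ Fin d) (Fin d ⊕ Fin d) F) =
        z • (1 : Matrix (Fin d ⊕ Fin d) (Fin d ⊕ Fin d) F)) →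
      (∀ z : F, (x : Matrix (Fin d ⊕ Fin d) (Fin d ⊕ Fin d) F) ≠ z • (1 : Matrix (Fin d ⊕ Fin d) (Fin d ⊕ Fin d) F)) →
      ∃ W : Submodule F (Fin d ⊕ Fin d → F), OrthOddSub.SubOK (quadPlus F d) m δ W ∧
        W.map (Matrix.toLin' (x : Matrix (Fin d ⊕ Fin d) (Fin d ⊕ Fin d) F)) ≤ W := by
  classical
  intro hall
  have hQ := nondegenerate_quadPlus (F := F) d
  obtain ⟨M, φ, hM0, hMi, hMne⟩ := exists_alt_max (F := F) d
  let Dl : Module.End F (Fin d ⊕ Fin d → F) :=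
    { toFun := fun y => Sum.elim (M *ᵥ (y ∘ Sum.inr)) 0
      map_add' := fun y y' => by
        rw [show (y + y') ∘ Sum.inr = y ∘ Sum.inr + y' ∘ Sum.inr from rfl, Matrix.mulVec_add]
        funext i; cases i <;> simp
      map_smul' := fun c y => by
        rw [show (c • y) ∘ Sum.inr = c • (y ∘ Sum.inr) from rfl, Matrix.mulVec_smul]
        funext i; cases i <;> simp }
  obtain ⟨D, hD⟩ : ∃ D : Module.End F (Fin d ⊕ Fin d → F), ∀ y, D y = Sum.elim (M *ᵥ (y ∘ Sum.inr)) 0 :=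
    ⟨Dl, fun _ => rfl⟩
  have hM0' : ∀ w : Fin d → F, ∑ i, (M *ᵥ w) i * w i = 0 := fun w => by simpa [dotProduct] using hM0 w
  have hDD : ∀ y, D (D y) = 0 := fun y => by
    rw [hD (D y), hD y, Sum.elim_comp_inr, Matrix.mulVec_zero]; funext i; cases i <;> simp
  have hDQ : ∀ y, quadPlus F d (y + D y) = quadPlus F d y := fun y => by
    rw [hD, coe_quadPlus]
    simp only [Cfsg.quadFormPlus, Pi.add_apply, Sum.elim_inl, Sum.elim_inr, Pi.zero_apply, add_zero, add_mul,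
      Finset.sum_add_distrib]
    exact add_eq_left.mpr (hM0' (y ∘ Sum.inr))
  have hDs : ∀ y, quadPlus F d (D y) = 0 := fun y => by
    rw [hD, coe_quadPlus]; simp [Cfsg.quadFormPlus]
  have hDalt : ∀ y, polar (quadPlus F d) (D y) y = 0 := fun y => by
    rw [polar, add_comm, hDQ, hDs]; ring
  have hD0 : D ≠ 0 := fun h => hMne (by omega) (Matrix.ext_iff_mulVec.mpr fun w => by
    have h1 := LinearMap.congr_fun h (Sum.elim 0 w)
    rw [hD, Sum.elim_comp_inr, LinearMap.zero_apply] at h1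
    rw [Matrix.zero_mulVec]
    exact funext fun i => congrFun h1 (Sum.inl i))
  obtain ⟨x, hx, hxp, hx1, hxv⟩ := exists_of_sq (p := p) hQ (by simp; omega) (by simp) D hDD hDQ hD0
    (even_range hQ D hDalt)
  haveI : Nonempty (Fin d ⊕ Fin d) := ⟨Sum.inl ⟨0, by omega⟩⟩
  obtain ⟨W, hW, hi⟩ := hall x hx ⟨1, by rw [hxp, Units.val_one, one_smul]⟩ (OrthUnip.not_scalar hxp hx1)
  have hinv : ∀ v ∈ W, D v ∈ W := fun v hv => by
    have h := hi ⟨v, hv, rfl⟩
    rw [Matrix.toLin'_apply, hxv] at h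
    simpa using W.sub_mem h hv
  obtain ⟨S, hS⟩ : ∃ S, S = LinearMap.ker D ⊓ LinearMap.ker (φ ∘ₗ LinearMap.funLeft F F Sum.inr) := ⟨_, rfl⟩
  have hSs : ∀ y ∈ S, quadPlus F d y = 0 := fun y hy => by
    rw [hS] at hy
    have h1 : D y = 0 := hy.1
    have hw : y ∘ Sum.inr = 0 := hMi _ (funext fun i => by
      rw [hD] at h1; exact congrFun h1 (Sum.inl i)) hy.2
    rw [coe_quadPlus]
    exact Finset.sum_eq_zero fun i _ => by rw [show y (Sum.inr i) = 0 from congrFun hw i, mul_zero]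
  obtain ⟨μ, rfl⟩ := hm
  rw [← two_mul] at hW
  obtain ⟨h1, h0, -⟩ := nil_fix hQ hDalt hDs (S := S) (hS ▸ inf_le_left) hSs
    (hS ▸ finrank_inf_ker _ _) hW hinv
  obtain ⟨hde, hμ⟩ := hc (h1 (by omega))
  rw [show (μ + μ) / 2 = μ by omega] at hμ
  exact hμ (h0 (Nat.even_iff.mp hde))

/-- The witness in the space of minus type. -/
theorem witness_minus_even {d' m : ℕ} (hd : 2 ≤ d') (hde : Even d') {a b : F}
    (hab : ∀ x y : F, x ^ 2 + a * x * y + b * y ^ 2 = 0 → x = 0 ∧ y = 0) (hm : m % 4 = 0) :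
    ¬ ∀ x : GL ((Fin d' ⊕ Fin d') ⊕ Fin 2) F, x ∈ Cfsg.Geo.omegaGL ⇑(quadMinus F d' a b) →
      (∃ z : F, ((x ^ p : GL ((Fin d' ⊕ Fin d') ⊕ Fin 2) F) : Matrix ((Fin d' ⊕ Fin d') ⊕ Fin 2) ((Fin d' ⊕ Fin d') ⊕ Fin 2) F) =
        z • (1 : Matrix ((Fin d' ⊕ Fin d') ⊕ Fin 2) ((Fin d' ⊕ Fin d') ⊕ Fin 2) F)) →
      (∀ z : F, (x : Matrix ((Fin d' ⊕ Fin d') ⊕ Fin 2) ((Fin d' ⊕ Fin d') ⊕ Fin 2) F) ≠
        z • (1 : Matrix ((Fin d' ⊕ Fin d') ⊕ Fin 2) ((Fin d' ⊕ Fin d') ⊕ Fin 2) F)) →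
      ∃ W : Submodule F ((Fin d' ⊕ Fin d') ⊕ Fin 2 → F), OrthOddSub.SubOK (quadMinus F d' a b) m False W ∧
        W.map (Matrix.toLin' (x : Matrix ((Fin d' ⊕ Fin d') ⊕ Fin 2) ((Fin d' ⊕ Fin d') ⊕ Fin 2) F)) ≤ W := by
  classical
  intro hall
  have hQ := nondegenerate_quadMinus (F := F) d' hab
  obtain ⟨M, φ, hM0, hMi, hMne⟩ := exists_alt_max (F := F) d'
  have hMi' : ∀ w, M *ᵥ w = 0 → w = 0 := fun w hw => hMi w hw (by
    have he : d' % 2 = 0 := Nat.even_iff.mp hde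
    funext i
    exact absurd i.2 (by omega))
  let Dl : Module.End F ((Fin d' ⊕ Fin d') ⊕ Fin 2 → F) :=
    { toFun := fun y => Sum.elim (Sum.elim (M *ᵥ (y ∘ Sum.inl ∘ Sum.inr)) 0) 0
      map_add' := fun y y' => by
        rw [show (y + y') ∘ Sum.inl ∘ Sum.inr = y ∘ Sum.inl ∘ Sum.inr + y' ∘ Sum.inl ∘ Sum.inr from rfl,
          Matrix.mulVec_add]
        funext i; rcases i with (i | i) | i <;> simp
      map_smul' := fun c y => by
        rw [show (c • y) ∘ Sum.inl ∘ Sum.inr = c • (y ∘ Sum.inl ∘ Sum.inr) from rfl, Matrix.mulVec_smul]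
        funext i; rcases i with (i | i) | i <;> simp }
  obtain ⟨D, hD⟩ : ∃ D : Module.End F ((Fin d' ⊕ Fin d') ⊕ Fin 2 → F),
      ∀ y, D y = Sum.elim (Sum.elim (M *ᵥ (y ∘ Sum.inl ∘ Sum.inr)) 0) 0 := ⟨Dl, fun _ => rfl⟩
  have hM0' : ∀ w : Fin d' → F, ∑ i, (M *ᵥ w) i * w i = 0 := fun w => by simpa [dotProduct] using hM0 w
  have hDD : ∀ y, D (D y) = 0 := fun y => by
    rw [hD (D y), hD y]
    rw [show Sum.elim (Sum.elim (M *ᵥ (y ∘ Sum.inl ∘ Sum.inr)) (0 : Fin d' → F)) (0 : Fin 2 → F) ∘ Sum.inl ∘ Sum.inr =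
      (0 : Fin d' → F) from rfl, Matrix.mulVec_zero]
    funext i; rcases i with (i | i) | i <;> simp
  have hDQ : ∀ y, quadMinus F d' a b (y + D y) = quadMinus F d' a b y := fun y => by
    rw [hD, coe_quadMinus]
    simp only [Cfsg.quadFormMinus, Pi.add_apply, Sum.elim_inl, Sum.elim_inr, Pi.zero_apply, add_zero, add_mul,
      Finset.sum_add_distrib]
    rw [show ∑ i, (M *ᵥ (y ∘ Sum.inl ∘ Sum.inr)) i * y (Sum.inl (Sum.inr i)) = 0 from
      hM0' (y ∘ Sum.inl ∘ Sum.inr), add_zero]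
  have hDs : ∀ y, quadMinus F d' a b (D y) = 0 := fun y => by
    rw [hD, coe_quadMinus]; simp [Cfsg.quadFormMinus]
  have hDalt : ∀ y, polar (quadMinus F d' a b) (D y) y = 0 := fun y => by
    rw [polar, add_comm, hDQ, hDs]; ring
  have hD0 : D ≠ 0 := fun h => hMne (by omega) (Matrix.ext_iff_mulVec.mpr fun w => by
    have h1 := LinearMap.congr_fun h (Sum.elim (Sum.elim 0 w) 0)
    rw [hD, LinearMap.zero_apply] at h1
    rw [Matrix.zero_mulVec]
    exact funext fun i => congrFun h1 (Sum.inl (Sum.inl i)))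
  obtain ⟨x, hx, hxp, hx1, hxv⟩ := exists_of_sq (p := p) hQ (by simp; omega) (by simp [Nat.even_add]) D hDD hDQ hD0
    (even_range hQ D hDalt)
  haveI : Nonempty ((Fin d' ⊕ Fin d') ⊕ Fin 2) := ⟨Sum.inr 0⟩
  obtain ⟨W, hW, hi⟩ := hall x hx ⟨1, by rw [hxp, Units.val_one, one_smul]⟩ (OrthUnip.not_scalar hxp hx1)
  have hinv : ∀ v ∈ W, D v ∈ W := fun v hv => by
    have h := hi ⟨v, hv, rfl⟩
    rw [Matrix.toLin'_apply, hxv] at h
    simpa using W.sub_mem h hv
  obtain ⟨S, hS⟩ : ∃ S, S = LinearMap.ker D ⊓ LinearMap.ker (LinearMap.funLeft F F (Sum.inr : Fin 2 → _)) := ⟨_, rfl⟩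
  have hSs : ∀ y ∈ S, quadMinus F d' a b y = 0 := fun y hy => by
    rw [hS] at hy
    have h1 : D y = 0 := hy.1
    have hw : y ∘ Sum.inl ∘ Sum.inr = 0 := hMi' _ (funext fun i => by
      rw [hD] at h1; exact congrFun h1 (Sum.inl (Sum.inl i)))
    have hz : ∀ i, y (Sum.inr i) = 0 := fun i => congrFun (show LinearMap.funLeft F F Sum.inr y = 0 from hy.2) i
    rw [coe_quadMinus]
    simp only [Cfsg.quadFormMinus, hz]
    simp [show ∀ i, y (Sum.inl (Sum.inr i)) = 0 from fun i => congrFun hw i]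
  obtain ⟨μ, rfl⟩ : ∃ μ, m = 2 * μ := ⟨m / 2, by omega⟩
  obtain ⟨-, -, h2⟩ := nil_fix hQ hDalt hDs (S := S) (hS ▸ inf_le_left) hSs (hS ▸ finrank_inf_ker _ _) hW hinv
  have := h2 rfl id
  rw [Nat.odd_iff] at this
  omega

end CfsgLib.OrthND
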