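import Cfsg.Agent.SubElusive.Imprim
import Cfsg.Agent.GeoLib.Decomp

/-!
Summands moved by an element of prime order.
-/

set_option autoImplicit false
set_option linter.style.haveILetI false

namespace CfsgLib.SubElusive

open Polynomial

section Moved

variable {F : Type*} [Field F] {ι : Type} [Fintype ι] [DecidableEq ι] {a t r : ℕ} [hr : Fact r.Prime]
  {D : Fin t → Submodule F (ι → F)} {f : Module.End F (ι → F)} {σ : Equiv.Perm (Fin t)}

theorem pow_map (hσ : ∀ j, (D j).map f = D (σ j)) : ∀ (i : ℕ) (j : Fin t), (D j).map (f ^ i) = D ((σ ^ i) j) := by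
  intro i
  induction i with
  | zero => intro j; rw [pow_zero, Module.End.one_eq_id, Submodule.map_id, pow_zero]; rfl
  | succ i ih =>
    intro j
    rw [pow_succ', Module.End.mul_eq_comp, Submodule.map_comp, ih, hσ, pow_succ' σ, Equiv.Perm.mul_apply]

theorem sigma_pow (hD : Cfsg.Geo.IsMDecomposition a D) (hσ : ∀ j, (D j).map f = D (σ j)) (hf : f ^ r = 1) :
    σ ^ r = 1 := by
  have hDinj : Function.Injective D := fun j k hjk => by
    by_contra hne
    have h0 : D j = ⊥ := by
      have hd := hD.indep.pairwiseDisjoint hne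
      rw [Function.onFun, hjk, disjoint_self] at hd
      rw [hjk, hd]
    have := hD.finrank_eq j
    rw [h0, finrank_bot] at this
    exact hD.pos.ne this
  exact Equiv.ext fun j => hDinj (by rw [← pow_map hσ r j, hf, Module.End.one_eq_id, Submodule.map_id]; rfl)

theorem orbit_inj (hσr : σ ^ r = 1) {j₀ : Fin t} (hj₀ : σ j₀ ≠ j₀) :
    Function.Injective fun l : Fin r => (σ ^ (l : ℕ)) j₀ := by
  have key : ∀ i k : ℕ, i < k → k < r → (σ ^ i) j₀ ≠ (σ ^ k) j₀ := by
    intro i k hlt hkp heq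
    have hfx : (σ ^ (k - i)) j₀ = j₀ := by
      apply (σ ^ i).injective
      rw [← Equiv.Perm.mul_apply, ← pow_add, Nat.add_sub_cancel' hlt.le, heq]
    have hcop : (k - i).Coprime r :=
      (hr.out.coprime_iff_not_dvd.mpr fun hd => by have := Nat.le_of_dvd (by omega) hd; omega).symm
    obtain ⟨u, hu⟩ := exists_pow_eq_self_of_coprime (x := σ) (n := k - i)
      (hcop.coprime_dvd_right (orderOf_dvd_of_pow_eq_one hσr))
    have hm : σ ^ (k - i) ∈ MulAction.stabilizer (Equiv.Perm (Fin t)) j₀ := hfx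
    have := pow_mem hm u
    rw [hu] at this
    exact hj₀ this
  intro i k hik
  by_contra hne
  rcases lt_or_gt_of_ne (fun h => hne (Fin.ext h)) with h | h
  · exact key i k h k.2 hik
  · exact key k i h i.2 hik.symm

theorem orbit_indep (hD : Cfsg.Geo.IsMDecomposition a D) (hσ : ∀ j, (D j).map f = D (σ j)) (hf : f ^ r = 1)
    {j₀ : Fin t} (hj₀ : σ j₀ ≠ j₀) (d : Fin r → D j₀) (h : ∑ l : Fin r, (f ^ (l : ℕ)) (d l).1 = 0) : d = 0 := by
  classical
  obtain ⟨π, -, -, h1, h0⟩ := CfsgLib.GeoDecomp.exists_proj hD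
  have hmem : ∀ l : Fin r, (f ^ (l : ℕ)) (d l).1 ∈ D ((σ ^ (l : ℕ)) j₀) := fun l =>
    pow_map hσ (l : ℕ) j₀ ▸ Submodule.mem_map_of_mem (d l).2
  funext k
  have h2 := congrArg (π ((σ ^ (k : ℕ)) j₀)) h
  rw [map_sum, map_zero, Finset.sum_eq_single k (fun l _ hl => h0 _ _
    (fun he => hl (orbit_inj (sigma_pow hD hσ hf) hj₀ he.symm)) _ (hmem l)) (fun hk => absurd (Finset.mem_univ k) hk),
    h1 _ _ (hmem k)] at h2
  refine Subtype.ext ?_
  have h3 := congrArg ((f ^ (r - (k : ℕ))) ·) h2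
  simp only [map_zero, ← Module.End.mul_apply, ← pow_add, Nat.sub_add_cancel k.2.le, hf, Module.End.one_apply] at h3
  exact h3

/-- A moved summand bounds the fixed space from both sides. -/
theorem fix_of_moved (hD : Cfsg.Geo.IsMDecomposition a D) (hσ : ∀ j, (D j).map f = D (σ j)) (hf : f ^ r = 1)
    (hσ1 : σ ≠ 1) :
    a ≤ Module.finrank F (LinearMap.ker (f - 1)) ∧ r * a + Module.finrank F (LinearMap.ker (f - 1)) ≤ Fintype.card ι + a := by
  classical
  obtain ⟨j₀, hj₀⟩ : ∃ j₀, σ j₀ ≠ j₀ := by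
    by_contra h
    push Not at h
    exact hσ1 (Equiv.ext h)
  let Φ : (Fin r → D j₀) →ₗ[F] (ι → F) :=
    ∑ l : Fin r, (f ^ (l : ℕ)).comp ((D j₀).subtype.comp (LinearMap.proj l))
  have hΦ : ∀ d, Φ d = ∑ l : Fin r, (f ^ (l : ℕ)) (d l).1 := fun d => by simp [Φ]
  have hΦi : Function.Injective Φ := by
    rw [← LinearMap.ker_eq_bot, LinearMap.ker_eq_bot']
    exact fun d h => orbit_indep hD hσ hf hj₀ d (by rw [← hΦ, h])
  let cst : D j₀ →ₗ[F] (Fin r → D j₀) := LinearMap.pi fun _ => LinearMap.id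
  have hS : ∀ d, Φ (cst d) ∈ LinearMap.ker (f - 1) := fun d => by
    have hΦc : Φ (cst d) = ∑ i ∈ Finset.range r, (f ^ i) d.1 := by
      rw [hΦ, ← Fin.sum_univ_eq_sum_range]; rfl
    rw [LinearMap.mem_ker, LinearMap.sub_apply, Module.End.one_apply, sub_eq_zero, hΦc, map_sum]
    have h1 := Finset.sum_range_succ' (fun i => (f ^ i) d.1) r
    rw [Finset.sum_range_succ, hf, pow_zero] at h1
    simp only [← Module.End.mul_apply, ← pow_succ']
    exact (add_right_cancel h1).symm
  constructor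
  · have hinj : Function.Injective (LinearMap.codRestrict _ (Φ.comp cst) hS) := fun x y h => by
      have := hΦi (congrArg Subtype.val h)
      exact congrFun this ⟨0, hr.out.pos⟩
    have := LinearMap.finrank_le_finrank_of_injective hinj
    rwa [hD.finrank_eq j₀] at this
  · have hle : LinearMap.range Φ ≤ D j₀ ⊔ LinearMap.range (f - 1) := by
      rintro _ ⟨d, rfl⟩
      rw [hΦ]
      refine Submodule.sum_mem _ fun l _ => ?_
      obtain ⟨g, hg⟩ := sub_one_dvd_pow_sub_one f (l : ℕ)
      rw [← sub_add_cancel ((f ^ (l : ℕ)) (d l).1) (d l).1]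
      refine Submodule.add_mem _ (Submodule.mem_sup_right ⟨g (d l).1, ?_⟩) (Submodule.mem_sup_left (d l).2)
      rw [← Module.End.mul_apply, ← hg, LinearMap.sub_apply, Module.End.one_apply]
    have h1 := Submodule.finrank_mono hle
    rw [LinearMap.finrank_range_of_inj hΦi, Module.finrank_pi_fintype, Finset.sum_const, Finset.card_univ,
      Fintype.card_fin, hD.finrank_eq j₀, smul_eq_mul] at h1
    have h2 := Submodule.finrank_add_le_finrank_add_finrank (D j₀) (LinearMap.range (f - 1))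
    have h3 := LinearMap.finrank_range_add_finrank_ker (f - 1)
    rw [hD.finrank_eq j₀] at h2
    rw [Module.finrank_pi] at h3
    omega

/-- Fixed vectors of the summands add up. -/
theorem fix_sum {l : ℕ} (hD : Cfsg.Geo.IsMDecomposition a D)
    (hle : ∀ j, l ≤ Module.finrank F ↥(D j ⊓ LinearMap.ker (f - 1))) :
    t * l ≤ Module.finrank F (LinearMap.ker (f - 1)) := by
  classical
  obtain ⟨π, -, -, h1, h0⟩ := CfsgLib.GeoDecomp.exists_proj hD
  let Ψ : ((j : Fin t) → ↥(D j ⊓ LinearMap.ker (f - 1))) →ₗ[F] LinearMap.ker (f - 1) :=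
    ∑ j, (Submodule.inclusion inf_le_right).comp (LinearMap.proj j)
  have hΨ : ∀ d, (Ψ d).1 = ∑ j, (d j).1 := fun d => by simp [Ψ]
  have hΨi : Function.Injective Ψ := by
    rw [← LinearMap.ker_eq_bot, LinearMap.ker_eq_bot']
    intro d h
    funext j
    have h2 := congrArg (fun v : LinearMap.ker (f - 1) => π j v.1) h
    simp only [hΨ, map_sum, Submodule.coe_zero, map_zero] at h2
    rw [Finset.sum_eq_single j (fun k _ hk => h0 j k (Ne.symm hk) _ (d k).2.1) (fun h => absurd (Finset.mem_univ j) h),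
      h1 j _ (d j).2.1] at h2
    exact Subtype.ext h2
  refine le_trans ?_ (LinearMap.finrank_le_finrank_of_injective hΨi)
  rw [Module.finrank_pi_fintype]
  refine le_trans ?_ (Finset.sum_le_sum fun j _ => hle j)
  simp

end Moved

end CfsgLib.SubElusive
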