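import Cfsg.Agent.SubElusive.OrthTSEvenQuarter

/-!
Self-adjoint square roots of a non-square in orthogonal spaces of odd characteristic.
-/

set_option autoImplicit false
set_option linter.style.haveILetI false

open Matrix QuadraticMap CfsgLib.Forms CfsgLib.SemiClasses CfsgLib.OrthTS

namespace CfsgLib.OrthExt

variable {F : Type*} [Field F] [Fintype F] {ι : Type} [Fintype ι] [DecidableEq ι]

/-- A self-adjoint map squaring to `η`. -/
def IsRoot (Q : QuadraticForm F (ι → F)) (η : F) (T : Module.End F (ι → F)) : Prop :=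
  (∀ u v, polar Q (T u) v = polar Q u (T v)) ∧ ∀ v, T (T v) = η • v

section Basic

variable {Q : QuadraticForm F (ι → F)} {η : F} {T : Module.End F (ι → F)} (hT : IsRoot Q η T)

include hT

omit [Fintype F] [DecidableEq ι] [Fintype ι] in
theorem polar_root (u v : ι → F) : polar Q (T u) (T v) = η * polar Q u v := by
  rw [hT.1, hT.2, polar_smul_right, smul_eq_mul]

omit [Fintype F] [DecidableEq ι] [Fintype ι] in
theorem map_root (h2 : (2 : F) ≠ 0) (v : ι → F) : Q (T v) = η * Q v := by
  have h := polar_root hT v v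
  rw [polar_self, polar_self, nsmul_eq_mul, nsmul_eq_mul, Nat.cast_two] at h
  exact mul_left_cancel₀ h2 (by linear_combination h)

omit [Fintype F] [DecidableEq ι] [Fintype ι] in
theorem root_no_eigen (hη : ¬ IsSquare η) {v : ι → F} (hv : v ≠ 0) (a : F) : T v ≠ a • v := fun h => by
  have h1 := hT.2 v
  rw [h, map_smul, h, smul_smul] at h1
  exact hη ⟨a, (sub_eq_zero.mp ((smul_eq_zero.mp (show (η - a * a) • v = 0 by
    rw [sub_smul, h1, sub_self])).resolve_right hv))⟩

omit [Fintype F] in
/-- An invariant nondegenerate subspace of dimension at least three has a vector `v` with `Q v = 1`, `B(v, T v) = 0`. -/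
theorem exists_unit [Finite F] (h2 : (2 : F) ≠ 0) (hη : ¬ IsSquare η)
    {U : Submodule F (ι → F)} (hU : Disjoint U (perp Q U)) (hUi : ∀ v ∈ U, T v ∈ U) (hd : 3 ≤ Module.finrank F U) :
    ∃ v ∈ U, Q v = 1 ∧ polar Q v (T v) = 0 := by
  classical
  have := Fintype.ofFinite F
  have hη0 : η ≠ 0 := fun h => hη (h ▸ IsSquare.zero)
  obtain ⟨P, hP⟩ : ∃ P : QuadraticForm F (ι → F), ∀ v, P v = polar Q v (T v) :=
    ⟨LinearMap.BilinMap.toQuadraticMap ((polarBilin Q).compl₂ T), fun v => rfl⟩
  obtain ⟨v, hv, hv0, hvP⟩ := Forms.exists_singular P U hd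
  rw [hP] at hvP
  by_cases hvQ : Q v = 0
  · obtain ⟨w, hw, hvw⟩ : ∃ w ∈ U, polar Q w v ≠ 0 := by
      by_contra hno
      push Not at hno
      exact hv0 (Submodule.disjoint_def.mp hU v hv (mem_perp.mpr fun y hy => by rw [polar_comm]; exact hno y hy))
    obtain ⟨w', hw', hβ, hwT⟩ : ∃ w' ∈ U, polar Q w' v ≠ 0 ∧ polar Q w' (T v) = 0 := by
      refine ⟨w + (-(polar Q w (T v)) / (η * polar Q w v)) • T w, U.add_mem hw (U.smul_mem _ (hUi w hw)), ?_, ?_⟩
      · rw [polar_add_left, polar_smul_left, hT.1, smul_eq_mul]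
        intro h
        field_simp at h
        refine hη ⟨polar Q w (T v) / polar Q w v, ?_⟩
        field_simp
        linear_combination h
      · rw [polar_add_left, polar_smul_left, polar_root hT, smul_eq_mul]
        field_simp
        ring
    obtain ⟨β, hβdef⟩ : ∃ β, β = polar Q w' v := ⟨_, rfl⟩
    rw [← hβdef] at hβ
    obtain ⟨s, hs⟩ : ∃ s, s = (1 - Q w') / β := ⟨_, rfl⟩
    obtain ⟨s', hs'⟩ : ∃ s', s' = -polar Q w' (T w') / (2 * η * β) := ⟨_, rfl⟩
    refine ⟨w' + (s • v + s' • T v), U.add_mem hw' (U.add_mem (U.smul_mem _ hv) (U.smul_mem _ (hUi v hv))), ?_, ?_⟩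
    · rw [QuadraticMap.map_add (⇑Q), QuadraticMap.map_add (⇑Q), QuadraticMap.map_smul, QuadraticMap.map_smul,
        map_root hT h2, polar_add_right, polar_smul_left, polar_smul_right, polar_smul_right, polar_smul_right,
        hvQ, hvP, hwT, ← hβdef, hs]
      simp only [smul_eq_mul]
      field_simp
      ring
    · have e1 : polar Q v (T w') = 0 := by rw [← hT.1, polar_comm, hwT]
      have e2 : polar Q v v = 0 := by rw [polar_self, hvQ, smul_zero]
      have e3 : polar Q v w' = β := by rw [polar_comm, hβdef]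
      have e4 : polar Q (T v) v = 0 := by rw [polar_comm, hvP]
      simp only [map_add, map_smul, hT.2, polar_add_left, polar_add_right, polar_smul_left, polar_smul_right,
        polar_root hT, hwT, hvP, e1, e2, e3, e4, ← hβdef, smul_eq_mul, hs']
      field_simp
      ring
  · have hTT : polar Q (T v) (T (T v)) = 0 := by rw [polar_root hT, hvP, mul_zero]
    by_cases hs : IsSquare (Q v)
    · obtain ⟨s, hs⟩ := hs
      have hs0 : s ≠ 0 := fun h => hvQ (by rw [hs, h, mul_zero])
      refine ⟨s⁻¹ • v, U.smul_mem _ hv, ?_, ?_⟩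
      · rw [QuadraticMap.map_smul, hs, smul_eq_mul]; field_simp
      · rw [map_smul, polar_smul_left, polar_smul_right, hvP, smul_zero, smul_zero]
    · obtain ⟨s, hs⟩ : IsSquare (Q (T v)) := by
        rw [map_root hT h2, isSquare_mul_iff' hη0 hvQ]
        exact iff_of_false hη hs
      have hs0 : s ≠ 0 := fun h => mul_ne_zero hη0 hvQ (by rw [← map_root hT h2, hs, h, mul_zero])
      refine ⟨s⁻¹ • T v, U.smul_mem _ (hUi v hv), ?_, ?_⟩
      · rw [QuadraticMap.map_smul, hs, smul_eq_mul]; field_simp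
      · rw [map_smul, polar_smul_left, polar_smul_right, hTT, smul_zero, smul_zero]

/-- Orthonormal adapted families. -/
theorem exists_family (h2 : (2 : F) ≠ 0) (hQ : (polarBilin Q).Nondegenerate) (hη : ¬ IsSquare η) {d : ℕ}
    (hι : Fintype.card ι = 2 * d) : ∀ k : ℕ, k + 1 ≤ d →
    ∃ v : Fin k → (ι → F), (∀ i, Q (v i) = 1) ∧ (∀ i j, i ≠ j → polar Q (v i) (v j) = 0) ∧
      ∀ i j, polar Q (v i) (T (v j)) = 0 := by
  classical
  have hη0 : η ≠ 0 := fun h => hη (h ▸ IsSquare.zero)
  intro k
  induction k with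
  | zero => exact fun _ => ⟨Fin.elim0, fun i => i.elim0, fun i => i.elim0, fun i => i.elim0⟩
  | succ k ih =>
    intro hk
    obtain ⟨v, hv1, hvo, hvT⟩ := ih (by omega)
    obtain ⟨z, hz⟩ : ∃ z : Fin k ⊕ Fin k → (ι → F), z = Sum.elim v fun i => T (v i) := ⟨_, rfl⟩
    have hzo : ∀ a b, a ≠ b → polar Q (z a) (z b) = 0 := by
      rintro (a | a) (b | b) hab <;> simp only [hz, Sum.elim_inl, Sum.elim_inr]
      · exact hvo a b fun h => hab (h ▸ rfl)
      · exact hvT a b
      · rw [polar_comm]; exact hvT b a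
      · rw [polar_root hT, hvo a b fun h => hab (h ▸ rfl), mul_zero]
    have hz0 : ∀ a, Q (z a) ≠ 0 := by
      rintro (a | a) <;> simp [hz, hv1, map_root hT h2, hη0]
    obtain ⟨S, hS⟩ : ∃ S, S = Submodule.span F (Set.range z) := ⟨_, rfl⟩
    have hdisj : Disjoint (perp Q S) (perp Q (perp Q S)) := by
      rw [perp_perp hQ, hS]
      refine (Submodule.disjoint_def.2 fun x hx hx' => ?_).symm
      obtain ⟨c, rfl⟩ := (Submodule.mem_span_range_iff_exists_fun F).1 hx
      refine Finset.sum_eq_zero fun i _ => ?_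
      have := mem_perp.1 hx' (z i) (Submodule.subset_span ⟨i, rfl⟩)
      rw [polar_sum_left, Finset.sum_eq_single i (fun j _ hj => by
        rw [polar_smul_left, hzo j i hj, smul_zero]) (by simp), polar_smul_left, polar_self, smul_eq_mul,
        nsmul_eq_mul, Nat.cast_two] at this
      rw [(mul_eq_zero.mp this).resolve_right (mul_ne_zero h2 (hz0 i)), zero_smul]
    have hinv : ∀ x ∈ perp Q S, T x ∈ perp Q S := fun x hx => by
      rw [hS, mem_perp_span] at hx ⊢
      rintro _ ⟨a, rfl⟩
      rw [hT.1]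
      rcases a with a | a
      · have := hx _ ⟨Sum.inr a, rfl⟩
        simpa [hz] using this
      · have := hx _ ⟨Sum.inl a, rfl⟩
        simp [hz, hT.2] at this ⊢
        simp [this]
    have hdim : 3 ≤ Module.finrank F (perp Q S) := by
      rw [finrank_perp hQ, Module.finrank_fintype_fun_eq_card, hι]
      have := finrank_range_le_card (R := F) z
      rw [Fintype.card_sum, Fintype.card_fin, Set.finrank, ← hS] at this
      omega
    obtain ⟨w, hw, hw1, hwT⟩ := exists_unit hT h2 hη hdisj hinv hdim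
    have hwz : ∀ a, polar Q w (z a) = 0 := fun a => mem_perp.mp hw _ (hS ▸ Submodule.subset_span ⟨a, rfl⟩)
    have hwv : ∀ i, polar Q w (v i) = 0 := fun i => by simpa [hz] using hwz (Sum.inl i)
    have hwTv : ∀ i, polar Q w (T (v i)) = 0 := fun i => by simpa [hz] using hwz (Sum.inr i)
    refine ⟨Fin.snoc v w, fun i => ?_, fun i j hij => ?_, fun i j => ?_⟩
    · induction i using Fin.lastCases with
      | last => simpa using hw1
      | cast i => simpa using hv1 i
    · induction i using Fin.lastCases with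
      | last =>
        induction j using Fin.lastCases with
        | last => exact absurd rfl hij
        | cast j => simpa using hwv j
      | cast i =>
        induction j using Fin.lastCases with
        | last => simpa [polar_comm Q (v i)] using hwv i
        | cast j => simpa using hvo i j fun h => hij (h ▸ rfl)
    · induction i using Fin.lastCases with
      | last =>
        induction j using Fin.lastCases with
        | last => simpa using hwT
        | cast j => simpa using hwTv j
      | cast i =>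
        induction j using Fin.lastCases with
        | last =>
          simp only [Fin.snoc_castSucc, Fin.snoc_last]
          rw [← hT.1, polar_comm, hwTv]
        | cast j => simpa using hvT i j

end Basic

/-- The equations comparing two roots on a plane. -/
theorem plane_solve (h2 : (2 : F) ≠ 0) {η δ a b A B : F} (hη : ¬ IsSquare η) (hδ : δ ≠ 0)
    (hab : a * a + δ * (b * b) = η) (hAB : A * A + δ * (B * B) = η) :
    ∃ x y : F, x * x + δ * (y * y) = 1 ∧ A * (x * x - δ * (y * y)) + 2 * δ * B * (x * y) = a := by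
  have hη0 : η ≠ 0 := fun h => hη (h ▸ IsSquare.zero)
  have main : ∀ s : F, s * s = 1 → (A * a + s * δ * B * b) / η ≠ -1 →
      IsSquare ((1 + (A * a + s * δ * B * b) / η) / 2) →
      ∃ x y : F, x * x + δ * (y * y) = 1 ∧ A * (x * x - δ * (y * y)) + 2 * δ * B * (x * y) = a := by
    intro s hs hne ⟨x, hx⟩
    obtain ⟨X, hX⟩ : ∃ X, X = (A * a + s * δ * B * b) / η := ⟨_, rfl⟩
    obtain ⟨Y, hY⟩ : ∃ Y, Y = (B * a - s * A * b) / η := ⟨_, rfl⟩
    rw [← hX] at hne hx
    have hXY : X * X + δ * (Y * Y) = 1 := by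
      rw [hX, hY]
      field_simp
      linear_combination (a * a + δ * (b * b)) * hAB + η * hab + (δ * b * b * (A * A + δ * (B * B))) * hs
    have hlin : A * X + δ * B * Y = a := by
      rw [hX, hY]
      field_simp
      linear_combination a * hAB
    have hx' : 2 * (x * x) = 1 + X := by rw [← hx]; field_simp
    have hx0 : x ≠ 0 := fun h => hne (by rw [h] at hx'; linear_combination -hx')
    refine ⟨x, Y / (2 * x), ?_, ?_⟩
    · field_simp
      linear_combination hXY + (2 * (x * x) + X - 1) * hx'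
    · field_simp
      linear_combination (4 * (x * x)) * hlin + (2 * A * (x * x) + A * X - A + 2 * A * (1 - X)) * hx' - A * hXY
  obtain ⟨X, hX⟩ : ∃ X, X = fun s : F => (A * a + s * δ * B * b) / η := ⟨_, rfl⟩
  have hprod : (1 + X 1) * (1 + X (-1)) * η = (a + A) * (a + A) := by
    rw [hX]
    field_simp
    linear_combination -(η - A * A) * hab - (δ * (b * b)) * hAB
  by_cases h0 : a + A = 0
  · have hbb : (b - B) * (b + B) = 0 := by
      refine (mul_eq_zero.mp (show δ * ((b - B) * (b + B)) = 0 from ?_)).resolve_left hδ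
      linear_combination hab - hAB - (a - A) * h0
    by_cases hδs : IsSquare δ
    · obtain ⟨t, ht⟩ := hδs
      have ht0 : t ≠ 0 := fun h => hδ (by rw [ht, h, mul_zero])
      refine ⟨0, t⁻¹, ?_, ?_⟩
      · rw [ht]; field_simp; ring
      · rw [ht]; field_simp
        linear_combination -h0
    have hb0 : b ≠ 0 := fun h => hη ⟨a, by rw [← hab, h]; ring⟩
    obtain ⟨s, hs, hsb⟩ : ∃ s : F, s * s = 1 ∧ s * B = b := by
      rcases mul_eq_zero.mp hbb with h | h
      · exact ⟨1, one_mul 1, by linear_combination -h⟩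
      · exact ⟨-1, by ring, by linear_combination -h⟩
    have e : (1 + (A * a + s * δ * B * b) / η) / 2 = δ / η * (b * b) := by
      rw [show s * δ * B * b = δ * (b * b) by rw [← hsb]; ring, show A = -a by linear_combination h0]
      field_simp
      linear_combination -hab
    refine main s hs ?_ ?_
    · intro h
      have h' : δ / η * (b * b) = 0 := by rw [← e, h]; ring
      simp [hδ, hη0, hb0] at h'
    · rw [e]
      refine IsSquare.mul ?_ ⟨b, rfl⟩
      rw [div_eq_mul_inv, isSquare_mul_iff' hδ (inv_ne_zero hη0), isSquare_inv]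
      exact iff_of_false hδs hη
  · have hne : (1 + X 1) * (1 + X (-1)) ≠ 0 := fun h => h0 (mul_self_eq_zero.mp (by rw [← hprod, h, zero_mul]))
    obtain ⟨h1, h1'⟩ := mul_ne_zero_iff.mp hne
    have hd : ∀ s, X s = (A * a + s * δ * B * b) / η := fun s => by rw [hX]
    by_cases hsq : IsSquare ((1 + X 1) / 2)
    · exact main 1 (one_mul 1) (fun h => h1 (by rw [hd, h]; ring)) (hd 1 ▸ hsq)
    · refine main (-1) (by ring) (fun h => h1' (by rw [hd, h]; ring)) (hd (-1) ▸ ?_)
      by_contra hsq'
      refine hη ?_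
      have h3 : IsSquare ((1 + X 1) / 2 * ((1 + X (-1)) / 2)) := by
        rw [isSquare_mul_iff' (div_ne_zero h1 h2) (div_ne_zero h1' h2)]
        exact iff_of_false hsq hsq'
      obtain ⟨t, ht⟩ := h3
      have ht0 : t ≠ 0 := fun h => mul_ne_zero (div_ne_zero h1 h2) (div_ne_zero h1' h2) (by rw [ht, h, mul_zero])
      refine ⟨(a + A) / (2 * t), ?_⟩
      field_simp at ht ⊢
      linear_combination hprod - η * ht

variable {Q : QuadraticForm F (ι → F)}

omit [Fintype F] in
/-- An isometry between orthogonal bases with equal values. -/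
theorem isom_of_family (h2 : (2 : F) ≠ 0) {σ : Type} [Fintype σ] [DecidableEq σ] (z z' : σ → (ι → F))
    (hz : ∀ a b, a ≠ b → polar Q (z a) (z b) = 0) (hz0 : ∀ a, Q (z a) ≠ 0)
    (hz' : ∀ a b, a ≠ b → polar Q (z' a) (z' b) = 0) (hval : ∀ a, Q (z' a) = Q (z a))
    (hcard : Fintype.card σ = Fintype.card ι) :
    ∃ g : (ι → F) ≃ₗ[F] (ι → F), g ∈ isom Q ∧ ∀ a, g (z a) = z' a := by
  rcases isEmpty_or_nonempty σ with hσ | hσ
  · exact ⟨LinearEquiv.refl F _, fun v => rfl, fun a => isEmptyElim a⟩
  let b := basisOfLinearIndependentOfCardEqFinrank (orth_li h2 z hz hz0)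
    (by rw [hcard, Module.finrank_fintype_fun_eq_card])
  let b' := basisOfLinearIndependentOfCardEqFinrank (orth_li h2 z' hz' fun a => hval a ▸ hz0 a)
    (by rw [hcard, Module.finrank_fintype_fun_eq_card])
  have hb : ⇑b = z := coe_basisOfLinearIndependentOfCardEqFinrank _ _
  have hb' : ⇑b' = z' := coe_basisOfLinearIndependentOfCardEqFinrank _ _
  refine ⟨b.equiv b' (Equiv.refl σ), fun v => ?_, fun a => ?_⟩
  · have he : ∀ a, b.equiv b' (Equiv.refl σ) (b a) = z' a := fun a => by
      rw [Module.Basis.equiv_apply, hb', Equiv.refl_apply]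
    rw [← b.sum_repr v, map_sum]
    simp only [map_smul, he]
    simp only [hb]
    rw [orth_sum_apply _ _ _ hz', orth_sum_apply _ _ _ hz]
    simp [hval]
  · rw [← hb, Module.Basis.equiv_apply, hb', Equiv.refl_apply]

/-- All roots are conjugate. -/
theorem root_conj (h2 : (2 : F) ≠ 0) (hQ : (polarBilin Q).Nondegenerate) {η : F} (hη : ¬ IsSquare η) {d : ℕ}
    (hd : 2 ≤ d) (hι : Fintype.card ι = 2 * d) {T T' : Module.End F (ι → F)} (hT : IsRoot Q η T)
    (hT' : IsRoot Q η T') : ∃ h : (ι → F) ≃ₗ[F] (ι → F), h ∈ isom Q ∧ ∀ v, h (T v) = T' (h v) := by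
  classical
  have hη0 : η ≠ 0 := fun h => hη (h ▸ IsSquare.zero)
  obtain ⟨v, hv1, hvo, hvT⟩ := exists_family hT h2 hQ hη hι (d - 1) (by omega)
  obtain ⟨v', hv1', hvo', hvT'⟩ := exists_family hT' h2 hQ hη hι (d - 1) (by omega)
  have fam : ∀ {T : Module.End F (ι → F)}, IsRoot Q η T → ∀ v : Fin (d - 1) → (ι → F), (∀ i, Q (v i) = 1) →
      (∀ i j, i ≠ j → polar Q (v i) (v j) = 0) → (∀ i j, polar Q (v i) (T (v j)) = 0) →
      ∀ z, z = Sum.elim v (fun i => T (v i)) →
      (∀ a b, a ≠ b → polar Q (z a) (z b) = 0) ∧ (∀ a, Q (z a) = Sum.elim (fun _ => 1) (fun _ => η) a) ∧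
        ∀ x ∈ perp Q (Submodule.span F (Set.range z)), T x ∈ perp Q (Submodule.span F (Set.range z)) := by
    intro T hT v hv1 hvo hvT z hz
    refine ⟨?_, ?_, fun x hx => ?_⟩
    · rintro (a | a) (b | b) hab <;> simp only [hz, Sum.elim_inl, Sum.elim_inr]
      · exact hvo a b fun h => hab (h ▸ rfl)
      · exact hvT a b
      · rw [polar_comm]; exact hvT b a
      · rw [polar_root hT, hvo a b fun h => hab (h ▸ rfl), mul_zero]
    · rintro (a | a) <;> simp [hz, hv1, map_root hT h2]
    · rw [mem_perp_span] at hx ⊢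
      rintro _ ⟨a, rfl⟩
      rw [hT.1]
      rcases a with a | a
      · have := hx _ ⟨Sum.inr a, rfl⟩
        simpa [hz] using this
      · have := hx _ ⟨Sum.inl a, rfl⟩
        simp [hz, hT.2] at this ⊢
        simp [this]
  obtain ⟨z, hz⟩ : ∃ z, z = Sum.elim v fun i => T (v i) := ⟨_, rfl⟩
  obtain ⟨z', hz'⟩ : ∃ z', z' = Sum.elim v' fun i => T' (v' i) := ⟨_, rfl⟩
  obtain ⟨hzo, hzv, hPi⟩ := fam hT v hv1 hvo hvT z hz
  obtain ⟨hzo', hzv', hPi'⟩ := fam hT' v' hv1' hvo' hvT' z' hz'
  have hz0 : ∀ a, Q (z a) ≠ 0 := by rintro (a | a) <;> simp [hzv, hη0]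
  have hz0' : ∀ a, Q (z' a) ≠ 0 := by rintro (a | a) <;> simp [hzv', hη0]
  obtain ⟨U, hU⟩ : ∃ U, U = Submodule.span F (Set.range z) := ⟨_, rfl⟩
  obtain ⟨U', hU'⟩ : ∃ U', U' = Submodule.span F (Set.range z') := ⟨_, rfl⟩
  rw [← hU] at hPi
  rw [← hU'] at hPi'
  have hli := orth_li h2 z hzo hz0
  obtain ⟨g, hg, hgU⟩ := witt hQ (Submodule.span F (Set.range z))
    (Fintype.linearCombination F z' ∘ₗ ((Module.Basis.span hli).equivFun : _ →ₗ[F] _)) (by
      refine Function.Injective.comp (g := Fintype.linearCombination F z') ?_ (Module.Basis.span hli).equivFun.injective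
      exact (injective_iff_map_eq_zero _).mpr fun c hc => funext fun i =>
        Fintype.linearIndependent_iff.mp (orth_li h2 z' hzo' hz0') c
          (by rwa [Fintype.linearCombination_apply] at hc) i) (fun x => by
      obtain ⟨c, rfl⟩ := (Module.Basis.span hli).equivFun.symm.surjective x
      rw [LinearMap.comp_apply, LinearEquiv.coe_coe, LinearEquiv.apply_symm_apply, Fintype.linearCombination_apply,
        Module.Basis.equivFun_symm_apply, Submodule.coe_sum]
      simp only [Submodule.coe_smul, Module.Basis.span_apply]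
      rw [orth_sum_apply _ _ _ hzo', orth_sum_apply _ _ _ hzo]
      simp [hzv, hzv'])
  have hgz : ∀ a, g (z a) = z' a := fun a => by
    have h := hgU (Module.Basis.span hli a)
    rw [LinearMap.comp_apply, LinearEquiv.coe_coe, Module.Basis.span_apply, Fintype.linearCombination_apply] at h
    rw [h]
    simp [Module.Basis.equivFun_apply, Finsupp.single_apply]
  have hdisj : Disjoint (perp Q U) (perp Q (perp Q U)) := by
    rw [perp_perp hQ, hU]
    refine (Submodule.disjoint_def.2 fun x hx hx' => ?_).symm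
    obtain ⟨c, rfl⟩ := (Submodule.mem_span_range_iff_exists_fun F).1 hx
    refine Finset.sum_eq_zero fun i _ => ?_
    have := mem_perp.1 hx' (z i) (Submodule.subset_span ⟨i, rfl⟩)
    rw [polar_sum_left, Finset.sum_eq_single i (fun j _ hj => by
      rw [polar_smul_left, hzo j i hj, smul_zero]) (by simp), polar_smul_left, polar_self, smul_eq_mul,
      nsmul_eq_mul, Nat.cast_two] at this
    rw [(mul_eq_zero.mp this).resolve_right (mul_ne_zero h2 (hz0 i)), zero_smul]
  have hdP : ∀ (z : Fin (d - 1) ⊕ Fin (d - 1) → (ι → F)), LinearIndependent F z →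
      Module.finrank F (perp Q (Submodule.span F (Set.range z))) = 2 := fun z hli => by
    rw [finrank_perp hQ, finrank_span_eq_card hli, Module.finrank_fintype_fun_eq_card, hι, Fintype.card_sum,
      Fintype.card_fin]
    omega
  obtain ⟨e, heP, heo, he0⟩ := OrthOddSub.exists_orth_family h2 (perp Q U) hdisj 2 (hU ▸ (hdP z hli).ge)
  obtain ⟨f, hfdef⟩ : ∃ f : Fin 2 → (ι → F), f = fun i => g (e i) := ⟨_, rfl⟩
  have hfP : ∀ i, f i ∈ perp Q U' := fun i => by
    rw [hU', mem_perp_span]
    rintro _ ⟨a, rfl⟩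
    rw [hfdef, ← hgz a, isom_polar hg]
    exact mem_perp.mp (heP i) _ (hU ▸ Submodule.subset_span ⟨a, rfl⟩)
  have hfo : polar Q (f 0) (f 1) = 0 := by rw [hfdef, isom_polar hg]; exact heo 0 1 (by decide)
  have hfv : ∀ i, Q (f i) = Q (e i) := fun i => by rw [hfdef]; exact hg _
  -- coordinates of a root on a plane
  have coord : ∀ {T : Module.End F (ι → F)}, IsRoot Q η T → ∀ (z : Fin (d - 1) ⊕ Fin (d - 1) → (ι → F)),
      LinearIndependent F z → ∀ e : Fin 2 → (ι → F), (∀ i, e i ∈ perp Q (Submodule.span F (Set.range z))) →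
      polar Q (e 0) (e 1) = 0 → (∀ i, Q (e i) ≠ 0) →
      (∀ x ∈ perp Q (Submodule.span F (Set.range z)), T x ∈ perp Q (Submodule.span F (Set.range z))) →
      ∃ A B : F, A * A + Q (e 1) / Q (e 0) * (B * B) = η ∧ T (e 0) = A • e 0 + B • e 1 ∧
        polar Q (e 1) (T (e 1)) = -(2 * A * Q (e 1)) := by
    intro T hT z hli e he heo he0 hinv
    have h01 : polar Q (e 1) (e 0) = 0 := by rw [polar_comm]; exact heo
    have hli2 : LinearIndependent F e := orth_li h2 e (fun i j hij => by
      fin_cases i <;> fin_cases j <;> simp_all) he0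
    have hspan : Submodule.span F (Set.range e) = perp Q (Submodule.span F (Set.range z)) :=
      Submodule.eq_of_le_of_finrank_eq (Submodule.span_le.mpr (by rintro _ ⟨i, rfl⟩; exact he i))
        (by rw [finrank_span_eq_card hli2, hdP z hli, Fintype.card_fin])
    obtain ⟨c, hc⟩ := (Submodule.mem_span_range_iff_exists_fun F).mp (hspan ▸ hinv _ (he 0))
    rw [Fin.sum_univ_two] at hc
    have hA : c 0 * c 0 + Q (e 1) / Q (e 0) * (c 1 * c 1) = η := by
      have h := map_root hT h2 (e 0)
      rw [← hc, QuadraticMap.map_add (⇑Q), QuadraticMap.map_smul, QuadraticMap.map_smul, polar_smul_left,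
        polar_smul_right, heo] at h
      simp only [smul_eq_mul, mul_zero, add_zero] at h
      field_simp [he0 0]
      linear_combination h
    have hc1 : c 1 ≠ 0 := fun h => root_no_eigen hT hη (show e 0 ≠ 0 from fun h' => he0 0 (by rw [h', QuadraticMap.map_zero])) (c 0)
      (by rw [← hc, h, zero_smul, add_zero])
    refine ⟨c 0, c 1, hA, hc.symm, ?_⟩
    have h := congrArg (fun y => polar Q (e 1) y) (hT.2 (e 0))
    rw [← hc] at h
    simp only [map_add, map_smul, ← hc, smul_add, smul_smul, polar_add_right, polar_smul_right, h01, polar_self,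
      nsmul_eq_mul, Nat.cast_two, smul_eq_mul, mul_zero, zero_add, add_zero] at h
    exact mul_left_cancel₀ hc1 (by linear_combination h)
  obtain ⟨a, b, hab, hTe, -⟩ := coord hT z hli e (fun i => hU ▸ heP i) (heo 0 1 (by decide)) he0 (hU ▸ hPi)
  obtain ⟨A, B, hAB, hT'e, hT'e1⟩ := coord hT' z' (orth_li h2 z' hzo' hz0') f (fun i => hU' ▸ hfP i) hfo
    (fun i => hfv i ▸ he0 i) (hU' ▸ hPi')
  rw [hfv, hfv] at hAB
  obtain ⟨x, y, hxy, hlin⟩ := plane_solve h2 hη (div_ne_zero (he0 1) (he0 0)) hab hAB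
  obtain ⟨w, hw⟩ : ∃ w, w = x • f 0 + y • f 1 := ⟨_, rfl⟩
  have e10 : polar Q (f 1) (f 0) = 0 := by rw [polar_comm]; exact hfo
  have hwQ : Q w = Q (e 0) := by
    rw [hw, QuadraticMap.map_add (⇑Q), QuadraticMap.map_smul, QuadraticMap.map_smul, polar_smul_left, polar_smul_right,
      hfo, hfv, hfv]
    simp only [smul_eq_mul, mul_zero, add_zero]
    field_simp [he0 0] at hxy
    linear_combination hxy
  have hwT : polar Q w (T' w) = polar Q (e 0) (T (e 0)) := by
    have e2 : polar Q (f 0) (T' (f 1)) = 2 * B * Q (f 1) := by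
      rw [← hT'.1, hT'e, polar_add_left, polar_smul_left, polar_smul_left, hfo, polar_self]
      simp only [smul_eq_mul, mul_zero, zero_add, nsmul_eq_mul, Nat.cast_two]
      ring
    rw [hTe, polar_add_right, polar_smul_right, polar_smul_right, heo 0 1 (by decide), polar_self, hw]
    simp only [map_add, map_smul, polar_add_left, polar_add_right, polar_smul_left, polar_smul_right,
      ← hT'.1 (f 1) (f 0), polar_comm Q (T' (f 1)) (f 0), e2, hT'e1, smul_eq_mul, mul_zero, add_zero,
      nsmul_eq_mul, Nat.cast_two]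
    rw [hT'e]
    simp only [polar_add_right, polar_smul_right, hfo, polar_self, smul_eq_mul, mul_zero, add_zero,
      nsmul_eq_mul, Nat.cast_two, hfv]
    field_simp [he0 0] at hlin
    linear_combination 2 * hlin
  obtain ⟨α, hα⟩ : ∃ α, α = polar Q (e 0) (T (e 0)) / (2 * Q (e 0)) := ⟨_, rfl⟩
  have mk : ∀ {S : Module.End F (ι → F)}, IsRoot Q η S → ∀ (z : Fin (d - 1) ⊕ Fin (d - 1) → (ι → F)),
      (∀ a b, a ≠ b → polar Q (z a) (z b) = 0) →
      (∀ x ∈ perp Q (Submodule.span F (Set.range z)), S x ∈ perp Q (Submodule.span F (Set.range z))) →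
      ∀ u ∈ perp Q (Submodule.span F (Set.range z)), Q u = Q (e 0) → polar Q u (S u) = polar Q (e 0) (T (e 0)) →
      ∀ Z : (Fin (d - 1) ⊕ Fin (d - 1)) ⊕ Fin 2 → (ι → F), Z = Sum.elim z ![u, S u - α • u] →
      (∀ a b, a ≠ b → polar Q (Z a) (Z b) = 0) ∧
        ∀ a, Q (Z a) = Sum.elim (fun a => Q (z a)) ![Q (e 0), Q (e 0) * (η - α * α)] a := by
    intro S hT z hzo hinv u hu huQ huT Z hZ
    have hu' : ∀ i, ![u, S u - α • u] i ∈ perp Q (Submodule.span F (Set.range z)) := fun i => by
      fin_cases i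
      · exact hu
      · exact Submodule.sub_mem _ (hinv u hu) (Submodule.smul_mem _ _ hu)
    have huo : polar Q u (S u - α • u) = 0 := by
      rw [sub_eq_add_neg, polar_add_right, polar_neg_right, polar_smul_right, polar_self, huQ, huT, hα]
      simp only [smul_eq_mul, nsmul_eq_mul, Nat.cast_two]
      field_simp [he0 0]
      ring
    refine ⟨?_, ?_⟩
    · rintro (a | a) (c | c) hac <;> simp only [hZ, Sum.elim_inl, Sum.elim_inr]
      · exact hzo a c fun h => hac (h ▸ rfl)
      · rw [polar_comm]; exact mem_perp.mp (hu' c) _ (Submodule.subset_span ⟨a, rfl⟩)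
      · exact mem_perp.mp (hu' a) _ (Submodule.subset_span ⟨c, rfl⟩)
      · fin_cases a <;> fin_cases c
        exacts [absurd rfl hac, huo, (polar_comm _ _ _).trans huo, absurd rfl hac]
    · rintro (a | a)
      · simp [hZ]
      · fin_cases a
        · simpa [hZ] using huQ
        · simp only [hZ, Sum.elim_inr]
          show Q (S u - α • u) = Q (e 0) * (η - α * α)
          rw [Forms.map_sub', QuadraticMap.map_smul, map_root hT h2, polar_smul_right, polar_comm, huT, huQ, hα]
          simp only [smul_eq_mul]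
          field_simp [he0 0]
          ring
  have hwP : w ∈ perp Q (Submodule.span F (Set.range z')) := by
    rw [hw, ← hU']; exact Submodule.add_mem _ (Submodule.smul_mem _ _ (hfP 0)) (Submodule.smul_mem _ _ (hfP 1))
  obtain ⟨Z, hZ⟩ : ∃ Z, Z = Sum.elim z ![e 0, T (e 0) - α • e 0] := ⟨_, rfl⟩
  obtain ⟨Z', hZ'⟩ : ∃ Z', Z' = Sum.elim z' ![w, T' w - α • w] := ⟨_, rfl⟩
  obtain ⟨hZo, hZv⟩ := mk hT z hzo (hU ▸ hPi) (e 0) (hU ▸ heP 0) rfl rfl Z hZ
  obtain ⟨hZo', hZv'⟩ := mk hT' z' hzo' (hU' ▸ hPi') w hwP hwQ hwT Z' hZ'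
  have hα1 : η - α * α ≠ 0 := fun h => hη ⟨α, sub_eq_zero.mp h⟩
  have hcard : Fintype.card ((Fin (d - 1) ⊕ Fin (d - 1)) ⊕ Fin 2) = Fintype.card ι := by
    rw [hι]; simp; omega
  obtain ⟨h, hh, hhZ⟩ := isom_of_family h2 Z Z' hZo (fun a => by
    rw [hZv]
    rcases a with a | a
    · exact hz0 a
    · fin_cases a
      exacts [he0 0, mul_ne_zero (he0 0) hα1]) hZo' (fun a => by
    rw [hZv, hZv']
    rcases a with a | a
    · simp [hzv, hzv']
    · rfl) hcard
  refine ⟨h, hh, fun x => ?_⟩
  have hzl : ∀ i, h (v i) = v' i := fun i => by simpa [hZ, hZ', hz, hz'] using hhZ (Sum.inl (Sum.inl i))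
  have hzr : ∀ i, h (T (v i)) = T' (v' i) := fun i => by simpa [hZ, hZ', hz, hz'] using hhZ (Sum.inl (Sum.inr i))
  have he : h (e 0) = w := by simpa [hZ, hZ'] using hhZ (Sum.inr 0)
  have hTe0 : h (T (e 0)) = T' w := by
    have h1 : h (T (e 0) - α • e 0) = T' w - α • w := by simpa [hZ, hZ'] using hhZ (Sum.inr 1)
    rw [map_sub, map_smul, he] at h1
    exact sub_left_injective h1
  have hspan : Submodule.span F (Set.range Z) = ⊤ := Submodule.eq_top_of_finrank_eq (by
    rw [finrank_span_eq_card (orth_li h2 Z hZo fun a => by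
      rw [hZv]
      rcases a with a | a
      · exact hz0 a
      · fin_cases a
        exacts [he0 0, mul_ne_zero (he0 0) hα1]), hcard, Module.finrank_fintype_fun_eq_card])
  have heq : (h : (ι → F) →ₗ[F] (ι → F)) ∘ₗ T = T' ∘ₗ (h : (ι → F) →ₗ[F] (ι → F)) :=
    LinearMap.ext_on_range hspan fun a => by
      simp only [LinearMap.comp_apply, LinearEquiv.coe_coe]
      rcases a with (a | a) | a
      · simp [hZ, hz, hzl, hzr]
      · simp [hZ, hz, hT.2, hzl, hzr, hT'.2]
      · fin_cases a
        · simp [hZ, he, hTe0]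
        · simp [hZ, hT.2, he, hTe0, hT'.2]
  exact LinearMap.congr_fun heq x

end CfsgLib.OrthExt
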