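import Cfsg.Agent.SubElusive.OrthExt
import Cfsg.Agent.SubElusive.OrthNDUnip

/-!
Elements commuting with no root.
-/

set_option autoImplicit false
set_option linter.style.haveILetI false

open Matrix QuadraticMap CfsgLib.Forms CfsgLib.SemiClasses CfsgLib.OrthTS

namespace CfsgLib.OrthExt

variable {F : Type*} [Field F] [Fintype F] {ι : Type} [Fintype ι] [DecidableEq ι] {Q : QuadraticForm F (ι → F)}
  {η : F} {p : ℕ} [Fact p.Prime] [CharP F p]

/-- A long root element commutes with no root. -/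
theorem exists_root_witness (hp : p ≠ 2) (hQ : (polarBilin Q).Nondegenerate) (hη : ¬ IsSquare η)
    (hn : 7 ≤ Fintype.card ι) :
    ∃ x : GL ι F, x ∈ Cfsg.Geo.omegaGL ⇑Q ∧ x ^ p = 1 ∧ x ≠ 1 ∧
      ∀ T : Module.End F (ι → F), IsRoot Q η T →
        ¬ ∀ v, T ((x : Matrix ι ι F) *ᵥ v) = (x : Matrix ι ι F) *ᵥ T v := by
  classical
  have hV : Module.finrank F (ι → F) = Fintype.card ι := Module.finrank_fintype_fun_eq_card F
  obtain ⟨a, -, ha0, ha⟩ := Forms.exists_singular Q ⊤ (by rw [finrank_top, hV]; omega)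
  obtain ⟨C, hC⟩ := Submodule.exists_isCompl (Submodule.span F {a})
  have hCd := Submodule.finrank_add_eq_of_isCompl hC
  rw [finrank_span_singleton ha0, hV] at hCd
  have hCp : 3 ≤ Module.finrank F ↥(C ⊓ perp Q (Submodule.span F {a})) := by
    have h1 := Submodule.finrank_sup_add_finrank_inf_eq C (perp Q (Submodule.span F {a}))
    have h2 := Submodule.finrank_le (C ⊔ perp Q (Submodule.span F {a}))
    rw [finrank_perp hQ, finrank_span_singleton ha0, hV] at h1
    rw [hV] at h2
    omega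
  obtain ⟨b, ⟨hbC, hbp⟩, hb0, hb⟩ := Forms.exists_singular Q _ hCp
  have hba : polar Q b a = 0 := mem_perp.mp hbp a (Submodule.mem_span_singleton_self a)
  have hab : polar Q a b = 0 := by rw [polar_comm]; exact hba
  have haa : polar Q a a = 0 := by rw [polar_self, ha, smul_zero]
  have hbb : polar Q b b = 0 := by rw [polar_self, hb, smul_zero]
  have hbna : b ∉ Submodule.span F {a} := fun h => hb0 (Submodule.disjoint_def.mp hC.disjoint b h hbC)
  have hanb : a ∉ Submodule.span F {b} := fun h => by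
    obtain ⟨c, hc⟩ := Submodule.mem_span_singleton.mp h
    have hc0 : c ≠ 0 := fun h0 => ha0 (by rw [← hc, h0, zero_smul])
    exact hbna (Submodule.mem_span_singleton.mpr ⟨c⁻¹, by rw [← hc, smul_smul, inv_mul_cancel₀ hc0, one_smul]⟩)
  obtain ⟨D, hD⟩ : ∃ D : Module.End F (ι → F), ∀ v, D v = polar Q v a • b - polar Q v b • a :=
    ⟨((polarBilin Q).flip a).smulRight b - ((polarBilin Q).flip b).smulRight a, fun v => rfl⟩
  have hDD : ∀ v, D (D v) = 0 := fun v => by
    rw [hD (D v), hD v]
    simp [sub_eq_add_neg, polar_add_left, polar_neg_left, polar_smul_left, haa, hbb, hab, hba]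
  have hDQ : ∀ v, Q (v + D v) = Q v := fun v => by
    rw [hD, QuadraticMap.map_add (⇑Q), Forms.map_sub', QuadraticMap.map_smul, QuadraticMap.map_smul, ha, hb]
    simp only [sub_eq_add_neg, polar_add_right, polar_neg_right, polar_smul_right, polar_smul_left, hba, smul_eq_mul]
    ring
  obtain ⟨w, hwb, haw⟩ := exists_polar_eq_one hQ hanb
  obtain ⟨w', hwa, hbw⟩ := exists_polar_eq_one hQ hbna
  have hwb' : polar Q w b = 0 := mem_perp.mp hwb b (Submodule.mem_span_singleton_self b)
  have hwa' : polar Q w' a = 0 := mem_perp.mp hwa a (Submodule.mem_span_singleton_self a)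
  have hDw : D w = b := by rw [hD, hwb', polar_comm, haw, one_smul, zero_smul, sub_zero]
  have hDw' : D w' = -a := by rw [hD, hwa', polar_comm, hbw, one_smul, zero_smul, zero_sub]
  have hD0 : D ≠ 0 := fun h => hb0 (by rw [← hDw, h]; rfl)
  obtain ⟨x, hx, hxp, hx1, hxv⟩ := OrthND.exists_of_nil hp hQ (by omega) D (fun v => hDD (D v)) hDQ hD0
  refine ⟨x, hx, hxp, hx1, fun T hT hcomm => ?_⟩
  have h2 : (2 : F) ≠ 0 := Ring.two_ne_zero (by rw [ringChar.eq F p]; exact hp)
  have hTD : ∀ v, T (D v) = D (T v) := fun v => by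
    have h := hcomm v
    rw [hxv, hxv, map_add] at h
    exact add_left_cancel h
  have hskew : ∀ u v, polar Q (D u) v = -polar Q u (D v) := fun u v => by
    rw [hD, hD]
    simp only [sub_eq_add_neg, polar_add_left, polar_add_right, polar_neg_left, polar_neg_right, polar_smul_left,
      polar_smul_right, smul_eq_mul, polar_comm Q b v, polar_comm Q a v]
    ring
  have h0 : ∀ v, polar Q (D v) (T v) = 0 := fun v => by
    have h1 : polar Q (D v) (T v) = -polar Q (D v) (T v) := by
      conv_lhs => rw [hskew, ← hTD, ← hT.1, polar_comm]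
    exact (mul_eq_zero.mp (show (2 : F) * polar Q (D v) (T v) = 0 by linear_combination h1)).resolve_left h2
  obtain ⟨α, β, hTb⟩ : ∃ α β : F, T b = α • b - β • a := ⟨polar Q (T w) a, polar Q (T w) b, ((congrArg T hDw.symm).trans (hTD w)).trans (hD _)⟩
  obtain ⟨γ, δ, hTa⟩ : ∃ γ δ : F, T a = γ • b - δ • a := ⟨-polar Q (T w') a, -polar Q (T w') b, by
    rw [show a = -D w' by rw [hDw', neg_neg], map_neg, hTD, hD, hDw', neg_neg]; module⟩
  have heq : ∀ v, polar Q v a * (α * polar Q v b - β * polar Q v a) -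
      polar Q v b * (γ * polar Q v b - δ * polar Q v a) = 0 := fun v => by
    have e1 : polar Q b (T v) = α * polar Q v b - β * polar Q v a := by
      rw [← hT.1, hTb, sub_eq_add_neg, polar_add_left, polar_neg_left, polar_smul_left, polar_smul_left,
        polar_comm Q b, polar_comm Q a]
      simp only [smul_eq_mul]; ring
    have e2 : polar Q a (T v) = γ * polar Q v b - δ * polar Q v a := by
      rw [← hT.1, hTa, sub_eq_add_neg, polar_add_left, polar_neg_left, polar_smul_left, polar_smul_left,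
        polar_comm Q b, polar_comm Q a]
      simp only [smul_eq_mul]; ring
    have h := h0 v
    rw [hD, sub_eq_add_neg, polar_add_left, polar_neg_left, polar_smul_left, polar_smul_left, e1, e2] at h
    simp only [smul_eq_mul] at h
    linear_combination h
  have q1 := heq w
  rw [hwb', polar_comm Q w a, haw] at q1
  have q2 := heq w'
  rw [hwa', polar_comm Q w' b, hbw] at q2
  have hγ : γ = 0 := by linear_combination -q2
  exact root_no_eigen hT hη ha0 (-δ) (by rw [hTa, hγ]; module)

section Semisimple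

variable {r : ℕ} [hr : Fact r.Prime] {L : Type*} [Field L] [Finite L] [Algebra F L] {ζ : L}

/-- An element with a simple eigenvalue orbit of degree not divisible by four commutes with no root. -/
theorem avoid_simple (hζ : IsPrimitiveRoot ζ r) (h2 : (2 : F) ≠ 0) (hQ : (polarBilin Q).Nondegenerate)
    (hη : ¬ IsSquare η) {B : Matrix ι ι F} (hB : B ^ r = 1) (hBQ : ∀ v, Q (B *ᵥ v) = Q v) (hrL : (r : L) ≠ 0)
    (hr2 : r ≠ 2) {i : ℕ} (hi : i = orderOf ((Fintype.card F : ℕ) : ZMod r)) (hipos : 0 < i) (h4 : ¬ 4 ∣ i)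
    {x₁ : ZMod r} (hx₁ : x₁ ≠ 0) (hone : mult ζ B x₁ = 1) {T : Module.End F (ι → F)} (hT : IsRoot Q η T) :
    ¬ ∀ v, T (B *ᵥ v) = B *ᵥ T v := by
  classical
  intro hcomm
  haveI : Fintype L := Fintype.ofFinite L
  obtain ⟨M, hM⟩ : ∃ M : Matrix ι ι F, M = LinearMap.toMatrix' T := ⟨_, rfl⟩
  have hMv : ∀ v, M *ᵥ v = T v := fun v => by rw [hM, LinearMap.toMatrix'_mulVec]
  obtain ⟨G, hG⟩ : ∃ G : Matrix ι ι F, ∀ u v, u ⬝ᵥ G *ᵥ v = polar Q v u := by
    obtain ⟨P, hP⟩ : ∃ P : (ι → F) →ₗ[F] (ι → F), ∀ v i, P v i = polar Q v (Pi.single i 1) :=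
      ⟨LinearMap.pi fun i => (polarBilin Q).flip (Pi.single i 1), fun v i => by simp⟩
    refine ⟨LinearMap.toMatrix' P, fun u v => ?_⟩
    rw [LinearMap.toMatrix'_mulVec]
    conv_rhs => rw [← Finset.univ_sum_single u]
    rw [polar_comm, polar_sum_left, dotProduct]
    refine Finset.sum_congr rfl fun i _ => ?_
    rw [show (Pi.single i (u i) : ι → F) = u i • (Pi.single i 1 : ι → F) by rw [← Pi.single_smul']; simp,
      polar_smul_left, polar_comm Q (Pi.single i 1 : ι → F) v, hP, smul_eq_mul]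
  have hext : ∀ {A C : Matrix ι ι F}, (∀ u v, u ⬝ᵥ A *ᵥ v = u ⬝ᵥ C *ᵥ v) → A = C := fun {A C} h =>
    Matrix.ext fun i j => by simpa using h (Pi.single i 1) (Pi.single j 1)
  have hGdet : G.det ≠ 0 := fun h => by
    obtain ⟨v, hv0, hv⟩ := Matrix.exists_mulVec_eq_zero_iff.mpr h
    exact hv0 (polar_ext hQ fun u => by rw [← hG, hv, dotProduct_zero])
  have hBG : Bᵀ * G * B = G := hext fun u v => by
    rw [← Matrix.mulVec_mulVec, ← Matrix.mulVec_mulVec, Matrix.dotProduct_mulVec, Matrix.vecMul_transpose, hG, hG]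
    simp only [polar, ← Matrix.mulVec_add, hBQ]
  have hTG : Mᵀ * G = G * M := hext fun u v => by
    rw [← Matrix.mulVec_mulVec, ← Matrix.mulVec_mulVec, Matrix.dotProduct_mulVec u Mᵀ, Matrix.vecMul_transpose, hG,
      hG, hMv, hMv, hT.1]
  have hMB : M * B = B * M := Matrix.ext_iff_mulVec.mpr fun v => by
    rw [← Matrix.mulVec_mulVec, ← Matrix.mulVec_mulVec, hMv, hMv, hcomm]
  have hMM : M * M = η • (1 : Matrix ι ι F) := Matrix.ext_iff_mulVec.mpr fun v => by
    rw [← Matrix.mulVec_mulVec, hMv, hMv, hT.2, Matrix.smul_mulVec, Matrix.one_mulVec]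
  let α := (algebraMap F L).mapMatrix (m := ι)
  obtain ⟨lam, hlam⟩ : ∃ lam, lam = ζ ^ x₁.val := ⟨_, rfl⟩
  have hlam0 : lam ≠ 0 := hlam ▸ pow_ne_zero _ (hζ.ne_zero hr.out.ne_zero)
  have hlr : lam ^ r = 1 := by rw [hlam, ← pow_mul, mul_comm, pow_mul, hζ.pow_eq_one, one_pow]
  have hchar : (α B).charpoly.rootMultiplicity lam = 1 := by
    rw [show α B = B.map (algebraMap F L) from rfl, Matrix.charpoly_map, hlam]; exact hone
  obtain ⟨S, hS⟩ : ∃ S : Module.End L (ι → L), S = Matrix.toLin' (α B) := ⟨_, rfl⟩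
  have hSc : S.charpoly = (α B).charpoly := by rw [hS]; exact Matrix.charpoly_toLin' _
  obtain ⟨E, hE⟩ : ∃ E, E = Module.End.eigenspace S lam := ⟨_, rfl⟩
  have hEmem : ∀ v, v ∈ E ↔ α B *ᵥ v = lam • v := fun v => by
    rw [hE, Module.End.mem_eigenspace_iff, hS, Matrix.toLin'_apply]
  have hEd : Module.finrank L E ≤ 1 := by
    have h : Module.finrank L E ≤ S.charpoly.rootMultiplicity lam := hE ▸ LinearMap.finrank_eigenspace_le S lam
    rwa [hSc, hchar] at h
  obtain ⟨v, hv, hv0⟩ : ∃ v ∈ E, v ≠ 0 := Submodule.exists_mem_ne_zero_of_ne_bot fun h => by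
    have hev : S.HasEigenvalue lam := by
      rw [Module.End.hasEigenvalue_iff_isRoot_charpoly, hSc]
      exact (Polynomial.rootMultiplicity_pos (Matrix.charpoly_monic _).ne_zero).mp (by omega)
    exact hev (hE.symm.trans h)
  have hspan : ∀ w ∈ E, ∃ a : L, w = a • v := fun w hw => by
    have h1 : Submodule.span L {v} = E := Submodule.eq_of_le_of_finrank_le
      ((Submodule.span_singleton_le_iff_mem _ _).mpr hv) (by rw [finrank_span_singleton hv0]; exact hEd)
    rw [← h1] at hw
    obtain ⟨a, ha⟩ := Submodule.mem_span_singleton.mp hw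
    exact ⟨a, ha.symm⟩
  have hBv := (hEmem v).mp hv
  obtain ⟨s, hs⟩ := hspan (α M *ᵥ v) ((hEmem _).mpr (by
    rw [Matrix.mulVec_mulVec, ← map_mul, ← hMB, map_mul, ← Matrix.mulVec_mulVec, hBv, Matrix.mulVec_smul]))
  have hss : s * s = algebraMap F L η := by
    have h1 : α M *ᵥ (α M *ᵥ v) = algebraMap F L η • v := by
      rw [Matrix.mulVec_mulVec, ← map_mul, hMM,
        show α (η • (1 : Matrix ι ι F)) = algebraMap F L η • (1 : Matrix ι ι L) from by
          ext a b; rcases eq_or_ne a b with rfl | h <;> simp [α, *],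
        Matrix.smul_mulVec, Matrix.one_mulVec]
    rw [hs, Matrix.mulVec_smul, hs, smul_smul] at h1
    exact smul_left_injective L hv0 h1
  have hη0 : η ≠ 0 := fun h => hη (h ▸ IsSquare.zero)
  have hs0 : s ≠ 0 := fun h => by rw [h, mul_zero] at hss; exact hη0 ((algebraMap F L).injective (by rw [← hss, map_zero]))
  have hsq : ∀ k : ℕ, s ^ (Fintype.card F ^ k) = (-1) ^ k * s := by
    have hF : ringChar F ≠ 2 := fun h => h2 (by
      have := ringChar.Nat.cast_ringChar (R := F); rw [h] at this; exact_mod_cast this)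
    have hodd := FiniteField.odd_card_of_char_ne_two hF
    have h1 : η ^ (Fintype.card F / 2) = -1 := (FiniteField.pow_dichotomy hF hη0).resolve_left fun h =>
      hη ((FiniteField.isSquare_iff hF hη0).mpr h)
    have hq : s ^ Fintype.card F = -s := by
      obtain ⟨m, hm⟩ : ∃ m, m = Fintype.card F / 2 := ⟨_, rfl⟩
      rw [← hm] at h1
      rw [show Fintype.card F = 2 * m + 1 by omega, pow_succ, pow_mul, pow_two, hss, ← map_pow, h1, map_neg, map_one,
        neg_one_mul]
    intro k
    induction k with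
    | zero => simp
    | succ k ih =>
      rw [pow_succ, pow_mul, ih, mul_pow, hq, ← pow_mul, mul_comm k, pow_mul,
        show (-1 : L) ^ Fintype.card F = -1 from Odd.neg_one_pow (Nat.odd_iff.mpr hodd)]
      ring
  -- Galois conjugates of the eigenvector
  have hconj : ∀ k : ℕ, ∃ w : ι → L, w ≠ 0 ∧ α B *ᵥ w = lam ^ (Fintype.card F ^ k) • w ∧
      α M *ᵥ w = ((-1) ^ k * s) • w := by
    intro k
    obtain ⟨φ, hφ⟩ : ∃ φ : L →+* L, (∀ z, φ z = z ^ (Fintype.card F ^ k)) := by
      refine ⟨((FiniteField.frobeniusAlgEquivOfAlgebraic F L ^ k : L ≃ₐ[F] L) : L →ₐ[F] L).toRingHom, fun z => ?_⟩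
      show (FiniteField.frobeniusAlgEquivOfAlgebraic F L ^ k) z = _
      induction k with
      | zero => simp
      | succ k ih =>
        rw [pow_succ', AlgEquiv.mul_apply, ih, FiniteField.frobeniusAlgEquivOfAlgebraic, pow_succ, pow_mul]
        rfl
    have hfix : ∀ a : F, φ (algebraMap F L a) = algebraMap F L a := fun a => by
      rw [hφ, ← map_pow, FiniteField.pow_card_pow]
    have hmv : ∀ (A : Matrix ι ι F) (c : L), α A *ᵥ v = c • v → α A *ᵥ (φ ∘ v) = φ c • (φ ∘ v) := fun A c h => by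
      funext a
      have h' := congrArg φ (congrFun h a)
      rw [RingHom.map_mulVec, Pi.smul_apply, smul_eq_mul, map_mul] at h'
      rw [show (α A).map φ = α A from by ext x y; exact hfix _] at h'
      exact h'
    refine ⟨φ ∘ v, fun h => hv0 (funext fun a => φ.injective (by rw [Pi.zero_apply, map_zero]; exact congrFun h a)),
      ?_, ?_⟩
    · rw [hmv B lam hBv, hφ]
    · rw [hmv M s hs, hφ, hsq]
  have hpow : ∀ k : ℕ, lam ^ (Fintype.card F ^ k) = ζ ^ (x₁ * ((Fintype.card F : ℕ) : ZMod r) ^ k).val := fun k => by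
    rw [← Nat.cast_pow, pw_mul_natCast hζ, hlam]
  rcases Nat.even_or_odd i with hie | hio
  · obtain ⟨j, hj⟩ := hie
    have hjo : Odd j := by
      by_contra h
      obtain ⟨e, he⟩ := Nat.not_odd_iff_even.mp h
      exact h4 ⟨e, by omega⟩
    have hqj : ((Fintype.card F : ℕ) : ZMod r) ^ j = -1 := by
      have h1 : ((Fintype.card F : ℕ) : ZMod r) ^ j * ((Fintype.card F : ℕ) : ZMod r) ^ j = 1 := by
        rw [← pow_add, ← hj, hi, pow_orderOf_eq_one]
      rcases mul_self_eq_one_iff.mp h1 with h | h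
      · have := Nat.le_of_dvd (by omega) (hi ▸ orderOf_dvd_of_pow_eq_one h)
        omega
      · exact h
    obtain ⟨w, hw0, hBw, hMw⟩ := hconj j
    obtain ⟨lam', hlam'⟩ : ∃ lam', lam' = lam ^ (Fintype.card F ^ j) := ⟨_, rfl⟩
    rw [← hlam'] at hBw
    have hll : lam' * lam = 1 := by
      rw [hlam', hpow, hqj, mul_neg, mul_one, hlam, ← pow_add, ← pw_natCast hζ, Nat.cast_add, ZMod.natCast_zmod_val,
        ZMod.natCast_zmod_val, neg_add_cancel, ZMod.val_zero, pow_zero]
    rw [hjo.neg_one_pow, neg_one_mul] at hMw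
    obtain ⟨g, hg⟩ : ∃ g, g = α G *ᵥ w := ⟨_, rfl⟩
    have hBg : (α B)ᵀ *ᵥ g = lam • g := by
      have h1 := congrArg (fun A : Matrix ι ι F => α A *ᵥ w) hBG
      simp only [map_mul, ← Matrix.mulVec_mulVec, hBw, Matrix.mulVec_smul, ← hg,
        show α Bᵀ = (α B)ᵀ from (Matrix.transpose_map).symm] at h1
      have h2 := congrArg (lam • ·) h1
      simp only [smul_smul, mul_comm lam lam', hll, one_smul] at h2
      exact h2
    have hMg : (α M)ᵀ *ᵥ g = (-s) • g := by
      have h1 := congrArg (fun A : Matrix ι ι F => α A *ᵥ w) hTG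
      simp only [map_mul, ← Matrix.mulVec_mulVec, hMw, Matrix.mulVec_smul, ← hg,
        show α Mᵀ = (α M)ᵀ from (Matrix.transpose_map).symm] at h1
      exact h1
    have hgv : g ⬝ᵥ v = 0 := by
      have h1 : g ⬝ᵥ (α M *ᵥ v) = ((α M)ᵀ *ᵥ g) ⬝ᵥ v := by rw [Matrix.dotProduct_mulVec, Matrix.mulVec_transpose]
      rw [hs, hMg, dotProduct_smul, smul_dotProduct] at h1
      have hL2 : (2 : L) ≠ 0 := fun h => h2 ((algebraMap F L).injective (by rw [map_ofNat, map_zero]; exact h))
      exact (mul_eq_zero.mp (show (2 * s) * (g ⬝ᵥ v) = 0 by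
        simp only [smul_eq_mul] at h1; linear_combination h1)).resolve_left (mul_ne_zero hL2 hs0)
    obtain ⟨Ph, hPh⟩ : ∃ Ph, Ph = S - lam • (1 : Module.End L (ι → L)) := ⟨_, rfl⟩
    have hPhv : ∀ y, Ph y = α B *ᵥ y - lam • y := fun y => by
      rw [hPh, hS, LinearMap.sub_apply, Matrix.toLin'_apply, LinearMap.smul_apply, Module.End.one_apply]
    have hvR : v ∉ LinearMap.range Ph := by
      rintro ⟨y, hy⟩
      rw [hPhv, sub_eq_iff_eq_add'] at hy
      have hk : ∀ k : ℕ, (α B) ^ k *ᵥ y = lam ^ k • y + ((k : L) * lam ^ (k - 1)) • v := by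
        intro k
        induction k with
        | zero => simp
        | succ k ih =>
          rw [pow_succ', ← Matrix.mulVec_mulVec, ih, Matrix.mulVec_add, Matrix.mulVec_smul, Matrix.mulVec_smul, hy,
            hBv]
          rcases k with _ | k
          · simp
          · simp only [Nat.add_sub_cancel, Nat.cast_succ, pow_succ]
            module
      have h1 := hk r
      rw [← map_pow, hB, map_one, Matrix.one_mulVec, hlr, one_smul, left_eq_add] at h1
      exact mul_ne_zero hrL (pow_ne_zero _ hlam0) ((smul_eq_zero.mp h1).resolve_right hv0)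
    have htop : LinearMap.range Ph ⊔ Submodule.span L {v} = ⊤ := by
      refine Submodule.eq_top_of_finrank_eq ?_
      have h1 := Ph.finrank_range_add_finrank_ker
      have hker : Module.finrank L (LinearMap.ker Ph) ≤ 1 := le_trans (le_of_eq (by
        rw [show LinearMap.ker Ph = E from by
          ext y; rw [LinearMap.mem_ker, hPhv, sub_eq_zero, hEmem]])) hEd
      have hlt : LinearMap.range Ph < LinearMap.range Ph ⊔ Submodule.span L {v} :=
        lt_of_le_of_ne le_sup_left fun h => hvR (by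
          rw [h]; exact Submodule.mem_sup_right (Submodule.mem_span_singleton_self v))
      have := Submodule.finrank_lt_finrank_of_lt hlt
      have := Submodule.finrank_le (LinearMap.range Ph ⊔ Submodule.span L {v})
      omega
    have hg0 : g = 0 := funext fun a => by
      obtain ⟨x, ⟨y, rfl⟩, x', hx', hxx⟩ := Submodule.mem_sup.mp
        (htop ▸ Submodule.mem_top : (Pi.single a 1 : ι → L) ∈ LinearMap.range Ph ⊔ Submodule.span L {v})
      obtain ⟨c, rfl⟩ := Submodule.mem_span_singleton.mp hx'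
      have h1 : g ⬝ᵥ Ph y = 0 := by
        rw [hPhv, dotProduct_sub, Matrix.dotProduct_mulVec, ← Matrix.mulVec_transpose, hBg, smul_dotProduct,
          dotProduct_smul, sub_self]
      have h := congrArg (fun z => g ⬝ᵥ z) hxx
      simp only [dotProduct_add, dotProduct_smul, h1, hgv, smul_zero, add_zero, dotProduct_single, mul_one] at h
      exact h.symm
    refine hw0 (Matrix.eq_zero_of_mulVec_eq_zero ?_ (hg ▸ hg0 : α G *ᵥ w = 0))
    rw [← RingHom.map_det]
    exact (map_ne_zero _).mpr hGdet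
  · obtain ⟨w, hw0, hBw, hMw⟩ := hconj i
    rw [hpow, hi, pow_orderOf_eq_one, mul_one, ← hlam] at hBw
    obtain ⟨a, rfl⟩ := hspan w ((hEmem w).mpr hBw)
    have hs' : (-1 : L) ^ i * s = s := by
      rw [Matrix.mulVec_smul, hs, smul_smul, smul_smul] at hMw
      have ha0 : a ≠ 0 := fun h => hw0 (by rw [h, zero_smul])
      have := smul_left_injective L hv0 hMw
      exact mul_left_cancel₀ ha0 (by linear_combination -this)
    rw [hio.neg_one_pow] at hs'
    have hL2 : (2 : L) ≠ 0 := fun h => h2 ((algebraMap F L).injective (by rw [map_ofNat, map_zero]; exact h))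
    exact mul_ne_zero hL2 hs0 (by linear_combination -hs')

end Semisimple

end CfsgLib.OrthExt
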