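import Cfsg.Agent.SubElusive.OrthExt

/-!
Elements of projective order two commute or anticommute with a conjugate root.
-/

set_option autoImplicit false
set_option linter.style.haveILetI false

open Matrix QuadraticMap CfsgLib.Forms CfsgLib.SemiClasses CfsgLib.OrthTS

namespace CfsgLib.OrthExt

variable {F : Type*} [Field F] [Fintype F] {ι : Type} [Fintype ι] [DecidableEq ι] {Q : QuadraticForm F (ι → F)}
  {η : F} {τ : Type} [Fintype τ] [DecidableEq τ]

/-- The formulas of a root built from pairs. -/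
def PairRoot (Q : QuadraticForm F (ι → F)) (z : τ ⊕ τ → (ι → F)) (s t : τ → F) (T : Module.End F (ι → F)) : Prop :=
  ∀ a, T (z (Sum.inl a)) = s a • z (Sum.inl a) + (t a * Q (z (Sum.inl a))) • z (Sum.inr a) ∧
    T (z (Sum.inr a)) = (t a * Q (z (Sum.inr a))) • z (Sum.inl a) - s a • z (Sum.inr a)

/-- A root with prescribed action on orthogonal pairs. -/
theorem exists_pairRoot (h2 : (2 : F) ≠ 0) (z : τ ⊕ τ → (ι → F)) (hz : ∀ a b, a ≠ b → polar Q (z a) (z b) = 0)
    (hz0 : ∀ a, Q (z a) ≠ 0) (hcard : Fintype.card (τ ⊕ τ) = Fintype.card ι) (s t : τ → F)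
    (hst : ∀ a, s a * s a + t a * t a * (Q (z (Sum.inl a)) * Q (z (Sum.inr a))) = η) :
    ∃ T, IsRoot Q η T ∧ PairRoot Q z s t T := by
  classical
  rcases isEmpty_or_nonempty (τ ⊕ τ) with hσ | hσ
  · have : IsEmpty ι := Fintype.card_eq_zero_iff.mp (by rw [← hcard, Fintype.card_eq_zero])
    exact ⟨0, ⟨fun u v => by simp, fun v => funext fun i => isEmptyElim i⟩, fun a => isEmptyElim (Sum.inl a : τ ⊕ τ)⟩
  let b := basisOfLinearIndependentOfCardEqFinrank (orth_li h2 z hz hz0)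
    (by rw [hcard, Module.finrank_fintype_fun_eq_card])
  have hb : ⇑b = z := coe_basisOfLinearIndependentOfCardEqFinrank _ _
  obtain ⟨f, hf⟩ : ∃ f : τ ⊕ τ → (ι → F),
      f = Sum.elim (fun a => s a • z (Sum.inl a) + (t a * Q (z (Sum.inl a))) • z (Sum.inr a))
        (fun a => (t a * Q (z (Sum.inr a))) • z (Sum.inl a) - s a • z (Sum.inr a)) := ⟨_, rfl⟩
  obtain ⟨T, hT⟩ : ∃ T : Module.End F (ι → F), PairRoot Q z s t T :=
    ⟨b.constr F f, fun a => ⟨by
        have h := b.constr_basis F f (Sum.inl a)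
        rw [hb] at h
        rw [h, hf, Sum.elim_inl], by
        have h := b.constr_basis F f (Sum.inr a)
        rw [hb] at h
        rw [h, hf, Sum.elim_inr]⟩⟩
  have hg : ∀ a c, polar Q (z a) (z c) = if a = c then 2 * Q (z a) else 0 := fun a c => by
    split_ifs with h
    · rw [h, polar_self, nsmul_eq_mul, Nat.cast_two]
    · exact hz a c h
  refine ⟨T, ⟨fun u v => ?_, fun v => ?_⟩, hT⟩
  · have h : (polarBilin Q).compl₂ T = (polarBilin Q).comp T := b.ext fun i => b.ext fun j => by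
      rw [hb]
      simp only [LinearMap.compl₂_apply, LinearMap.comp_apply, polarBilin_apply_apply]
      rcases i with i | i <;> rcases j with j | j <;>
        simp only [(hT i).1, (hT i).2, (hT j).1, (hT j).2, sub_eq_add_neg, polar_add_left, polar_add_right, polar_neg_left,
          polar_neg_right, polar_smul_left, polar_smul_right] <;>
        simp only [hg, Sum.inl.injEq, Sum.inr.injEq, reduceCtorEq, if_false, smul_eq_mul] <;>
        rcases eq_or_ne i j with rfl | hij <;> (try simp [*]) <;> (try ring)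
    exact (LinearMap.congr_fun (LinearMap.congr_fun h u) v).symm
  · have h : T ∘ₗ T = η • (LinearMap.id : Module.End F (ι → F)) := b.ext fun i => by
      rw [hb, LinearMap.comp_apply, LinearMap.smul_apply, LinearMap.id_apply]
      rcases i with i | i <;>
        simp only [(hT i).1, (hT i).2, map_add, map_sub, map_smul, ← hst i] <;> module
    exact LinearMap.congr_fun h v

variable (h2 : (2 : F) ≠ 0)

include h2 in
omit [Fintype F] in
theorem span_eq_top (z : τ ⊕ τ → (ι → F)) (hz : ∀ a b, a ≠ b → polar Q (z a) (z b) = 0) (hz0 : ∀ a, Q (z a) ≠ 0)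
    (hcard : Fintype.card (τ ⊕ τ) = Fintype.card ι) : Submodule.span F (Set.range z) = ⊤ :=
  Submodule.eq_top_of_finrank_eq (by
    rw [finrank_span_eq_card (orth_li h2 z hz hz0), hcard, Module.finrank_fintype_fun_eq_card])

include h2 in
/-- Some conjugate of a root by an element of `Ω` has both prescribed relations. -/
theorem exists_omega_root (hQ : (polarBilin Q).Nondegenerate) (hη : ¬ IsSquare η) {d : ℕ} (hd : 3 ≤ d)
    (hι : Fintype.card ι = 2 * d) {T : Module.End F (ι → F)} (hT : IsRoot Q η T)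
    (z : τ ⊕ τ → (ι → F)) (hz : ∀ a b, a ≠ b → polar Q (z a) (z b) = 0) (hz0 : ∀ a, Q (z a) ≠ 0)
    (hcard : Fintype.card (τ ⊕ τ) = Fintype.card ι) (P : Module.End F (ι → F) → Prop)
    (hP : ∀ T' s t, PairRoot Q z s t T' → IsRoot Q η T' → P T') :
    ∃ g : Cfsg.isometryGroup F ⇑Q, g ∈ Cfsg.Omega F ⇑Q ∧ ∃ T', P T' ∧
      ∀ v, ((g : GL ι F) : Matrix ι ι F) *ᵥ T v = T' (((g : GL ι F) : Matrix ι ι F) *ᵥ v) := by
  classical
  have hη0 : η ≠ 0 := fun h => hη (h ▸ IsSquare.zero)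
  have hst : ∀ a : τ, ∃ s t : F, s * s + t * t * (Q (z (Sum.inl a)) * Q (z (Sum.inr a))) = η := fun a => by
    obtain ⟨s, t, h⟩ := exists_two_squares (one_ne_zero : (1 : F) ≠ 0)
      (mul_ne_zero (hz0 (Sum.inl a)) (hz0 (Sum.inr a))) η
    exact ⟨s, t, by linear_combination h⟩
  choose s t hst using hst
  obtain ⟨T₁, hT₁, hT₁p⟩ := exists_pairRoot h2 z hz hz0 hcard s t hst
  obtain ⟨a₀⟩ : Nonempty τ := by
    refine Fintype.card_pos_iff.mp ?_
    rw [Fintype.card_sum, hι] at hcard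
    omega
  obtain ⟨T₂, hT₂, hT₂p⟩ := exists_pairRoot (η := η) h2 z hz hz0 hcard s (Function.update t a₀ (-t a₀)) fun a => by
    rcases eq_or_ne a a₀ with h | h
    · rw [h, Function.update_self]; linear_combination hst a₀
    · rw [Function.update_of_ne h]; exact hst a
  obtain ⟨σ, hσ⟩ : ∃ σ : isom Q, σ = ⟨refl Q (z (Sum.inl a₀)) (hz0 _), refl_mem_isom (hz0 _)⟩ := ⟨_, rfl⟩
  have hσv : ∀ i, (σ : (ι → F) ≃ₗ[F] (ι → F)) (z i) = if i = Sum.inl a₀ then -z i else z i := fun i => by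
    rw [hσ]
    show refl Q (z (Sum.inl a₀)) (hz0 _) (z i) = _
    rw [refl_apply]
    split_ifs with h
    · subst h
      rw [polar_self, nsmul_eq_mul, Nat.cast_two, mul_left_comm, inv_mul_cancel₀ (hz0 _), mul_one, two_smul]
      abel
    · rw [hz _ _ h, mul_zero, zero_smul, sub_zero]
  have hσT : ∀ v, (σ : (ι → F) ≃ₗ[F] (ι → F)) (T₁ v) = T₂ ((σ : (ι → F) ≃ₗ[F] (ι → F)) v) := fun v => by
    have h : ((σ : (ι → F) ≃ₗ[F] (ι → F)) : (ι → F) →ₗ[F] (ι → F)) ∘ₗ T₁ =
        T₂ ∘ₗ ((σ : (ι → F) ≃ₗ[F] (ι → F)) : (ι → F) →ₗ[F] (ι → F)) :=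
      LinearMap.ext_on_range (span_eq_top h2 z hz hz0 hcard) fun i => by
        simp only [LinearMap.comp_apply, LinearEquiv.coe_coe]
        rcases i with a | a <;> rcases eq_or_ne a a₀ with h | h
        · rw [h, hσv, if_pos rfl, map_neg, (hT₁p a₀).1, (hT₂p a₀).1, map_add, map_smul, map_smul, hσv, if_pos rfl, hσv,
            if_neg Sum.inr_ne_inl, Function.update_self]
          module
        · rw [hσv, if_neg (fun e => h (Sum.inl.inj e)), (hT₁p a).1, (hT₂p a).1, map_add, map_smul, map_smul, hσv,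
            if_neg (fun e => h (Sum.inl.inj e)), hσv, if_neg Sum.inr_ne_inl, Function.update_of_ne h]
        · rw [h, hσv, if_neg Sum.inr_ne_inl, (hT₁p a₀).2, (hT₂p a₀).2, map_sub, map_smul, map_smul, hσv, if_pos rfl,
            hσv, if_neg Sum.inr_ne_inl, Function.update_self]
          module
        · rw [hσv, if_neg Sum.inr_ne_inl, (hT₁p a).2, (hT₂p a).2, map_sub, map_smul, map_smul, hσv,
            if_neg (fun e => h (Sum.inl.inj e)), hσv, if_neg Sum.inr_ne_inl, Function.update_of_ne h]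
    exact LinearMap.congr_fun h v
  obtain ⟨h, hh, hhT⟩ := root_conj h2 hQ hη (by omega) hι hT hT₁
  obtain ⟨g₁, T', hT', hg₁, hdet⟩ : ∃ (g₁ : isom Q) (T' : Module.End F (ι → F)), P T' ∧
      (∀ v, (g₁ : (ι → F) ≃ₗ[F] (ι → F)) (T v) = T' ((g₁ : (ι → F) ≃ₗ[F] (ι → F)) v)) ∧
      detSign h2 hQ g₁ = 1 := by
    rcases Int.units_eq_one_or (detSign h2 hQ ⟨h, hh⟩) with h1 | h1
    · exact ⟨⟨h, hh⟩, T₁, hP _ _ _ hT₁p hT₁, hhT, h1⟩
    · refine ⟨σ * ⟨h, hh⟩, T₂, hP _ _ _ hT₂p hT₂, fun v => ?_, ?_⟩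
      · show (σ : (ι → F) ≃ₗ[F] (ι → F)) (h (T v)) = T₂ ((σ : (ι → F) ≃ₗ[F] (ι → F)) (h v))
        rw [hhT, hσT]
      · rw [map_mul, h1, hσ, detSign_refl]; rfl
  obtain ⟨g₂, hg₂, hd₂, hs₂⟩ : ∃ g₂ : isom Q,
      (∀ v, (g₂ : (ι → F) ≃ₗ[F] (ι → F)) (T v) = T ((g₂ : (ι → F) ≃ₗ[F] (ι → F)) v)) ∧
      detSign h2 hQ g₂ = 1 ∧ spin h2 hQ g₂ = -1 := by
    have htop : Disjoint (⊤ : Submodule F (ι → F)) (perp Q ⊤) :=
      Submodule.disjoint_def.mpr fun x _ hx => polar_ext hQ fun y => mem_perp.mp hx y trivial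
    obtain ⟨v, -, hv1, hvT⟩ := exists_unit hT h2 hη htop (fun _ _ => trivial)
      (by rw [finrank_top, Module.finrank_fintype_fun_eq_card, hι]; omega)
    have hv0 : Q v ≠ 0 := by rw [hv1]; exact one_ne_zero
    have hTv0 : Q (T v) ≠ 0 := by rw [map_root hT h2, hv1, mul_one]; exact hη0
    refine ⟨⟨refl Q v hv0, refl_mem_isom hv0⟩ * ⟨refl Q (T v) hTv0, refl_mem_isom hTv0⟩, fun x => ?_, ?_, ?_⟩
    · show refl Q v hv0 (refl Q (T v) hTv0 (T x)) = T (refl Q v hv0 (refl Q (T v) hTv0 x))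
      simp only [refl_apply, map_sub, map_smul, hv1, map_root hT h2, mul_one, inv_one, one_mul,
        polar_sub_left, polar_smul_left, smul_eq_mul, polar_comm Q (T v) v, hvT, mul_zero, sub_zero,
        polar_root hT, hT.1 x v, hT.2]
      match_scalars <;> field_simp <;> ring
    · rw [map_mul, detSign_refl, detSign_refl]; rfl
    · rw [map_mul, spin_refl, spin_refl, if_pos (by rw [hv1]; exact IsSquare.one),
        if_neg (by rw [map_root hT h2, hv1, mul_one]; exact hη), one_mul]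
  obtain ⟨g, hgT, hgd, hgs⟩ : ∃ g : isom Q,
      (∀ v, (g : (ι → F) ≃ₗ[F] (ι → F)) (T v) = T' ((g : (ι → F) ≃ₗ[F] (ι → F)) v)) ∧
      detSign h2 hQ g = 1 ∧ spin h2 hQ g = 1 := by
    rcases Int.units_eq_one_or (spin h2 hQ g₁) with h1 | h1
    · exact ⟨g₁, hg₁, hdet, h1⟩
    · refine ⟨g₁ * g₂, fun v => ?_, by rw [map_mul, hdet, hd₂, one_mul], by rw [map_mul, h1, hs₂]; rfl⟩
      show (g₁ : (ι → F) ≃ₗ[F] (ι → F)) ((g₂ : (ι → F) ≃ₗ[F] (ι → F)) (T v)) =
        T' ((g₁ : (ι → F) ≃ₗ[F] (ι → F)) ((g₂ : (ι → F) ≃ₗ[F] (ι → F)) v))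
      rw [hg₂, hg₁]
  refine ⟨(isoEquiv Q).symm g, ?_, T', hT', fun v => ?_⟩
  · rw [mem_Omega_iff_kernels Q h2 hQ (by omega), MulEquiv.apply_symm_apply]
    exact ⟨hgd, hgs⟩
  · simp only [← glEquiv_apply]
    rw [show glEquiv ((((isoEquiv Q).symm g : Cfsg.isometryGroup F ⇑Q)) : GL ι F) = (g : (ι → F) ≃ₗ[F] (ι → F)) from
      congrArg Subtype.val ((isoEquiv Q).apply_symm_apply g)]
    exact hgT v

include h2 in
/-- An element of `Ω` of projective order two commutes or anticommutes with a conjugate of a root. -/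
theorem exists_conj_two (hQ : (polarBilin Q).Nondegenerate) (hη : ¬ IsSquare η) {d : ℕ} (hd : 3 ≤ d)
    (hι : Fintype.card ι = 2 * d) {T : Module.End F (ι → F)} (hT : IsRoot Q η T) (y : Cfsg.isometryGroup F ⇑Q)
    (hy : y ∈ Cfsg.Omega F ⇑Q) {c : F}
    (hz : ((y : GL ι F) : Matrix ι ι F) * ((y : GL ι F) : Matrix ι ι F) = c • (1 : Matrix ι ι F))
    (hns : ∀ z : F, ((y : GL ι F) : Matrix ι ι F) ≠ z • (1 : Matrix ι ι F)) :
    ∃ g : Cfsg.isometryGroup F ⇑Q, g ∈ Cfsg.Omega F ⇑Q ∧ ∃ (T' : Module.End F (ι → F)) (κ : F), κ * κ = 1 ∧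
      (∀ v, ((g : GL ι F) : Matrix ι ι F) *ᵥ T v = T' (((g : GL ι F) : Matrix ι ι F) *ᵥ v)) ∧
      ∀ v, ((y : GL ι F) : Matrix ι ι F) *ᵥ T' v = κ • T' (((y : GL ι F) : Matrix ι ι F) *ᵥ v) := by
  classical
  have hyQ := mem_isometryGroup.mp y.2
  obtain ⟨v₀, hv₀⟩ := exists_nonsingular hQ (by omega)
  have hcc : c * c = 1 := by
    have h : Q ((((y : GL ι F) : Matrix ι ι F) * ((y : GL ι F) : Matrix ι ι F)) *ᵥ v₀) = Q v₀ := by
      rw [← Matrix.mulVec_mulVec, hyQ, hyQ]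
    rw [hz, Matrix.smul_mulVec, Matrix.one_mulVec, QuadraticMap.map_smul, smul_eq_mul] at h
    exact mul_right_cancel₀ hv₀ (by rw [h, one_mul])
  obtain ⟨X, hX⟩ : ∃ X, X = ((y : GL ι F) : Matrix ι ι F) := ⟨_, rfl⟩
  rw [← hX] at hz hns hyQ ⊢
  rcases mul_self_eq_one_iff.mp hcc with rfl | rfl
  · rw [one_smul] at hz
    obtain ⟨U, U', n, mU, mU', horth, hsup, -, hdU, hdU', hn1, hnd, hU'd, hUd, -, -⟩ :=
      invol_types h2 hQ y hy (hX ▸ hz) (hX ▸ hns) (d := d) (by omega) hι (ε := HasHalf Q) Iff.rfl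
    rw [← hX] at mU mU'
    obtain ⟨w, hwU, hwo, hw0⟩ := OrthOddSub.exists_orth_family h2 U' hdU' (2 * n) hU'd.ge
    obtain ⟨w', hwU2, hwo', hw0'⟩ := OrthOddSub.exists_orth_family h2 U hdU (2 * (d - n)) hUd.ge
    let e₁ : Fin n ⊕ Fin n ≃ Fin (2 * n) := finSumFinEquiv.trans (finCongr (by omega))
    let e₂ : Fin (d - n) ⊕ Fin (d - n) ≃ Fin (2 * (d - n)) := finSumFinEquiv.trans (finCongr (by omega))
    obtain ⟨z, hzdef⟩ : ∃ z : (Fin n ⊕ Fin (d - n)) ⊕ (Fin n ⊕ Fin (d - n)) → (ι → F),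
        z = Sum.elim (Sum.elim (fun a => w (e₁ (Sum.inl a))) (fun a => w' (e₂ (Sum.inl a))))
          (Sum.elim (fun a => w (e₁ (Sum.inr a))) (fun a => w' (e₂ (Sum.inr a)))) := ⟨_, rfl⟩
    have ho1 : ∀ i j, polar Q (w i) (w' j) = 0 := fun i j => by
      rw [polar_comm]; exact horth _ (hwU2 j) _ (hwU i)
    have ho2 : ∀ i j, polar Q (w' i) (w j) = 0 := fun i j => horth _ (hwU2 i) _ (hwU j)
    have hzo : ∀ a b, a ≠ b → polar Q (z a) (z b) = 0 := by
      rintro ((a | a) | (a | a)) ((b | b) | (b | b)) hab <;> simp only [hzdef, Sum.elim_inl, Sum.elim_inr] <;>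
        first
          | exact ho1 _ _
          | exact ho2 _ _
          | (refine hwo _ _ fun h => ?_; have := e₁.injective h; simp_all)
          | (refine hwo' _ _ fun h => ?_; have := e₂.injective h; simp_all)
    obtain ⟨g, hg, T', hT', hgT⟩ := exists_omega_root h2 hQ hη hd hι hT z hzo
      (by rintro ((a | a) | (a | a)) <;> simp [hzdef, hw0, hw0']) (by simp; omega)
      (fun T' => ∀ v, X *ᵥ T' v = T' (X *ᵥ v)) (fun T' s t hp _ v => by
        have h : Matrix.toLin' X ∘ₗ T' = T' ∘ₗ Matrix.toLin' X :=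
          LinearMap.ext_on_range (span_eq_top h2 z hzo
            (by rintro ((a | a) | (a | a)) <;> simp [hzdef, hw0, hw0']) (by simp; omega)) fun i => by
            simp only [LinearMap.comp_apply, Matrix.toLin'_apply]
            have hU : ∀ a, X *ᵥ w' a = w' a := fun a => (mU _).mp (hwU2 a)
            have hU' : ∀ a, X *ᵥ w a = -w a := fun a => (mU' _).mp (hwU a)
            rcases i with (a | a) | (a | a) <;>
              [have h1 := (hp (Sum.inl a)).1; have h1 := (hp (Sum.inr a)).1;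
                have h1 := (hp (Sum.inl a)).2; have h1 := (hp (Sum.inr a)).2] <;>
              simp only [hzdef, Sum.elim_inl, Sum.elim_inr] at h1 ⊢ <;>
              simp only [hU, hU', map_neg, h1, Matrix.mulVec_add, Matrix.mulVec_sub, Matrix.mulVec_smul] <;>
              module
        simpa using LinearMap.congr_fun h v)
    exact ⟨g, hg, T', 1, one_mul 1, hgT, fun v => by rw [one_smul]; exact hT' v⟩
  · rw [neg_one_smul] at hz
    obtain ⟨w, hw1, hwo, hwX⟩ := quarter_family h2 hQ hz hyQ hι d le_rfl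
    obtain ⟨z, hzdef⟩ : ∃ z : Fin d ⊕ Fin d → (ι → F), z = Sum.elim w fun i => X *ᵥ w i := ⟨_, rfl⟩
    have hz1 : ∀ a, Q (z a) = 1 := by rintro (a | a) <;> simp [hzdef, hw1, hyQ]
    have hzo : ∀ a b, a ≠ b → polar Q (z a) (z b) = 0 := by
      rintro (a | a) (b | b) hab <;> simp only [hzdef, Sum.elim_inl, Sum.elim_inr]
      · exact hwo a b fun h => hab (h ▸ rfl)
      · exact hwX a b
      · rw [polar_comm]; exact hwX b a
      · rw [quarter_skew hz hyQ, quarter_twice hz, polar_neg_right, neg_neg]; exact hwo a b fun h => hab (h ▸ rfl)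
    have hz0 : ∀ a, Q (z a) ≠ 0 := fun a => by rw [hz1]; exact one_ne_zero
    have hcard : Fintype.card (Fin d ⊕ Fin d) = Fintype.card ι := by simp; omega
    obtain ⟨g, hg, T', hT', hgT⟩ := exists_omega_root h2 hQ hη hd hι hT z hzo hz0 hcard
      (fun T' => ∀ v, X *ᵥ T' v = -T' (X *ᵥ v)) (fun T' s t hp _ v => by
        have h : Matrix.toLin' X ∘ₗ T' = -(T' ∘ₗ Matrix.toLin' X) :=
          LinearMap.ext_on_range (span_eq_top h2 z hzo hz0 hcard) fun i => by
            simp only [LinearMap.neg_apply, LinearMap.comp_apply, Matrix.toLin'_apply]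
            rcases i with a | a
            · have e1 : X *ᵥ z (Sum.inl a) = z (Sum.inr a) := by simp [hzdef]
              have e2 : X *ᵥ z (Sum.inr a) = -z (Sum.inl a) := by simp [hzdef, quarter_twice hz]
              rw [(hp a).1, e1, (hp a).2, hz1, hz1, Matrix.mulVec_add, Matrix.mulVec_smul, Matrix.mulVec_smul, e1, e2]
              module
            · have e1 : X *ᵥ z (Sum.inl a) = z (Sum.inr a) := by simp [hzdef]
              have e2 : X *ᵥ z (Sum.inr a) = -z (Sum.inl a) := by simp [hzdef, quarter_twice hz]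
              rw [(hp a).2, e2, map_neg, (hp a).1, hz1, hz1, Matrix.mulVec_sub, Matrix.mulVec_smul,
                Matrix.mulVec_smul, e1, e2]
              module
        simpa using LinearMap.congr_fun h v)
    exact ⟨g, hg, T', -1, by ring, hgT, fun v => by rw [neg_one_smul]; exact hT' v⟩

end CfsgLib.OrthExt
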