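import Cfsg.Agent.SubElusive.OrthOdd
import Cfsg.Agent.SubElusive.OrthTSEvenQuarter

/-!
Odd-dimensional nondegenerate subspaces of given isometry class in even-dimensional quadratic spaces.
-/

set_option autoImplicit false
set_option linter.style.haveILetI false

open Matrix QuadraticMap CfsgLib.Forms CfsgLib.SemiClasses CfsgLib.OrthTS

namespace CfsgLib.OrthND

variable {F : Type*} [Field F] [Fintype F] {ι : Type} [Fintype ι] {m b : ℕ}

/-- A subspace isometric to a given form. -/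
def IsoSub (Q : QuadraticForm F (ι → F)) (R₀ : QuadraticForm F (Fin m → F)) (W : Submodule F (ι → F)) : Prop :=
  ∃ L : (Fin m → F) →ₗ[F] (ι → F), Function.Injective L ∧ LinearMap.range L = W ∧ ∀ v, Q (L v) = R₀ v

omit [Fintype F] in
theorem isoSub_model {Q : QuadraticForm F (ι → F)} {R₀ : QuadraticForm F (Fin m → F)}
    {R₁ : QuadraticForm F (Fin b → F)} (e : (Fin m ⊕ Fin b → F) ≃ₗ[F] (ι → F))
    (he : ∀ v, Q (e v) = sumForm R₀ R₁ v) :
    IsoSub Q R₀ (LinearMap.range (e.toLinearMap ∘ₗ OrthOddSub.inlL F (Fin m) (Fin b))) :=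
  ⟨_, e.injective.comp OrthOddSub.inlL_injective, rfl, fun v => by
    show Q (e (OrthOddSub.inlL F _ _ v)) = _
    rw [he, OrthOddSub.inlL_apply, sumForm_apply, Sum.elim_comp_inl, Sum.elim_comp_inr, QuadraticMap.map_zero,
      add_zero]⟩

omit [Fintype F] in
theorem IsoSub.map {Q : QuadraticForm F (ι → F)} {R₀ : QuadraticForm F (Fin m → F)} {W : Submodule F (ι → F)}
    (h : IsoSub Q R₀ W) (T : (ι → F) →ₗ[F] (ι → F)) (hT : Function.Injective T) (hTQ : ∀ v, Q (T v) = Q v) :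
    IsoSub Q R₀ (W.map T) := by
  obtain ⟨L, hL, hr, hQ⟩ := h
  exact ⟨T ∘ₗ L, hT.comp hL, by rw [LinearMap.range_comp, hr], fun v => (hTQ _).trans (hQ v)⟩

omit [Fintype F] in
theorem IsoSub.subOK {Q : QuadraticForm F (ι → F)} {R₀ : QuadraticForm F (Fin m → F)}
    (hR : (polarBilin R₀).Nondegenerate) {W : Submodule F (ι → F)} (h : IsoSub Q R₀ W) :
    OrthOddSub.SubOK Q m (HasHalf R₀) W := by
  obtain ⟨L, hL, rfl, hQ⟩ := h
  exact OrthOddSub.sub_of_emb L hL hR one_ne_zero (fun v => by rw [one_mul, hQ]) (Fintype.card_fin m) Iff.rfl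

/-- The isometry class of a nondegenerate subspace, through a split. -/
theorem class_iff [DecidableEq ι] {Q : QuadraticForm F (ι → F)} (hQ : (polarBilin Q).Nondegenerate)
    {W₀ : Submodule F (ι → F)} (hd : Module.finrank F W₀ = m) (hn : Cfsg.Geo.IsNondegenerateOn (polar ⇑Q) W₀) :
    ∃ (b : ℕ) (e : (Fin m ⊕ Fin b → F) ≃ₗ[F] (ι → F)) (R₀ : QuadraticForm F (Fin m → F))
      (R₁ : QuadraticForm F (Fin b → F)), m + b = Fintype.card ι ∧ (polarBilin R₀).Nondegenerate ∧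
      (polarBilin R₁).Nondegenerate ∧ (∀ v, Q (e v) = sumForm R₀ R₁ v) ∧
      ∀ W : Submodule F (ι → F), (Module.finrank F W = m ∧ Cfsg.Geo.IsNondegenerateOn (polar ⇑Q) W ∧
        Cfsg.Geo.AreIsometricFor ⇑Q W W₀) ↔ IsoSub Q R₀ W := by
  obtain ⟨b, e, R₀, R₁, hcard, hR₀, hR₁, he, hrange, -⟩ := OrthOddSub.exists_split hQ
    (show OrthOddSub.SubOK Q m (Cfsg.Geo.IsPlusTypeOn ⇑Q W₀) W₀ from ⟨hd, hn, Iff.rfl⟩)
  refine ⟨b, e, R₀, R₁, hcard, hR₀, hR₁, he, fun W => ?_⟩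
  obtain ⟨L₀, hL₀i, hL₀r, hL₀Q⟩ := hrange ▸ isoSub_model e he
  subst hL₀r
  constructor
  · rintro ⟨-, -, T, hT⟩
    refine ⟨W.subtype ∘ₗ T.symm.toLinearMap ∘ₗ L₀.rangeRestrict, ?_, ?_, fun v => ?_⟩
    · intro u v huv
      exact hL₀i (congrArg Subtype.val (T.symm.injective (Subtype.val_injective huv)))
    · rw [LinearMap.range_comp, LinearMap.range_comp, LinearMap.range_rangeRestrict, Submodule.map_top,
        LinearEquiv.range, Submodule.map_top, Submodule.range_subtype]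
    · show Q ((T.symm (L₀.rangeRestrict v) : W) : ι → F) = _
      rw [← hT, T.apply_symm_apply]
      exact hL₀Q v
  · intro h
    obtain ⟨h1, h2, -⟩ := h.subOK hR₀
    obtain ⟨L, hL, rfl, hLQ⟩ := h
    refine ⟨h1, h2, (LinearEquiv.ofInjective L hL).symm.trans (LinearEquiv.ofInjective L₀ hL₀i), ?_⟩
    intro w
    obtain ⟨v, rfl⟩ := (LinearEquiv.ofInjective L hL).surjective w
    rw [LinearEquiv.trans_apply, LinearEquiv.symm_apply_apply]
    show Q (L₀ v) = Q (L v)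
    rw [hL₀Q, hLQ]

/-- The number of subspaces times the order of the group of the complement divides the order of the group. -/
theorem card_dvd {Q : QuadraticForm F (ι → F)} (hQ : (polarBilin Q).Nondegenerate)
    {R₀ : QuadraticForm F (Fin m → F)} {R₁ : QuadraticForm F (Fin b → F)}
    (e : (Fin m ⊕ Fin b → F) ≃ₗ[F] (ι → F)) (he : ∀ v, Q (e v) = sumForm R₀ R₁ v) :
    Nat.card {W : Submodule F (ι → F) // IsoSub Q R₀ W} * Nat.card (isom R₁) ∣ Nat.card (isom Q) := by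
  classical
  obtain ⟨W₀, hW₀⟩ : ∃ W₀, W₀ = LinearMap.range (e.toLinearMap ∘ₗ OrthOddSub.inlL F (Fin m) (Fin b)) := ⟨_, rfl⟩
  have hiso : IsoSub Q R₀ W₀ := hW₀ ▸ isoSub_model e he
  let St : Subgroup (isom Q) :=
    { carrier := {g | ∀ v, v ∈ W₀ ↔ (g : (ι → F) ≃ₗ[F] (ι → F)) v ∈ W₀}
      mul_mem' := fun {a b} ha hb v => (hb v).trans (ha _)
      one_mem' := fun v => Iff.rfl
      inv_mem' := fun {a} ha v => by
        rw [ha (((a⁻¹ : isom Q) : (ι → F) ≃ₗ[F] (ι → F)) v)]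
        show v ∈ W₀ ↔ (a : (ι → F) ≃ₗ[F] (ι → F)) ((a : (ι → F) ≃ₗ[F] (ι → F)).symm v) ∈ W₀
        rw [LinearEquiv.apply_symm_apply] }
  let π : isom Q → {W : Submodule F (ι → F) // IsoSub Q R₀ W} := fun g =>
    ⟨W₀.map ((g : (ι → F) ≃ₗ[F] (ι → F)) : (ι → F) →ₗ[F] (ι → F)),
      hiso.map _ (g : (ι → F) ≃ₗ[F] (ι → F)).injective fun v => g.2 v⟩
  have hsurj : Function.Surjective π := by
    rintro ⟨W, L', hL'i, hL'r, hL'Q⟩
    obtain ⟨L, hLi, hLr, hLQ⟩ := hiso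
    let φ : LinearMap.range L →ₗ[F] (ι → F) := L' ∘ₗ (LinearEquiv.ofInjective L hLi).symm.toLinearMap
    have hφL : ∀ v, φ ⟨L v, v, rfl⟩ = L' v := fun v => by
      show L' ((LinearEquiv.ofInjective L hLi).symm ⟨L v, v, rfl⟩) = _
      congr 1
      exact (LinearEquiv.ofInjective L hLi).symm_apply_apply v
    obtain ⟨g, hg, hgφ⟩ := witt hQ (LinearMap.range L) φ (hL'i.comp (LinearEquiv.ofInjective L hLi).symm.injective)
      (by rintro ⟨_, v, rfl⟩; rw [hφL, hLQ, hL'Q])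
    refine ⟨⟨g, hg⟩, Subtype.ext ?_⟩
    show W₀.map (g : (ι → F) →ₗ[F] (ι → F)) = W
    rw [← hLr, ← hL'r, ← LinearMap.range_comp,
      show (g : (ι → F) →ₗ[F] (ι → F)) ∘ₗ L = L' from LinearMap.ext fun v => (hgφ ⟨L v, v, rfl⟩).trans (hφL v)]
  have hcardX : Nat.card {W : Submodule F (ι → F) // IsoSub Q R₀ W} = St.index := by
    rw [Subgroup.index]
    refine (Nat.card_congr (Equiv.ofBijective (Quotient.lift π fun a a' h => ?_) ⟨?_, ?_⟩)).symm
    · have h' : a⁻¹ * a' ∈ St := QuotientGroup.leftRel_apply.mp h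
      refine Subtype.ext ?_
      show W₀.map ((a : (ι → F) ≃ₗ[F] (ι → F)) : (ι → F) →ₗ[F] (ι → F)) =
        W₀.map ((a' : (ι → F) ≃ₗ[F] (ι → F)) : (ι → F) →ₗ[F] (ι → F))
      ext y
      simp only [Submodule.mem_map_equiv]
      constructor
      · intro hy
        refine (h' _).mpr ?_
        show (a : (ι → F) ≃ₗ[F] (ι → F)).symm ((a' : (ι → F) ≃ₗ[F] (ι → F))
          ((a' : (ι → F) ≃ₗ[F] (ι → F)).symm y)) ∈ W₀
        rwa [LinearEquiv.apply_symm_apply]
      · intro hy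
        have := (h' _).mp hy
        rw [show (((a⁻¹ * a' : isom Q)) : (ι → F) ≃ₗ[F] (ι → F)) ((a' : (ι → F) ≃ₗ[F] (ι → F)).symm y) =
          (a : (ι → F) ≃ₗ[F] (ι → F)).symm ((a' : (ι → F) ≃ₗ[F] (ι → F))
            ((a' : (ι → F) ≃ₗ[F] (ι → F)).symm y)) from rfl, LinearEquiv.apply_symm_apply] at this
        exact this
    · rintro ⟨a⟩ ⟨a'⟩ h
      refine Quotient.sound (QuotientGroup.leftRel_apply.mpr fun v => ?_)
      have h' := congrArg Subtype.val h
      have := SetLike.ext_iff.mp h' ((a' : (ι → F) ≃ₗ[F] (ι → F)) v)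
      change _ ∈ W₀.map _ ↔ _ ∈ W₀.map _ at this
      simp only [Submodule.mem_map_equiv, LinearEquiv.symm_apply_apply] at this
      exact this.symm
    · intro W
      obtain ⟨g, hg⟩ := hsurj W
      exact ⟨QuotientGroup.mk g, hg⟩
  obtain ⟨Φ, hΦ⟩ : ∃ Φ : isom R₁ →* St, Function.Injective Φ := by
    let bl : ∀ h : isom R₁, (Fin m ⊕ Fin b → F) ≃ₗ[F] (Fin m ⊕ Fin b → F) := fun h =>
      { toFun := fun v => Sum.elim (v ∘ Sum.inl) ((h : (Fin b → F) ≃ₗ[F] (Fin b → F)) (v ∘ Sum.inr))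
        map_add' := fun u v => by
          rw [show (u + v) ∘ Sum.inr = u ∘ Sum.inr + v ∘ Sum.inr from rfl, map_add]
          funext j; cases j <;> simp
        map_smul' := fun c v => by
          rw [show (c • v) ∘ Sum.inr = c • (v ∘ Sum.inr) from rfl, map_smul]
          funext j; cases j <;> simp
        invFun := fun v => Sum.elim (v ∘ Sum.inl) ((h : (Fin b → F) ≃ₗ[F] (Fin b → F)).symm (v ∘ Sum.inr))
        left_inv := fun v => by simp
        right_inv := fun v => by simp }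
    have hbl : ∀ h v, bl h v = Sum.elim (v ∘ Sum.inl) ((h : (Fin b → F) ≃ₗ[F] (Fin b → F)) (v ∘ Sum.inr)) :=
      fun _ _ => rfl
    have hmem : ∀ h : isom R₁, e.symm.trans ((bl h).trans e) ∈ isom Q := fun h v => by
      rw [LinearEquiv.trans_apply, LinearEquiv.trans_apply, he, hbl, sumForm_apply, Sum.elim_comp_inl,
        Sum.elim_comp_inr, h.2, ← sumForm_apply, ← he, e.apply_symm_apply]
    have hWmem : ∀ v, v ∈ W₀ ↔ (e.symm v) ∘ Sum.inr = 0 := fun v => by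
      rw [hW₀]
      constructor
      · rintro ⟨x, rfl⟩
        show (e.symm (e (OrthOddSub.inlL F _ _ x))) ∘ Sum.inr = 0
        rw [e.symm_apply_apply, OrthOddSub.inlL_apply, Sum.elim_comp_inr]
      · intro hv
        exact ⟨(e.symm v) ∘ Sum.inl, by
          show e (OrthOddSub.inlL F _ _ _) = v
          rw [OrthOddSub.inlL_apply, OrthOddSub.mem_range_inlL hv, e.apply_symm_apply]⟩
    refine ⟨{ toFun := fun h => ⟨⟨e.symm.trans ((bl h).trans e), hmem h⟩, fun v => ?_⟩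
              map_one' := ?_, map_mul' := fun h h' => ?_ }, fun h h' heq => ?_⟩
    · show v ∈ W₀ ↔ (e.symm.trans ((bl h).trans e)) v ∈ W₀
      rw [hWmem, hWmem, LinearEquiv.trans_apply, LinearEquiv.trans_apply, e.symm_apply_apply, hbl, Sum.elim_comp_inr]
      exact ((h : (Fin b → F) ≃ₗ[F] (Fin b → F)).map_eq_zero_iff).symm
    · refine Subtype.ext (Subtype.ext (LinearEquiv.ext fun v => ?_))
      show e (bl 1 (e.symm v)) = v
      rw [hbl, show ((1 : isom R₁) : (Fin b → F) ≃ₗ[F] (Fin b → F)) ((e.symm v) ∘ Sum.inr) = (e.symm v) ∘ Sum.inr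
        from rfl, Sum.elim_comp_inl_inr, e.apply_symm_apply]
    · refine Subtype.ext (Subtype.ext (LinearEquiv.ext fun v => ?_))
      show e (bl (h * h') (e.symm v)) = e (bl h (e.symm (e (bl h' (e.symm v)))))
      rw [e.symm_apply_apply, hbl, hbl h, hbl h', Sum.elim_comp_inl, Sum.elim_comp_inr]
      rfl
    · refine Subtype.ext (LinearEquiv.ext fun y => ?_)
      have h1 : e.symm.trans ((bl h).trans e) = e.symm.trans ((bl h').trans e) :=
        congrArg (fun z : St => ((z : isom Q) : (ι → F) ≃ₗ[F] (ι → F))) heq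
      have h2 := LinearEquiv.congr_fun h1 (e (Sum.elim 0 y))
      simp only [LinearEquiv.trans_apply, e.symm_apply_apply, EmbeddingLike.apply_eq_iff_eq, hbl, Sum.elim_comp_inr] at h2
      exact funext fun j => congrFun h2 (Sum.inr j)
  rw [← St.card_mul_index, hcardX, mul_comm]
  exact mul_dvd_mul_right (Subgroup.card_dvd_of_injective Φ hΦ) _

variable [DecidableEq ι]

/-- The primes dividing the number of subspaces. -/
theorem count_data {r d : ℕ} [hr : Fact r.Prime] (h2 : (2 : F) ≠ 0) (hrq : ¬ r ∣ Fintype.card F)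
    {Q : QuadraticForm F (ι → F)} (hQ : (polarBilin Q).Nondegenerate) (hι : Fintype.card ι = 2 * d)
    (hm : Odd m) (hmd : m < d) {ε : Prop} (hε : HasHalf Q ↔ ε) {R₀ : QuadraticForm F (Fin m → F)}
    {R₁ : QuadraticForm F (Fin b → F)} (hR₁ : (polarBilin R₁).Nondegenerate) (hb : m + b = 2 * d)
    (e : (Fin m ⊕ Fin b → F) ≃ₗ[F] (ι → F)) (he : ∀ v, Q (e v) = sumForm R₀ R₁ v)
    (hdvd : r ∣ Nat.card {W : Submodule F (ι → F) // IsoSub Q R₀ W}) :
    (∃ j, j < d ∧ 2 * (d - j) < m ∧ ((Fintype.card F : ℕ) : ZMod r) ^ (2 * j) = 1) ∨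
      (ε ∧ ((Fintype.card F : ℕ) : ZMod r) ^ d = 1) ∨ (¬ ε ∧ ((Fintype.card F : ℕ) : ZMod r) ^ d = -1) := by
  classical
  obtain ⟨q, hq⟩ : ∃ q, q = Fintype.card F := ⟨_, rfl⟩
  have hq2 : 2 ≤ q := hq ▸ Fintype.one_lt_card
  have hq1 : ∀ a, 1 ≤ q ^ a := fun a => Nat.one_le_pow _ _ (by omega)
  obtain ⟨μ, hμ⟩ := hm
  obtain ⟨b', hb'⟩ : ∃ b', b' = d - (μ + 1) := ⟨_, rfl⟩
  have hbb : b = 2 * b' + 1 := by omega
  have h := (mul_dvd_mul_right hdvd _).trans (card_dvd hQ e he)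
  have hcR : Nat.card (isom R₁) = 2 * q ^ (b' ^ 2) * ∏ i ∈ Finset.range b', (q ^ (2 * (i + 1)) - 1) := by
    obtain ⟨c, hc, g, hg⟩ := exists_iso_scaled hR₁ (m := b') (by rw [Fintype.card_fin]; omega)
    rw [hq, ← OrthOrder.card_isom_odd h2 b', ← Nat.card_congr (isoEquiv R₁).toEquiv,
      ← Nat.card_congr (isoEquiv (quadOdd F b')).toEquiv, SubElusive.card_iso_congr g hg, SubElusive.card_iso_smul hc]
  obtain ⟨A, hA, hcQ⟩ : ∃ A : ℕ, ((ε ∧ A = q ^ d - 1) ∨ (¬ ε ∧ A = q ^ d + 1)) ∧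
      Nat.card (isom Q) = 2 * q ^ (d * (d - 1)) * A * ∏ i ∈ Finset.range (d - 1), (q ^ (2 * (i + 1)) - 1) := by
    obtain ⟨D, rfl⟩ : ∃ D, d = D + 1 := ⟨d - 1, by omega⟩
    by_cases hs : ε
    · obtain ⟨g, hg⟩ := exists_iso_plus hQ hι (hε.mpr hs)
      exact ⟨_, Or.inl ⟨hs, rfl⟩, by
        rw [hq, ← Nat.card_congr (isoEquiv Q).toEquiv, SubElusive.card_iso_congr g hg,
          Nat.card_congr (isoEquiv (quadPlus F (D + 1))).toEquiv, OrthOrder.card_isom_plus D]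
        simp⟩
    · obtain ⟨c, hc⟩ := exists_irreducible_quadratic F
      obtain ⟨-, g, hg⟩ := exists_iso_minus hQ hι (mt hε.mp hs) (anis_of_irred hc)
      exact ⟨_, Or.inr ⟨hs, rfl⟩, by
        rw [hq, ← Nat.card_congr (isoEquiv Q).toEquiv, SubElusive.card_iso_congr g hg,
          Nat.card_congr (isoEquiv (quadMinus F (D + 1 - 1) 1 c)).toEquiv, OrthOrder.card_isom_minus (anis_of_irred hc)]
        simp⟩
  rw [hcR, hcQ, ← Finset.prod_range_mul_prod_Ico (fun i => q ^ (2 * (i + 1)) - 1) (show b' ≤ d - 1 by omega),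
    show d * (d - 1) = b' ^ 2 + (d * (d - 1) - b' ^ 2) from (Nat.add_sub_cancel' (by
      rw [pow_two]; exact Nat.mul_le_mul (by omega) (by omega))).symm, pow_add] at h
  have key : r ∣ q ^ (d * (d - 1) - b' ^ 2) * A * ∏ i ∈ Finset.Ico b' (d - 1), (q ^ (2 * (i + 1)) - 1) := by
    refine Nat.dvd_of_mul_dvd_mul_right (show 0 < 2 * q ^ (b' ^ 2) * ∏ i ∈ Finset.range b', (q ^ (2 * (i + 1)) - 1) from
      Nat.mul_pos (Nat.mul_pos two_pos (pow_pos (by omega) _)) (Finset.prod_pos fun i _ => ?_)) ?_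
    · have : 2 ≤ q ^ (2 * (i + 1)) := hq2.trans (Nat.le_self_pow (by omega) _)
      omega
    · refine dvd_trans h (dvd_of_eq ?_)
      ring
  rcases hr.out.dvd_mul.mp key with hA' | hP
  · have hA'' := (hr.out.dvd_mul.mp hA').resolve_left fun h => hrq (hq ▸ hr.out.dvd_of_dvd_pow h)
    rcases hA with ⟨hs, rfl⟩ | ⟨hs, rfl⟩ <;> rw [← ZMod.natCast_eq_zero_iff] at hA''
    · rw [Nat.cast_sub (hq1 _), Nat.cast_pow, Nat.cast_one, sub_eq_zero, hq] at hA''
      exact Or.inr (Or.inl ⟨hs, hA''⟩)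
    · rw [Nat.cast_add, Nat.cast_pow, Nat.cast_one, add_eq_zero_iff_eq_neg, hq] at hA''
      exact Or.inr (Or.inr ⟨hs, hA''⟩)
  · obtain ⟨i, hi, hdi⟩ := (hr.out.prime.dvd_finsetProd_iff _).mp hP
    rw [Finset.mem_Ico] at hi
    rw [← ZMod.natCast_eq_zero_iff, Nat.cast_sub (hq1 _), Nat.cast_pow, Nat.cast_one, sub_eq_zero, hq] at hdi
    exact Or.inl ⟨i + 1, by omega, by omega, hdi⟩

/-- Every element of projective order `r` of `Ω` fixes a subspace with the given property. -/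
def AllFix (Q : QuadraticForm F (ι → F)) (r : ℕ) (P : Submodule F (ι → F) → Prop) : Prop :=
  ∀ x : GL ι F, x ∈ Cfsg.Geo.omegaGL ⇑Q → orderOf x = r →
    ∃ W : Submodule F (ι → F), P W ∧ W.map (Matrix.toLin' (x : Matrix ι ι F)) ≤ W

omit [Fintype F] in
/-- Passing from elements with scalar `r`th power to elements of order `r`, for odd `r`. -/
theorem scalar_allFix {r : ℕ} [hr : Fact r.Prime] (hr2 : r ≠ 2) {Q : QuadraticForm F (ι → F)}
    (hQ : (polarBilin Q).Nondegenerate) (hι : 0 < Fintype.card ι) (P : Submodule F (ι → F) → Prop) :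
    (∀ x : GL ι F, x ∈ Cfsg.Geo.omegaGL ⇑Q →
      (∃ z : F, ((x ^ r : GL ι F) : Matrix ι ι F) = z • (1 : Matrix ι ι F)) →
      (∀ z : F, (x : Matrix ι ι F) ≠ z • (1 : Matrix ι ι F)) →
      ∃ W : Submodule F (ι → F), P W ∧ W.map (Matrix.toLin' (x : Matrix ι ι F)) ≤ W) ↔ AllFix Q r P := by
  obtain ⟨v, hv⟩ := exists_nonsingular hQ hι
  have hsq : ∀ x : GL ι F, x ∈ Cfsg.Geo.omegaGL ⇑Q → ∀ z : F, (x : Matrix ι ι F) = z • (1 : Matrix ι ι F) →
      z * z = 1 := fun x hx z hz => by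
    obtain ⟨y, -, rfl⟩ := mem_omegaGL.mp hx
    have h := mem_isometryGroup.mp y.2 v
    rw [hz, Matrix.smul_mulVec, Matrix.one_mulVec, QuadraticMap.map_smul, smul_eq_mul] at h
    exact mul_right_cancel₀ hv (by rw [h, one_mul])
  obtain ⟨t, ht⟩ := hr.out.odd_of_ne_two hr2
  constructor
  · intro hall x hx hxo
    refine hall x hx ⟨1, by rw [← hxo, pow_orderOf_eq_one, Units.val_one, one_smul]⟩ fun z hz => ?_
    have h1 := hsq x hx z hz
    have h2 : ((x ^ r : GL ι F) : Matrix ι ι F) = z • (1 : Matrix ι ι F) := by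
      rw [Units.val_pow_eq_pow_val, hz, smul_pow, one_pow, ht, pow_succ, pow_mul, pow_two, h1, one_pow, one_mul]
    rw [← hxo, pow_orderOf_eq_one] at h2
    have : x = 1 := Units.ext (hz.trans h2.symm)
    rw [this, orderOf_one] at hxo
    exact hr.out.one_lt.ne hxo
  · intro hall x hx ⟨z, hz⟩ hns
    have hz1 := hsq _ (pow_mem hx r) z hz
    have hy : ((x ^ (r + 1) : GL ι F) : Matrix ι ι F) = z • (x : Matrix ι ι F) := by
      rw [pow_succ, Units.val_mul, hz, Matrix.smul_mul, Matrix.one_mul]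
    have hyr : (x ^ (r + 1) : GL ι F) ^ r = 1 := Units.ext (by
      rw [← pow_mul, mul_comm, pow_mul, Units.val_pow_eq_pow_val, hz, smul_pow, one_pow, Units.val_one,
        show r + 1 = 2 * (t + 1) by omega, pow_mul, pow_two, hz1, one_pow, one_smul])
    have hy1 : (x ^ (r + 1) : GL ι F) ≠ 1 := fun h => hns z (by
      rw [h, Units.val_one] at hy
      rw [hy, smul_smul, hz1, one_smul])
    obtain ⟨W, hWP, hW⟩ := hall _ (pow_mem hx _) (orderOf_eq_prime hyr hy1)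
    refine ⟨W, hWP, ?_⟩
    rintro _ ⟨w, hw, rfl⟩
    have h := hW ⟨w, hw, rfl⟩
    rw [Matrix.toLin'_apply, hy, Matrix.smul_mulVec] at h
    have h' := W.smul_mem z h
    rwa [smul_smul, hz1, one_smul, ← Matrix.toLin'_apply] at h'

end CfsgLib.OrthND
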