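import Cfsg.Agent.SubElusive.OrthNDOdd

/-!
The criteria for fixing an odd-dimensional nondegenerate subspace in even dimension, odd characteristic.
-/

set_option autoImplicit false
set_option linter.style.haveILetI false

open Matrix QuadraticMap CfsgLib.Forms CfsgLib.SemiClasses CfsgLib.OrthTS

namespace CfsgLib.OrthND

section Crit

variable {F : Type*} [Field F] [Fintype F] {p r : ℕ} [Fact p.Prime] [CharP F p] [hr : Fact r.Prime]
  {ι : Type} [Fintype ι] [DecidableEq ι] {Q : QuadraticForm F (ι → F)} {m b d : ℕ}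
  {R₀ : QuadraticForm F (Fin m → F)} {R₁ : QuadraticForm F (Fin b → F)}

/-- An element with given multiplicities on a space of odd dimension. -/
theorem exists_elem_odd {L : Type*} [Field L] [Finite L] [Algebra F L] {ζ : L} (hζ : IsPrimitiveRoot ζ r)
    (hrp : r ≠ p) (hr2 : r ≠ 2) {u : (ZMod r)ˣ} (hu : (u : ZMod r) = (Fintype.card F : ℕ)) (h2 : (2 : F) ≠ 0)
    {h : (ZMod r)ˣ}
    (hinv : ∀ f : ZMod r → ℕ, ((∀ x, f (x * (u : ZMod r)) = f x) ∧ (∀ x, f (-x) = f x)) ↔ ∀ x, f (x * (h : ZMod r)) = f x)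
    {n M : ℕ} {R : QuadraticForm F (Fin n → F)} (hR : (polarBilin R).Nondegenerate) (hn : n = 2 * M + 1)
    (g : ZMod r → ℕ) (hg : ∀ x, g (x * (h : ZMod r)) = g x) (hgs : ∑ x, g x = n) (h0 : 0 < g 0) :
    ∃ A : Matrix (Fin n) (Fin n) F, A ^ r = 1 ∧ (∀ v, R (A *ᵥ v) = R v) ∧ ∀ x : ZMod r, mult ζ A x = g x := by
  obtain ⟨B, hB, hBm, -⟩ := exists_ts_elem hζ hrp hr2 hu h2 hinv (d := M) (m := 0) g (fun _ => 0) hg (fun _ => rfl)
    (fun _ => Nat.zero_le _) (hgs.trans hn) Finset.sum_const_zero (by omega)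
  obtain ⟨c, hc, φ, hφ⟩ := exists_iso_scaled hR (m := M) (by rw [Fintype.card_fin, hn])
  obtain ⟨B', hB', hBv, hBm'⟩ := OrthOddSub.conj_gl (ζ := ζ) (pow_eq_one_of_mem hB) φ.symm
  refine ⟨(B' : Matrix (Fin n) (Fin n) F), by rw [← Units.val_pow_eq_pow_val, hB', Units.val_one], fun v => ?_,
    fun x => (hBm' x).trans (hBm x)⟩
  obtain ⟨w, rfl⟩ := φ.symm.surjective v
  rw [hBv]
  have e1 := hφ (φ.symm (((B : GL (Unit ⊕ (Fin M ⊕ Fin M)) F) :
    Matrix (Unit ⊕ (Fin M ⊕ Fin M)) (Unit ⊕ (Fin M ⊕ Fin M)) F) *ᵥ w))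
  have e2 := hφ (φ.symm w)
  rw [φ.apply_symm_apply, _root_.smul_apply, smul_eq_mul] at e1 e2
  rw [mem_isometryGroup.mp B.2, e2] at e1
  exact e1.symm

variable (hrp : r ≠ p) (hr2 : r ≠ 2) (h2 : (2 : F) ≠ 0) {i c : ℕ}
  (hi : i = orderOf ((Fintype.card F : ℕ) : ZMod r)) (hc : c = if Even i then i else 2 * i)
  (hQ : (polarBilin Q).Nondegenerate) (hι : Fintype.card ι = 2 * d) (hd : 3 ≤ d) (hm : Odd m) (hmd : m < d)
  {ε : Prop} (hε : HasHalf Q ↔ ε) (hR₀ : (polarBilin R₀).Nondegenerate) (hR₁ : (polarBilin R₁).Nondegenerate)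
  (hb : m + b = 2 * d) (e : (Fin m ⊕ Fin b → F) ≃ₗ[F] (ι → F)) (he : ∀ v, Q (e v) = sumForm R₀ R₁ v)
  (hcn : c ≤ 2 * d)

include hrp hr2 h2 hi hc hQ hι hd hm hmd hε hR₀ hR₁ hb he hcn

/-- The criterion for odd primes other than the characteristic. -/
theorem crit_odd_m :
    AllFix Q r (IsoSub Q R₀) ↔
      (((2 * d) % c = 0 ∧ ¬ (ε ↔ MType i (2 * d))) ∨ m % c < (2 * d) % c) := by
  classical
  obtain ⟨u, hu⟩ := exists_unit_card (F := F) (p := p) (r := r) dvd_rfl hrp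
  rw [← hu, orderOf_units] at hi
  obtain ⟨P, hP, hLfin, hζ⟩ := exists_root_field F hr.out (natCast_ne_zero hrp)
  obtain ⟨h, hh, hinv⟩ := exists_multiplier u hr2
  have hoh : orderOf h = c := by
    rw [hh, hc, hi]
    rcases Nat.even_or_odd (orderOf u) with he | ho
    · rw [if_neg (Nat.not_odd_iff_even.mpr he), if_pos he]
    · rw [if_pos ho, if_neg (Nat.not_even_iff_odd.mpr ho)]
  obtain ⟨cc, hcc⟩ : Even c := by
    rw [hc]; split_ifs with he'
    · exact he'
    · exact even_two_mul _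
  have hcpos : 0 < c := hoh ▸ orderOf_pos h
  obtain ⟨μ, hμ⟩ := hm
  have hmodd : m % c % 2 = 1 := by rw [Nat.mod_mod_of_dvd _ ⟨cc, by omega⟩]; omega
  have hkev : (2 * d) % c % 2 = 0 := by rw [Nat.mod_mod_of_dvd _ ⟨cc, by omega⟩]; omega
  have hklt := Nat.mod_lt (2 * d) hcpos
  have hℓlt := Nat.mod_lt m hcpos
  have hdm := Nat.mod_add_div (2 * d) c
  have hdmm := Nat.mod_add_div m c
  constructor
  · intro hall
    by_contra hcon
    push Not at hcon
    obtain ⟨hc1, hc2⟩ := hcon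
    have hNpos : 0 < 2 * d / c := Nat.div_pos hcn hcpos
    have h0f := Nat.mul_pos hcpos hNpos
    obtain ⟨f, hf, hf0, hfs, -⟩ := exists_fun_zero (h := h) hoh ((2 * d) % c) (2 * d / c)
    rw [hdm] at hfs
    obtain ⟨B, hB, hBm, -⟩ := exists_ts_elem_even hζ hrp hr2 hu hQ hι hε hinv (m := 0) f (fun _ => 0) hf
      (fun _ => rfl) (fun _ => Nat.zero_le _) hfs Finset.sum_const_zero
      (fun h0 => by
        rw [h0, Nat.mul_zero, Nat.sub_zero, ← hi]
        exact hc1 (hf0.symm.trans (by omega)))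
    have hB1 : (B : GL ι F) ≠ 1 := fun he' => by
      have := hBm 0
      rw [he', Units.val_one, mult_one hζ, if_pos rfl, hι, hf0] at this
      omega
    have hBr : (B : GL ι F) ^ r = 1 := by rw [← SubmonoidClass.coe_pow, hB, OneMemClass.coe_one]
    have hBo : (B : GL ι F) ∈ Cfsg.Geo.omegaGL ⇑Q :=
      mem_omegaGL.mpr ⟨B, mem_omega_odd hQ (by omega) B (hr.out.odd_of_ne_two hr2) hB, rfl⟩
    obtain ⟨W, hW, hWinv⟩ := hall _ hBo (orderOf_eq_prime hBr hB1)
    obtain ⟨b', R, A, R', A', hb', hR, -, hA, hAQ, hR', hA', hA'Q, -, hsum, -⟩ :=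
      OrthOddSub.exists_blocks (ζ := AdjoinRoot.root P) hQ hBr (mem_isometryGroup.mp B.2) (hW.subOK hR₀) hWinv
    obtain ⟨g, hg⟩ : ∃ g : ZMod r → ℕ, g = fun x => mult (AdjoinRoot.root P) A x := ⟨_, rfl⟩
    obtain ⟨g', hg'⟩ : ∃ g' : ZMod r → ℕ, g' = fun x => mult (AdjoinRoot.root P) A' x := ⟨_, rfl⟩
    obtain ⟨j, hj, -⟩ := SubElusive.orbit_data h g ((hinv g).mp ⟨fun x => by rw [hg, hu]; exact mult_frob hζ _ x,
      fun x => by rw [hg]; exact mult_neg_of_isometry hζ hrp hR hA hAQ x⟩)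
    obtain ⟨j', hj', -⟩ := SubElusive.orbit_data h g' ((hinv g').mp ⟨fun x => by rw [hg', hu]; exact mult_frob hζ _ x,
      fun x => by rw [hg']; exact mult_neg_of_isometry hζ hrp hR' hA' hA'Q x⟩)
    have hgs : ∑ x, g x = m := by rw [hg]; exact (sum_mult hζ hA).trans (Fintype.card_fin m)
    have hgs' : ∑ x, g' x = b' := by rw [hg']; exact (sum_mult hζ hA').trans (Fintype.card_fin b')
    rw [hoh, hgs] at hj
    rw [hoh, hgs'] at hj'
    have hsum0 : g 0 + g' 0 = (2 * d) % c := by rw [hg, hg']; exact (hsum 0).trans ((hBm 0).trans hf0)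
    have hpar : ∀ a, c * a % 2 = 0 := fun a => by rw [Nat.mul_mod, show c % 2 = 0 by omega, zero_mul, Nat.zero_mod]
    have := hpar j'
    have := hpar j
    have hmod : m % c = g 0 := by rw [← hj, Nat.add_mul_mod_self_left, Nat.mod_eq_of_lt (by omega)]
    omega
  · intro hcrit x hx hxo
    obtain ⟨y, -, rfl⟩ := mem_omegaGL.mp hx
    have hy : y ^ r = 1 := Subtype.ext (by
      rw [SubmonoidClass.coe_pow, OneMemClass.coe_one, ← hxo]; exact pow_orderOf_eq_one _)
    have hyM := pow_eq_one_of_mem hy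
    obtain ⟨f, hfdef⟩ : ∃ f : ZMod r → ℕ, f = fun x => mult (AdjoinRoot.root P) ((y : GL ι F) : Matrix ι ι F) x :=
      ⟨_, rfl⟩
    have hfh : ∀ x, f (x * (h : ZMod r)) = f x := (hinv f).mp ⟨fun x => by rw [hfdef, hu]; exact mult_frob hζ _ x,
      fun x => by rw [hfdef]; exact mult_neg_of_isometry hζ hrp hQ hyM (mem_isometryGroup.mp y.2) x⟩
    have hfs : ∑ x, f x = 2 * d := by rw [hfdef]; exact (sum_mult hζ hyM).trans hι
    have hf0T : f 0 = 0 → (ε ↔ MType i (2 * d)) := fun hz => by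
      rw [← hε, hi, MType, hasHalf_of_moving hζ hrp hu hr2 hQ hyM (mem_isometryGroup.mp y.2)
        (by rwa [hfdef] at hz), hι]
    obtain ⟨K, hK, hsub⟩ := SubElusive.orbit_data h f hfh
    rw [hoh, hfs] at hK
    rw [hoh] at hsub
    obtain ⟨E, hE⟩ : ∃ E, E = f 0 / c := ⟨_, rfl⟩
    have hfk : f 0 % c = (2 * d) % c := by rw [← hK, Nat.add_mul_mod_self_left]
    have hfdm := Nat.mod_add_div (f 0) c
    rw [hfk, ← hE] at hfdm
    have hEK : E + K = 2 * d / c := Nat.eq_of_mul_eq_mul_left hcpos (by rw [mul_add]; omega)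
    have hMN : m / c ≤ 2 * d / c := Nat.div_le_div_right (by omega)
    obtain ⟨α, β, hαβ, hα, hβ⟩ : ∃ α β, α + c * β = m ∧ α < f 0 ∧ β ≤ K := by
      rcases Nat.lt_or_ge K (m / c) with hK' | hK'
      · refine ⟨m % c + c * (m / c - K), K, ?_, ?_, le_rfl⟩
        · rw [add_assoc, ← mul_add, Nat.sub_add_cancel hK'.le, hdmm]
        · rcases hcrit with ⟨hk0, -⟩ | hlt
          · have hlt' : m / c < 2 * d / c := by
              by_contra hge
              have h1 : m / c = 2 * d / c := by omega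
              rw [h1] at hdmm
              omega
            have : c * (m / c - K) + c ≤ c * E := by
              rw [← Nat.mul_succ]; exact Nat.mul_le_mul_left c (by omega)
            omega
          · have : c * (m / c - K) ≤ c * E := Nat.mul_le_mul_left c (by omega)
            omega
      · refine ⟨m % c, m / c, hdmm, ?_, hK'⟩
        rcases hcrit with ⟨hk0, hσ⟩ | hlt
        · rcases Nat.eq_zero_or_pos E with rfl | hE1
          · exact absurd (hf0T (by omega)) hσ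
          · have : c ≤ c * E := Nat.le_mul_of_pos_right c hE1
            omega
        · omega
    obtain ⟨g, hgh, hg0, hgf, hgs⟩ := hsub α hα.le β hβ
    rw [hαβ] at hgs
    obtain ⟨f₁, hf₁⟩ : ∃ f₁ : ZMod r → ℕ, f₁ = fun x => f x - g x := ⟨_, rfl⟩
    have hsum : ∀ x, g x + f₁ x = f x := fun x => by rw [hf₁]; exact Nat.add_sub_cancel' (hgf x)
    have hf₁s : ∑ x, f₁ x = b := by
      have := (Finset.sum_congr rfl fun x _ => hsum x).trans hfs
      rw [Finset.sum_add_distrib, hgs] at this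
      omega
    have hαodd : 0 < α := by
      have : c * β % 2 = 0 := by rw [Nat.mul_mod, show c % 2 = 0 by omega, zero_mul, Nat.zero_mod]
      omega
    obtain ⟨A, hA, hAQ, hAm⟩ := exists_elem_odd hζ hrp hr2 hu h2 hinv hR₀ (M := μ) hμ g hgh hgs (by omega)
    obtain ⟨A', hA', hA'Q, hAm'⟩ := exists_elem_odd hζ hrp hr2 hu h2 hinv hR₁ (M := d - μ - 1) (by omega) f₁
      (fun x => by rw [hf₁]; simp only [hfh, hgh]) hf₁s (by rw [hf₁]; simp only; omega)
    obtain ⟨T, hT⟩ : ∃ T, T = Matrix.fromBlocks A 0 0 A' := ⟨_, rfl⟩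
    have hTr : T ^ r = 1 := by rw [hT, CfsgLib.NilType.blocks_pow, hA, hA', Matrix.fromBlocks_one]
    obtain ⟨B, hB, hBv, hBm⟩ := OrthOddSub.conj_gl (ζ := AdjoinRoot.root P) hTr e
    have hBQ : ∀ v, Q ((B : Matrix ι ι F) *ᵥ v) = Q v := fun v => by
      obtain ⟨w, rfl⟩ := e.surjective v
      rw [hBv, he, he, hT, fromBlocks_one_mulVec, sumForm_apply, sumForm_apply, Sum.elim_comp_inl, Sum.elim_comp_inr,
        hAQ, hA'Q]
    obtain ⟨z, hz⟩ := isConj_iff.mp ((isConj_iff_mult hζ hrp hr2 hQ ⟨B, mem_isometryGroup.mpr hBQ⟩ y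
      (Subtype.ext (by rw [SubmonoidClass.coe_pow, OneMemClass.coe_one]; exact hB)) hy).mpr
      (funext fun x => by
        rw [hBm, hT, mult_blocks, hAm, hAm', hsum, hfdef]))
    refine ⟨(LinearMap.range (e.toLinearMap ∘ₗ OrthOddSub.inlL F (Fin m) (Fin b))).map
      (glEquiv (z : GL ι F) : (ι → F) →ₗ[F] (ι → F)), (isoSub_model e he).map _ (glEquiv (z : GL ι F)).injective
        (fun v => by rw [LinearEquiv.coe_coe, glEquiv_apply]; exact mem_isometryGroup.mp z.2 v), ?_⟩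
    rintro _ ⟨_, ⟨_, ⟨v, rfl⟩, rfl⟩, rfl⟩
    refine ⟨e (OrthOddSub.inlL F _ _ (A *ᵥ v)), ⟨_, rfl⟩, ?_⟩
    have hzB := congrArg (fun t : ↥(Cfsg.isometryGroup F ⇑Q) => ((t : GL ι F) : Matrix ι ι F))
      (mul_inv_eq_iff_eq_mul.mp hz)
    simp only [Subgroup.coe_mul, Units.val_mul] at hzB
    simp only [LinearEquiv.coe_coe, glEquiv_apply, Matrix.toLin'_apply, LinearMap.comp_apply]
    rw [Matrix.mulVec_mulVec, ← hzB, ← Matrix.mulVec_mulVec]
    congr 1
    rw [hBv, OrthOddSub.inlL_apply, OrthOddSub.inlL_apply, hT, fromBlocks_one_mulVec, Sum.elim_comp_inl,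
      Sum.elim_comp_inr, Matrix.mulVec_zero]

omit hcn

/-- The criterion as printed. -/
theorem main_odd_m (hdvd : r ∣ Nat.card {W : Submodule F (ι → F) // IsoSub Q R₀ W}) :
    (∀ x : GL ι F, x ∈ Cfsg.Geo.omegaGL ⇑Q →
      (∃ z : F, ((x ^ r : GL ι F) : Matrix ι ι F) = z • (1 : Matrix ι ι F)) →
      (∀ z : F, (x : Matrix ι ι F) ≠ z • (1 : Matrix ι ι F)) →
      ∃ W : Submodule F (ι → F), IsoSub Q R₀ W ∧ W.map (Matrix.toLin' (x : Matrix ι ι F)) ≤ W) ↔
    (((2 * d) % c = 0 ∧ ¬ (ε ↔ MType i (2 * d))) ∨ (c ≤ m ∧ 0 < m % c ∧ m % c < (2 * d) % c)) := by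
  classical
  have hrq : ¬ r ∣ Fintype.card F := fun hd' => hrp ((Nat.prime_dvd_prime_iff_eq hr.out Fact.out).mp (by
    obtain ⟨k, -, hk⟩ := FiniteField.card F p
    exact hr.out.dvd_of_dvd_pow (hk ▸ hd')))
  haveI : Fact (2 < r) := ⟨by have := hr.out.two_le; omega⟩
  obtain ⟨u, hu⟩ := exists_unit_card (F := F) (p := p) (r := r) dvd_rfl hrp
  have hipos : 0 < i := by rw [hi, ← hu, orderOf_units]; exact orderOf_pos u
  have hdata : c ≤ 2 * d ∧ ((2 * d) % c < m ∨ ((2 * d) % c = 0 ∧ (ε ↔ MType i (2 * d)))) ∧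
      (m < c → ¬ m < (2 * d) % c) := by
    rcases count_data h2 hrq hQ hι hm hmd hε hR₁ hb e he hdvd with ⟨j, hj1, hj2, hj⟩ | hq
    · have hij : i ∣ 2 * j := hi ▸ orderOf_dvd_of_pow_eq_one hj
      have hcj : c ∣ 2 * j := by
        rw [hc]
        split_ifs with he'
        · exact hij
        · exact Nat.mul_dvd_mul_left 2 ((Nat.Coprime.dvd_of_dvd_mul_left
            (Nat.Coprime.symm (Nat.prime_two.coprime_iff_not_dvd.mpr fun h => he' (even_iff_two_dvd.mpr h))) hij))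
      rcases Nat.eq_zero_or_pos j with rfl | hjpos
      · omega
      · have := Nat.le_of_dvd (by omega) hcj
        obtain ⟨s, hs⟩ := hcj
        have hk : (2 * d) % c ≤ 2 * (d - j) := by
          rw [show 2 * d = 2 * (d - j) + c * s by omega, Nat.add_mul_mod_self_left]; exact Nat.mod_le _ _
        exact ⟨by omega, Or.inl (by omega), fun _ => by omega⟩
    · rcases hq with ⟨hs, hq⟩ | ⟨hs, hq⟩
      · have hid : i ∣ d := hi ▸ orderOf_dvd_of_pow_eq_one hq
        obtain ⟨v, hv⟩ := hid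
        have hcd : c ∣ 2 * d := by
          rw [hc]; split_ifs
          · exact ⟨2 * v, by rw [hv]; ring⟩
          · exact ⟨v, by rw [hv]; ring⟩
        have hk0 : (2 * d) % c = 0 := Nat.mod_eq_zero_of_dvd hcd
        refine ⟨Nat.le_of_dvd (by omega) hcd, Or.inr ⟨hk0, iff_of_true hs ?_⟩, fun _ => by omega⟩
        refine Or.inr ⟨v, ?_⟩
        rw [hv, show 2 * (i * v) = i * (v + v) by ring, Nat.mul_div_cancel_left _ hipos]
      · have h2' : i ∣ d * 2 := hi ▸ orderOf_dvd_of_pow_eq_one (by rw [pow_mul, hq, neg_one_sq])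
        have hnd : ¬ i ∣ d := fun h' => ZMod.neg_one_ne_one (hq.symm.trans (by
          rw [← orderOf_dvd_iff_pow_eq_one, ← hi]; exact h'))
        have hev : Even i := by
          by_contra ho
          exact hnd (Nat.Coprime.dvd_of_dvd_mul_right
            (Nat.Coprime.symm (Nat.prime_two.coprime_iff_not_dvd.mpr fun h => ho (even_iff_two_dvd.mpr h))) h2')
        have hci : c = i := by rw [hc, if_pos hev]
        rw [hci]
        obtain ⟨v, hv⟩ := h2'
        have hk0 : (2 * d) % i = 0 := Nat.mod_eq_zero_of_dvd ⟨v, by omega⟩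
        refine ⟨Nat.le_of_dvd (by omega) ⟨v, by omega⟩, Or.inr ⟨hk0, iff_of_false hs ?_⟩, fun _ => by omega⟩
        rintro (ho | ⟨w, hw⟩)
        · exact Nat.not_even_iff_odd.mpr ho hev
        · rw [show 2 * d = i * v by omega, Nat.mul_div_cancel_left _ hipos] at hw
          exact hnd ⟨w, by
            have : i * v = i * w + i * w := by rw [hw, mul_add]
            omega⟩
  obtain ⟨hcn, -, hlarge⟩ := hdata
  rw [scalar_allFix hr2 hQ (by omega), crit_odd_m hrp hr2 h2 hi hc hQ hι hd hm hmd hε hR₀ hR₁ hb e he hcn]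
  have hcpos : 0 < c := by rw [hc]; split_ifs <;> omega
  have hmodd : m % c % 2 = 1 := by
    have : 2 ∣ c := by
      rw [hc]; split_ifs with he'
      · exact even_iff_two_dvd.mp he'
      · exact dvd_mul_right 2 i
    rw [Nat.mod_mod_of_dvd _ this]
    exact Nat.odd_iff.mp hm
  refine or_congr Iff.rfl ⟨fun hlt => ⟨?_, by omega, hlt⟩, fun hlt => hlt.2.2⟩
  by_contra hlt'
  exact hlarge (by omega) (by rwa [Nat.mod_eq_of_lt (show m < c by omega)] at hlt)

end Crit

section Two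

variable {F : Type*} [Field F] [Fintype F] {p : ℕ} [Fact p.Prime] [CharP F p]
  {ι : Type} [Fintype ι] [DecidableEq ι] {Q : QuadraticForm F (ι → F)} {m d : ℕ}
  {R₀ : QuadraticForm F (Fin m → F)}

/-- An involution fixes a subspace isometric to a given one. -/
theorem exists_iso_invol (h2 : (2 : F) ≠ 0) (hQ : (polarBilin Q).Nondegenerate)
    (g : Cfsg.isometryGroup F ⇑Q) (hg : g ∈ Cfsg.Omega F ⇑Q)
    (hX : ((g : GL ι F) : Matrix ι ι F) * ((g : GL ι F) : Matrix ι ι F) = 1)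
    (hns : ∀ z : F, ((g : GL ι F) : Matrix ι ι F) ≠ z • (1 : Matrix ι ι F))
    (hι : Fintype.card ι = 2 * d) (hm : 1 ≤ m) (hmd : m < d) (hR₀ : (polarBilin R₀).Nondegenerate) :
    ∃ W : Submodule F (ι → F), IsoSub Q R₀ W ∧ W.map (Matrix.toLin' ((g : GL ι F) : Matrix ι ι F)) ≤ W := by
  classical
  obtain ⟨U, U', s, mU, mU', horth, -, -, hdU, hdU', hs1, hsd, hd', hdu, -, -⟩ :=
    invol_types h2 hQ g hg hX hns (by omega) hι (Iff.rfl : HasHalf Q ↔ HasHalf Q)
  obtain ⟨k, hk⟩ : ∃ k, k + 1 = min (Module.finrank F U - 1) m := ⟨min (Module.finrank F U - 1) m - 1, by omega⟩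
  obtain ⟨w₂, h21, h22, h23⟩ := OrthOddSub.exists_orth_family h2 U' hdU' (m - (k + 1)) (by omega)
  obtain ⟨δ, hδ⟩ : ∃ δ : F, δ = (gram R₀ (Pi.basisFun F (Fin m))).det * (2 ^ m * ∏ i, Q (w₂ i)) := ⟨_, rfl⟩
  have hδ0 : δ ≠ 0 := hδ ▸ mul_ne_zero (det_gram_ne_zero hR₀ _)
    (mul_ne_zero (pow_ne_zero _ h2) (Finset.prod_ne_zero_iff.mpr fun i _ => h23 i))
  obtain ⟨w₁, h11, h12, h13, h14⟩ := OrthOddSub.exists_orth_family_prod h2 U hdU k (δ := δ) (by omega) hδ0
  let E : Fin m ≃ Fin (k + 1) ⊕ Fin (m - (k + 1)) := (finCongr (by omega)).trans finSumFinEquiv.symm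
  obtain ⟨w, hw⟩ : ∃ w : Fin m → (ι → F), w = Sum.elim w₁ w₂ ∘ E := ⟨_, rfl⟩
  have hwU : ∀ i, w i ∈ U ∨ w i ∈ U' := fun i => by
    rw [hw, Function.comp_apply]
    cases E i with
    | inl j => exact Or.inl (h11 j)
    | inr j => exact Or.inr (h21 j)
  have hwo : ∀ i j, i ≠ j → polar Q (w i) (w j) = 0 := fun i j hij => by
    have hne : E i ≠ E j := fun h => hij (E.injective h)
    rw [hw, Function.comp_apply, Function.comp_apply]
    revert hne
    rcases E i with a | a <;> rcases E j with c | c <;> intro hne <;> simp only [Sum.elim_inl, Sum.elim_inr]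
    · exact h12 a c fun h => hne (h ▸ rfl)
    · exact horth _ (h11 a) _ (h21 c)
    · rw [polar_comm]; exact horth _ (h11 c) _ (h21 a)
    · exact h22 a c fun h => hne (h ▸ rfl)
  have hw0 : ∀ i, Q (w i) ≠ 0 := fun i => by
    rw [hw, Function.comp_apply]
    cases E i with
    | inl j => exact h13 j
    | inr j => exact h23 j
  have hprod : ∏ i, Q (w i) = δ * ∏ i, Q (w₂ i) := by
    rw [hw]
    simp only [Function.comp_apply]
    rw [E.prod_comp (fun a => Q (Sum.elim w₁ w₂ a)), Fintype.prod_sum_type]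
    simp only [Sum.elim_inl, Sum.elim_inr, h14]
  obtain ⟨L, hL⟩ : ∃ L : (Fin m → F) →ₗ[F] (ι → F), L = Fintype.linearCombination F w := ⟨_, rfl⟩
  have hLi : Function.Injective L := (injective_iff_map_eq_zero _).mpr fun c hc => funext fun i =>
    Fintype.linearIndependent_iff.mp (orth_li h2 w hwo hw0) c
      (by rwa [hL, Fintype.linearCombination_apply] at hc) i
  have hLs : ∀ i, L (Pi.basisFun F (Fin m) i) = w i := fun i => by
    rw [hL, Pi.basisFun_apply, Fintype.linearCombination_apply_single, one_smul]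
  have hRp : ∀ a b, polar (Q.comp L) a b = polar Q (L a) (L b) := fun a b => by
    simp only [polar, QuadraticMap.comp_apply, map_add]
  have hdet : (gram (Q.comp L) (Pi.basisFun F (Fin m))).det = 2 ^ m * ∏ i, Q (w i) := by
    rw [det_gram_orth _ _ (fun i j hij => by rw [hRp, hLs, hLs]; exact hwo i j hij), Fintype.card_fin]
    congr 1
    exact Finset.prod_congr rfl fun i _ => by rw [QuadraticMap.comp_apply, hLs]
  have hnd : (polarBilin (Q.comp L)).Nondegenerate := nondegenerate_iff.mpr fun x hx => funext fun i => by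
    have := hx (Pi.basisFun F (Fin m) i)
    rw [hRp, hLs, hL, Fintype.linearCombination_apply, polar_sum_left, Finset.sum_eq_single i
      (fun j _ hj => by rw [polar_smul_left, hwo j i hj, smul_zero]) (by simp), polar_smul_left, polar_self,
      smul_eq_mul, nsmul_eq_mul, Nat.cast_two] at this
    exact (mul_eq_zero.mp this).resolve_right (mul_ne_zero h2 (hw0 i))
  obtain ⟨T, hT⟩ := exists_isometry_of_isSquare h2 hR₀ hnd (Pi.basisFun F (Fin m)) (by
    rw [hdet, hprod, hδ]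
    exact ⟨(gram R₀ (Pi.basisFun F (Fin m))).det * (2 ^ m * ∏ i, Q (w₂ i)), by ring⟩)
  refine ⟨LinearMap.range L, ⟨L ∘ₗ T.toLinearMap, hLi.comp T.injective, ?_, fun v => hT v⟩, ?_⟩
  · rw [LinearMap.range_comp, LinearEquiv.range, Submodule.map_top]
  · rw [hL, Fintype.range_linearCombination]
    exact invariant_span mU mU' w hwU

/-- An isometry squaring to `-1` fixes no nondegenerate subspace of odd dimension. -/
theorem no_iso_quarter (h2 : (2 : F) ≠ 0) {X : Matrix ι ι F} (hX : X * X = -1) (hXQ : ∀ v, Q (X *ᵥ v) = Q v)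
    (hm : Odd m) (hR₀ : (polarBilin R₀).Nondegenerate) {W : Submodule F (ι → F)} (hW : IsoSub Q R₀ W) :
    ¬ W.map (Matrix.toLin' X) ≤ W := by
  intro hinv
  obtain ⟨L, hLi, rfl, hLQ⟩ := hW
  have hdim : Module.finrank F (LinearMap.range L) = m := by
    rw [LinearMap.finrank_range_of_inj hLi, Module.finrank_fin_fun]
  by_cases hsq : IsSquare (-1 : F)
  swap
  · have := even_of_quarter hX hsq _ hinv
    rw [hdim] at this
    exact Nat.not_even_iff_odd.mpr hm this
  obtain ⟨ρ, hρ⟩ := hsq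
  have hρ0 : ρ ≠ 0 := fun h => by rw [h, mul_zero] at hρ; exact neg_ne_zero.mpr one_ne_zero hρ
  have hs : ∀ a : F, a * a = -1 → ∀ v, X *ᵥ v = a • v → Q v = 0 := fun a ha v hv => by
    have h := hXQ v
    rw [hv, QuadraticMap.map_smul, ha, smul_eq_mul] at h
    exact (mul_eq_zero.mp (show (2 : F) * Q v = 0 by linear_combination -h)).resolve_left h2
  obtain ⟨P, hP⟩ : ∃ P : F → Submodule F (Fin m → F),
      ∀ a v, v ∈ P a ↔ X *ᵥ L v = a • L v :=
    ⟨fun a => LinearMap.ker ((Matrix.toLin' X - a • (1 : Module.End F (ι → F))) ∘ₗ L), fun a v => by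
      rw [LinearMap.mem_ker, LinearMap.comp_apply, LinearMap.sub_apply, Matrix.toLin'_apply, LinearMap.smul_apply,
        Module.End.one_apply, sub_eq_zero]⟩
  have hle : ∀ a : F, a * a = -1 → 2 * Module.finrank F (P a) ≤ m := fun a ha => by
    have h := two_finrank_le_of_singular hR₀ (U := P a) fun v hv => by rw [← hLQ]; exact hs a ha _ ((hP a v).mp hv)
    rwa [Module.finrank_fin_fun] at h
  have hsup : P ρ ⊔ P (-ρ) = ⊤ := eq_top_iff.mpr fun v _ => by
    obtain ⟨y, hy⟩ : X *ᵥ L v ∈ LinearMap.range L := hinv ⟨L v, ⟨v, rfl⟩, Matrix.toLin'_apply _ _⟩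
    have hyy : X *ᵥ L y = -L v := by rw [hy, quarter_twice hX]
    refine Submodule.mem_sup.mpr ⟨(2 * ρ)⁻¹ • (ρ • v + y), ?_, (2 * ρ)⁻¹ • (ρ • v - y), ?_, ?_⟩
    · rw [hP, map_smul, map_add, map_smul, Matrix.mulVec_smul, Matrix.mulVec_add, Matrix.mulVec_smul, hyy,
        smul_comm ρ, ← hy]
      congr 1
      rw [smul_add, smul_smul, ← hρ, neg_one_smul, add_comm]
    · rw [hP, map_smul, map_sub, map_smul, Matrix.mulVec_smul, Matrix.mulVec_sub, Matrix.mulVec_smul, hyy,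
        smul_comm (-ρ), ← hy]
      congr 1
      rw [smul_sub, smul_smul, neg_mul, ← hρ, neg_neg, one_smul, neg_smul]
      abel
    · rw [← smul_add, add_add_sub_cancel, ← add_smul, smul_smul, ← two_mul,
        inv_mul_cancel₀ (mul_ne_zero h2 hρ0), one_smul]
  have hd := Submodule.finrank_sup_add_finrank_inf_eq (P ρ) (P (-ρ))
  rw [hsup, finrank_top, Module.finrank_fin_fun] at hd
  have h1 := hle ρ hρ.symm
  have h1' := hle (-ρ) (by rw [neg_mul_neg, ← hρ])
  obtain ⟨μ, rfl⟩ := hm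
  omega

/-- The statement for `r = 2`. -/
theorem main_two_odd_m (h2 : (2 : F) ≠ 0) (hQ : (polarBilin Q).Nondegenerate) (hι : Fintype.card ι = 2 * d)
    (hd : 3 ≤ d) (hm : Odd m) (hmd : m < d) {ε : Prop} (hε : HasHalf Q ↔ ε)
    (hR₀ : (polarBilin R₀).Nondegenerate) :
    (∀ x : GL ι F, x ∈ Cfsg.Geo.omegaGL ⇑Q →
      (∃ z : F, ((x ^ 2 : GL ι F) : Matrix ι ι F) = z • (1 : Matrix ι ι F)) →
      (∀ z : F, (x : Matrix ι ι F) ≠ z • (1 : Matrix ι ι F)) →
      ∃ W : Submodule F (ι → F), IsoSub Q R₀ W ∧ W.map (Matrix.toLin' (x : Matrix ι ι F)) ≤ W) ↔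
    ¬ ((ε ↔ IsSquare ((-1 : F) ^ d)) ∧ IsSquare ((2 : F) ^ d)) := by
  obtain ⟨v, hv⟩ := exists_nonsingular hQ (by omega)
  constructor
  · rintro hall ⟨hεd, h2d⟩
    obtain ⟨g, hX⟩ := exists_quarter h2 hQ (by omega) hι (hε.trans hεd)
    have hg := (quarter_struct h2 hQ g hX (by omega) hι).2.mpr h2d
    have hgQ := mem_isometryGroup.mp g.2
    obtain ⟨W, hW, hWi⟩ := hall _ (mem_omegaGL.mpr ⟨g, hg, rfl⟩)
      ⟨-1, by rw [pow_two, Units.val_mul, hX, neg_one_smul]⟩ (fun z hz => by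
        have h1 := hgQ v
        rw [hz, Matrix.smul_mulVec, Matrix.one_mulVec, QuadraticMap.map_smul, smul_eq_mul] at h1
        have h3 : Q ((((g : GL ι F) : Matrix ι ι F) * ((g : GL ι F) : Matrix ι ι F)) *ᵥ v) = Q (-v) := by
          rw [hX, Matrix.neg_mulVec, Matrix.one_mulVec]
        have h4 : ((g : GL ι F) : Matrix ι ι F) *ᵥ (((g : GL ι F) : Matrix ι ι F) *ᵥ v) = -v := quarter_twice hX v
        rw [hz, Matrix.smul_mulVec, Matrix.one_mulVec, Matrix.smul_mulVec, Matrix.one_mulVec, smul_smul,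
          mul_right_cancel₀ hv (h1.trans (one_mul _).symm), one_smul] at h4
        have hv0 : v ≠ 0 := fun h => hv (by rw [h, QuadraticMap.map_zero])
        exact hv0 ((smul_eq_zero.mp (show (2 : F) • v = 0 by rw [two_smul]; nth_rw 2 [h4]; abel)).resolve_left h2))
    exact no_iso_quarter h2 hX hgQ hm hR₀ hW hWi
  · intro hc x hx ⟨z, hz⟩ hns
    obtain ⟨y, hy, rfl⟩ := mem_omegaGL.mp hx
    have hyQ := mem_isometryGroup.mp y.2
    rw [pow_two, Units.val_mul] at hz
    have hzz : z * z = 1 := by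
      have h : Q ((((y : GL ι F) : Matrix ι ι F) * ((y : GL ι F) : Matrix ι ι F)) *ᵥ v) = Q v := by
        rw [← Matrix.mulVec_mulVec, hyQ, hyQ]
      rw [hz, Matrix.smul_mulVec, Matrix.one_mulVec, QuadraticMap.map_smul, smul_eq_mul] at h
      exact mul_right_cancel₀ hv (by rw [h, one_mul])
    rcases mul_self_eq_one_iff.mp hzz with rfl | rfl
    · rw [one_smul] at hz
      exact exists_iso_invol h2 hQ y hy hz hns hι hm.pos hmd hR₀
    · rw [neg_one_smul] at hz
      obtain ⟨hT, hO⟩ := quarter_struct h2 hQ y hz (by omega) hι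
      exact absurd ⟨hε.symm.trans hT, hO.mp hy⟩ hc

end Two

end CfsgLib.OrthND
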