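import Cfsg.Agent.SemiClasses.OrthCount
import Cfsg.Agent.SubElusive.Orth
import Cfsg.Agent.OrthOrder.Orders
import Cfsg.Agent.Forms.GeoBridge
import Cfsg.Agent.Forms.TypeDisc

/-!
Nondegenerate subspaces of given type in odd-dimensional quadratic spaces: parametrisations and the count.
-/

set_option autoImplicit false
set_option linter.style.haveILetI false

open Matrix QuadraticMap CfsgLib.Forms CfsgLib.SemiClasses

namespace CfsgLib.OrthOddSub

variable {F : Type*} [Field F] [Fintype F] {ι κ μ : Type} [Fintype ι] [Fintype κ] [Fintype μ]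

/-- A nondegenerate subspace of dimension `m` whose type is hyperbolic exactly when `ε` holds. -/
def SubOK (Q : QuadraticForm F (ι → F)) (m : ℕ) (ε : Prop) (W : Submodule F (ι → F)) : Prop :=
  Module.finrank F ↥W = m ∧ Cfsg.Geo.IsNondegenerateOn (polar ⇑Q) W ∧ (Cfsg.Geo.IsPlusTypeOn ⇑Q W ↔ ε)

/-- The first summand of a space of functions on a sum type. -/
def inlL (F : Type*) [Field F] (κ μ : Type) : (κ → F) →ₗ[F] (κ ⊕ μ → F) where
  toFun v := Sum.elim v 0
  map_add' u v := by funext i; cases i <;> simp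
  map_smul' a v := by funext i; cases i <;> simp

omit [Fintype F] [Fintype κ] [Fintype μ] in
@[simp] theorem inlL_apply (v : κ → F) : inlL F κ μ v = Sum.elim v 0 := rfl

omit [Fintype F] [Fintype κ] [Fintype μ] in
theorem inlL_injective : Function.Injective (inlL F κ μ) := fun u v h => funext fun i => congrFun h (Sum.inl i)

omit [Fintype F] in
theorem polar_emb {Q : QuadraticForm F (ι → F)} (L : (κ → F) →ₗ[F] (ι → F)) {R : QuadraticForm F (κ → F)}
    {c : F} (hQ : ∀ v, Q (L v) = c * R v) (a b : κ → F) : polar Q (L a) (L b) = c * polar R a b := by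
  simp only [polar, ← map_add, hQ]
  ring

omit [Fintype F] in
theorem plus_iff_hasHalf {Q : QuadraticForm F (ι → F)} (L : (κ → F) →ₗ[F] (ι → F)) (hL : Function.Injective L)
    {R : QuadraticForm F (κ → F)} (hR : (polarBilin R).Nondegenerate) {c : F} (hc : c ≠ 0)
    (hQ : ∀ v, Q (L v) = c * R v) : Cfsg.Geo.IsPlusTypeOn ⇑Q (LinearMap.range L) ↔ HasHalf R := by
  have hfin : Module.finrank F (LinearMap.range L) = Fintype.card κ := by
    rw [LinearMap.finrank_range_of_inj hL, Module.finrank_fintype_fun_eq_card]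
  constructor
  · rintro ⟨U, hU, hs, hd⟩
    refine ⟨U.comap L, fun v hv => ?_, ?_⟩
    · have := hs (L v) (Submodule.mem_comap.mp hv)
      rw [hQ] at this
      exact (mul_eq_zero.mp this).resolve_left hc
    · have := (Submodule.equivMapOfInjective L hL (U.comap L)).finrank_eq
      rw [Submodule.map_comap_eq_self hU] at this
      omega
  · rintro ⟨S, hs, hd⟩
    refine ⟨S.map L, LinearMap.map_le_range, ?_, ?_⟩
    · rintro _ ⟨v, hv, rfl⟩
      rw [hQ, hs v hv, mul_zero]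
    · have h1 := two_finrank_le_of_singular hR hs
      rw [Module.finrank_fintype_fun_eq_card] at h1
      rw [← (Submodule.equivMapOfInjective L hL S).finrank_eq, hfin]
      omega

omit [Fintype F] in
theorem sub_of_emb {Q : QuadraticForm F (ι → F)} (L : (κ → F) →ₗ[F] (ι → F)) (hL : Function.Injective L)
    {R : QuadraticForm F (κ → F)} (hR : (polarBilin R).Nondegenerate) {c : F} (hc : c ≠ 0)
    (hQ : ∀ v, Q (L v) = c * R v) {m : ℕ} (hm : Fintype.card κ = m) {ε : Prop} (hε : HasHalf R ↔ ε) :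
    SubOK Q m ε (LinearMap.range L) := by
  refine ⟨by rw [LinearMap.finrank_range_of_inj hL, Module.finrank_fintype_fun_eq_card, hm], ?_,
    (plus_iff_hasHalf L hL hR hc hQ).trans hε⟩
  rintro _ ⟨a, rfl⟩ ha
  obtain ⟨b, hb⟩ : ∃ b, polar R a b ≠ 0 := by
    by_contra h
    push Not at h
    exact ha (by rw [polar_ext hR h, map_zero])
  refine ⟨⟨L b, ⟨b, rfl⟩, ?_⟩, ⟨L b, ⟨b, rfl⟩, ?_⟩⟩
  · rw [polar_emb L hQ, polar_comm R b a]; exact mul_ne_zero hc hb
  · rw [polar_emb L hQ]; exact mul_ne_zero hc hb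

/-- A split of the space along a nondegenerate subspace. -/
theorem exists_split [DecidableEq ι] {Q : QuadraticForm F (ι → F)} (hQ : (polarBilin Q).Nondegenerate) {m : ℕ}
    {ε : Prop} {W : Submodule F (ι → F)} (hW : SubOK Q m ε W) :
    ∃ (b : ℕ) (e : (Fin m ⊕ Fin b → F) ≃ₗ[F] (ι → F)) (R : QuadraticForm F (Fin m → F))
      (R' : QuadraticForm F (Fin b → F)), m + b = Fintype.card ι ∧ (polarBilin R).Nondegenerate ∧
      (polarBilin R').Nondegenerate ∧ (∀ v, Q (e v) = sumForm R R' v) ∧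
      LinearMap.range (e.toLinearMap ∘ₗ inlL F (Fin m) (Fin b)) = W ∧ (HasHalf R ↔ ε) := by
  obtain ⟨hWd, hWn, hWt⟩ := hW
  have hdisj : Disjoint W (perp Q W) := by
    rw [Submodule.disjoint_def]
    intro x hx hxp
    by_contra h0
    obtain ⟨-, y, hy, hne⟩ := hWn x hx h0
    exact hne (mem_perp.mp hxp y hy)
  have hle : m ≤ Fintype.card ι := by
    rw [← hWd, ← Module.finrank_fintype_fun_eq_card (R := F)]
    exact Submodule.finrank_le W
  obtain ⟨b, hb⟩ : ∃ b, b = Module.finrank F (perp Q W) := ⟨_, rfl⟩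
  have hmb : m + b = Fintype.card ι := by
    rw [hb, finrank_perp hQ, hWd, Module.finrank_fintype_fun_eq_card]
    omega
  let eW : (Fin m → F) ≃ₗ[F] W := LinearEquiv.ofFinrankEq _ _ (by rw [Module.finrank_fin_fun, hWd])
  let eP : (Fin b → F) ≃ₗ[F] perp Q W := LinearEquiv.ofFinrankEq _ _ (by rw [Module.finrank_fin_fun, hb])
  obtain ⟨L₁, hL₁⟩ : ∃ L : (Fin m → F) →ₗ[F] (ι → F), L = W.subtype ∘ₗ eW.toLinearMap := ⟨_, rfl⟩
  obtain ⟨L₂, hL₂⟩ : ∃ L : (Fin b → F) →ₗ[F] (ι → F), L = (perp Q W).subtype ∘ₗ eP.toLinearMap := ⟨_, rfl⟩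
  have h1 : ∀ x, L₁ x ∈ W := fun x => by rw [hL₁]; exact (eW x).2
  have h2 : ∀ y, L₂ y ∈ perp Q W := fun y => by rw [hL₂]; exact (eP y).2
  have i1 : Function.Injective L₁ := by rw [hL₁]; exact Subtype.val_injective.comp eW.injective
  have i2 : Function.Injective L₂ := by rw [hL₂]; exact Subtype.val_injective.comp eP.injective
  obtain ⟨L, hL⟩ : ∃ L : (Fin m ⊕ Fin b → F) →ₗ[F] (ι → F),
      L = L₁ ∘ₗ LinearMap.funLeft F F Sum.inl + L₂ ∘ₗ LinearMap.funLeft F F Sum.inr := ⟨_, rfl⟩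
  have hLv : ∀ v, L v = L₁ (v ∘ Sum.inl) + L₂ (v ∘ Sum.inr) := fun v => by rw [hL]; rfl
  have hpol : ∀ x y, polar Q (L₁ x) (L₂ y) = 0 := fun x y => by
    rw [polar_comm]; exact mem_perp.mp (h2 y) _ (h1 x)
  have hinj : Function.Injective L := (injective_iff_map_eq_zero L).mpr fun v hv => by
    rw [hLv] at hv
    have e1 : L₁ (v ∘ Sum.inl) = 0 := Submodule.disjoint_def.mp hdisj _ (h1 _) (by
      rw [eq_neg_of_add_eq_zero_left hv]; exact neg_mem (h2 _))
    have e2 : L₂ (v ∘ Sum.inr) = 0 := by rwa [e1, zero_add] at hv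
    have z1 := i1 (e1.trans (map_zero L₁).symm)
    have z2 := i2 (e2.trans (map_zero L₂).symm)
    funext j
    rcases j with j | j
    exacts [congrFun z1 j, congrFun z2 j]
  let e := L.linearEquivOfInjective hinj (by
    rw [Module.finrank_fintype_fun_eq_card, Module.finrank_fintype_fun_eq_card, Fintype.card_sum, Fintype.card_fin,
      Fintype.card_fin, hmb])
  have he : ∀ v, e v = L v := fun v => rfl
  have hR1 : (polarBilin (Q.comp L₁)).Nondegenerate := nondegenerate_iff.mpr fun x hx => i1 <| by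
    rw [map_zero]
    by_contra h0
    obtain ⟨-, y, hy, hne⟩ := hWn _ (h1 x) h0
    obtain ⟨z, hz⟩ := eW.surjective ⟨y, hy⟩
    have hzy : L₁ z = y := by rw [hL₁]; exact congrArg Subtype.val hz
    have := hx z
    simp only [polar, QuadraticMap.comp_apply, map_add, hzy] at this
    exact hne this
  have hR2 : (polarBilin (Q.comp L₂)).Nondegenerate := nondegenerate_iff.mpr fun x hx => i2 <| by
    rw [map_zero]
    refine polar_ext hQ fun y => ?_
    obtain ⟨v, rfl⟩ := e.surjective y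
    rw [he, hLv, polar_add_right, polar_comm Q (L₂ x) (L₁ _), hpol, zero_add]
    have := hx (v ∘ Sum.inr)
    simpa [polar, QuadraticMap.comp_apply, map_add] using this
  have hrange : LinearMap.range (e.toLinearMap ∘ₗ inlL F (Fin m) (Fin b)) = W := by
    ext y
    constructor
    · rintro ⟨x, rfl⟩
      show L (Sum.elim x 0) ∈ W
      rw [hLv, Sum.elim_comp_inl, Sum.elim_comp_inr, map_zero, add_zero]
      exact h1 x
    · intro hy
      obtain ⟨z, hz⟩ := eW.surjective ⟨y, hy⟩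
      refine ⟨z, ?_⟩
      show L (Sum.elim z 0) = y
      rw [hLv, Sum.elim_comp_inl, Sum.elim_comp_inr, map_zero, add_zero, hL₁]
      exact congrArg Subtype.val hz
  have hrange1 : LinearMap.range L₁ = W := by
    rw [hL₁, LinearMap.range_comp, LinearEquiv.range, Submodule.map_top, Submodule.range_subtype]
  refine ⟨b, e, Q.comp L₁, Q.comp L₂, hmb, hR1, hR2, fun v => ?_, hrange, ?_⟩
  · rw [he, hLv, QuadraticMap.map_add (⇑Q), hpol, add_zero, sumForm_apply, QuadraticMap.comp_apply,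
      QuadraticMap.comp_apply]
  · rw [← hWt, ← hrange1]
    exact (plus_iff_hasHalf L₁ i1 hR1 one_ne_zero fun v => by rw [one_mul, QuadraticMap.comp_apply]).symm

omit [Fintype F] [Fintype κ] [Fintype μ] in
theorem mem_range_inlL {v : κ ⊕ μ → F} (h : v ∘ Sum.inr = 0) : Sum.elim (v ∘ Sum.inl) (0 : μ → F) = v := by
  rw [← h]; exact Sum.elim_comp_inl_inr v

/-- The group order bound for the number of subspaces of a given type. -/
theorem count_bound [DecidableEq ι] {r d m : ℕ} [hr : Fact r.Prime] (h2 : (2 : F) ≠ 0)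
    (hrq : ¬ r ∣ Fintype.card F) {Q : QuadraticForm F (ι → F)} (hQ : (polarBilin Q).Nondegenerate)
    (hι : Fintype.card ι = 2 * d + 1) (hme : Even m) (hm : 2 ≤ m) (hmd : m ≤ 2 * d) (ε : Prop)
    (hdvd : r ∣ Nat.card {W : Submodule F (ι → F) // SubOK Q m ε W}) :
    ∃ j, 2 * d < 2 * j + m ∧ j ≤ d ∧ ((Fintype.card F : ℕ) : ZMod r) ^ (2 * j) = 1 := by
  classical
  obtain ⟨q, hq⟩ : ∃ q, q = Fintype.card F := ⟨_, rfl⟩
  have hq2 : 2 ≤ q := hq ▸ Fintype.one_lt_card
  have hpow : ∀ a, 0 < a → 2 ≤ q ^ a := fun a ha => hq2.trans (Nat.le_self_pow (by omega) _)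
  obtain ⟨M, hM⟩ := hme
  by_cases hex : Nonempty {W : Submodule F (ι → F) // SubOK Q m ε W}
  swap
  · rw [not_nonempty_iff] at hex
    exfalso
    have hno : ∀ W, ¬ SubOK Q m ε W := fun W hW => hex.false ⟨W, hW⟩
    obtain ⟨c, hc, g, hg⟩ := exists_iso_scaled hQ (m := d) hι
    have emb : ∀ (κ : Type) [Fintype κ] [DecidableEq κ] (R : QuadraticForm F (κ → F)),
        (polarBilin R).Nondegenerate → Fintype.card κ = m → (HasHalf R ↔ ε) → False := by
      intro κ _ _ R hR hκ hRε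
      obtain ⟨c', hc', g', hg'⟩ := exists_iso_scaled (nondegenerate_sumForm hR (nondegenerate_quadOdd (d - M) h2))
        (m := d) (by simp [hκ]; omega)
      let L : (κ → F) →ₗ[F] (ι → F) :=
        g.symm.toLinearMap ∘ₗ g'.toLinearMap ∘ₗ inlL F κ (Unit ⊕ (Fin (d - M) ⊕ Fin (d - M)))
      have hLi : Function.Injective L := g.symm.injective.comp (g'.injective.comp inlL_injective)
      refine hno _ (sub_of_emb L hLi hR (c := c * c'⁻¹) (mul_ne_zero hc (inv_ne_zero hc')) (fun w => ?_) hκ hRε)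
      have e1 := hg (g.symm (g' (inlL F κ _ w)))
      rw [g.apply_symm_apply] at e1
      have e2 := hg' (inlL F κ _ w)
      rw [_root_.smul_apply, smul_eq_mul] at e1 e2
      rw [inlL_apply, sumForm_apply, Sum.elim_comp_inl, Sum.elim_comp_inr, QuadraticMap.map_zero, add_zero] at e2
      show Q (g.symm (g' (inlL F κ _ w))) = _
      rw [← e1, ← e2, inlL_apply]
      field_simp
    by_cases hε : ε
    · exact emb _ (quadPlus F M) (nondegenerate_quadPlus M) (by simp; omega) (iff_of_true (hasHalf_quadPlus M) hε)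
    · obtain ⟨a, ha⟩ := exists_irreducible_quadratic F
      exact emb _ (quadMinus F (M - 1) 1 a) (nondegenerate_quadMinus (M - 1) (anis_of_irred ha)) (by simp; omega)
        (iff_of_false (not_hasHalf_quadMinus (M - 1) (anis_of_irred ha)) hε)
  obtain ⟨⟨W₀, hW₀⟩⟩ := hex
  obtain ⟨b, e, R, R', hmb, hR, hR', he, hrange, hT⟩ := exists_split hQ hW₀
  obtain ⟨b', hb'⟩ : ∃ b', b' = d - M := ⟨_, rfl⟩
  let St : Subgroup (isom Q) :=
    { carrier := {g | ∀ v, v ∈ W₀ ↔ (g : (ι → F) ≃ₗ[F] (ι → F)) v ∈ W₀}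
      mul_mem' := fun {a b} ha hb v => (hb v).trans (ha _)
      one_mem' := fun v => Iff.rfl
      inv_mem' := fun {a} ha v => by
        rw [ha (((a⁻¹ : isom Q) : (ι → F) ≃ₗ[F] (ι → F)) v)]
        show v ∈ W₀ ↔ (a : (ι → F) ≃ₗ[F] (ι → F)) ((a : (ι → F) ≃ₗ[F] (ι → F)).symm v) ∈ W₀
        rw [LinearEquiv.apply_symm_apply] }
  let π : isom Q → {W : Submodule F (ι → F) // SubOK Q m ε W} := fun g =>
    ⟨W₀.map ((g : (ι → F) ≃ₗ[F] (ι → F)) : (ι → F) →ₗ[F] (ι → F)), by
      rw [← hrange, ← LinearMap.range_comp]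
      exact sub_of_emb (((g : (ι → F) ≃ₗ[F] (ι → F)) : (ι → F) →ₗ[F] (ι → F)) ∘ₗ
          (e.toLinearMap ∘ₗ inlL F (Fin m) (Fin b)))
        ((g : (ι → F) ≃ₗ[F] (ι → F)).injective.comp (e.injective.comp inlL_injective)) hR
        one_ne_zero (fun v => by
          rw [one_mul]
          show Q ((g : (ι → F) ≃ₗ[F] (ι → F)) (e (inlL F _ _ v))) = _
          rw [g.2, he, inlL_apply, sumForm_apply, Sum.elim_comp_inl, Sum.elim_comp_inr, QuadraticMap.map_zero,
            add_zero]) (Fintype.card_fin m) hT⟩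
  have hsurj : Function.Surjective π := by
    rintro ⟨W, hW⟩
    obtain ⟨b₁, e₁, R₁, R₁', -, hR₁, -, he₁, hrange₁, hT₁⟩ := exists_split hQ hW
    obtain ⟨τ, hτ⟩ := exists_iso_of_type hR hR₁ (m := M) (by rw [Fintype.card_fin]; omega)
      (by rw [Fintype.card_fin]; omega) (hT.trans hT₁.symm)
    let L : (Fin m → F) →ₗ[F] (ι → F) := e.toLinearMap ∘ₗ inlL F (Fin m) (Fin b)
    let L' : (Fin m → F) →ₗ[F] (ι → F) := e₁.toLinearMap ∘ₗ inlL F (Fin m) (Fin b₁) ∘ₗ τ.toLinearMap
    have hLi : Function.Injective L := e.injective.comp inlL_injective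
    have hL'i : Function.Injective L' := e₁.injective.comp (inlL_injective.comp τ.injective)
    have hQL : ∀ v, Q (L' v) = Q (L v) := fun v => by
      show Q (e₁ (inlL F _ _ (τ v))) = Q (e (inlL F _ _ v))
      rw [he₁, he, inlL_apply, inlL_apply, sumForm_apply, sumForm_apply, Sum.elim_comp_inl, Sum.elim_comp_inr,
        Sum.elim_comp_inl, Sum.elim_comp_inr, QuadraticMap.map_zero, QuadraticMap.map_zero, hτ]
    let φ : LinearMap.range L →ₗ[F] (ι → F) := L' ∘ₗ (LinearEquiv.ofInjective L hLi).symm.toLinearMap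
    have hφL : ∀ v, φ ⟨L v, v, rfl⟩ = L' v := fun v => by
      show L' ((LinearEquiv.ofInjective L hLi).symm ⟨L v, v, rfl⟩) = _
      congr 1
      exact (LinearEquiv.ofInjective L hLi).symm_apply_apply v
    obtain ⟨g, hg, hgφ⟩ := witt hQ (LinearMap.range L) φ (hL'i.comp (LinearEquiv.ofInjective L hLi).symm.injective)
      (by rintro ⟨_, v, rfl⟩; rw [hφL, hQL])
    refine ⟨⟨g, hg⟩, Subtype.ext ?_⟩
    show W₀.map (g : (ι → F) →ₗ[F] (ι → F)) = W
    rw [← hrange, ← hrange₁, ← LinearMap.range_comp]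
    have hgL : (g : (ι → F) →ₗ[F] (ι → F)) ∘ₗ L = L' := LinearMap.ext fun v => (hgφ ⟨L v, v, rfl⟩).trans (hφL v)
    show LinearMap.range ((g : (ι → F) →ₗ[F] (ι → F)) ∘ₗ L) = _
    rw [hgL]
    show LinearMap.range ((e₁.toLinearMap ∘ₗ inlL F (Fin m) (Fin b₁)) ∘ₗ τ.toLinearMap) = _
    rw [LinearMap.range_comp_of_range_eq_top _ τ.range]
  have hcardX : Nat.card {W : Submodule F (ι → F) // SubOK Q m ε W} = St.index := by
    rw [Subgroup.index]
    refine (Nat.card_congr (Equiv.ofBijective (Quotient.lift π fun a a' h => ?_) ⟨?_, ?_⟩)).symm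
    · have h' : a⁻¹ * a' ∈ St := QuotientGroup.leftRel_apply.mp h
      refine Subtype.ext ?_
      show W₀.map ((a : (ι → F) ≃ₗ[F] (ι → F)) : (ι → F) →ₗ[F] (ι → F)) =
        W₀.map ((a' : (ι → F) ≃ₗ[F] (ι → F)) : (ι → F) →ₗ[F] (ι → F))
      ext y
      simp only [Submodule.mem_map_equiv]
      constructor
      · intro hy
        refine (h' _).mpr ?_
        show (a : (ι → F) ≃ₗ[F] (ι → F)).symm ((a' : (ι → F) ≃ₗ[F] (ι → F))
          ((a' : (ι → F) ≃ₗ[F] (ι → F)).symm y)) ∈ W₀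
        rwa [LinearEquiv.apply_symm_apply]
      · intro hy
        have := (h' _).mp hy
        rw [show (((a⁻¹ * a' : isom Q)) : (ι → F) ≃ₗ[F] (ι → F)) ((a' : (ι → F) ≃ₗ[F] (ι → F)).symm y) =
          (a : (ι → F) ≃ₗ[F] (ι → F)).symm ((a' : (ι → F) ≃ₗ[F] (ι → F))
            ((a' : (ι → F) ≃ₗ[F] (ι → F)).symm y)) from rfl, LinearEquiv.apply_symm_apply] at this
        exact this
    · rintro ⟨a⟩ ⟨a'⟩ h
      refine Quotient.sound (QuotientGroup.leftRel_apply.mpr fun v => ?_)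
      have h' := congrArg Subtype.val h
      have := SetLike.ext_iff.mp h' ((a' : (ι → F) ≃ₗ[F] (ι → F)) v)
      change _ ∈ W₀.map _ ↔ _ ∈ W₀.map _ at this
      simp only [Submodule.mem_map_equiv, LinearEquiv.symm_apply_apply] at this
      exact this.symm
    · intro W
      obtain ⟨g, hg⟩ := hsurj W
      exact ⟨QuotientGroup.mk g, hg⟩
  obtain ⟨Φ, hΦ⟩ : ∃ Φ : isom R' →* St, Function.Injective Φ := by
    let bl : ∀ h : isom R', (Fin m ⊕ Fin b → F) ≃ₗ[F] (Fin m ⊕ Fin b → F) := fun h =>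
      { toFun := fun v => Sum.elim (v ∘ Sum.inl) ((h : (Fin b → F) ≃ₗ[F] (Fin b → F)) (v ∘ Sum.inr))
        map_add' := fun u v => by
          rw [show (u + v) ∘ Sum.inr = u ∘ Sum.inr + v ∘ Sum.inr from rfl, map_add]
          funext j; cases j <;> simp
        map_smul' := fun c v => by
          rw [show (c • v) ∘ Sum.inr = c • (v ∘ Sum.inr) from rfl, map_smul]
          funext j; cases j <;> simp
        invFun := fun v => Sum.elim (v ∘ Sum.inl) ((h : (Fin b → F) ≃ₗ[F] (Fin b → F)).symm (v ∘ Sum.inr))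
        left_inv := fun v => by simp
        right_inv := fun v => by simp }
    have hbl : ∀ h v, bl h v = Sum.elim (v ∘ Sum.inl) ((h : (Fin b → F) ≃ₗ[F] (Fin b → F)) (v ∘ Sum.inr)) :=
      fun _ _ => rfl
    have hmem : ∀ h : isom R', e.symm.trans ((bl h).trans e) ∈ isom Q := fun h v => by
      rw [LinearEquiv.trans_apply, LinearEquiv.trans_apply, he, hbl, sumForm_apply, Sum.elim_comp_inl,
        Sum.elim_comp_inr, h.2, ← sumForm_apply, ← he, e.apply_symm_apply]
    have hWmem : ∀ v, v ∈ W₀ ↔ (e.symm v) ∘ Sum.inr = 0 := fun v => by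
      rw [← hrange]
      constructor
      · rintro ⟨x, rfl⟩
        show (e.symm (e (inlL F _ _ x))) ∘ Sum.inr = 0
        rw [e.symm_apply_apply, inlL_apply, Sum.elim_comp_inr]
      · intro hv
        exact ⟨(e.symm v) ∘ Sum.inl, by
          show e (inlL F _ _ _) = v
          rw [inlL_apply, mem_range_inlL hv, e.apply_symm_apply]⟩
    refine ⟨{ toFun := fun h => ⟨⟨e.symm.trans ((bl h).trans e), hmem h⟩, fun v => ?_⟩
              map_one' := ?_, map_mul' := fun h h' => ?_ }, fun h h' heq => ?_⟩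
    · show v ∈ W₀ ↔ (e.symm.trans ((bl h).trans e)) v ∈ W₀
      rw [hWmem, hWmem, LinearEquiv.trans_apply, LinearEquiv.trans_apply, e.symm_apply_apply, hbl, Sum.elim_comp_inr]
      exact ((h : (Fin b → F) ≃ₗ[F] (Fin b → F)).map_eq_zero_iff).symm
    · refine Subtype.ext (Subtype.ext (LinearEquiv.ext fun v => ?_))
      show e (bl 1 (e.symm v)) = v
      rw [hbl, show ((1 : isom R') : (Fin b → F) ≃ₗ[F] (Fin b → F)) ((e.symm v) ∘ Sum.inr) = (e.symm v) ∘ Sum.inr
        from rfl, Sum.elim_comp_inl_inr, e.apply_symm_apply]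
    · refine Subtype.ext (Subtype.ext (LinearEquiv.ext fun v => ?_))
      show e (bl (h * h') (e.symm v)) = e (bl h (e.symm (e (bl h' (e.symm v)))))
      rw [e.symm_apply_apply, hbl, hbl h, hbl h', Sum.elim_comp_inl, Sum.elim_comp_inr]
      rfl
    · refine Subtype.ext (LinearEquiv.ext fun y => ?_)
      have h1 : e.symm.trans ((bl h).trans e) = e.symm.trans ((bl h').trans e) :=
        congrArg (fun z : St => ((z : isom Q) : (ι → F) ≃ₗ[F] (ι → F))) heq
      have h2 := LinearEquiv.congr_fun h1 (e (Sum.elim 0 y))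
      simp only [LinearEquiv.trans_apply, e.symm_apply_apply, EmbeddingLike.apply_eq_iff_eq, hbl, Sum.elim_comp_inr] at h2
      exact funext fun j => congrFun h2 (Sum.inr j)
  have hcardR : Nat.card (isom R') = 2 * q ^ (b' ^ 2) * ∏ i ∈ Finset.range b', (q ^ (2 * (i + 1)) - 1) := by
    obtain ⟨c, hc, g, hg⟩ := exists_iso_scaled hR' (m := b') (by rw [Fintype.card_fin]; omega)
    rw [hq, ← OrthOrder.card_isom_odd h2 b', ← Nat.card_congr (isoEquiv R').toEquiv,
      ← Nat.card_congr (isoEquiv (quadOdd F b')).toEquiv, SubElusive.card_iso_congr g hg, SubElusive.card_iso_smul hc]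
  have hcardQ : Nat.card (isom Q) = 2 * q ^ (d ^ 2) * ∏ i ∈ Finset.range d, (q ^ (2 * (i + 1)) - 1) := by
    obtain ⟨c, hc, g, hg⟩ := exists_iso_scaled hQ (m := d) hι
    rw [hq, ← OrthOrder.card_isom_odd h2 d, ← Nat.card_congr (isoEquiv Q).toEquiv,
      ← Nat.card_congr (isoEquiv (quadOdd F d)).toEquiv, SubElusive.card_iso_congr g hg, SubElusive.card_iso_smul hc]
  obtain ⟨t, ht⟩ := Subgroup.card_dvd_of_injective Φ hΦ
  have hmul := St.card_mul_index
  rw [← hcardX, hcardQ, ht, hcardR] at hmul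
  have hbd : b' ≤ d := by omega
  rw [← Finset.prod_range_mul_prod_Ico (fun i => q ^ (2 * (i + 1)) - 1) hbd,
    show d ^ 2 = b' ^ 2 + (d ^ 2 - b' ^ 2) from (Nat.add_sub_cancel' (Nat.pow_le_pow_left hbd 2)).symm,
    pow_add] at hmul
  have key : t * Nat.card {W : Submodule F (ι → F) // SubOK Q m ε W} =
      q ^ (d ^ 2 - b' ^ 2) * ∏ i ∈ Finset.Ico b' d, (q ^ (2 * (i + 1)) - 1) := by
    refine Nat.eq_of_mul_eq_mul_left (show 0 < 2 * q ^ (b' ^ 2) * ∏ i ∈ Finset.range b', (q ^ (2 * (i + 1)) - 1) from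
      Nat.mul_pos (Nat.mul_pos two_pos (pow_pos (by omega) _)) (Finset.prod_pos fun i _ => ?_)) ?_
    · have := hpow (2 * (i + 1)) (by omega); omega
    · linear_combination hmul
  have hd' : r ∣ q ^ (d ^ 2 - b' ^ 2) * ∏ i ∈ Finset.Ico b' d, (q ^ (2 * (i + 1)) - 1) :=
    key ▸ dvd_mul_of_dvd_right hdvd _
  obtain ⟨i, hi, hdi⟩ := (hr.out.prime.dvd_finsetProd_iff _).mp
    ((hr.out.dvd_mul.mp hd').resolve_left fun h => hrq (hq ▸ hr.out.dvd_of_dvd_pow h))
  rw [Finset.mem_Ico] at hi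
  refine ⟨i + 1, by omega, by omega, ?_⟩
  rw [← ZMod.natCast_eq_zero_iff, Nat.cast_sub (Nat.one_le_pow _ _ (by omega)), Nat.cast_pow, Nat.cast_one,
    sub_eq_zero, hq] at hdi
  exact hdi

end CfsgLib.OrthOddSub
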