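import Cfsg.Agent.SubElusive.Moved
import Cfsg.Agent.SemiClasses.SympCount
import Cfsg.Agent.SpUnipCount.Decomp
import Cfsg.Agent.PolarPair.Count

/-!
Symplectic elements of odd prime order, other than the characteristic, by their multiplicities.
-/

set_option autoImplicit false
set_option linter.style.haveILetI false

namespace CfsgLib.SubElusive

open Polynomial CfsgLib.SemiClasses

section Comb

variable {r : ℕ} [hr : Fact r.Prime] (h : (ZMod r)ˣ)

/-- A multiplier invariant function off zero is a sum of orbits. -/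
theorem orbit_split : ∀ (f : ZMod r → ℕ), (∀ x, f (x * (h : ZMod r)) = f x) → f 0 = 0 →
    ∃ k, ∑ x, f x = orderOf h * k ∧ ∀ β ≤ k, ∃ g : ZMod r → ℕ,
      (∀ x, g (x * (h : ZMod r)) = g x) ∧ g 0 = 0 ∧ (∀ x, g x ≤ f x) ∧ ∑ x, g x = orderOf h * β := by
  classical
  intro f
  induction hN : ∑ x, f x using Nat.strong_induction_on generalizing f with
  | _ N ih =>
    intro hf h0
    by_cases hz : ∃ x, f x ≠ 0
    · obtain ⟨x, hx⟩ := hz
      have hx0 : x ≠ 0 := fun h' => hx (h' ▸ h0)
      obtain ⟨O, hO⟩ : ∃ O : Finset (ZMod r), O = (Finset.range (orderOf h)).image fun j => x * (h : ZMod r) ^ j :=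
        ⟨_, rfl⟩
      have hOc : O.card = orderOf h := by
        rw [hO, Finset.card_image_of_injOn, Finset.card_range]
        intro i hi j hj hij
        have : h ^ i = h ^ j := Units.ext (by simpa using mul_left_cancel₀ hx0 hij)
        exact pow_injOn_Iio_orderOf (Finset.mem_range.mp hi) (Finset.mem_range.mp hj) this
      have hpow : ∀ j : ℕ, f (x * (h : ZMod r) ^ j) = f x := by
        intro j
        induction j with
        | zero => simp
        | succ j ihj => rw [pow_succ, ← mul_assoc, hf, ihj]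
      have hmem : ∀ y ∈ O, f y = f x := fun y hy => by
        rw [hO, Finset.mem_image] at hy
        obtain ⟨j, -, rfl⟩ := hy
        exact hpow j
      have hmemiff : ∀ y, y * (h : ZMod r) ∈ O ↔ y ∈ O := fun y => by
        have key : ∀ j : ℕ, x * (h : ZMod r) ^ j ∈ O := fun j => by
          rw [hO, Finset.mem_image]
          exact ⟨j % orderOf h, Finset.mem_range.mpr (Nat.mod_lt _ (orderOf_pos h)), by
            rw [← Units.val_pow_eq_pow_val, pow_mod_orderOf, Units.val_pow_eq_pow_val]⟩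
        constructor
        · intro hy
          rw [hO, Finset.mem_image] at hy
          obtain ⟨j, -, hj⟩ := hy
          have e : y = x * (h : ZMod r) ^ (j + (orderOf h - 1)) := by
            have hone : (h : ZMod r) * (h : ZMod r) ^ (orderOf h - 1) = 1 := by
              rw [← pow_succ', Nat.sub_add_cancel (orderOf_pos h), ← Units.val_pow_eq_pow_val, pow_orderOf_eq_one,
                Units.val_one]
            rw [pow_add, ← mul_assoc, hj, mul_assoc, hone, mul_one]
          exact e ▸ key _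
        · intro hy
          rw [hO, Finset.mem_image] at hy
          obtain ⟨j, -, rfl⟩ := hy
          rw [mul_assoc, ← pow_succ]
          exact key _
      have hO0 : (0 : ZMod r) ∉ O := fun hm => hx ((hmem 0 hm).symm.trans h0)
      obtain ⟨e, he⟩ : ∃ e : ZMod r → ℕ, e = fun y => if y ∈ O then 1 else 0 := ⟨_, rfl⟩
      have hesum : ∑ y, e y = orderOf h := by rw [he, Finset.sum_ite_mem, Finset.univ_inter, Finset.sum_const, hOc]; simp
      have hele : ∀ y, e y ≤ f y := fun y => by
        rw [he]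
        dsimp only
        split_ifs with hy
        · rw [hmem y hy]; omega
        · omega
      have heinv : ∀ y, e (y * (h : ZMod r)) = e y := fun y => by rw [he]; simp only [hmemiff]
      have hsum : ∑ y, (f y - e y) + orderOf h = N := by
        rw [← hesum, ← Finset.sum_add_distrib, ← hN]
        exact Finset.sum_congr rfl fun y _ => Nat.sub_add_cancel (hele y)
      obtain ⟨k, hk, hsub⟩ := ih (∑ y, (f y - e y)) (by have := orderOf_pos h; omega) (fun y => f y - e y) rfl
        (fun y => by rw [hf, heinv]) (by simp [h0])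
      refine ⟨k + 1, by rw [mul_add, mul_one, ← hk]; omega, fun β hβ => ?_⟩
      rcases Nat.eq_zero_or_pos β with rfl | hpos
      · exact ⟨0, fun _ => rfl, rfl, fun _ => Nat.zero_le _, by simp⟩
      obtain ⟨g, hg1, hg0, hgle, hgs⟩ := hsub (β - 1) (by omega)
      refine ⟨fun y => g y + e y, fun y => by simp only [hg1, heinv], by simp [hg0, he, hO0], fun y => ?_, ?_⟩
      · have h1 : g y ≤ f y - e y := hgle y
        have := hele y
        show g y + e y ≤ f y
        omega
      · rw [Finset.sum_add_distrib, hgs, hesum]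
        conv_rhs => rw [show β = β - 1 + 1 by omega, mul_add, mul_one]
    · push Not at hz
      refine ⟨0, by rw [← hN, mul_zero]; exact Finset.sum_eq_zero fun y _ => hz y, fun β hβ =>
        ⟨f, hf, h0, fun _ => le_rfl, by rw [Nat.le_zero.mp hβ, mul_zero]; exact Finset.sum_eq_zero fun y _ => hz y⟩⟩

/-- The counting data of an invariant function. -/
theorem orbit_data (f : ZMod r → ℕ) (hf : ∀ x, f (x * (h : ZMod r)) = f x) :
    ∃ k, f 0 + orderOf h * k = ∑ x, f x ∧ ∀ α ≤ f 0, ∀ β ≤ k, ∃ g : ZMod r → ℕ,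
      (∀ x, g (x * (h : ZMod r)) = g x) ∧ g 0 = α ∧ (∀ x, g x ≤ f x) ∧ ∑ x, g x = α + orderOf h * β := by
  classical
  obtain ⟨k, hk, hs⟩ := orbit_split h (fun x => if x = 0 then 0 else f x)
    (fun x => by simp only [mul_eq_zero, h.ne_zero, or_false, hf]) (if_pos rfl)
  have hsplit : ∀ (g : ZMod r → ℕ) α, ∑ x, (g x + if x = 0 then α else 0) = α + ∑ x, g x := fun g α => by
    rw [Finset.sum_add_distrib, Finset.sum_ite_eq' Finset.univ 0, if_pos (Finset.mem_univ _), add_comm]
  refine ⟨k, ?_, fun α hα β hβ => ?_⟩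
  · rw [← hk, ← hsplit]
    exact Finset.sum_congr rfl fun x _ => by by_cases hx : x = 0 <;> simp [hx]
  · obtain ⟨g, hg, hg0, hgle, hgs⟩ := hs β hβ
    refine ⟨fun x => g x + if x = 0 then α else 0, fun x => by simp only [mul_eq_zero, h.ne_zero, or_false, hg],
      by simp [hg0], fun x => ?_, by rw [hsplit, hgs]⟩
    by_cases hx : x = 0
    · subst hx; simp [hg0, hα]
    · have := hgle x
      simp only [if_neg hx, add_zero] at this ⊢
      exact this

end Comb

variable {F L : Type*} [Field F] [Fintype F] [Field L] [Finite L] [Algebra F L] {p r : ℕ} [Fact p.Prime] [CharP F p]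
  [hr : Fact r.Prime] {ζ : L}

/-- The fixed space of a matrix of order dividing `r`. -/
theorem mult_zero_eq {ι : Type} [Fintype ι] [DecidableEq ι] (hrp : r ≠ p) {A : Matrix ι ι F} (hA : A ^ r = 1) :
    mult ζ A (0 : ZMod r) = Module.finrank F (LinearMap.ker (Matrix.toLinAlgEquiv' A - 1 : Module.End F (ι → F))) := by
  classical
  have hf : (Matrix.toLinAlgEquiv' A : Module.End F (ι → F)) ^ r = 1 := by rw [← map_pow, hA, map_one]
  obtain ⟨Q, -, -, -, -, -, hm⟩ := charpoly_fix _ (r_ne_zero (F := F) hrp) hf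
  have hc : LinearMap.charpoly (Matrix.toLinAlgEquiv' A : Module.End F (ι → F)) = A.charpoly := by
    rw [← LinearMap.charpoly_toMatrix (Matrix.toLinAlgEquiv' A) (Pi.basisFun F ι), LinearMap.toMatrix_eq_toMatrix']
    exact congrArg Matrix.charpoly (LinearMap.toMatrix'_toLin' A)
  rw [← hm, hc, mult, ZMod.val_zero, pow_zero, ← map_one (algebraMap F L),
    ← eq_rootMultiplicity_map (algebraMap F L).injective]

/-- Invariant functions are multiplicities of symplectic elements. -/
theorem exists_symp_mult (hζ : IsPrimitiveRoot ζ r) (hrp : r ≠ p) (hr2 : r ≠ 2) {u : (ZMod r)ˣ}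
    (hu : (u : ZMod r) = (Fintype.card F : ℕ)) {m : ℕ} (f : ZMod r → ℕ) (hfu : ∀ x, f (x * (u : ZMod r)) = f x)
    (hneg : ∀ x, f (-x) = f x) (hsum : ∑ x, f x = 2 * m) :
    ∃ B : Matrix (Fin m ⊕ Fin m) (Fin m ⊕ Fin m) F, B ∈ Matrix.symplecticGroup (Fin m) F ∧ B ^ r = 1 ∧
      ∀ x, mult ζ B x = f x := by
  classical
  let f' : ZMod r → ℕ := fun x => if x = 0 then 0 else f x
  obtain ⟨κ, _, _, Q, A, hQ, hA, hAQ, hmul, hev, -⟩ := model_moving hζ hrp hu hr2 f'
    (fun x => by simp only [f', mul_eq_zero, u.ne_zero, or_false, hfu])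
    (fun x => by simp only [f', neg_eq_zero, hneg]) (if_pos rfl)
  have hsplit : ∀ x, f x = f' x + if x = 0 then f 0 else 0 := fun x => by
    by_cases hx : x = 0 <;> simp [f', hx]
  have h0 : Fintype.card κ + f 0 = 2 * m := by
    rw [← hsum, Finset.sum_congr rfl (fun x _ => hsplit x), Finset.sum_add_distrib,
      Finset.sum_ite_eq' Finset.univ 0, if_pos (Finset.mem_univ _), ← sum_mult hζ hA]
    simp only [hmul]
  obtain ⟨d, hd⟩ : ∃ d, f 0 = 2 * d := by
    obtain ⟨j, hj⟩ := hev
    exact ⟨m - j, by omega⟩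
  obtain ⟨G, hG, hGs, hGp, hGX⟩ := gram_spec Q hQ
  have hAu : IsUnit A.det := (Matrix.isUnit_iff_isUnit_det A).mp (IsUnit.of_pow_eq_one hA hr.out.ne_zero)
  obtain ⟨H, hH⟩ : ∃ H, H = G * (A - A⁻¹) := ⟨_, rfl⟩
  have hHu : IsUnit H.det := by
    rw [hH, show A - A⁻¹ = A⁻¹ * (A * A - 1) by
      rw [Matrix.mul_sub, Matrix.nonsing_inv_mul_cancel_left _ _ hAu, Matrix.mul_one], Matrix.det_mul,
      Matrix.det_mul]
    exact hG.mul ((Matrix.isUnit_nonsing_inv_det _ hAu).mul
      (isUnit_sq_sub_one hζ hrp hr2 hA (by rw [hmul]; exact if_pos rfl)))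
  have hHa : ∀ x, x ⬝ᵥ (H.mulVec x) = 0 := fun x => by
    rw [hH, ← Matrix.mulVec_mulVec, hGp, Matrix.sub_mulVec, QuadraticMap.polar_sub_right]
    have e : QuadraticMap.polar (⇑Q) x (A⁻¹.mulVec x) = QuadraticMap.polar (⇑Q) (A.mulVec x) x := by
      have := congrArg (fun M : Matrix κ κ F => x ⬝ᵥ (M.mulVec (A⁻¹.mulVec x))) (hGX A hAQ)
      simp only [← Matrix.mulVec_mulVec, Matrix.dotProduct_mulVec x A.transpose, Matrix.vecMul_transpose] at this
      rw [hGp, hGp, Matrix.mulVec_mulVec x A A⁻¹, Matrix.mul_nonsing_inv _ hAu, Matrix.one_mulVec] at this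
      exact this.symm
    rw [e, QuadraticMap.polar_comm (⇑Q) (A.mulVec x) x, sub_self]
  have hHA : A.transpose * H * A = H := by
    rw [hH, ← Matrix.mul_assoc, Matrix.mul_assoc (A.transpose * G),
      show (A - A⁻¹) * A = A * (A - A⁻¹) by
        rw [Matrix.sub_mul, Matrix.mul_sub, Matrix.nonsing_inv_mul _ hAu, Matrix.mul_nonsing_inv _ hAu],
      ← Matrix.mul_assoc, hGX A hAQ]
  have hcard : Fintype.card (κ ⊕ (Fin d ⊕ Fin d)) = 2 * m := by simp; omega
  obtain ⟨B, hB, hBc, hBk⟩ := exists_symp_transport hcard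
    (G := Matrix.fromBlocks H 0 0 (Matrix.J (Fin d) F))
    (A := Matrix.fromBlocks A 0 0 (1 : Matrix (Fin d ⊕ Fin d) (Fin d ⊕ Fin d) F))
    (CfsgLib.NilType.det_blocks_isUnit hHu (Matrix.isUnit_det_J _ _))
    (fun x => by rw [CfsgLib.NilType.quad_blocks, hHa]; exact (zero_add _).trans (CfsgLib.SpGeom.form_self _))
    (by
      rw [Matrix.fromBlocks_transpose, Matrix.fromBlocks_multiply, Matrix.fromBlocks_multiply]
      simp [hHA])
  refine ⟨B, hB, hBk r (by rw [CfsgLib.NilType.blocks_pow, hA, one_pow, Matrix.fromBlocks_one]), fun x => ?_⟩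
  rw [congrFun (mult_of_charpoly (r := r) hBc) x, mult_blocks, hmul, mult_one hζ, hsplit x, hd]
  simp [two_mul]

/-- Blocks of the standard symplectic space, mutually orthogonal and invariant. -/
def SympSplit {d : ℕ} (B : Matrix (Fin d ⊕ Fin d) (Fin d ⊕ Fin d) F) (a t : ℕ) : Prop :=
  ∃ D : Fin t → Submodule F (Fin d ⊕ Fin d → F), (∀ j, Module.finrank F (D j) = a) ∧
    (∀ j, ∀ v ∈ D j, B.mulVec v ∈ D j) ∧
    (∀ j k, j ≠ k → ∀ u ∈ D j, ∀ v ∈ D k, Cfsg.sympForm d F u v = 0) ∧ iSup D = ⊤

/-- Elements with enough fixed vectors preserve a decomposition. -/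
theorem exists_split_model (hζ : IsPrimitiveRoot ζ r) (hrp : r ≠ p) (hr2 : r ≠ 2) {u h : (ZMod r)ˣ}
    (hu : (u : ZMod r) = (Fintype.card F : ℕ))
    (hinv : ∀ f : ZMod r → ℕ, ((∀ x, f (x * (u : ZMod r)) = f x) ∧ (∀ x, f (-x) = f x)) ↔ ∀ x, f (x * (h : ZMod r)) = f x)
    (b : ℕ) : ∀ (t : ℕ) (f : ZMod r → ℕ), (∀ x, f (x * (h : ZMod r)) = f x) → ∑ x, f x = 2 * (t * b) →
      (t * (2 * b)) % orderOf h = t * ((2 * b) % orderOf h) →
      ∃ B : Matrix (Fin (t * b) ⊕ Fin (t * b)) (Fin (t * b) ⊕ Fin (t * b)) F,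
        B ∈ Matrix.symplecticGroup (Fin (t * b)) F ∧ B ^ r = 1 ∧ (∀ x, mult ζ B x = f x) ∧ SympSplit B (2 * b) t := by
  intro t
  induction t with
  | zero =>
    intro f hf hs _
    refine ⟨1, one_mem _, one_pow _, fun x => ?_, fun j => j.elim0, fun j => j.elim0, fun j => j.elim0,
      fun j => j.elim0, ?_⟩
    · have : f x ≤ ∑ y, f y := Finset.single_le_sum (fun _ _ => Nat.zero_le _) (Finset.mem_univ x)
      rw [mult_one hζ]
      simp only [Fintype.card_sum, Fintype.card_fin]
      split_ifs <;> omega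
    · exact Submodule.ext fun v => by
        have : v = 0 := funext fun i => by rcases i with i | i <;> exact absurd i.2 (by simp)
        simp [this]
  | succ t ih =>
    intro f hf hs hmod
    obtain ⟨k, hk, hsub⟩ := orbit_data h f hf
    rw [hs] at hk
    obtain ⟨α, β, α', β', hαβ, -, hα, hβ⟩ := choice_one (n := (t + 1) * (2 * b)) (i := orderOf h) (e := f 0) (k := k)
      (by rw [hk]; ring) (Nat.le_mul_of_pos_left (2 * b) (by omega))
      (by rw [hmod]; exact Nat.le_mul_of_pos_left _ (by omega))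
    obtain ⟨g, hg, -, hgle, hgs⟩ := hsub α (by omega) β (by omega)
    rw [hαβ] at hgs
    obtain ⟨f₂, hf₂⟩ : ∃ f₂ : ZMod r → ℕ, f₂ = fun x => f x - g x := ⟨_, rfl⟩
    have hs₂ : ∑ x, f₂ x = 2 * (t * b) := by
      have h1 : ∑ x, f₂ x + ∑ x, g x = ∑ x, f x := by
        rw [← Finset.sum_add_distrib]
        exact Finset.sum_congr rfl fun x _ => by rw [hf₂]; exact Nat.sub_add_cancel (hgle x)
      rw [hs, hgs, add_one_mul, mul_add] at h1
      omega
    obtain ⟨B₂, hB₂, hB₂r, hB₂m, D, hDd, hDi, hDo, hDt⟩ := ih f₂ (fun x => by rw [hf₂]; simp only [hf, hg]) hs₂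
      (mul_mod_pred hmod (orderOf_pos h))
    obtain ⟨B₁, hB₁, hB₁r, hB₁m⟩ := exists_symp_mult (F := F) hζ hrp hr2 hu g ((hinv g).mpr hg).1 ((hinv g).mpr hg).2 hgs
    have hab : b + t * b = (t + 1) * b := by ring
    refine ⟨CfsgLib.Symp.blockMat hab B₁ B₂, CfsgLib.Symp.blockMat_mem hab hB₁ hB₂,
      by rw [CfsgLib.SpUnipCount.blockMat_pow, hB₁r, hB₂r, CfsgLib.Symp.blockMat_one], fun x => ?_, ?_⟩
    · rw [CfsgLib.Symp.blockMat, mult_reindex, mult_blocks, hB₁m, hB₂m, hf₂]
      exact Nat.add_sub_cancel' (hgle x)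
    · let ι₁ : (Fin b ⊕ Fin b → F) →ₗ[F] (Fin ((t + 1) * b) ⊕ Fin ((t + 1) * b) → F) :=
        { toFun := fun x => CfsgLib.SpUnipCount.blockVec hab x 0
          map_add' := fun x y => by funext i; simp only [CfsgLib.SpUnipCount.blockVec, Pi.add_apply, Function.comp_apply]; cases (CfsgLib.Symp.blockEquiv hab).symm i <;> simp
          map_smul' := fun c x => by funext i; simp only [CfsgLib.SpUnipCount.blockVec, Pi.smul_apply, Function.comp_apply, RingHom.id_apply]; cases (CfsgLib.Symp.blockEquiv hab).symm i <;> simp }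
      let ι₂ : (Fin (t * b) ⊕ Fin (t * b) → F) →ₗ[F] (Fin ((t + 1) * b) ⊕ Fin ((t + 1) * b) → F) :=
        { toFun := fun y => CfsgLib.SpUnipCount.blockVec hab 0 y
          map_add' := fun x y => by funext i; simp only [CfsgLib.SpUnipCount.blockVec, Pi.add_apply, Function.comp_apply]; cases (CfsgLib.Symp.blockEquiv hab).symm i <;> simp
          map_smul' := fun c x => by funext i; simp only [CfsgLib.SpUnipCount.blockVec, Pi.smul_apply, Function.comp_apply, RingHom.id_apply]; cases (CfsgLib.Symp.blockEquiv hab).symm i <;> simp }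
      have hi1 : Function.Injective ι₁ := fun x y e => (CfsgLib.SpUnipCount.blockVec_inj hab e).1
      have hi2 : Function.Injective ι₂ := fun x y e => (CfsgLib.SpUnipCount.blockVec_inj hab e).2
      have hform : ∀ u v, Cfsg.sympForm ((t + 1) * b) F (ι₁ u) (ι₂ v) = 0 ∧ Cfsg.sympForm ((t + 1) * b) F (ι₂ v) (ι₁ u) = 0 :=
        fun u v => by
          constructor <;>
            exact (CfsgLib.SpUnipCount.form_blockVec hab _ _ _ _).trans (by
              rw [CfsgLib.SpGeom.form_zero_left, CfsgLib.SpGeom.form_zero_right, add_zero])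
      refine ⟨Fin.cons (LinearMap.range ι₁) fun j => (D j).map ι₂, fun j => ?_, fun j => ?_, fun j => ?_, ?_⟩
      · induction j using Fin.cases with
        | zero =>
          rw [Fin.cons_zero, LinearMap.finrank_range_of_inj hi1, Module.finrank_pi, Fintype.card_sum, Fintype.card_fin,
            two_mul]
        | succ j => rw [Fin.cons_succ, ← (Submodule.equivMapOfInjective _ hi2 (D j)).finrank_eq, hDd]
      · induction j using Fin.cases with
        | zero =>
          rw [Fin.cons_zero]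
          rintro _ ⟨x, rfl⟩
          exact ⟨B₁.mulVec x, ((CfsgLib.SpUnipCount.blockMat_mulVec hab B₁ B₂ x 0).trans (by rw [Matrix.mulVec_zero]; rfl)).symm⟩
        | succ j =>
          rw [Fin.cons_succ]
          rintro _ ⟨y, hy, rfl⟩
          exact ⟨B₂.mulVec y, hDi j y hy,
            ((CfsgLib.SpUnipCount.blockMat_mulVec hab B₁ B₂ 0 y).trans (by rw [Matrix.mulVec_zero]; rfl)).symm⟩
      · intro k hjk
        induction j using Fin.cases with
        | zero =>
          induction k using Fin.cases with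
          | zero => exact absurd rfl hjk
          | succ k =>
            rw [Fin.cons_zero, Fin.cons_succ]
            rintro _ ⟨x, rfl⟩ _ ⟨y, -, rfl⟩
            exact (hform x y).1
        | succ j =>
          induction k using Fin.cases with
          | zero =>
            rw [Fin.cons_zero, Fin.cons_succ]
            rintro _ ⟨y, -, rfl⟩ _ ⟨x, rfl⟩
            exact (hform x y).2
          | succ k =>
            rw [Fin.cons_succ, Fin.cons_succ]
            rintro _ ⟨y, hy, rfl⟩ _ ⟨y', hy', rfl⟩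
            refine (CfsgLib.SpUnipCount.form_blockVec hab _ _ _ _).trans ?_
            rw [CfsgLib.SpGeom.form_zero_left, zero_add]
            exact hDo j k (fun e => hjk (e ▸ rfl)) y hy y' hy'
      · rw [eq_top_iff]
        intro v _
        obtain ⟨x, y, rfl⟩ := CfsgLib.SpUnipCount.blockVec_surj hab v
        have hxy : CfsgLib.SpUnipCount.blockVec hab x y = ι₁ x + ι₂ y := by
          funext i
          simp only [ι₁, ι₂, LinearMap.coe_mk, AddHom.coe_mk, CfsgLib.SpUnipCount.blockVec, Pi.add_apply, Function.comp_apply]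
          cases (CfsgLib.Symp.blockEquiv hab).symm i <;> simp
        rw [hxy]
        refine Submodule.add_mem _ (Submodule.mem_iSup_of_mem 0 (by rw [Fin.cons_zero]; exact ⟨x, rfl⟩)) ?_
        have hle : (iSup D).map ι₂ ≤ iSup (Fin.cons (LinearMap.range ι₁) fun j => (D j).map ι₂) := by
          rw [Submodule.map_iSup]
          exact iSup_le fun j => le_iSup_of_le j.succ (by rw [Fin.cons_succ])
        exact hle ⟨y, hDt ▸ Submodule.mem_top, rfl⟩

/-- Orthogonal summands spanning the space are nondegenerate and independent. -/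
theorem nondeg_of_split {d t : ℕ} {D : Fin t → Submodule F (Fin d ⊕ Fin d → F)}
    (ho : ∀ j k, j ≠ k → ∀ u ∈ D j, ∀ v ∈ D k, Cfsg.sympForm d F u v = 0) (htop : iSup D = ⊤) :
    (∀ j, ∀ u ∈ D j, u ≠ 0 → ∃ v ∈ D j, Cfsg.sympForm d F u v ≠ 0) ∧ iSupIndep D := by
  classical
  obtain ⟨B, hB⟩ : ∃ B : LinearMap.BilinForm F (Fin d ⊕ Fin d → F), ∀ u v, B u v = Cfsg.sympForm d F u v :=
    ⟨CfsgLib.PolarPair.bform F d, fun u v => rfl⟩
  have hnd : ∀ j, ∀ u ∈ D j, (∀ v ∈ D j, Cfsg.sympForm d F u v = 0) → u = 0 := by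
    intro j u hu h0
    by_contra hu0
    obtain ⟨w, hw⟩ := CfsgLib.SpGeom.exists_form_ne_zero hu0
    apply hw
    have hle : iSup D ≤ LinearMap.ker (B u) := iSup_le fun k v hv => by
      rw [LinearMap.mem_ker, hB]
      rcases eq_or_ne k j with rfl | hk
      · exact h0 v hv
      · exact ho j k hk.symm u hu v hv
    have := hle (htop ▸ Submodule.mem_top : w ∈ iSup D)
    rwa [LinearMap.mem_ker, hB] at this
  refine ⟨fun j u hu hu0 => ?_, fun j => ?_⟩
  · by_contra h
    push Not at h
    exact hu0 (hnd j u hu h)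
  · rw [Submodule.disjoint_def]
    intro u hu hu'
    refine hnd j u hu fun v hv => ?_
    have hle : ⨆ (k) (_ : k ≠ j), D k ≤ LinearMap.ker (B.flip v) := iSup₂_le fun k hk w hw => by
      rw [LinearMap.mem_ker]
      show B w v = 0
      rw [hB]
      exact ho k j hk w hw v hv
    have := hle hu'
    rw [LinearMap.mem_ker] at this
    have h2 : B u v = 0 := this
    rwa [hB] at h2

end CfsgLib.SubElusive
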