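import Cfsg.Agent.SubElusive.OrthOddBase
import Cfsg.Agent.SubElusive.SympPieces
import Cfsg.Agent.SubElusive.Cases
import Cfsg.Agent.OrthUnip.Model

/-!
Semisimple elements of odd prime order with an invariant subspace of given type, in odd dimension.
-/

set_option autoImplicit false
set_option linter.style.haveILetI false

open Matrix QuadraticMap CfsgLib.Forms CfsgLib.SemiClasses

namespace CfsgLib.OrthOddSub

variable {F L : Type*} [Field F] [Fintype F] [Field L] [Finite L] [Algebra F L] {p r : ℕ} [Fact p.Prime]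
  [CharP F p] [hr : Fact r.Prime] {ζ : L}

omit [Fintype F] [Finite L] in
/-- Moving a matrix of order dividing `r` along a linear bijection. -/
theorem conj_gl {ι κ : Type} [Fintype ι] [DecidableEq ι] [Fintype κ] [DecidableEq κ] {A : Matrix κ κ F}
    (hA : A ^ r = 1) (φ : (κ → F) ≃ₗ[F] (ι → F)) :
    ∃ B : GL ι F, B ^ r = 1 ∧ (∀ w, (B : Matrix ι ι F) *ᵥ φ w = φ (A *ᵥ w)) ∧
      ∀ x : ZMod r, mult ζ (B : Matrix ι ι F) x = mult ζ A x := by
  let M := LinearMap.toMatrixAlgEquiv' (φ.conjAlgEquiv F (Matrix.toLinAlgEquiv' A))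
  have hM : M ^ r = 1 := by
    show (LinearMap.toMatrixAlgEquiv' (φ.conjAlgEquiv F (Matrix.toLinAlgEquiv' A))) ^ r = 1
    rw [← map_pow, ← map_pow, ← map_pow, hA, map_one, map_one, map_one]
  obtain ⟨u, hu⟩ := IsUnit.of_pow_eq_one hM hr.out.ne_zero
  refine ⟨u, Units.ext ?_, fun w => ?_, fun x => congrFun (mult_of_charpoly ?_) x⟩
  · rw [Units.val_pow_eq_pow_val, hu, hM, Units.val_one]
  · rw [hu]
    show (LinearMap.toMatrix' (φ.conj (Matrix.toLin' A))) *ᵥ φ w = _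
    rw [LinearMap.toMatrix'_mulVec, LinearEquiv.conj_apply_apply, Matrix.toLin'_apply, φ.symm_apply_apply]
  · rw [hu]
    show (LinearMap.toMatrix' (φ.conj (Matrix.toLin' A))).charpoly = _
    rw [← LinearMap.toMatrix_eq_toMatrix', LinearMap.charpoly_toMatrix, LinearEquiv.charpoly_conj,
      ← LinearMap.charpoly_toMatrix (Matrix.toLin' A) (Pi.basisFun F κ), LinearMap.toMatrix_eq_toMatrix',
      LinearMap.toMatrix'_toLin']

/-- The two blocks on an invariant nondegenerate subspace and its complement. -/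
theorem exists_blocks {ι : Type} [Fintype ι] [DecidableEq ι] {Q : QuadraticForm F (ι → F)}
    (hQ : (polarBilin Q).Nondegenerate) {X : GL ι F} (hX : X ^ r = 1)
    (hXQ : ∀ v, Q ((X : Matrix ι ι F) *ᵥ v) = Q v) {m : ℕ} {ε : Prop} {W : Submodule F (ι → F)}
    (hW : SubOK Q m ε W) (hinv : W.map (Matrix.toLin' (X : Matrix ι ι F)) ≤ W) :
    ∃ (b : ℕ) (R : QuadraticForm F (Fin m → F)) (A : Matrix (Fin m) (Fin m) F) (R' : QuadraticForm F (Fin b → F))
      (A' : Matrix (Fin b) (Fin b) F), m + b = Fintype.card ι ∧ (polarBilin R).Nondegenerate ∧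
      (HasHalf R ↔ ε) ∧ A ^ r = 1 ∧ (∀ v, R (A *ᵥ v) = R v) ∧ (polarBilin R').Nondegenerate ∧ A' ^ r = 1 ∧
      (∀ v, R' (A' *ᵥ v) = R' v) ∧ (HasHalf Q ↔ HasHalf (sumForm R R')) ∧
      (∀ x : ZMod r, mult ζ A x + mult ζ A' x = mult ζ (X : Matrix ι ι F) x) ∧
      ((∀ v ∈ W, (X : Matrix ι ι F) *ᵥ v = v) → A = 1) := by
  obtain ⟨b, e, R, R', hcard, hR, hR', he, hrange, hT⟩ := exists_split hQ hW
  have hXr : (X : Matrix ι ι F) ^ r = 1 := by rw [← Units.val_pow_eq_pow_val, hX, Units.val_one]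
  obtain ⟨B, hB, hBv, hBm⟩ := conj_gl (ζ := ζ) hXr e.symm
  obtain ⟨M, hM⟩ : ∃ M, M = (B : Matrix (Fin m ⊕ Fin b) (Fin m ⊕ Fin b) F) := ⟨_, rfl⟩
  have hMv : ∀ w, e (M *ᵥ w) = (X : Matrix ι ι F) *ᵥ e w := fun w => by
    have := hBv (e w)
    rw [e.symm_apply_apply] at this
    rw [hM, this, e.apply_symm_apply]
  have hMQ : ∀ w, sumForm R R' (M *ᵥ w) = sumForm R R' w := fun w => by rw [← he, hMv, hXQ, he]
  have hWin : ∀ a, (M *ᵥ Sum.elim a 0) ∘ Sum.inr = 0 := fun a => by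
    have h1 : (X : Matrix ι ι F) *ᵥ e (Sum.elim a 0) ∈ W :=
      hinv ⟨e (Sum.elim a 0), hrange ▸ ⟨a, rfl⟩, Matrix.toLin'_apply _ _⟩
    rw [← hMv, ← hrange] at h1
    obtain ⟨a', ha'⟩ := h1
    rw [← e.injective ha', inlL_apply, Sum.elim_comp_inr]
  obtain ⟨A, hA⟩ : ∃ A, A = M.toBlocks₁₁ := ⟨_, rfl⟩
  have hbl : ∀ v, M *ᵥ v = Sum.elim (M.toBlocks₁₁ *ᵥ (v ∘ Sum.inl) + M.toBlocks₁₂ *ᵥ (v ∘ Sum.inr))
      (M.toBlocks₂₁ *ᵥ (v ∘ Sum.inl) + M.toBlocks₂₂ *ᵥ (v ∘ Sum.inr)) := fun v => by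
    conv_lhs => rw [← Matrix.fromBlocks_toBlocks M, Matrix.fromBlocks_mulVec]
  have h21 : M.toBlocks₂₁ = 0 := Matrix.ext_iff_mulVec.mpr fun a => by
    have := hWin a
    rw [hbl, Sum.elim_comp_inr, Sum.elim_comp_inl, Sum.elim_comp_inr, Matrix.mulVec_zero, add_zero] at this
    rw [this, Matrix.zero_mulVec]
  have hinlA : ∀ a, M *ᵥ Sum.elim a 0 = Sum.elim (A *ᵥ a) 0 := fun a => by
    rw [hbl, Sum.elim_comp_inl, Sum.elim_comp_inr, h21, Matrix.zero_mulVec, Matrix.mulVec_zero, Matrix.mulVec_zero,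
      add_zero, add_zero, hA]
  have hMinj : Function.Injective fun v => M *ᵥ v :=
    Matrix.mulVec_injective_iff_isUnit.mpr (hM ▸ B.isUnit)
  have hAs : Function.Surjective fun a => A *ᵥ a := by
    refine (LinearMap.injective_iff_surjective (f := A.mulVecLin)).mp fun a a' h => ?_
    have h2 : M *ᵥ Sum.elim a 0 = M *ᵥ Sum.elim a' (0 : Fin b → F) := by
      rw [hinlA, hinlA]; exact congrArg (fun z : Fin m → F => Sum.elim z (0 : Fin b → F)) h
    exact funext fun j => congrFun (hMinj h2) (Sum.inl j)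
  have hpol : ∀ u v, polar (sumForm R R') (M *ᵥ u) (M *ᵥ v) = polar (sumForm R R') u v := fun u v => by
    simp only [polar, ← Matrix.mulVec_add, hMQ]
  have h12 : M.toBlocks₁₂ = 0 := Matrix.ext_iff_mulVec.mpr fun y => by
    rw [Matrix.zero_mulVec]
    refine polar_ext hR fun z => ?_
    obtain ⟨a, rfl⟩ := hAs z
    have := hpol (Sum.elim 0 y) (Sum.elim a 0)
    rw [hinlA, hbl, polar_sumForm, polar_sumForm, Sum.elim_comp_inl, Sum.elim_comp_inr, Sum.elim_comp_inl,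
      Sum.elim_comp_inr, Sum.elim_comp_inl, Sum.elim_comp_inr, Sum.elim_comp_inl, Sum.elim_comp_inr,
      Matrix.mulVec_zero, zero_add, polar_zero_right, add_zero, polar_zero_left, polar_zero_right, add_zero] at this
    exact this
  have hMb : M = Matrix.fromBlocks A 0 0 M.toBlocks₂₂ := by
    conv_lhs => rw [← Matrix.fromBlocks_toBlocks M, h12, h21, ← hA]
  have h1 : M ^ r = 1 := by rw [hM, ← Units.val_pow_eq_pow_val, hB, Units.val_one]
  rw [hMb, CfsgLib.NilType.blocks_pow, ← Matrix.fromBlocks_one] at h1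
  refine ⟨b, R, A, R', M.toBlocks₂₂, hcard, hR, hT, (Matrix.fromBlocks_inj.mp h1).1, fun v => ?_, hR',
    (Matrix.fromBlocks_inj.mp h1).2.2.2, fun v => ?_, (hasHalf_congr e he).symm, fun x => ?_, fun hfix => ?_⟩
  · have := hMQ (Sum.elim v 0)
    rwa [hinlA, sumForm_apply, sumForm_apply, Sum.elim_comp_inl, Sum.elim_comp_inr, Sum.elim_comp_inl,
      Sum.elim_comp_inr, QuadraticMap.map_zero, add_zero, add_zero] at this
  · have := hMQ (Sum.elim 0 v)
    rwa [hMb, fromBlocks_one_mulVec, sumForm_apply, sumForm_apply, Sum.elim_comp_inl, Sum.elim_comp_inr,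
      Sum.elim_comp_inl, Sum.elim_comp_inr, Matrix.mulVec_zero, QuadraticMap.map_zero, zero_add, zero_add] at this
  · rw [← hBm x, ← hM]
    conv_rhs => rw [hMb]
    rw [mult_blocks]
  · refine Matrix.ext_iff_mulVec.mpr fun a => ?_
    have h2 : e (M *ᵥ Sum.elim a 0) = e (Sum.elim a 0) := by
      rw [hMv]; exact hfix _ (hrange ▸ ⟨a, rfl⟩)
    rw [Matrix.one_mulVec]
    exact funext fun j => congrFun ((hinlA a).symm.trans (e.injective h2)) (Sum.inl j)

/-- The restriction to an invariant nondegenerate subspace. -/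
theorem exists_restrict {ι : Type} [Fintype ι] [DecidableEq ι] {Q : QuadraticForm F (ι → F)}
    (hQ : (polarBilin Q).Nondegenerate) {X : GL ι F} (hX : X ^ r = 1)
    (hXQ : ∀ v, Q ((X : Matrix ι ι F) *ᵥ v) = Q v) {m : ℕ} {ε : Prop} {W : Submodule F (ι → F)}
    (hW : SubOK Q m ε W) (hinv : W.map (Matrix.toLin' (X : Matrix ι ι F)) ≤ W) :
    ∃ (R : QuadraticForm F (Fin m → F)) (A : Matrix (Fin m) (Fin m) F), (polarBilin R).Nondegenerate ∧
      (HasHalf R ↔ ε) ∧ A ^ r = 1 ∧ (∀ v, R (A *ᵥ v) = R v) ∧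
      ∀ x : ZMod r, mult ζ A x ≤ mult ζ (X : Matrix ι ι F) x := by
  obtain ⟨_, R, A, _, A', _, hR, hT, hA, hAQ, _, _, _, _, hsum, _⟩ := exists_blocks (ζ := ζ) hQ hX hXQ hW hinv
  exact ⟨R, A, hR, hT, hA, hAQ, fun x => Nat.le.intro (hsum x)⟩

variable (hζ : IsPrimitiveRoot ζ r) (hrp : r ≠ p) (hr2 : r ≠ 2) {u : (ZMod r)ˣ}
  (hu : (u : ZMod r) = (Fintype.card F : ℕ)) (h2 : (2 : F) ≠ 0)

include hζ hrp hr2 hu h2

/-- An element with given multiplicities and an invariant subspace with given ones. -/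
theorem exists_elem_sub {h : (ZMod r)ˣ}
    (hinv : ∀ f : ZMod r → ℕ, ((∀ x, f (x * (u : ZMod r)) = f x) ∧ (∀ x, f (-x) = f x)) ↔ ∀ x, f (x * (h : ZMod r)) = f x)
    {d m : ℕ} (hme : Even m) (f g : ZMod r → ℕ) (hf : ∀ x, f (x * (h : ZMod r)) = f x)
    (hg : ∀ x, g (x * (h : ZMod r)) = g x) (hgf : ∀ x, g x ≤ f x) (hfs : ∑ x, f x = 2 * d + 1)
    (hgs : ∑ x, g x = m) (h0 : g 0 < f 0) {ε : Prop}
    (hε : g 0 = 0 → (ε ↔ (Odd (orderOf u) ∨ Even (m / orderOf u)))) :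
    ∃ B : ↥(Cfsg.isometryGroup F ⇑(quadOdd F d)), B ^ r = 1 ∧
      (∀ x, mult ζ (((B : GL (Unit ⊕ (Fin d ⊕ Fin d)) F)) : Matrix (Unit ⊕ (Fin d ⊕ Fin d)) (Unit ⊕ (Fin d ⊕ Fin d)) F) x = f x) ∧
      ∃ W, SubOK (quadOdd F d) m ε W ∧
        W.map (Matrix.toLin' (((B : GL (Unit ⊕ (Fin d ⊕ Fin d)) F)) : Matrix (Unit ⊕ (Fin d ⊕ Fin d)) (Unit ⊕ (Fin d ⊕ Fin d)) F)) ≤ W := by
  classical
  obtain ⟨M, hM⟩ := hme
  obtain ⟨κ, _, _, R, A, hR, hA, hAQ, hAm, -, hT⟩ := exists_model hζ hrp hu hr2 g ((hinv g).mpr hg).1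
    ((hinv g).mpr hg).2 (M := M) (by omega) ε (fun h => by rw [show 2 * M = m by omega]; exact hε h)
  obtain ⟨f', hf'⟩ : ∃ f' : ZMod r → ℕ, f' = fun x => f x - g x - if x = 0 then 1 else 0 := ⟨_, rfl⟩
  have hf'f : ∀ x, g x + (f' x + if x = 0 then 1 else 0) = f x := fun x => by
    rw [hf']
    have := hgf x
    by_cases hx : x = 0
    · subst hx; simp only [if_pos]; omega
    · simp only [if_neg hx]; omega
  have hf's : ∑ x, f' x = 2 * (d - M) ∧ M ≤ d := by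
    have h1 : ∑ x, (g x + (f' x + if x = 0 then 1 else 0)) = 2 * d + 1 :=
      (Finset.sum_congr rfl fun x _ => hf'f x).trans hfs
    rw [Finset.sum_add_distrib, Finset.sum_add_distrib, Finset.sum_ite_eq' Finset.univ 0,
      if_pos (Finset.mem_univ _), hgs] at h1
    omega
  have hf'h : ∀ x, f' (x * (h : ZMod r)) = f' x := fun x => by
    rw [hf']; simp only [hf, hg, mul_eq_zero, h.ne_zero, or_false]
  obtain ⟨κ', _, _, R', A', hR', hA', hAQ', hAm', -, -⟩ := exists_model hζ hrp hu hr2 f' ((hinv f').mpr hf'h).1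
    ((hinv f').mpr hf'h).2 hf's.1 (Odd (orderOf u) ∨ Even (2 * (d - M) / orderOf u)) fun _ => Iff.rfl
  have hκ : Fintype.card κ = m := by
    rw [← sum_mult hζ hA, ← hgs]; exact Finset.sum_congr rfl fun x _ => hAm x
  have hκ' : Fintype.card κ' = 2 * (d - M) := by
    rw [← sum_mult hζ hA', ← hf's.1]; exact Finset.sum_congr rfl fun x _ => hAm' x
  obtain ⟨c, hc, φ, hφ⟩ := exists_iso_scaled
    (nondegenerate_sumForm hR (nondegenerate_sumForm hR' (nondegenerate_quadOdd (F := F) 0 h2)))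
    (m := d) (by simp only [Fintype.card_sum, hκ, hκ', Fintype.card_unit, Fintype.card_fin]; omega)
  obtain ⟨T, hTdef⟩ : ∃ T, T = Matrix.fromBlocks A 0 0
      (Matrix.fromBlocks A' 0 0 (1 : Matrix (Unit ⊕ (Fin 0 ⊕ Fin 0)) (Unit ⊕ (Fin 0 ⊕ Fin 0)) F)) := ⟨_, rfl⟩
  have hTr : T ^ r = 1 := by
    rw [hTdef, CfsgLib.NilType.blocks_pow, CfsgLib.NilType.blocks_pow, hA, hA', one_pow, Matrix.fromBlocks_one,
      Matrix.fromBlocks_one]
  obtain ⟨B, hB, hBv, hBm⟩ := conj_gl (ζ := ζ) hTr φ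
  have hBQ : ∀ v, quadOdd F d ((B : Matrix (Unit ⊕ (Fin d ⊕ Fin d)) (Unit ⊕ (Fin d ⊕ Fin d)) F) *ᵥ v) = quadOdd F d v := fun v => by
    obtain ⟨w, rfl⟩ := φ.surjective v
    have hT' : sumForm R (sumForm R' (quadOdd F 0)) (T *ᵥ w) = sumForm R (sumForm R' (quadOdd F 0)) w := by
      rw [hTdef, fromBlocks_one_mulVec, sumForm_apply, sumForm_apply (Q₁ := R), Sum.elim_comp_inl, Sum.elim_comp_inr,
        hAQ, fromBlocks_one_mulVec, sumForm_apply, sumForm_apply (Q₁ := R'), Sum.elim_comp_inl, Sum.elim_comp_inr,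
        hAQ', Matrix.one_mulVec]
    have e1 := hφ (T *ᵥ w)
    rw [hT', ← hφ w, _root_.smul_apply, _root_.smul_apply] at e1
    rw [hBv]
    exact mul_left_cancel₀ hc (by simpa using e1)
  refine ⟨⟨B, mem_isometryGroup.mpr hBQ⟩, Subtype.ext (by rw [SubmonoidClass.coe_pow, hB, OneMemClass.coe_one]),
    fun x => ?_, LinearMap.range (φ.toLinearMap ∘ₗ inlL F κ _), sub_of_emb (φ.toLinearMap ∘ₗ inlL F κ _) (φ.injective.comp inlL_injective) hR
      (inv_ne_zero hc) (fun v => ?_) hκ hT, ?_⟩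
  · rw [hBm, hTdef, mult_blocks, mult_blocks, hAm, hAm', mult_one hζ]
    simp only [Fintype.card_sum, Fintype.card_unit, Fintype.card_fin, add_zero]
    exact hf'f x
  · have e1 := hφ (inlL F κ _ v)
    rw [inlL_apply, sumForm_apply, Sum.elim_comp_inl, Sum.elim_comp_inr, QuadraticMap.map_zero, add_zero,
      _root_.smul_apply, smul_eq_mul] at e1
    show quadOdd F d (φ (inlL F κ _ v)) = _
    rw [inlL_apply, ← e1]
    field_simp
  · rintro _ ⟨_, ⟨v, rfl⟩, rfl⟩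
    refine ⟨A *ᵥ v, ?_⟩
    rw [Matrix.toLin'_apply]
    show φ (inlL F κ _ (A *ᵥ v)) = (B : Matrix (Unit ⊕ (Fin d ⊕ Fin d)) (Unit ⊕ (Fin d ⊕ Fin d)) F) *ᵥ φ (inlL F κ _ v)
    rw [hBv, inlL_apply, inlL_apply, hTdef, fromBlocks_one_mulVec, Sum.elim_comp_inl, Sum.elim_comp_inr,
      Matrix.mulVec_zero]

end CfsgLib.OrthOddSub

namespace CfsgLib.OrthOddSub

variable {F : Type*} [Field F] [Fintype F] {p r : ℕ} [Fact p.Prime] [CharP F p] [hr : Fact r.Prime]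

/-- The criterion for semisimple elements of odd prime order. -/
theorem crit_odd (hrp : r ≠ p) (hr2 : r ≠ 2) (h2 : (2 : F) ≠ 0) {i c : ℕ}
    (hi : i = orderOf ((Fintype.card F : ℕ) : ZMod r)) (hc : c = if Even i then i else 2 * i) (d m : ℕ) (hd : 1 ≤ d)
    (hme : Even m) (hm : 2 ≤ m) (hmd : m ≤ 2 * d) (ε : Prop) (hcn : c ≤ 2 * d + 1) (hkm : (2 * d + 1) % c < m) :
    (∀ x : GL (Unit ⊕ (Fin d ⊕ Fin d)) F, x ∈ Cfsg.Geo.omegaGL ⇑(quadOdd F d) → orderOf x = r →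
      ∃ W, SubOK (quadOdd F d) m ε W ∧ W.map (Matrix.toLin' (x : Matrix (Unit ⊕ (Fin d ⊕ Fin d)) (Unit ⊕ (Fin d ⊕ Fin d)) F)) ≤ W) ↔
    ((0 < m % c ∧ m % c < (2 * d + 1) % c) ∨ (m % c = 0 ∧ (ε ↔ (Odd i ∨ Even (m / i))))) := by
  classical
  obtain ⟨u, hu⟩ := exists_unit_card (F := F) (p := p) (r := r) dvd_rfl hrp
  rw [← hu, orderOf_units] at hi
  obtain ⟨P, hP, hLfin, hζ⟩ := exists_root_field F hr.out (natCast_ne_zero hrp)
  obtain ⟨h, hh, hinv⟩ := exists_multiplier u hr2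
  have hoh : orderOf h = c := by
    rw [hh, hc, hi]
    rcases Nat.even_or_odd (orderOf u) with he | ho
    · rw [if_neg (Nat.not_odd_iff_even.mpr he), if_pos he]
    · rw [if_pos ho, if_neg (Nat.not_even_iff_odd.mpr ho)]
  have hcev : Even c := by
    rw [hc]; split_ifs with he
    · exact he
    · exact even_two_mul _
  have hcpos : 0 < c := hoh ▸ orderOf_pos h
  have hQ := nondegenerate_quadOdd (F := F) d h2
  have hι : Fintype.card (Unit ⊕ (Fin d ⊕ Fin d)) = 2 * d + 1 := by simp; omega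
  obtain ⟨cc, hcc⟩ := hcev
  obtain ⟨mm, hmm⟩ := hme
  have hnodd : (2 * d + 1) % c % 2 = 1 := by
    rw [Nat.mod_mod_of_dvd _ ⟨cc, by omega⟩]; omega
  have hmev : m % c % 2 = 0 := by
    rw [Nat.mod_mod_of_dvd _ ⟨cc, by omega⟩]; omega
  constructor
  · intro hall
    -- the witness
    obtain ⟨K, hK, hsub⟩ := SubElusive.orbit_data h
      (fun x : ZMod r => if x = 0 then (2 * d + 1) % c else (2 * d + 1) / c)
      (fun x => by simp only [mul_eq_zero, h.ne_zero, or_false])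
    rw [hoh] at hK hsub
    have hKn : (2 * d + 1) / c ≤ K := by
      have h1 : ∑ x : ZMod r, (if x = 0 then (2 * d + 1) % c else (2 * d + 1) / c) =
          (2 * d + 1) % c + (r - 1) * ((2 * d + 1) / c) := by
        rw [sum_zmod, if_pos rfl]
        simp [Nat.totient_prime hr.out]
      simp only [if_pos] at hK
      rw [h1] at hK
      have h2' : c ≤ r - 1 := by
        rw [← hoh, ← ZMod.card_units r]; exact orderOf_le_card_univ
      have h3 : c * ((2 * d + 1) / c) ≤ c * K := by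
        have := Nat.mul_le_mul_right ((2 * d + 1) / c) h2'
        omega
      exact Nat.le_of_mul_le_mul_left h3 hcpos
    obtain ⟨f, hf, hf0, -, hfs⟩ := hsub ((2 * d + 1) % c) (by rw [if_pos rfl]) _ hKn
    rw [Nat.mod_add_div] at hfs
    obtain ⟨B, hB, hBm, -⟩ := exists_elem_sub hζ hrp hr2 hu h2 hinv (m := 0) Even.zero f (fun _ => 0) hf
      (fun _ => rfl) (fun _ => Nat.zero_le _) hfs Finset.sum_const_zero
      (show 0 < f 0 by rw [hf0]; omega) (ε := True) (fun _ => iff_of_true trivial (Or.inr (by simp)))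
    have hB1 : (B : GL (Unit ⊕ (Fin d ⊕ Fin d)) F) ≠ 1 := fun he => by
      have := hBm 0
      rw [he, Units.val_one, mult_one hζ, if_pos rfl, hι, hf0] at this
      have := Nat.mod_lt (2 * d + 1) hcpos
      omega
    have hBr : (B : GL (Unit ⊕ (Fin d ⊕ Fin d)) F) ^ r = 1 := by
      rw [← SubmonoidClass.coe_pow, hB, OneMemClass.coe_one]
    have hBo : (B : GL (Unit ⊕ (Fin d ⊕ Fin d)) F) ∈ Cfsg.Geo.omegaGL ⇑(quadOdd F d) :=
      mem_omegaGL.mpr ⟨B, OrthUnip.mem_omega_of_odd_pow h2 _ hQ (by omega) B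
        (hr.out.odd_of_ne_two hr2) hB, rfl⟩
    obtain ⟨W, hW, hWinv⟩ := hall _ hBo (orderOf_eq_prime hBr hB1)
    obtain ⟨R, A, hR, hT, hA, hAQ, hle⟩ := exists_restrict (ζ := AdjoinRoot.root P) hQ hBr
      (mem_isometryGroup.mp B.2) hW hWinv
    obtain ⟨g, hg⟩ : ∃ g : ZMod r → ℕ, g = fun x => mult (AdjoinRoot.root P) A x := ⟨_, rfl⟩
    have hgh : ∀ x, g (x * (h : ZMod r)) = g x := (hinv g).mp ⟨fun x => by rw [hg, hu]; exact mult_frob hζ _ x,
      fun x => by rw [hg]; exact mult_neg_of_isometry hζ hrp hR hA hAQ x⟩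
    obtain ⟨j, hj, -⟩ := SubElusive.orbit_data h g hgh
    rw [hoh] at hj
    have hgs : ∑ x, g x = m := by rw [hg]; exact (sum_mult hζ hA).trans (Fintype.card_fin m)
    rw [hgs] at hj
    have hg0 : g 0 ≤ (2 * d + 1) % c := by
      rw [hg]; exact (hle 0).trans (le_of_eq ((hBm 0).trans hf0))
    have hlt := Nat.mod_lt (2 * d + 1) hcpos
    have hmod : m % c = g 0 := by rw [← hj, Nat.add_mul_mod_self_left, Nat.mod_eq_of_lt (by omega)]
    rcases Nat.eq_zero_or_pos (m % c) with h0 | h0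
    · refine Or.inr ⟨h0, ?_⟩
      have hz : mult (AdjoinRoot.root P) A (0 : ZMod r) = 0 := by
        have : g 0 = 0 := hmod.symm.trans h0
        rwa [hg] at this
      rw [← hT, hasHalf_of_moving hζ hrp hu hr2 hR hA hAQ hz, Fintype.card_fin, hi]
    · exact Or.inl ⟨h0, by omega⟩
  · intro hcrit x hx hxo
    obtain ⟨y, -, rfl⟩ := mem_omegaGL.mp hx
    have hy : y ^ r = 1 := Subtype.ext (by
      rw [SubmonoidClass.coe_pow, OneMemClass.coe_one, ← hxo]; exact pow_orderOf_eq_one _)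
    have hyM := pow_eq_one_of_mem hy
    obtain ⟨f, hfdef⟩ : ∃ f : ZMod r → ℕ, f = fun x =>
        mult (AdjoinRoot.root P) ((y : GL (Unit ⊕ (Fin d ⊕ Fin d)) F) : Matrix (Unit ⊕ (Fin d ⊕ Fin d)) (Unit ⊕ (Fin d ⊕ Fin d)) F) x := ⟨_, rfl⟩
    have hfh : ∀ x, f (x * (h : ZMod r)) = f x := (hinv f).mp ⟨fun x => by rw [hfdef, hu]; exact mult_frob hζ _ x,
      fun x => by rw [hfdef]; exact mult_neg_of_isometry hζ hrp hQ hyM (mem_isometryGroup.mp y.2) x⟩
    have hfs : ∑ x, f x = 2 * d + 1 := by rw [hfdef]; exact (sum_mult hζ hyM).trans hι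
    obtain ⟨k, hk, hsub⟩ := SubElusive.orbit_data h f hfh
    rw [hoh, hfs] at hk
    rw [hoh] at hsub
    have hle : m % c ≤ (2 * d + 1) % c := by rcases hcrit with h' | h' <;> omega
    obtain ⟨α, β, α', β', hαβ, -, hα, hβ⟩ := SubElusive.choice_one hk (show m ≤ 2 * d + 1 by omega) hle
    obtain ⟨g, hgh, hg0, hgf, hgs⟩ := hsub α (by omega) β (by omega)
    rw [hαβ] at hgs
    have hαc : α % c = m % c := by rw [← hαβ, Nat.add_mul_mod_self_left]
    have hk2 : (f 0) % c = (2 * d + 1) % c := by rw [← hk, Nat.add_mul_mod_self_left]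
    have hαlt : α < f 0 := by
      rcases Nat.lt_or_ge α (f 0) with h' | h'
      · exact h'
      · rw [show α = f 0 by omega, hk2] at hαc
        omega
    obtain ⟨B, hB, hBm, W, hW, hWinv⟩ := exists_elem_sub hζ hrp hr2 hu h2 hinv (ε := ε) ⟨mm, hmm⟩ f g hfh hgh hgf hfs
      hgs (by omega) (fun h0 => by
        rw [← hi]
        rcases hcrit with h' | h'
        · rw [hg0] at h0; rw [h0, Nat.zero_mod] at hαc; omega
        · exact h'.2)
    obtain ⟨z, hz⟩ := isConj_iff.mp ((isConj_iff_mult hζ hrp hr2 hQ B y hB hy).mpr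
      (funext fun x => (hBm x).trans (by rw [hfdef])))
    obtain ⟨b, e, R, R', -, hR, -, he, hrange, hT⟩ := exists_split hQ hW
    have hzQ := mem_isometryGroup.mp z.2
    have hzinj : Function.Injective fun v =>
        ((z : GL (Unit ⊕ (Fin d ⊕ Fin d)) F) : Matrix (Unit ⊕ (Fin d ⊕ Fin d)) (Unit ⊕ (Fin d ⊕ Fin d)) F) *ᵥ v :=
      Matrix.mulVec_injective_iff_isUnit.mpr (z : GL (Unit ⊕ (Fin d ⊕ Fin d)) F).isUnit
    refine ⟨LinearMap.range (Matrix.toLin' ((z : GL (Unit ⊕ (Fin d ⊕ Fin d)) F) : Matrix (Unit ⊕ (Fin d ⊕ Fin d)) (Unit ⊕ (Fin d ⊕ Fin d)) F) ∘ₗ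
        (e.toLinearMap ∘ₗ inlL F (Fin m) (Fin b))),
      sub_of_emb _ (hzinj.comp (e.injective.comp inlL_injective)) hR one_ne_zero (fun v => ?_) (Fintype.card_fin m) hT,
      ?_⟩
    · rw [one_mul, LinearMap.comp_apply, Matrix.toLin'_apply, hzQ]
      show quadOdd F d (e (inlL F _ _ v)) = _
      rw [he, inlL_apply, sumForm_apply, Sum.elim_comp_inl, Sum.elim_comp_inr, QuadraticMap.map_zero, add_zero]
    · rw [LinearMap.range_comp, hrange]
      rintro _ ⟨_, ⟨v, hv, rfl⟩, rfl⟩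
      refine ⟨((B : GL (Unit ⊕ (Fin d ⊕ Fin d)) F) : Matrix (Unit ⊕ (Fin d ⊕ Fin d)) (Unit ⊕ (Fin d ⊕ Fin d)) F) *ᵥ v,
        hWinv ⟨v, hv, Matrix.toLin'_apply _ _⟩, ?_⟩
      have hzB := congrArg (fun t : ↥(Cfsg.isometryGroup F ⇑(quadOdd F d)) =>
        ((t : GL (Unit ⊕ (Fin d ⊕ Fin d)) F) : Matrix (Unit ⊕ (Fin d ⊕ Fin d)) (Unit ⊕ (Fin d ⊕ Fin d)) F))
        (mul_inv_eq_iff_eq_mul.mp hz)
      simp only [Subgroup.coe_mul, Units.val_mul] at hzB
      rw [Matrix.toLin'_apply, Matrix.toLin'_apply, Matrix.toLin'_apply, Matrix.mulVec_mulVec, hzB,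
        ← Matrix.mulVec_mulVec]

end CfsgLib.OrthOddSub
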