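import Cfsg.Agent.SubElusive.OrthTS

/-!
Elements of odd prime order of even-dimensional orthogonal groups and invariant totally singular subspaces.
-/

set_option autoImplicit false
set_option linter.style.haveILetI false

open Matrix QuadraticMap CfsgLib.Forms CfsgLib.SemiClasses

namespace CfsgLib.OrthTS

section Comb

variable {r : ℕ} [hr : Fact r.Prime]

/-- An invariant function below half of a given one. -/
theorem exists_half_even {u : (ZMod r)ˣ} (f : ZMod r → ℕ) (hfu : ∀ x, f (x * (u : ZMod r)) = f x)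
    (hneg : ∀ x, f (-x) = f x) {a m : ℕ} (ha : 2 * a ≤ f 0) (hℓ : m % orderOf u ≤ a) {w : ℕ}
    (hw : ∑ x, (if x = 0 then 0 else f x / 2) = orderOf u * w) (hm : m ≤ a + orderOf u * w) :
    ∃ g : ZMod r → ℕ, (∀ x, g (x * (u : ZMod r)) = g x) ∧ ∑ x, g x = m ∧ (∀ x, g x + g (-x) ≤ f x) ∧ g 0 ≤ a := by
  classical
  obtain ⟨G, hG⟩ : ∃ G : ZMod r → ℕ, G = fun x => if x = 0 then a else f x / 2 := ⟨_, rfl⟩
  have hGu : ∀ x, G (x * (u : ZMod r)) = G x := fun x => by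
    rw [hG]; simp only [mul_eq_zero, u.ne_zero, or_false, hfu]
  have hGle : ∀ x, G x + G (-x) ≤ f x := fun x => by
    rw [hG]
    rcases eq_or_ne x 0 with rfl | hx
    · simp only [neg_zero, if_pos]; omega
    · simp only [neg_eq_zero, hx, if_false, hneg]; omega
  obtain ⟨K, hK, hsub⟩ := SubElusive.orbit_data u G hGu
  have hG0 : G 0 = a := by rw [hG]; simp
  have hGs : ∑ x, G x = a + orderOf u * w := by
    rw [← hw, show ∑ x, G x = ∑ x, ((if x = 0 then a else 0) + if x = 0 then 0 else f x / 2) from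
      Finset.sum_congr rfl fun x _ => by rw [hG]; by_cases hx : x = 0 <;> simp [hx],
      Finset.sum_add_distrib, Finset.sum_ite_eq' Finset.univ 0, if_pos (Finset.mem_univ _)]
  rw [hG0, hGs] at hK
  have hKw : K = w := Nat.eq_of_mul_eq_mul_left (orderOf_pos u) (by omega)
  obtain ⟨β, hβ, hβm, hα⟩ : ∃ β, β ≤ K ∧ orderOf u * β ≤ m ∧ m - orderOf u * β ≤ a := by
    have hdiv := Nat.mod_add_div m (orderOf u)
    rcases le_or_gt (m / orderOf u) K with hle | hlt
    · exact ⟨_, hle, by omega, by omega⟩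
    · have h2 : orderOf u * K ≤ orderOf u * (m / orderOf u) := Nat.mul_le_mul_left _ hlt.le
      exact ⟨K, le_rfl, by omega, by rw [hKw] at *; omega⟩
  obtain ⟨g, hg, hg0, hgle, hgs⟩ := hsub (m - orderOf u * β) (by rw [hG0]; exact hα) β hβ
  exact ⟨g, hg, by rw [hgs]; omega, fun x => (Nat.add_le_add (hgle x) (hgle (-x))).trans (hGle x), by omega⟩

end Comb

/-- The type of an isometry without fixed vectors in dimension `N`. -/
def MType (i N : ℕ) : Prop := Odd i ∨ Even (N / i)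

section Mult

variable {F L : Type*} [Field F] [Fintype F] [Field L] [Finite L] [Algebra F L] {p r : ℕ} [Fact p.Prime]
  [CharP F p] [hr : Fact r.Prime] {ζ : L}
  (hζ : IsPrimitiveRoot ζ r) (hrp : r ≠ p) (hr2 : r ≠ 2) {u : (ZMod r)ˣ}
  (hu : (u : ZMod r) = (Fintype.card F : ℕ))

include hζ hrp hr2 hu

/-- An element of an even-dimensional group with given multiplicities fixing a totally singular subspace. -/
theorem exists_ts_elem_even {ι : Type} [Fintype ι] [DecidableEq ι] {Q : QuadraticForm F (ι → F)}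
    (hQ : (polarBilin Q).Nondegenerate) {d m : ℕ} (hι : Fintype.card ι = 2 * d) {ε : Prop} (hε : HasHalf Q ↔ ε)
    {h : (ZMod r)ˣ}
    (hinv : ∀ f : ZMod r → ℕ, ((∀ x, f (x * (u : ZMod r)) = f x) ∧ (∀ x, f (-x) = f x)) ↔ ∀ x, f (x * (h : ZMod r)) = f x)
    (f g : ZMod r → ℕ) (hf : ∀ x, f (x * (h : ZMod r)) = f x) (hg : ∀ x, g (x * (u : ZMod r)) = g x)
    (hgf : ∀ x, g x + g (-x) ≤ f x) (hfs : ∑ x, f x = 2 * d) (hgs : ∑ x, g x = m)
    (h0 : f 0 = 2 * g 0 → (ε ↔ MType (orderOf u) (2 * d - f 0))) :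
    ∃ B : ↥(Cfsg.isometryGroup F ⇑Q), B ^ r = 1 ∧ (∀ x, mult ζ (((B : GL ι F)) : Matrix ι ι F) x = f x) ∧
      ∃ W : Submodule F (ι → F), Module.finrank F W = m ∧ (∀ w ∈ W, Q w = 0) ∧
        W.map (Matrix.toLin' (((B : GL ι F)) : Matrix ι ι F)) ≤ W := by
  classical
  obtain ⟨f₂, hf₂⟩ : ∃ f₂ : ZMod r → ℕ, f₂ = fun x => f x - (g x + g (-x)) := ⟨_, rfl⟩
  have hf₂f : ∀ x, g x + g (-x) + f₂ x = f x := fun x => by rw [hf₂]; exact Nat.add_sub_cancel' (hgf x)
  have hgs' : ∑ x, g (-x) = m := (Equiv.sum_comp (Equiv.neg (ZMod r)) g).trans hgs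
  have hs₂ : m + m + ∑ x, f₂ x = 2 * d := by
    rw [← hfs, ← Finset.sum_congr rfl fun x _ => hf₂f x, Finset.sum_add_distrib, Finset.sum_add_distrib, hgs, hgs']
  have hf₂h : ∀ x, f₂ (x * (h : ZMod r)) = f₂ x := (hinv f₂).mp
    ⟨fun x => by rw [hf₂]; simp only [((hinv f).mpr hf).1, hg, ← neg_mul],
      fun x => by rw [hf₂]; simp only [((hinv f).mpr hf).2, neg_neg]; rw [add_comm (g (-x))]⟩
  obtain ⟨κ, _, _, R, A, hR, hA, hAQ, hAm, hAev, hT⟩ := exists_model hζ hrp hu hr2 f₂ ((hinv f₂).mpr hf₂h).1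
    ((hinv f₂).mpr hf₂h).2 (M := d - m) (by omega) ε (fun hz => by
      have hf0 : f 0 = 2 * g 0 := by
        have := hf₂f 0
        rw [neg_zero, hz] at this
        omega
      rw [h0 hf0, MType]
      obtain ⟨j, hj, -⟩ := SubElusive.orbit_data u g hg
      rw [hgs] at hj
      rw [show 2 * d - f 0 = 2 * (d - m) + orderOf u * (2 * j) by
        have e : orderOf u * (2 * j) = 2 * (orderOf u * j) := by ring
        omega, Nat.add_mul_div_left _ _ (orderOf_pos u)]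
      simp [Nat.even_add])
  have hκ : Fintype.card κ = 2 * (d - m) := by
    have e : ∑ x, mult ζ A x = ∑ x, f₂ x := Finset.sum_congr rfl fun x _ => hAm x
    rw [← sum_mult hζ hA, e]
    omega
  obtain ⟨C, hC, hCm⟩ := exists_of_mult (F := F) hζ hrp g (fun x => by rw [← hu]; exact hg x) hgs
  have hC' : C.1 ^ r = 1 := by rw [← Units.val_pow_eq_pow_val, hC, Units.val_one]
  have hCi : C.1⁻¹.transpose ^ r = 1 := by
    rw [← Matrix.transpose_pow, Matrix.inv_pow', hC', inv_one, Matrix.transpose_one]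
  obtain ⟨φ, hφ⟩ := exists_iso_of_type (nondegenerate_sumForm (nondegenerate_quadPlus (F := F) m) hR) hQ (m := d)
    (by simp [hκ]; omega) hι (by
      rw [hasHalf_sum_iff (nondegenerate_quadPlus m) hR (by simp) hAev, iff_true_intro (hasHalf_quadPlus m), true_iff,
        hT, hε])
  obtain ⟨T, hTdef⟩ : ∃ T, T = Matrix.fromBlocks (Matrix.fromBlocks C.1 0 0 C.1⁻¹.transpose) 0 0 A := ⟨_, rfl⟩
  have hTr : T ^ r = 1 := by
    rw [hTdef, CfsgLib.NilType.blocks_pow, CfsgLib.NilType.blocks_pow, hC', hCi, hA, Matrix.fromBlocks_one,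
      Matrix.fromBlocks_one]
  obtain ⟨B, hB, hBv, hBm⟩ := OrthOddSub.conj_gl (ζ := ζ) hTr φ
  have hP : ∀ v : Fin m ⊕ Fin m → F,
      quadPlus F m (Matrix.fromBlocks C.1 0 0 C.1⁻¹.transpose *ᵥ v) = quadPlus F m v := fun v => by
    rw [coe_quadPlus, fromBlocks_one_mulVec]
    show (C.1 *ᵥ (v ∘ Sum.inl)) ⬝ᵥ (C.1⁻¹.transpose *ᵥ (v ∘ Sum.inr)) = (v ∘ Sum.inl) ⬝ᵥ (v ∘ Sum.inr)
    rw [Matrix.dotProduct_mulVec, Matrix.vecMul_transpose, Matrix.mulVec_mulVec,
      Matrix.nonsing_inv_mul _ (Matrix.isUnits_det_units C), Matrix.one_mulVec]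
  have hBQ : ∀ v, Q ((B : Matrix ι ι F) *ᵥ v) = Q v := fun v => by
    obtain ⟨w, rfl⟩ := φ.surjective v
    have hT' : sumForm (quadPlus F m) R (T *ᵥ w) = sumForm (quadPlus F m) R w := by
      rw [hTdef, fromBlocks_one_mulVec, sumForm_apply, sumForm_apply (Q₁ := quadPlus F m), Sum.elim_comp_inl,
        Sum.elim_comp_inr, hP, hAQ]
    rw [hBv, hφ, hφ, hT']
  obtain ⟨L', hL'⟩ : ∃ L' : (Fin m → F) →ₗ[F] (ι → F), ∀ a, L' a = φ (Sum.elim (Sum.elim a 0) 0) :=
    ⟨φ.toLinearMap ∘ₗ OrthOddSub.inlL F (Fin m ⊕ Fin m) _ ∘ₗ OrthOddSub.inlL F (Fin m) (Fin m), fun _ => rfl⟩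
  refine ⟨⟨B, mem_isometryGroup.mpr hBQ⟩, Subtype.ext (by rw [SubmonoidClass.coe_pow, hB, OneMemClass.coe_one]),
    fun x => ?_, LinearMap.range L', ?_, ?_, ?_⟩
  · rw [hBm, hTdef, mult_blocks, mult_blocks, hCm, mult_transpose, hAm]
    have h1 := mult_inv hζ hrp hC' (-x)
    rw [neg_neg] at h1
    rw [h1, hCm]
    exact hf₂f x
  · rw [LinearMap.finrank_range_of_inj, Module.finrank_fin_fun]
    intro a a' e
    rw [hL', hL'] at e
    exact funext fun j => congrFun (φ.injective e) (Sum.inl (Sum.inl j))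
  · rintro _ ⟨a, rfl⟩
    rw [hL', hφ, sumForm_apply, Sum.elim_comp_inl, Sum.elim_comp_inr, QuadraticMap.map_zero, coe_quadPlus]
    simp [Cfsg.quadFormPlus]
  · rintro _ ⟨_, ⟨a, rfl⟩, rfl⟩
    refine ⟨C.1 *ᵥ a, ?_⟩
    rw [Matrix.toLin'_apply, hL', hL', hBv, hTdef, fromBlocks_one_mulVec, Sum.elim_comp_inl, Sum.elim_comp_inr,
      fromBlocks_one_mulVec, Sum.elim_comp_inl, Sum.elim_comp_inr, Matrix.mulVec_zero, Matrix.mulVec_zero]

/-- The type is forced when an invariant totally singular subspace takes half of the fixed vectors. -/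
theorem type_of_half {ι : Type} [Fintype ι] [DecidableEq ι] {Q : QuadraticForm F (ι → F)}
    (hQ : (polarBilin Q).Nondegenerate) {d : ℕ} (hι : Fintype.card ι = 2 * d) {ε : Prop} (hε : HasHalf Q ↔ ε)
    {X : GL ι F} (hX : X ^ r = 1) (hXQ : ∀ v, Q ((X : Matrix ι ι F) *ᵥ v) = Q v) {S : Submodule F (ι → F)}
    (hSfix : ∀ v ∈ S, (X : Matrix ι ι F) *ᵥ v = v) (hS : ∀ v ∈ S, Q v = 0)
    (hhalf : mult ζ (X : Matrix ι ι F) (0 : ZMod r) = 2 * Module.finrank F S) :
    ε ↔ MType (orderOf u) (2 * d - mult ζ (X : Matrix ι ι F) (0 : ZMod r)) := by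
  classical
  have hXr : (X : Matrix ι ι F) ^ r = 1 := by rw [← Units.val_pow_eq_pow_val, hX, Units.val_one]
  obtain ⟨D, hD⟩ : ∃ D : Module.End F (ι → F), D = Matrix.toLinAlgEquiv' (X : Matrix ι ι F) - 1 := ⟨_, rfl⟩
  have hDv : ∀ v, D v = (X : Matrix ι ι F) *ᵥ v - v := fun v => by rw [hD]; rfl
  obtain ⟨U, hU⟩ : ∃ U, U = LinearMap.ker D := ⟨_, rfl⟩
  have mU : ∀ v, v ∈ U ↔ (X : Matrix ι ι F) *ᵥ v = v := fun v => by rw [hU, LinearMap.mem_ker, hDv, sub_eq_zero]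
  obtain ⟨f0, hf0⟩ : ∃ f0, f0 = mult ζ (X : Matrix ι ι F) (0 : ZMod r) := ⟨_, rfl⟩
  have hUd : Module.finrank F U = f0 := by rw [hf0, SubElusive.mult_zero_eq hrp hXr, hU, hD]
  have hrange : LinearMap.range D = perp Q U := by
    refine Submodule.eq_of_le_of_finrank_eq ?_ ?_
    · rintro _ ⟨v, rfl⟩
      refine mem_perp.mpr fun w hw => ?_
      have h1 : polar Q ((X : Matrix ι ι F) *ᵥ v) ((X : Matrix ι ι F) *ᵥ w) = polar Q v w := by
        simp only [polar, ← Matrix.mulVec_add, hXQ]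
      rw [(mU w).mp hw] at h1
      rw [hDv, polar_sub_left, h1, sub_self]
    · rw [finrank_perp hQ, hU]
      have := D.finrank_range_add_finrank_ker
      omega
  have hdisj : Disjoint U (perp Q U) := by
    rw [Submodule.disjoint_def]
    intro w hw hwp
    obtain ⟨v, rfl⟩ : ∃ v, D v = w := hrange.symm.le hwp
    have hXv : ∀ k : ℕ, (X : Matrix ι ι F) ^ k *ᵥ v = v + (k : F) • D v := fun k => by
      induction k with
      | zero => simp
      | succ k ih =>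
        rw [pow_succ', ← Matrix.mulVec_mulVec, ih, Matrix.mulVec_add, Matrix.mulVec_smul, (mU _).mp hw, Nat.cast_succ,
          add_smul, one_smul, hDv]
        abel
    have := hXv r
    rw [hXr, Matrix.one_mulVec] at this
    exact (smul_eq_zero.mp (left_eq_add.mp this)).resolve_left (natCast_ne_zero hrp)
  have hSU : S ≤ U := fun v hv => (mU v).mpr (hSfix v hv)
  have hUok : OrthOddSub.SubOK Q f0 True U := by
    refine ⟨hUd, fun w hw hw0 => ?_, iff_true_intro ⟨S, hSU, hS, by rw [hUd, hf0, hhalf]⟩⟩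
    obtain ⟨y, hy, hne⟩ : ∃ y ∈ U, polar Q w y ≠ 0 := by
      by_contra hno
      push Not at hno
      exact hw0 (Submodule.disjoint_def.mp hdisj w hw (mem_perp.mpr hno))
    exact ⟨⟨y, hy, by rwa [polar_comm]⟩, ⟨y, hy, hne⟩⟩
  obtain ⟨b, R, A, R', A', hb, hR, hT, hA, -, hR', hA', hA'Q, hQT, hsum, hfix⟩ :=
    OrthOddSub.exists_blocks (ζ := ζ) hQ hX hXQ hUok (by
      rintro _ ⟨v, hv, rfl⟩
      rw [Matrix.toLin'_apply, (mU v).mp hv]; exact hv)
  rw [hfix fun v hv => (mU v).mp hv] at hsum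
  have hz : mult ζ A' (0 : ZMod r) = 0 := by
    have := hsum 0
    rw [mult_one hζ, if_pos rfl, Fintype.card_fin, ← hf0] at this
    omega
  have hev : Even f0 := ⟨Module.finrank F S, by rw [hf0, hhalf, two_mul]⟩
  rw [← hε, hQT, hasHalf_sum_iff hR hR' (by rw [Fintype.card_fin]; exact hev)
    (by rw [Fintype.card_fin]; obtain ⟨e, he⟩ := hev; exact ⟨d - e, by omega⟩),
    hasHalf_of_moving hζ hrp hu hr2 hR' hA' hA'Q hz, Fintype.card_fin, MType, ← hf0,
    show 2 * d - f0 = b by omega]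
  simp [hT]

end Mult

section Crit

variable {F : Type*} [Field F] [Fintype F] {p r : ℕ} [Fact p.Prime] [CharP F p] [hr : Fact r.Prime]

/-- Every element of order `r` of `Ω` fixes a totally singular `m`-space. -/
def AllTS {ι : Type} [Fintype ι] [DecidableEq ι] (Q : QuadraticForm F (ι → F)) (r m : ℕ) : Prop :=
  ∀ x : GL ι F, x ∈ Cfsg.Geo.omegaGL ⇑Q → orderOf x = r →
    ∃ W : Submodule F (ι → F), Module.finrank F W = m ∧ (∀ w ∈ W, Q w = 0) ∧
      W.map (Matrix.toLin' (x : Matrix ι ι F)) ≤ W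

omit [Fintype F] in
/-- An element of odd order of the isometry group lies in `Ω`. -/
theorem mem_omega_odd [Finite F] {ι : Type} [Fintype ι] [DecidableEq ι] {Q : QuadraticForm F (ι → F)}
    (hQ : (polarBilin Q).Nondegenerate) (hn : Fintype.card ι ≠ 4) (g : Cfsg.isometryGroup F ⇑Q) (hr : Odd r)
    (hg : g ^ r = 1) : g ∈ Cfsg.Omega F ⇑Q := by
  obtain ⟨k, hk⟩ := hr
  have e : g = g ^ (k + 1) * g ^ (k + 1) := by
    rw [← pow_add, show k + 1 + (k + 1) = r + 1 by omega, pow_succ, hg, one_mul]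
  rw [e]
  exact sq_mem_Omega hQ (Or.inr hn) _

variable (hrp : r ≠ p) (hr2 : r ≠ 2) {i c : ℕ}
  (hi : i = orderOf ((Fintype.card F : ℕ) : ZMod r)) (hc : c = if Even i then i else 2 * i)

include hrp hr2 hi hc

/-- The multiplicity form of the criterion. -/
theorem allTS_iff {ι : Type} [Fintype ι] [DecidableEq ι] {Q : QuadraticForm F (ι → F)}
    (hQ : (polarBilin Q).Nondegenerate) {d m : ℕ} (hι : Fintype.card ι = 2 * d) (hd : 3 ≤ d) {ε : Prop}
    (hε : HasHalf Q ↔ ε) :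
    ∃ u h : (ZMod r)ˣ, orderOf u = i ∧ orderOf h = c ∧
      (∀ f : ZMod r → ℕ, ((∀ x, f (x * (u : ZMod r)) = f x) ∧ (∀ x, f (-x) = f x)) ↔ ∀ x, f (x * (h : ZMod r)) = f x) ∧
      (AllTS Q r m ↔ ∀ f : ZMod r → ℕ, (∀ x, f (x * (h : ZMod r)) = f x) → ∑ x, f x = 2 * d → f 0 ≠ 2 * d →
        (f 0 = 0 → (ε ↔ MType i (2 * d))) →
        ∃ g : ZMod r → ℕ, (∀ x, g (x * (u : ZMod r)) = g x) ∧ ∑ x, g x = m ∧ (∀ x, g x + g (-x) ≤ f x) ∧
          (f 0 = 2 * g 0 → (ε ↔ MType i (2 * d - f 0)))) := by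
  classical
  obtain ⟨u, hu⟩ := exists_unit_card (F := F) (p := p) (r := r) dvd_rfl hrp
  rw [← hu, orderOf_units] at hi
  obtain ⟨P, hP, hLfin, hζ⟩ := exists_root_field F hr.out (natCast_ne_zero hrp)
  obtain ⟨h, hh, hinv⟩ := exists_multiplier u hr2
  have hoh : orderOf h = c := by
    rw [hh, hc, hi]
    rcases Nat.even_or_odd (orderOf u) with he | ho
    · rw [if_neg (Nat.not_odd_iff_even.mpr he), if_pos he]
    · rw [if_pos ho, if_neg (Nat.not_even_iff_odd.mpr ho)]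
  refine ⟨u, h, hi.symm, hoh, hinv, ⟨fun hall f hf hfs hfne hf0 => ?_, fun hcond x hx hxo => ?_⟩⟩
  · obtain ⟨B, hB, hBm, -⟩ := exists_ts_elem_even hζ hrp hr2 hu hQ hι hε hinv (m := 0) f (fun _ => 0) hf
      (fun _ => rfl) (fun _ => Nat.zero_le _) hfs Finset.sum_const_zero
      (fun h0 => by rw [h0, Nat.mul_zero, Nat.sub_zero]; rw [← hi]; exact hf0 (by omega))
    have hB1 : (B : GL ι F) ≠ 1 := fun he => by
      have := hBm 0
      rw [he, Units.val_one, mult_one hζ, if_pos rfl, hι] at this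
      exact hfne this.symm
    have hBr : (B : GL ι F) ^ r = 1 := by rw [← SubmonoidClass.coe_pow, hB, OneMemClass.coe_one]
    have hBo : (B : GL ι F) ∈ Cfsg.Geo.omegaGL ⇑Q :=
      mem_omegaGL.mpr ⟨B, mem_omega_odd hQ (by omega) B (hr.out.odd_of_ne_two hr2) hB, rfl⟩
    obtain ⟨W, hWd, hWs, hWinv⟩ := hall _ hBo (orderOf_eq_prime hBr hB1)
    obtain ⟨g, hg, hgs, hgf, S, hSW, hSfix, hSd⟩ := sing_mult hζ hrp hu hQ (pow_eq_one_of_mem hB)
      (mem_isometryGroup.mp B.2) W (fun v hv => hWinv ⟨v, hv, Matrix.toLin'_apply _ _⟩) hWs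
    refine ⟨g, hg, hgs.trans hWd, fun x => (hgf x).trans_eq (hBm x), fun hh0 => ?_⟩
    rw [hi]
    have := type_of_half hζ hrp hr2 hu hQ hι hε hBr (mem_isometryGroup.mp B.2) hSfix (fun v hv => hWs v (hSW hv))
      (by rw [hBm, hh0, hSd])
    rwa [hBm] at this
  · obtain ⟨y, -, rfl⟩ := mem_omegaGL.mp hx
    have hy : y ^ r = 1 := Subtype.ext (by
      rw [SubmonoidClass.coe_pow, OneMemClass.coe_one, ← hxo]; exact pow_orderOf_eq_one _)
    have hyM := pow_eq_one_of_mem hy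
    obtain ⟨f, hfdef⟩ : ∃ f : ZMod r → ℕ, f = fun x => mult (AdjoinRoot.root P) ((y : GL ι F) : Matrix ι ι F) x :=
      ⟨_, rfl⟩
    have hfh : ∀ x, f (x * (h : ZMod r)) = f x := (hinv f).mp ⟨fun x => by rw [hfdef, hu]; exact mult_frob hζ _ x,
      fun x => by rw [hfdef]; exact mult_neg_of_isometry hζ hrp hQ hyM (mem_isometryGroup.mp y.2) x⟩
    have hfs : ∑ x, f x = 2 * d := by rw [hfdef]; exact (sum_mult hζ hyM).trans hι
    have hfne : f 0 ≠ 2 * d := fun he => by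
      have hz : ∀ x, x ≠ 0 → f x = 0 := fun x hx => by
        have h1 := Finset.add_sum_erase Finset.univ f (Finset.mem_univ (0 : ZMod r))
        rw [hfs, he] at h1
        have := Finset.single_le_sum (f := f) (fun _ _ => Nat.zero_le _)
          (Finset.mem_erase.mpr ⟨hx, Finset.mem_univ x⟩)
        omega
      have h1 := (isConj_iff_mult hζ hrp hr2 hQ y 1 hy (one_pow r)).mpr (funext fun x => by
        rw [OneMemClass.coe_one, Units.val_one, mult_one hζ, hι]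
        rcases eq_or_ne x 0 with rfl | hx
        · rw [if_pos rfl]; rw [hfdef] at he; exact he
        · rw [if_neg hx]; have := hz x hx; rwa [hfdef] at this)
      rw [isConj_one_left] at h1
      rw [h1, OneMemClass.coe_one, orderOf_one] at hxo
      exact hr.out.one_lt.ne hxo
    have hf0T : f 0 = 0 → (ε ↔ MType i (2 * d)) := fun hz => by
      rw [← hε, hi, MType, hasHalf_of_moving hζ hrp hu hr2 hQ hyM (mem_isometryGroup.mp y.2)
        (by rwa [hfdef] at hz), hι]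
    obtain ⟨g, hg, hgs, hgf, hgT⟩ := hcond f hfh hfs hfne hf0T
    obtain ⟨B, hB, hBm, W, hWd, hWs, hWinv⟩ := exists_ts_elem_even hζ hrp hr2 hu hQ hι hε hinv f g hfh hg hgf hfs hgs
      (fun hh0 => by rw [← hi]; exact hgT hh0)
    obtain ⟨z, hz⟩ := isConj_iff.mp ((isConj_iff_mult hζ hrp hr2 hQ B y hB hy).mpr
      (funext fun x => (hBm x).trans (by rw [hfdef])))
    have hzQ := mem_isometryGroup.mp z.2
    refine ⟨W.map (glEquiv (z : GL ι F) : (ι → F) →ₗ[F] (ι → F)), ?_, ?_, ?_⟩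
    · rw [LinearEquiv.finrank_map_eq, hWd]
    · rintro _ ⟨w, hw, rfl⟩
      rw [LinearEquiv.coe_coe, glEquiv_apply, hzQ, hWs w hw]
    · rintro _ ⟨_, ⟨v, hv, rfl⟩, rfl⟩
      refine ⟨((B : GL ι F) : Matrix ι ι F) *ᵥ v, hWinv ⟨v, hv, Matrix.toLin'_apply _ _⟩, ?_⟩
      have hzB := congrArg (fun t : ↥(Cfsg.isometryGroup F ⇑Q) => ((t : GL ι F) : Matrix ι ι F))
        (mul_inv_eq_iff_eq_mul.mp hz)
      simp only [Subgroup.coe_mul, Units.val_mul] at hzB
      simp only [LinearEquiv.coe_coe, glEquiv_apply, Matrix.toLin'_apply, Matrix.mulVec_mulVec, hzB]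

end Crit

end CfsgLib.OrthTS
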