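import Cfsg.Agent.SubElusive.OrthTSEvenCrit
import Cfsg.Agent.OrthOrder.Count

/-!
Primes dividing the number of totally singular subspaces in even dimension, and the criterion for odd primes.
-/

set_option autoImplicit false
set_option linter.style.haveILetI false

open Matrix QuadraticMap CfsgLib.Forms CfsgLib.SemiClasses

namespace CfsgLib.OrthTS

variable {F : Type*} [Field F] [Fintype F] {p r : ℕ} [Fact p.Prime] [CharP F p] [hr : Fact r.Prime]
  {ι : Type} [Fintype ι] [DecidableEq ι] {Q : QuadraticForm F (ι → F)} {d m : ℕ}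

/-- A prime dividing the number of totally singular subspaces divides one factor of the count. -/
theorem dvd_factor {a : ℕ → ℕ}
    (hE : ∀ k, k < m → ∀ U : Submodule F (ι → F), Module.finrank F U = k → (∀ v ∈ U, Q v = 0) →
      Nat.card {v : ι → F // v ∈ perp Q U ∧ Q v = 0} = Fintype.card F ^ k * a k)
    (hdvd : r ∣ Nat.card {W : Submodule F (ι → F) // Module.finrank F W = m ∧ ∀ w ∈ W, Q w = 0}) :
    ∃ k, k < m ∧ r ∣ a k - 1 := by
  have h := card_ts_mul Q (fun k => Fintype.card F ^ k * a k) m hE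
  rw [prod_basis, prod_pow_sub] at h
  have hmain : Nat.card {W : Submodule F (ι → F) // Module.finrank F W = m ∧ ∀ w ∈ W, Q w = 0} *
      ∏ k ∈ Finset.range m, (Fintype.card F ^ (m - k) - 1) = ∏ k ∈ Finset.range m, (a k - 1) :=
    Nat.eq_of_mul_eq_mul_left (pow_pos Fintype.card_pos (∑ k ∈ Finset.range m, k)) (by linear_combination h)
  obtain ⟨k, hk, hd⟩ := (hr.out.prime.dvd_finsetProd_iff _).mp (hmain ▸ dvd_mul_of_dvd_left hdvd _)
  exact ⟨k, Finset.mem_range.mp hk, hd⟩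

theorem zero_pow_card {n : ℕ} (hrp : r = p) (hn : n ≠ 0) : ((Fintype.card F : ℕ) : ZMod r) ^ n = 0 := by
  obtain ⟨e, -, he⟩ := FiniteField.card F p
  rw [he, Nat.cast_pow, show ((p : ℕ) : ZMod r) = 0 by rw [← hrp, ZMod.natCast_self], zero_pow e.ne_zero, zero_pow hn]

theorem ts_data_even (hQ : (polarBilin Q).Nondegenerate) (hι : Fintype.card ι = 2 * d) (hm : m < d) {ε : Prop}
    (hε : HasHalf Q ↔ ε)
    (hdvd : r ∣ Nat.card {W : Submodule F (ι → F) // Module.finrank F W = m ∧ ∀ w ∈ W, Q w = 0}) :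
    r ≠ p ∧ ∃ a e, d = a + e ∧ 1 ≤ a ∧
      ((((Fintype.card F : ℕ) : ZMod r) ^ a = 1 ∧ ((ε ∧ e < m) ∨ (¬ ε ∧ 1 ≤ e ∧ e ≤ m))) ∨
       (((Fintype.card F : ℕ) : ZMod r) ^ a = -1 ∧ ((¬ ε ∧ e < m) ∨ (ε ∧ 1 ≤ e ∧ e ≤ m)))) := by
  classical
  obtain ⟨q, hq⟩ : ∃ q, q = Fintype.card F := ⟨_, rfl⟩
  have hq1 : ∀ n, 1 ≤ q ^ n := fun n => Nat.one_le_pow _ _ (hq ▸ Fintype.card_pos)
  have hone : ∀ n, r ∣ q ^ n - 1 → ((Fintype.card F : ℕ) : ZMod r) ^ n = 1 := fun n h => by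
    rwa [← ZMod.natCast_eq_zero_iff, Nat.cast_sub (hq1 n), Nat.cast_pow, Nat.cast_one, sub_eq_zero, hq] at h
  have hneg : ∀ n, r ∣ q ^ n + 1 → ((Fintype.card F : ℕ) : ZMod r) ^ n = -1 := fun n h => by
    rwa [← ZMod.natCast_eq_zero_iff, Nat.cast_add, Nat.cast_pow, Nat.cast_one, add_eq_zero_iff_eq_neg, hq] at h
  suffices h : ∃ a e, d = a + e ∧ 1 ≤ a ∧
      ((((Fintype.card F : ℕ) : ZMod r) ^ a = 1 ∧ ((ε ∧ e < m) ∨ (¬ ε ∧ 1 ≤ e ∧ e ≤ m))) ∨
       (((Fintype.card F : ℕ) : ZMod r) ^ a = -1 ∧ ((¬ ε ∧ e < m) ∨ (ε ∧ 1 ≤ e ∧ e ≤ m)))) by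
    refine ⟨fun hrp => ?_, h⟩
    obtain ⟨a, e, -, ha, ⟨hp, -⟩ | ⟨hp, -⟩⟩ := h <;> rw [zero_pow_card (F := F) hrp (by omega)] at hp
    · exact zero_ne_one hp
    · exact neg_ne_zero.mpr one_ne_zero hp.symm
  by_cases hs : ε
  · have hE : ∀ k, k < m → ∀ U : Submodule F (ι → F), Module.finrank F U = k → (∀ v ∈ U, Q v = 0) →
        Nat.card {v : ι → F // v ∈ perp Q U ∧ Q v = 0} =
          Fintype.card F ^ k * ((q ^ (d - k) - 1) * q ^ (d - k - 1) + q ^ (d - k)) := by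
      intro k hk U hUd hUs
      obtain ⟨φ, hφ⟩ := exists_iso_of_type
        (nondegenerate_sumForm (nondegenerate_quadPlus (F := F) k) (nondegenerate_quadPlus (F := F) (d - k))) hQ
        (m := d) (by simp; omega) hι
        (iff_of_true (hasHalf_sum_plus (hasHalf_quadPlus k) (hasHalf_quadPlus (d - k))) (hε.mpr hs))
      rw [card_perp_zero hQ (quadPlus F (d - k)) one_ne_zero φ (fun v => by rw [hφ v, one_mul]) U hUd hUs,
        coe_quadPlus, OrthOrder.card_zero_plus, hq]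
    obtain ⟨k, hk, hd⟩ := dvd_factor hE hdvd
    obtain ⟨j, hj⟩ : ∃ j, d - k = j + 1 := ⟨d - k - 1, by omega⟩
    rw [hj, Nat.add_sub_cancel] at hd
    have hd' : r ∣ (q ^ (j + 1) - 1) * (q ^ j + 1) := by
      have := hq1 (j + 1)
      rwa [Nat.add_sub_assoc this, ← mul_add_one] at hd
    rcases hr.out.dvd_mul.mp hd' with h | h
    · exact ⟨j + 1, k, by omega, by omega, Or.inl ⟨hone _ h, Or.inl ⟨hs, hk⟩⟩⟩
    · exact ⟨j, k + 1, by omega, by omega, Or.inr ⟨hneg _ h, Or.inr ⟨hs, by omega, hk⟩⟩⟩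
  · obtain ⟨c, hc⟩ := exists_irreducible_quadratic F
    have hab := anis_of_irred hc
    have hE : ∀ k, k < m → ∀ U : Submodule F (ι → F), Module.finrank F U = k → (∀ v ∈ U, Q v = 0) →
        Nat.card {v : ι → F // v ∈ perp Q U ∧ Q v = 0} =
          Fintype.card F ^ k * ((q ^ (d - k - 1) - 1) * q ^ (d - k - 1 - 1) * q ^ 2 + q ^ (d - k - 1)) := by
      intro k hk U hUd hUs
      obtain ⟨φ, hφ⟩ := exists_iso_of_type
        (nondegenerate_sumForm (nondegenerate_quadPlus (F := F) k) (nondegenerate_quadMinus (d - k - 1) hab)) hQ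
        (m := d) (by simp; omega) hι
        (iff_of_false (not_hasHalf_sum (nondegenerate_quadPlus k) (nondegenerate_quadMinus _ hab) (by simp)
          (by simp [parity_simps]) (hasHalf_quadPlus k) (not_hasHalf_quadMinus _ hab)) (mt hε.mp hs))
      rw [card_perp_zero hQ (quadMinus F (d - k - 1) _ _) one_ne_zero φ (fun v => by rw [hφ v, one_mul]) U hUd hUs,
        coe_quadMinus, OrthOrder.card_zero_minus _ hab, hq]
    obtain ⟨k, hk, hd⟩ := dvd_factor hE hdvd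
    obtain ⟨j, hj⟩ : ∃ j, d - k - 1 = j + 1 := ⟨d - k - 1 - 1, by omega⟩
    rw [hj, Nat.add_sub_cancel, mul_assoc, ← pow_add] at hd
    have hd' : r ∣ (q ^ (j + 1) - 1) * (q ^ (j + 2) + 1) := by
      have := hq1 (j + 1)
      rwa [Nat.add_sub_assoc this, ← mul_add_one] at hd
    rcases hr.out.dvd_mul.mp hd' with h | h
    · exact ⟨j + 1, k + 1, by omega, by omega, Or.inl ⟨hone _ h, Or.inr ⟨hs, by omega, hk⟩⟩⟩
    · exact ⟨j + 2, k, by omega, by omega, Or.inr ⟨hneg _ h, Or.inl ⟨hs, hk⟩⟩⟩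

omit [Fintype F] in
theorem exists_nonsingular (hQ : (polarBilin Q).Nondegenerate) (hι : 0 < Fintype.card ι) : ∃ v, Q v ≠ 0 := by
  by_contra h
  push Not at h
  haveI : Nonempty ι := Fintype.card_pos_iff.mp hι
  obtain ⟨v, hv⟩ := exists_ne (0 : ι → F)
  exact hv (polar_ext hQ fun y => by simp [polar, h])

/-- For odd `r`, elements of order `r` modulo scalars can be replaced by elements of order `r`. -/
theorem scalar_allTS (hr2 : r ≠ 2) (hQ : (polarBilin Q).Nondegenerate) (hι : 0 < Fintype.card ι) :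
    (∀ x : GL ι F, x ∈ Cfsg.Geo.omegaGL ⇑Q →
      (∃ z : F, ((x ^ r : GL ι F) : Matrix ι ι F) = z • (1 : Matrix ι ι F)) →
      (∀ z : F, (x : Matrix ι ι F) ≠ z • (1 : Matrix ι ι F)) →
      ∃ W : Submodule F (ι → F), Module.finrank F W = m ∧ (∀ w ∈ W, Q w = 0) ∧
        W.map (Matrix.toLin' (x : Matrix ι ι F)) ≤ W) ↔ AllTS Q r m := by
  obtain ⟨v, hv⟩ := exists_nonsingular hQ hι
  have hsq : ∀ x : GL ι F, x ∈ Cfsg.Geo.omegaGL ⇑Q → ∀ z : F, (x : Matrix ι ι F) = z • (1 : Matrix ι ι F) →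
      z * z = 1 := fun x hx z hz => by
    obtain ⟨y, -, rfl⟩ := mem_omegaGL.mp hx
    have h := mem_isometryGroup.mp y.2 v
    rw [hz, Matrix.smul_mulVec, Matrix.one_mulVec, QuadraticMap.map_smul, smul_eq_mul] at h
    exact mul_right_cancel₀ hv (by rw [h, one_mul])
  have hodd := hr.out.odd_of_ne_two hr2
  obtain ⟨t, ht⟩ := hodd
  constructor
  · intro hall x hx hxo
    refine hall x hx ⟨1, by rw [← hxo, pow_orderOf_eq_one, Units.val_one, one_smul]⟩ fun z hz => ?_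
    have h1 := hsq x hx z hz
    have h2 : ((x ^ r : GL ι F) : Matrix ι ι F) = z • (1 : Matrix ι ι F) := by
      rw [Units.val_pow_eq_pow_val, hz, smul_pow, one_pow, ht, pow_succ, pow_mul, pow_two, h1, one_pow, one_mul]
    rw [← hxo, pow_orderOf_eq_one] at h2
    have : x = 1 := Units.ext (hz.trans h2.symm)
    rw [this, orderOf_one] at hxo
    exact hr.out.one_lt.ne hxo
  · intro hall x hx ⟨z, hz⟩ hns
    have hz1 := hsq _ (pow_mem hx r) z hz
    have hy : ((x ^ (r + 1) : GL ι F) : Matrix ι ι F) = z • (x : Matrix ι ι F) := by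
      rw [pow_succ, Units.val_mul, hz, Matrix.smul_mul, Matrix.one_mul]
    have hyr : (x ^ (r + 1) : GL ι F) ^ r = 1 := Units.ext (by
      rw [← pow_mul, mul_comm, pow_mul, Units.val_pow_eq_pow_val, hz, smul_pow, one_pow, Units.val_one,
        show r + 1 = 2 * (t + 1) by omega, pow_mul, pow_two, hz1, one_pow, one_smul])
    have hy1 : (x ^ (r + 1) : GL ι F) ≠ 1 := fun h => hns z (by
      rw [h, Units.val_one] at hy
      rw [hy, smul_smul, hz1, one_smul])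
    obtain ⟨W, hWd, hWs, hW⟩ := hall _ (pow_mem hx _) (orderOf_eq_prime hyr hy1)
    refine ⟨W, hWd, hWs, ?_⟩
    rintro _ ⟨w, hw, rfl⟩
    have h := hW ⟨w, hw, rfl⟩
    rw [Matrix.toLin'_apply, hy, Matrix.smul_mulVec] at h
    have h' := W.smul_mem z h
    rwa [smul_smul, hz1, one_smul, ← Matrix.toLin'_apply] at h'

/-- With `m < i = 2h` the criterion fails. -/
theorem no_room {ε : Prop} {a e v h : ℕ} (hde : d = a + e) (hv : a = h * v) (hmi : m < h + h)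
    (hvpar : ((ε ↔ Even v) ∧ e < m) ∨ (¬ (ε ↔ Even v) ∧ 1 ≤ e ∧ e ≤ m))
    (hA : (0 < (2 * d) % (h + h) ∨ (ε ↔ Even (2 * d / (h + h)))) →
      2 * m < (2 * d) % (h + h) ∨ (2 * m = (2 * d) % (h + h) ∧ (ε ↔ Even (2 * d / (h + h)))))
    (hB : ((2 * d) % (h + h) = 0 ∧ ¬ (ε ↔ Even (2 * d / (h + h)))) → 2 * m ≤ h + h) : False := by
  have he2 : e ≤ m := by rcases hvpar with ⟨-, h1⟩ | ⟨-, -, h1⟩ <;> omega
  obtain ⟨f, s, hes, hf, hs⟩ : ∃ f s, e = f + h * s ∧ f < h ∧ (s = 0 ∨ s = 1) := by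
    rcases lt_or_ge e h with hlt | hge
    · exact ⟨e, 0, by omega, hlt, Or.inl rfl⟩
    · exact ⟨e - h, 1, by omega, by omega, Or.inr rfl⟩
  have h2d : 2 * d = 2 * f + (h + h) * (v + s) := by rw [hde, hv, hes]; ring
  have hk : (2 * d) % (h + h) = 2 * f := by rw [h2d, Nat.add_mul_mod_self_left, Nat.mod_eq_of_lt (by omega)]
  have hN : 2 * d / (h + h) = v + s := by
    rw [h2d, Nat.add_mul_div_left _ _ (by omega), Nat.div_eq_of_lt (by omega), zero_add]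
  rw [hk, hN] at hA hB
  rcases hs with rfl | rfl
  · rw [mul_zero, add_zero] at hes
    rw [add_zero] at hA hB
    rcases hvpar with ⟨hτ, he'⟩ | ⟨hτ, he1, -⟩
    · rcases hA (Or.inr hτ) with h1 | ⟨h1, -⟩ <;> omega
    · rcases hA (Or.inl (by omega)) with h1 | ⟨-, h2⟩
      · omega
      · exact hτ h2
  · rw [Nat.even_add_one] at hA hB
    rw [mul_one] at hes
    by_cases h0 : 0 < 2 * f ∨ (ε ↔ ¬ Even v)
    · rcases hA h0 with h1 | ⟨h1, -⟩ <;> omega
    · have h3 := hB ⟨by_contra fun h' => h0 (Or.inl (Nat.pos_of_ne_zero h')), fun h' => h0 (Or.inr h')⟩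
      rcases hvpar with ⟨-, he'⟩ | ⟨hτ, -⟩
      · omega
      · exact h0 (Or.inr (by by_cases hev : Even v <;> simp_all))

/-- The shapes of the criterion agree when there is room for a block. -/
theorem room_iff (k l i T N : ℕ) (σ : Prop) :
    (((0 < k ∨ σ) → 2 * l < k ∨ (2 * l = k ∧ σ)) ∧ ((k = 0 ∧ ¬ σ) → 2 * l ≤ i) ∧
      (T ≤ N ∧ ((k = 0 ∧ ¬ σ) → T < N))) ↔
    (T ≤ N ∧ ((2 * l ≤ i ∧ k = 0 ∧ ¬ σ ∧ T < N) ∨ (2 * l ≤ k ∧ σ) ∨ (2 * l < k ∧ ¬ σ))) := by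
  by_cases hσ : σ <;> rcases Nat.eq_zero_or_pos k with rfl | hk <;>
    simp_all [le_iff_lt_or_eq, Nat.pos_iff_ne_zero] <;> tauto

/-- The statement for odd primes in even dimension. -/
theorem main_odd (hr2 : r ≠ 2) {i c : ℕ}
    (hi : i = orderOf ((Fintype.card F : ℕ) : ZMod r)) (hc : c = if Even i then i else 2 * i)
    (hQ : (polarBilin Q).Nondegenerate) (hι : Fintype.card ι = 2 * d) (hd : 3 ≤ d) (hm : m < d) {ε : Prop}
    (hε : HasHalf Q ↔ ε)
    (hdvd : r ∣ Nat.card {W : Submodule F (ι → F) // Module.finrank F W = m ∧ ∀ w ∈ W, Q w = 0}) :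
    r ≠ p ∧ ((∀ x : GL ι F, x ∈ Cfsg.Geo.omegaGL ⇑Q →
      (∃ z : F, ((x ^ r : GL ι F) : Matrix ι ι F) = z • (1 : Matrix ι ι F)) →
      (∀ z : F, (x : Matrix ι ι F) ≠ z • (1 : Matrix ι ι F)) →
      ∃ W : Submodule F (ι → F), Module.finrank F W = m ∧ (∀ w ∈ W, Q w = 0) ∧
        W.map (Matrix.toLin' (x : Matrix ι ι F)) ≤ W) ↔
    ((Odd i ∧ i ≤ m ∧ (((2 * d) % c = 0 ∧ ¬ ε) ∨ 2 * (m % i) < (2 * d) % c ∨ (2 * (m % i) = (2 * d) % c ∧ ε))) ∨
     (Even i ∧ i ≤ m ∧ (r - 1) / i + 2 * (m / i) ≤ 2 * d / i ∧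
       ((2 * (m % i) ≤ i ∧ (2 * d) % c = 0 ∧ ¬ (ε ↔ Even (2 * d / i)) ∧ (r - 1) / i + 2 * (m / i) < 2 * d / i) ∨
        (2 * (m % i) ≤ (2 * d) % c ∧ (ε ↔ Even (2 * d / i))) ∨
        (2 * (m % i) < (2 * d) % c ∧ ¬ (ε ↔ Even (2 * d / i))))))) := by
  classical
  obtain ⟨hrp, a, e, hde, ha, hdata⟩ := ts_data_even (p := p) hQ hι hm hε hdvd
  refine ⟨hrp, ?_⟩
  rw [scalar_allTS hr2 hQ (by omega)]
  haveI : Fact (2 < r) := ⟨by have := hr.out.two_le; omega⟩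
  obtain ⟨u, hu⟩ := exists_unit_card (F := F) (p := p) (r := r) dvd_rfl hrp
  have hipos : 0 < i := by rw [hi, ← hu, orderOf_units]; exact orderOf_pos u
  rcases Nat.even_or_odd i with he | ho
  · obtain ⟨h, hh⟩ := he
    have hci : c = i := by rw [hc, if_pos ⟨h, hh⟩]
    have hpow : ∀ n, ((Fintype.card F : ℕ) : ZMod r) ^ n = 1 ↔ i ∣ n := fun n => by
      rw [hi]; exact orderOf_dvd_iff_pow_eq_one.symm
    obtain ⟨v, hv, hvpar⟩ : ∃ v, a = h * v ∧ (((ε ↔ Even v) ∧ e < m) ∨ (¬ (ε ↔ Even v) ∧ 1 ≤ e ∧ e ≤ m)) := by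
      rcases hdata with ⟨hp, hcase⟩ | ⟨hp, hcase⟩
      · obtain ⟨v, hv⟩ := (hpow a).mp hp
        refine ⟨2 * v, by rw [hv, hh]; ring, ?_⟩
        simpa using hcase
      · have h2 : i ∣ a * 2 := (hpow _).mp (by rw [pow_mul, hp, neg_one_sq])
        have hna : ¬ i ∣ a := fun h' => ZMod.neg_one_ne_one (hp.symm.trans ((hpow a).mpr h'))
        obtain ⟨v, hv⟩ : h ∣ a := Nat.dvd_of_mul_dvd_mul_right (by omega) (show h * 2 ∣ a * 2 by
          rwa [show h * 2 = i by omega])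
        have hvo : ¬ Even v := fun ⟨w, hw⟩ => hna ⟨w, by rw [hv, hw, hh]; ring⟩
        refine ⟨v, hv, ?_⟩
        simp only [hvo, iff_false, not_not]
        exact hcase
    have hcn : c ≤ 2 * d := by
      have : h ≤ h * v := Nat.le_mul_of_pos_right h (Nat.pos_of_ne_zero fun h0 => by rw [h0, mul_zero] at hv; omega)
      omega
    rw [crit_i_even hrp hr2 hi hc hQ hι hd hm hε hcn ⟨h, hh⟩]
    simp only [show ¬ Odd i from Nat.not_odd_iff_even.mpr ⟨h, hh⟩, show Even i from ⟨h, hh⟩, false_and, false_or,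
      true_and]
    rw [hci]
    rcases lt_or_ge m i with hmi | hmi
    · -- no room for the blocks
      rw [Nat.div_eq_of_lt hmi, Nat.mod_eq_of_lt hmi, hh]
      refine iff_of_false (fun ⟨hA, hB, _⟩ => ?_) (fun ⟨h1, _⟩ => by omega)
      exact no_room hde hv (by omega) hvpar hA hB
    · simp only [hmi, Nat.div_pos hmi hipos, true_and, true_implies]
      exact room_iff _ _ _ _ _ _
  · have hia : i ∣ a ∧ (((ε ∧ e < m) ∨ (¬ ε ∧ 1 ≤ e ∧ e ≤ m))) := by
      rcases hdata with ⟨hp, hcase⟩ | ⟨hp, -⟩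
      · exact ⟨hi ▸ orderOf_dvd_of_pow_eq_one hp, hcase⟩
      · have h2 : i ∣ a * 2 := hi ▸ orderOf_dvd_of_pow_eq_one (by rw [pow_mul, hp, neg_one_sq])
        obtain ⟨v, hv⟩ := (Nat.Coprime.dvd_of_dvd_mul_right
          (Nat.Coprime.symm (Nat.prime_two.coprime_iff_not_dvd.mpr fun h => Nat.not_even_iff_odd.mpr ho
            (even_iff_two_dvd.mpr h))) h2)
        rw [hv, hi, pow_mul, pow_orderOf_eq_one, one_pow] at hp
        exact absurd hp.symm ZMod.neg_one_ne_one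
    obtain ⟨⟨v, hv⟩, hcase⟩ := hia
    have hc2 : c = 2 * i := by rw [hc, if_neg (Nat.not_even_iff_odd.mpr ho)]
    have hcn : c ≤ 2 * d := by
      have : i ≤ i * v := Nat.le_mul_of_pos_right i (Nat.pos_of_ne_zero fun h0 => by rw [h0, mul_zero] at hv; omega)
      omega
    rw [crit_i_odd hrp hr2 hi hc hQ hι hd hm hε hcn ho]
    simp only [show ¬ Even i from Nat.not_even_iff_odd.mpr ho, ho, false_and, or_false, true_and]
    refine ⟨fun hcr => ⟨?_, hcr⟩, fun h => h.2⟩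
    by_contra hmi
    rw [Nat.mod_eq_of_lt (show m < i by omega), show 2 * d = 2 * e + c * v by rw [hde, hv, hc2]; ring,
      Nat.add_mul_mod_self_left, Nat.mod_eq_of_lt (by omega)] at hcr
    rcases hcr with ⟨h1, h2⟩ | h1 | ⟨h1, h2⟩
    · rcases hcase with ⟨h3, -⟩ | ⟨-, h3, -⟩
      · exact h2 h3
      · omega
    · omega
    · rcases hcase with ⟨-, h3⟩ | ⟨h3, -⟩
      · omega
      · exact h3 h2

end CfsgLib.OrthTS
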