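import Cfsg.Agent.SubElusive.OrthTSInv
import Cfsg.Agent.SubElusive.OrthTSEvenMain

/-!
Elements of projective order two and invariant totally singular subspaces in even dimension.
-/

set_option autoImplicit false
set_option linter.style.haveILetI false

open Matrix QuadraticMap CfsgLib.Forms CfsgLib.SemiClasses

namespace CfsgLib.OrthTS

variable {F : Type*} [Field F] [Fintype F] {ι : Type} [Fintype ι]

omit [Fintype F] [Fintype ι] in
theorem orth_li (h2 : (2 : F) ≠ 0) {Q : QuadraticForm F (ι → F)} {σ : Type} [Fintype σ] [DecidableEq σ]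
    (w : σ → (ι → F)) (hw : ∀ i j, i ≠ j → polar Q (w i) (w j) = 0) (hw0 : ∀ i, Q (w i) ≠ 0) :
    LinearIndependent F w :=
  Fintype.linearIndependent_iff.mpr fun c hc i => by
    have h := congrArg (fun z => polar Q z (w i)) hc
    simp only [polar_zero_left] at h
    rw [polar_sum_left, Finset.sum_eq_single i (fun j _ hj => by rw [polar_smul_left, hw j i hj, smul_zero])
      (by simp), polar_smul_left, polar_self, smul_eq_mul, nsmul_eq_mul, Nat.cast_two] at h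
    exact (mul_eq_zero.mp h).resolve_right (mul_ne_zero h2 (hw0 i))

/-- The type of a nondegenerate subspace in terms of an orthogonal family spanning it. -/
theorem disc_sub (h2 : (2 : F) ≠ 0) {Q : QuadraticForm F (ι → F)} {σ : Type} [Fintype σ] [DecidableEq σ]
    (w : σ → (ι → F)) (hw : ∀ i j, i ≠ j → polar Q (w i) (w j) = 0) (hw0 : ∀ i, Q (w i) ≠ 0) {M : ℕ} (hM : 1 ≤ M)
    (hσ : Fintype.card σ = 2 * M) {U : Submodule F (ι → F)} (hwU : ∀ i, w i ∈ U) (hU : Module.finrank F U = 2 * M) :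
    (∃ S : Submodule F (ι → F), S ≤ U ∧ (∀ v ∈ S, Q v = 0) ∧ Module.finrank F S = M) ↔
      IsSquare ((-1 : F) ^ M * ∏ i, Q (w i)) := by
  obtain ⟨hd, -, hplus⟩ := OrthOddSub.sub_of_family h2 w hw hw0 hM hσ
  have hspan : Submodule.span F (Set.range w) = U := by
    refine Submodule.eq_of_le_of_finrank_eq (Submodule.span_le.mpr ?_) (hd.trans hU.symm)
    rintro _ ⟨i, rfl⟩; exact hwU i
  rw [hspan] at hplus
  have hP : ∏ i, Q (w i) ≠ 0 := Finset.prod_ne_zero_iff.mpr fun i _ => hw0 i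
  have h1 : IsSquare ((2 : F) ^ (2 * M)) := (even_two_mul M).isSquare_pow _
  have e : IsSquare ((-1 : F) ^ M * (2 ^ (2 * M) * ∏ i, Q (w i))) ↔ IsSquare ((-1 : F) ^ M * ∏ i, Q (w i)) := by
    rw [mul_left_comm, isSquare_mul_iff' (pow_ne_zero _ h2)
      (mul_ne_zero (pow_ne_zero _ (neg_ne_zero.mpr one_ne_zero)) hP)]
    simp [h1]
  rw [← e, ← hplus]
  constructor
  · rintro ⟨S, hS, hs, hSd⟩
    exact ⟨S, hS, hs, by omega⟩
  · rintro ⟨S, hS, hs, hSd⟩
    exact ⟨S, hS, hs, by omega⟩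

variable [DecidableEq ι]

omit [Fintype F] in
theorem hasHalf_iff_top {Q : QuadraticForm F (ι → F)} (hQ : (polarBilin Q).Nondegenerate) {d : ℕ}
    (hι : Fintype.card ι = 2 * d) :
    HasHalf Q ↔ ∃ S : Submodule F (ι → F), S ≤ ⊤ ∧ (∀ v ∈ S, Q v = 0) ∧ Module.finrank F S = d := by
  constructor
  · rintro ⟨S, hs, hd⟩
    have h1 := two_finrank_le_of_singular hQ hs
    rw [Module.finrank_fintype_fun_eq_card] at h1
    exact ⟨S, le_top, hs, by omega⟩
  · rintro ⟨S, -, hs, hd⟩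
    exact ⟨S, hs, by omega⟩

/-- The eigenspaces of an involution of `Ω` and their types. -/
theorem invol_types (h2 : (2 : F) ≠ 0) {Q : QuadraticForm F (ι → F)} (hQ : (polarBilin Q).Nondegenerate)
    (g : Cfsg.isometryGroup F ⇑Q) (hg : g ∈ Cfsg.Omega F ⇑Q)
    (hX : ((g : GL ι F) : Matrix ι ι F) * ((g : GL ι F) : Matrix ι ι F) = 1)
    (hns : ∀ z : F, ((g : GL ι F) : Matrix ι ι F) ≠ z • (1 : Matrix ι ι F))
    {d : ℕ} (hd : 1 ≤ d) (hι : Fintype.card ι = 2 * d) {ε : Prop} (hε : HasHalf Q ↔ ε) :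
    ∃ (U U' : Submodule F (ι → F)) (s : ℕ),
      (∀ v, v ∈ U ↔ ((g : GL ι F) : Matrix ι ι F) *ᵥ v = v) ∧
      (∀ v, v ∈ U' ↔ ((g : GL ι F) : Matrix ι ι F) *ᵥ v = -v) ∧
      (∀ u ∈ U, ∀ v ∈ U', polar Q u v = 0) ∧ U ⊔ U' = ⊤ ∧ U ⊓ U' = ⊥ ∧ Disjoint U (perp Q U) ∧
      Disjoint U' (perp Q U') ∧ 1 ≤ s ∧ s < d ∧ Module.finrank F U' = 2 * s ∧
      Module.finrank F U = 2 * (d - s) ∧
      ((∃ S : Submodule F (ι → F), S ≤ U' ∧ (∀ v ∈ S, Q v = 0) ∧ Module.finrank F S = s) ↔ IsSquare ((-1 : F) ^ s)) ∧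
      (ε ↔ ((∃ S : Submodule F (ι → F), S ≤ U ∧ (∀ v ∈ S, Q v = 0) ∧ Module.finrank F S = d - s) ↔
        (∃ S : Submodule F (ι → F), S ≤ U' ∧ (∀ v ∈ S, Q v = 0) ∧ Module.finrank F S = s))) := by
  classical
  obtain ⟨U, U', mU, mU', horth, hsup, hinf, hdU, hdU', hdim⟩ := invol_split h2 hQ hX (mem_isometryGroup.mp g.2)
  obtain ⟨w, hwU, hwo, hw0⟩ := OrthOddSub.exists_orth_family h2 U' hdU' (Module.finrank F U') le_rfl
  obtain ⟨w', hwU2, hwo', hw0'⟩ := OrthOddSub.exists_orth_family h2 U hdU (Module.finrank F U) le_rfl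
  have hspan : Submodule.span F (Set.range w) = U' := by
    refine Submodule.eq_of_le_of_finrank_eq (Submodule.span_le.mpr ?_) ?_
    · rintro _ ⟨i, rfl⟩; exact hwU i
    · rw [finrank_span_eq_card (orth_li h2 w hwo hw0), Fintype.card_fin]
  obtain ⟨hfix, hneg⟩ := refl_list (Q := Q) (List.ofFn w)
    (List.pairwise_ofFn.mpr fun {i j} hij => hwo i j hij.ne) (fun u hu => by
      obtain ⟨i, rfl⟩ := List.mem_ofFn.mp hu; exact hw0 i)
  obtain ⟨P, hP⟩ : ∃ P, P = ((List.ofFn w).map fun u => Cfsg.reflectionMatrix ⇑Q u).prod := ⟨_, rfl⟩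
  have hPU' : ∀ v ∈ U', P *ᵥ v = -v := fun v hv => by
    rw [← hspan] at hv
    obtain ⟨c, rfl⟩ := (Submodule.mem_span_range_iff_exists_fun F).mp hv
    rw [Matrix.mulVec_sum, ← Finset.sum_neg_distrib]
    exact Finset.sum_congr rfl fun i _ => by
      rw [Matrix.mulVec_smul, hP, hneg _ (List.mem_ofFn.mpr ⟨i, rfl⟩), smul_neg]
  have hgP : ((g : GL ι F) : Matrix ι ι F) = P := Matrix.ext_iff_mulVec.mpr fun v => by
    obtain ⟨a, ha, b, hb, rfl⟩ := Submodule.mem_sup.mp (hsup ▸ Submodule.mem_top : v ∈ U ⊔ U')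
    have hPa : P *ᵥ a = a := hP ▸ hfix a (fun u hu => by
      obtain ⟨i, rfl⟩ := List.mem_ofFn.mp hu; exact horth a ha _ (hwU i))
    rw [Matrix.mulVec_add, Matrix.mulVec_add, (mU a).mp ha, (mU' b).mp hb, hPa, hPU' b hb]
  obtain ⟨heven, hprod⟩ := (mem_Omega_list Q h2 hQ (by omega) g (List.ofFn w)
    (fun u hu => by obtain ⟨i, rfl⟩ := List.mem_ofFn.mp hu; exact hw0 i) (hgP.trans hP)).mp hg
  rw [List.length_ofFn] at heven
  rw [List.map_ofFn, List.prod_ofFn] at hprod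
  obtain ⟨s, hs⟩ := heven
  have hzero : ∀ A : Submodule F (ι → F), Module.finrank F A = 0 → A = ⊥ := fun A hA =>
    Submodule.finrank_eq_zero.mp hA
  have hs1 : 1 ≤ s := by
    by_contra h0
    have hb := hzero U' (by omega)
    refine hns 1 ?_
    rw [one_smul]
    refine Matrix.ext_iff_mulVec.mpr fun v => ?_
    rw [Matrix.one_mulVec, ← mU, show U = ⊤ by rw [← hsup, hb, sup_bot_eq]]
    trivial
  have hsd : s < d := by
    by_contra h0
    have hb := hzero U (by omega)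
    refine hns (-1) ?_
    refine Matrix.ext_iff_mulVec.mpr fun v => ?_
    rw [Matrix.smul_mulVec, Matrix.one_mulVec, neg_one_smul, ← mU', show U' = ⊤ by rw [← hsup, hb, bot_sup_eq]]
    trivial
  have hT' := disc_sub h2 w hwo hw0 hs1 (by rw [Fintype.card_fin]; omega) hwU (by omega)
  have hT := disc_sub h2 w' hwo' hw0' (M := d - s) (by omega) (by rw [Fintype.card_fin]; omega) hwU2 (by omega)
  have hT'' : IsSquare ((-1 : F) ^ s * ∏ i, Q (w i)) ↔ IsSquare ((-1 : F) ^ s) := by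
    rw [isSquare_mul_iff' (pow_ne_zero _ (neg_ne_zero.mpr one_ne_zero)) (Finset.prod_ne_zero_iff.mpr fun i _ => hw0 i)]
    exact ⟨fun h => h.mpr hprod, fun h => iff_of_true h hprod⟩
  have hall := disc_sub h2 (Sum.elim w' w) (by
      rintro (i | i) (j | j) hij
      · exact hwo' i j fun h => hij (h ▸ rfl)
      · exact horth _ (hwU2 i) _ (hwU j)
      · rw [polar_comm]; exact horth _ (hwU2 j) _ (hwU i)
      · exact hwo i j fun h => hij (h ▸ rfl))
    (by rintro (i | i) <;> [exact hw0' i; exact hw0 i]) (M := d) hd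
    (by rw [Fintype.card_sum, Fintype.card_fin, Fintype.card_fin]; omega) (U := ⊤) (fun _ => trivial)
    (by rw [finrank_top, Module.finrank_fintype_fun_eq_card, hι])
  rw [← hasHalf_iff_top hQ hι, hε, Fintype.prod_sum_type] at hall
  simp only [Sum.elim_inl, Sum.elim_inr] at hall
  refine ⟨U, U', s, mU, mU', horth, hsup, hinf, hdU, hdU', hs1, hsd, by omega, by omega, hT'.trans hT'', ?_⟩
  rw [hall, hT, hT', ← isSquare_mul_iff' (mul_ne_zero (pow_ne_zero _ (neg_ne_zero.mpr one_ne_zero))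
      (Finset.prod_ne_zero_iff.mpr fun i _ => hw0' i))
    (mul_ne_zero (pow_ne_zero _ (neg_ne_zero.mpr one_ne_zero)) (Finset.prod_ne_zero_iff.mpr fun i _ => hw0 i))]
  rw [mul_mul_mul_comm, ← pow_add, Nat.sub_add_cancel hsd.le]

/-- Involutions of `Ω` fix totally singular subspaces, except one case. -/
theorem exists_ts_invol_even (h2 : (2 : F) ≠ 0) {Q : QuadraticForm F (ι → F)} (hQ : (polarBilin Q).Nondegenerate)
    (g : Cfsg.isometryGroup F ⇑Q) (hg : g ∈ Cfsg.Omega F ⇑Q)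
    (hX : ((g : GL ι F) : Matrix ι ι F) * ((g : GL ι F) : Matrix ι ι F) = 1)
    (hns : ∀ z : F, ((g : GL ι F) : Matrix ι ι F) ≠ z • (1 : Matrix ι ι F))
    {d m : ℕ} (hι : Fintype.card ι = 2 * d) (hm : m < d) {ε : Prop} (hε : HasHalf Q ↔ ε)
    (hgood : IsSquare (-1 : F) ∨ (ε → m + 2 ≤ d)) :
    ∃ W : Submodule F (ι → F), Module.finrank F W = m ∧ (∀ w ∈ W, Q w = 0) ∧
      W.map (Matrix.toLin' ((g : GL ι F) : Matrix ι ι F)) ≤ W := by
  classical
  obtain ⟨U, U', s, mU, mU', horth, -, hinf, hdU, hdU', hs1, hsd, hd', hdu, hT', hT⟩ :=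
    invol_types h2 hQ g hg hX hns (by omega) hι hε
  have hS : ∀ (A : Submodule F (ι → F)) (t : ℕ), Disjoint A (perp Q A) → Module.finrank F A = 2 * t → 1 ≤ t →
      ∃ S : Submodule F (ι → F), S ≤ A ∧ (∀ v ∈ S, Q v = 0) ∧ t - 1 ≤ Module.finrank F S ∧
        ((∃ S : Submodule F (ι → F), S ≤ A ∧ (∀ v ∈ S, Q v = 0) ∧ Module.finrank F S = t) →
          Module.finrank F S = t) := fun A t hA hAd ht => by
    by_cases h : ∃ S : Submodule F (ι → F), S ≤ A ∧ (∀ v ∈ S, Q v = 0) ∧ Module.finrank F S = t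
    · obtain ⟨S, h1, h2, h3⟩ := h
      exact ⟨S, h1, h2, by omega, fun _ => h3⟩
    · obtain ⟨S, h1, h2', h3⟩ := exists_singular_in h2 A hA (t - 1) (by omega)
      exact ⟨S, h1, h2', h3.ge, fun h' => absurd h' h⟩
  obtain ⟨S, hSU, hs, hSd, hSp⟩ := hS U (d - s) hdU hdu (by clear hT hT'; omega)
  obtain ⟨S', hSU', hs', hSd', hSp'⟩ := hS U' s hdU' hd' hs1
  obtain ⟨W, w, hWd, hWs, hW, hw⟩ := exists_sub_sup hinf horth hSU hSU' hs hs' (m := m) (by
    by_cases hε' : m + 2 ≤ d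
    · clear hSp hSp' hT hT'; omega
    by_cases hA : ∃ S : Submodule F (ι → F), S ≤ U ∧ (∀ v ∈ S, Q v = 0) ∧ Module.finrank F S = d - s
    · have := hSp hA; clear hA hSp hSp' hT hT'; omega
    by_cases hB : ∃ S : Submodule F (ι → F), S ≤ U' ∧ (∀ v ∈ S, Q v = 0) ∧ Module.finrank F S = s
    · have := hSp' hB; clear hA hB hSp hSp' hT hT'; omega
    exfalso
    rcases hgood with h | h
    · exact hB (hT'.mpr (h.pow s))
    · exact hε' (h (hT.mpr (iff_of_false hA hB))))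
  exact ⟨W, hWd, hWs, hW ▸ invariant_span mU mU' w hw⟩

/-- An involution of `Ω` fixing no totally singular subspace of dimension `d - 1`. -/
theorem exists_invol_no_ts_even (h2 : (2 : F) ≠ 0) {Q : QuadraticForm F (ι → F)} (hQ : (polarBilin Q).Nondegenerate)
    (hsq : ¬ IsSquare (-1 : F)) {d : ℕ} (hd : 2 ≤ d) (hι : Fintype.card ι = 2 * d) (hε : HasHalf Q) :
    ∃ g : Cfsg.isometryGroup F ⇑Q, g ∈ Cfsg.Omega F ⇑Q ∧
      ((g : GL ι F) : Matrix ι ι F) * ((g : GL ι F) : Matrix ι ι F) = 1 ∧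
      (∀ z : F, ((g : GL ι F) : Matrix ι ι F) ≠ z • (1 : Matrix ι ι F)) ∧
      ∀ W : Submodule F (ι → F), Module.finrank F W + 1 = d → (∀ w ∈ W, Q w = 0) →
        ¬ W.map (Matrix.toLin' ((g : GL ι F) : Matrix ι ι F)) ≤ W := by
  classical
  obtain ⟨v, hv, hv1⟩ := exists_unit_family h2 hQ 2 (by rw [Module.finrank_fintype_fun_eq_card, hι]; omega)
  have hn : ∀ i, Q (v i) ≠ 0 := fun i => by rw [hv1]; exact one_ne_zero
  obtain ⟨g, hgdef⟩ : ∃ g, g = reflGL Q (v 0) (hn 0) * reflGL Q (v 1) (hn 1) := ⟨_, rfl⟩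
  have hgm : ((g : GL ι F) : Matrix ι ι F) = (([v 0, v 1]).map fun u => Cfsg.reflectionMatrix ⇑Q u).prod := by
    rw [hgdef, Subgroup.coe_mul, Units.val_mul, coe_reflGL, coe_reflGL]; simp
  have h01 : polar Q (v 0) (v 1) = 0 := hv 0 1 (by decide)
  obtain ⟨hfix, hneg⟩ := refl_list (Q := Q) [v 0, v 1] (by simp [h01]) (by simp [hn])
  rw [← hgm] at hfix hneg
  have hgΩ : g ∈ Cfsg.Omega F ⇑Q :=
    (mem_Omega_list Q h2 hQ (by omega) g [v 0, v 1] (by simp [hn]) hgm).mpr ⟨even_two, by simp [hv1]⟩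
  obtain ⟨V2, hV2⟩ : ∃ V2, V2 = Submodule.span F (Set.range v) := ⟨_, rfl⟩
  have hV2d : Module.finrank F V2 = 2 := by rw [hV2, finrank_span_eq_card (orth_li h2 v hv hn), Fintype.card_fin]
  have hV2neg : ∀ x ∈ V2, ((g : GL ι F) : Matrix ι ι F) *ᵥ x = -x := fun x hx => by
    obtain ⟨c, rfl⟩ := (Submodule.mem_span_range_iff_exists_fun F).mp (hV2 ▸ hx)
    rw [Matrix.mulVec_sum, ← Finset.sum_neg_distrib]
    refine Finset.sum_congr rfl fun i _ => ?_
    rw [Matrix.mulVec_smul, hneg (v i) (by fin_cases i <;> simp), smul_neg]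
  have hPfix : ∀ x ∈ perp Q V2, ((g : GL ι F) : Matrix ι ι F) *ᵥ x = x := fun x hx => hfix x fun u hu => by
    refine mem_perp.mp hx u (hV2 ▸ Submodule.subset_span ?_)
    rcases List.mem_cons.mp hu with rfl | hu
    · exact ⟨0, rfl⟩
    · exact ⟨1, (List.mem_singleton.mp hu).symm⟩
  have hVsup : V2 ⊔ perp Q V2 = ⊤ := by
    refine Submodule.eq_top_of_finrank_eq ?_
    have hinf : V2 ⊓ perp Q V2 = ⊥ := by
      rw [eq_bot_iff]
      intro x hx
      obtain ⟨c, rfl⟩ := (Submodule.mem_span_range_iff_exists_fun F).mp (hV2 ▸ hx.1)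
      rw [Submodule.mem_bot]
      refine Finset.sum_eq_zero fun i _ => ?_
      have := mem_perp.mp hx.2 (v i) (hV2 ▸ Submodule.subset_span ⟨i, rfl⟩)
      rw [polar_sum_left, Finset.sum_eq_single i (fun j _ hj => by rw [polar_smul_left, hv j i hj, smul_zero])
        (by simp), polar_smul_left, polar_self, hv1, smul_eq_mul, nsmul_eq_mul, Nat.cast_two, mul_one] at this
      rw [(mul_eq_zero.mp this).resolve_right h2, zero_smul]
    have h := Submodule.finrank_sup_add_finrank_inf_eq V2 (perp Q V2)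
    rw [hinf, finrank_bot, add_zero, finrank_perp hQ, Module.finrank_fintype_fun_eq_card] at h
    rw [Module.finrank_fintype_fun_eq_card, h]
    omega
  have hX : ((g : GL ι F) : Matrix ι ι F) * ((g : GL ι F) : Matrix ι ι F) = 1 :=
    Matrix.ext_iff_mulVec.mpr fun x => by
      obtain ⟨a, ha, b, hb, rfl⟩ := Submodule.mem_sup.mp (hVsup ▸ Submodule.mem_top : x ∈ V2 ⊔ perp Q V2)
      rw [← Matrix.mulVec_mulVec, Matrix.one_mulVec, Matrix.mulVec_add, hV2neg a ha, hPfix b hb, Matrix.mulVec_add,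
        Matrix.mulVec_neg, hV2neg a ha, hPfix b hb, neg_neg]
  have hPd : Module.finrank F (perp Q V2) = 2 * d - 2 := by
    rw [finrank_perp hQ, Module.finrank_fintype_fun_eq_card, hι, hV2d]
  have hns : ∀ z : F, ((g : GL ι F) : Matrix ι ι F) ≠ z • (1 : Matrix ι ι F) := fun z hz => by
    have h1 : z • v 0 = -v 0 := by
      rw [← hV2neg (v 0) (hV2 ▸ Submodule.subset_span ⟨0, rfl⟩), hz, Matrix.smul_mulVec, Matrix.one_mulVec]
    have hv0 : v 0 ≠ 0 := fun h => hn 0 (by rw [h, QuadraticMap.map_zero])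
    have hzv : z = -1 := smul_left_injective F hv0 (by simp only [neg_one_smul]; exact h1)
    obtain ⟨b, hb, hb0⟩ := Submodule.exists_mem_ne_zero_of_ne_bot (p := perp Q V2) fun h => by
      rw [h, finrank_bot] at hPd; omega
    have h3 := hPfix b hb
    rw [hz, hzv, Matrix.smul_mulVec, Matrix.one_mulVec, neg_one_smul] at h3
    exact hb0 ((smul_eq_zero.mp (show (2 : F) • b = 0 by rw [two_smul]; nth_rw 2 [← h3]; abel)).resolve_left h2)
  refine ⟨g, hgΩ, hX, hns, fun W hWd hWs hinv => ?_⟩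
  obtain ⟨U, U', s, mU, mU', horth, hsup, -, hdU, hdU', hs1, hsd, hd', hdu, hT', hT⟩ :=
    invol_types h2 hQ g hgΩ hX hns (by omega) hι (Iff.rfl : HasHalf Q ↔ HasHalf Q)
  have h1 := Submodule.finrank_mono (show V2 ≤ U' from fun x hx => (mU' x).mpr (hV2neg x hx))
  have h1' := Submodule.finrank_mono (show perp Q V2 ≤ U from fun x hx => (mU x).mpr (hPfix x hx))
  obtain rfl : s = 1 := by clear hT hT'; omega
  have hF : ¬ ∃ S : Submodule F (ι → F), S ≤ U' ∧ (∀ v ∈ S, Q v = 0) ∧ Module.finrank F S = 1 := fun h =>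
    hsq (by simpa using hT'.mp h)
  have hWU : W ≤ U := fun z hz => by
    have hgz := hinv ⟨z, hz, Matrix.toLin'_apply _ _⟩
    obtain ⟨a, ha, b, hb, rfl⟩ := Submodule.mem_sup.mp (hsup ▸ Submodule.mem_top : z ∈ U ⊔ U')
    rw [Matrix.mulVec_add, (mU a).mp ha, (mU' b).mp hb] at hgz
    have hbW : b ∈ W := by
      have h' := W.sub_mem hz hgz
      rw [show a + b - (a + -b) = (2 : F) • b by rw [two_smul]; abel] at h'
      exact (W.smul_mem_iff h2).mp h'
    rcases eq_or_ne b 0 with rfl | hb0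
    · simpa using ha
    refine absurd ⟨Submodule.span F {b}, (Submodule.span_singleton_le_iff_mem _ _).mpr hb, fun x hx => ?_,
      finrank_span_singleton hb0⟩ hF
    obtain ⟨c, rfl⟩ := Submodule.mem_span_singleton.mp hx
    rw [QuadraticMap.map_smul, hWs b hbW, smul_zero]
  exact hF ((hT.mp hε).mp ⟨W, hWU, hWs, by clear hT hT' hF; omega⟩)

end CfsgLib.OrthTS
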