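import Cfsg.Agent.FormConj.Unitary
import Cfsg.Agent.FormConj.SUSemisimple
import Cfsg.Agent.Unitary.Basic
import Cfsg.Agent.NilType.Realize
import Cfsg.Agent.UGeom.Count

/-!
Nondegenerate invariant subspaces of unitary matrices, up to similarity.
-/

set_option autoImplicit false
set_option linter.style.haveILetI false

namespace CfsgLib.SubElusive

open Matrix CfsgLib.FormConj CfsgLib.FormConj.Semi

variable {F : Type*} [Field F] {θ : F →+* F}

/-- The matrix preserves some nondegenerate sesquilinear form. -/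
def SelfDual (θ : F →+* F) {ι : Type*} [Fintype ι] [DecidableEq ι] (A : Matrix ι ι F) : Prop :=
  ∃ c : Matrix ι ι F, IsUnit c.det ∧ dag θ A * c * A = c

variable {ι κ : Type*} [Fintype ι] [DecidableEq ι] [Fintype κ] [DecidableEq κ]

theorem dag_blocks (A : Matrix ι ι F) (D : Matrix κ κ F) :
    dag θ (fromBlocks A 0 0 D) = fromBlocks (dag θ A) 0 0 (dag θ D) := by
  rw [dag, Matrix.fromBlocks_map, Matrix.fromBlocks_transpose]
  simp [dag]

theorem dag_reindex (e : ι ≃ κ) (A : Matrix ι ι F) : dag θ (reindex e e A) = reindex e e (dag θ A) := by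
  ext i j
  simp [dag]

theorem reindex_mul' (e : ι ≃ κ) (A B : Matrix ι ι F) : reindex e e A * reindex e e B = reindex e e (A * B) := by
  simp [Matrix.reindex_apply]

theorem SelfDual.of_unitary {A : Matrix ι ι F} (h : dag θ A * A = 1) : SelfDual θ A :=
  ⟨1, by simp, by rw [Matrix.mul_one, h]⟩

theorem SelfDual.isUnit_det {A : Matrix ι ι F} (h : SelfDual θ A) : IsUnit A.det := by
  obtain ⟨c, hc, e⟩ := h
  rw [← e, Matrix.det_mul, Matrix.det_mul] at hc
  exact isUnit_of_mul_isUnit_right hc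

theorem SelfDual.of_similar {A B Q : Matrix ι ι F} (hQ : IsUnit Q.det) (h : Q * A = B * Q) (hB : SelfDual θ B) :
    SelfDual θ A := by
  obtain ⟨c, hc, e⟩ := hB
  refine ⟨dag θ Q * c * Q, by rw [Matrix.det_mul, Matrix.det_mul]; exact ((isUnit_det_dag θ hQ).mul hc).mul hQ, ?_⟩
  calc dag θ A * (dag θ Q * c * Q) * A = dag θ (Q * A) * c * (Q * A) := by rw [dag_mul]; simp only [Matrix.mul_assoc]
    _ = dag θ Q * (dag θ B * c * B) * Q := by rw [h, dag_mul]; simp only [Matrix.mul_assoc]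
    _ = dag θ Q * c * Q := by rw [e]

/-- A matrix similar to its contragredient preserves a nondegenerate form. -/
theorem SelfDual.of_contragredient {A D P : Matrix ι ι F} (hP : IsUnit P.det) (hD : dag θ A * D = 1)
    (h : P * A = D * P) : SelfDual θ A :=
  ⟨P, hP, by rw [Matrix.mul_assoc, h, ← Matrix.mul_assoc, hD, Matrix.one_mul]⟩

/-- The contragredient of a self-dual matrix is similar to it. -/
theorem SelfDual.contragredient {A D : Matrix ι ι F} (h : SelfDual θ A) (hD : D * dag θ A = 1) :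
    ∃ P : Matrix ι ι F, IsUnit P.det ∧ P * A = D * P := by
  obtain ⟨c, hc, e⟩ := h
  refine ⟨c, hc, ?_⟩
  conv_rhs => rw [← e]
  rw [← Matrix.mul_assoc, ← Matrix.mul_assoc, hD, Matrix.one_mul]

section Fin

variable [Finite F] {n : ℕ} (hθ : ∀ a, θ (θ a) = a) (hne : θ ≠ RingHom.id F)

include hθ hne in
/-- A self-dual matrix is similar to a unitary one. -/
theorem SelfDual.exists_unitary {A : Matrix (Fin n) (Fin n) F} (h : SelfDual θ A) :
    ∃ C : Matrix (Fin n) (Fin n) F, IsUnit C.det ∧ ∃ B, dag θ B * B = 1 ∧ C * A = B * C := by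
  obtain ⟨c, hc, e⟩ := h
  obtain ⟨C, hC, hB⟩ := exists_unitary_similar hθ hne hc e
  exact ⟨C, hC, _, hB, (Matrix.nonsing_inv_mul_cancel_right _ _ hC).symm⟩

include hθ hne in
/-- A unitary matrix similar to a block sum of self-dual matrices has a nondegenerate invariant subspace. -/
theorem exists_sub_of_blocks {m k : ℕ} (e : Fin m ⊕ Fin k ≃ Fin n) {x : Matrix (Fin n) (Fin n) F}
    (hx : dag θ x * x = 1) {A : Matrix (Fin m) (Fin m) F} {D : Matrix (Fin k) (Fin k) F}
    (hA : SelfDual θ A) (hD : SelfDual θ D) {Q : Matrix (Fin n) (Fin n) F} (hQ : IsUnit Q.det)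
    (hQA : Q * reindex e e (fromBlocks A 0 0 D) = x * Q) :
    ∃ W : Submodule F (Fin n → F), Module.finrank F W = m ∧
      (∀ u ∈ W, u ≠ 0 → ∃ v ∈ W, herm θ v u ≠ 0) ∧ ∀ v ∈ W, x *ᵥ v ∈ W := by
  obtain ⟨C, hC, A', hA', hCA⟩ := hA.exists_unitary hθ hne
  obtain ⟨C', hC', D', hD', hCD⟩ := hD.exists_unitary hθ hne
  obtain ⟨R, hR⟩ : ∃ R, R = reindex e e (fromBlocks C 0 0 C') := ⟨_, rfl⟩
  obtain ⟨M, hM⟩ : ∃ M, M = reindex e e (fromBlocks A' 0 0 D') := ⟨_, rfl⟩
  have hRu : IsUnit R.det := by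
    rw [hR, Matrix.det_reindex_self, Matrix.det_fromBlocks_zero₂₁]; exact hC.mul hC'
  have hMu : dag θ M * M = 1 := by
    rw [hM, dag_reindex, reindex_mul', dag_blocks, Matrix.fromBlocks_multiply]
    simp [hA', hD', Matrix.fromBlocks_one]
  have hRM : R * reindex e e (fromBlocks A 0 0 D) = M * R := by
    rw [hR, hM, reindex_mul', reindex_mul', Matrix.fromBlocks_multiply, Matrix.fromBlocks_multiply]
    simp [hCA, hCD]
  have hsim : (Q * R⁻¹) * M = x * (Q * R⁻¹) := by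
    calc Q * R⁻¹ * M = Q * (R⁻¹ * (M * R)) * R⁻¹ := by
          simp only [Matrix.mul_assoc, Matrix.mul_nonsing_inv _ hRu, Matrix.mul_one]
      _ = x * (Q * R⁻¹) := by
          rw [← hRM, Matrix.nonsing_inv_mul_cancel_left _ _ hRu, hQA, Matrix.mul_assoc]
  obtain ⟨g, hg, hgM⟩ := exists_unitary_conj hθ hne hMu hx
    (by rw [Matrix.det_mul]; exact hQ.mul (Matrix.isUnit_nonsing_inv_det _ hRu)) hsim
  let ι₀ : (Fin m → F) →ₗ[F] (Fin n → F) :=
    { toFun := fun a => g *ᵥ (Sum.elim a 0 ∘ e.symm)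
      map_add' := fun a b => by
        rw [← Matrix.mulVec_add]; congr 1; funext i
        simp only [Function.comp_apply, Pi.add_apply]; cases e.symm i <;> simp
      map_smul' := fun c a => by
        rw [RingHom.id_apply, ← Matrix.mulVec_smul]; congr 1; funext i
        simp only [Function.comp_apply, Pi.smul_apply]; cases e.symm i <;> simp }
  have hher : ∀ a b, herm θ (ι₀ a) (ι₀ b) = herm θ a b := fun a b => by
    show herm θ (g *ᵥ _) (g *ᵥ _) = _
    rw [herm_mulVec hθ, Matrix.mulVec_mulVec, hg, Matrix.one_mulVec]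
    show dotProduct _ _ = dotProduct _ _
    rw [dotProduct, dotProduct, ← e.sum_comp, Fintype.sum_sum_type]
    simp
  refine ⟨LinearMap.range ι₀, ?_, ?_, ?_⟩
  · rw [LinearMap.finrank_range_of_inj, Module.finrank_fin_fun]
    rw [← LinearMap.ker_eq_bot, LinearMap.ker_eq_bot']
    intro a ha
    refine eq_zero_of_herm hθ fun b => ?_
    rw [← hher, ha, herm_zero_right]
  · rintro _ ⟨a, rfl⟩ ha
    by_contra hno
    push Not at hno
    refine ha ?_
    rw [eq_zero_of_herm hθ (v := a) fun b => by rw [← hher]; exact hno _ ⟨b, rfl⟩, map_zero]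
  · rintro _ ⟨a, rfl⟩
    refine ⟨A' *ᵥ a, ?_⟩
    show g *ᵥ (Sum.elim (A' *ᵥ a) 0 ∘ e.symm) = x *ᵥ (g *ᵥ (Sum.elim a 0 ∘ e.symm))
    rw [Matrix.mulVec_mulVec, ← hgM, ← Matrix.mulVec_mulVec]
    congr 1
    rw [hM, Matrix.reindex_apply, Matrix.submatrix_mulVec_equiv, Matrix.fromBlocks_mulVec]
    funext i
    simp only [Function.comp_apply, Equiv.symm_symm]
    rcases h : e.symm i with j | j <;> simp [h, Function.comp_def, ← Pi.zero_def]

include hθ in
/-- Coordinates adapted to a nondegenerate subspace and its orthogonal complement. -/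
theorem exists_adapted (W : Submodule F (Fin n → F)) (hnd : ∀ u ∈ W, u ≠ 0 → ∃ v ∈ W, herm θ v u ≠ 0)
    {m : ℕ} (hW : Module.finrank F W = m) {k : ℕ} (hk : m + k = n) :
    ∃ (e : Fin m ⊕ Fin k ≃ Fin n) (Q : Matrix (Fin n) (Fin n) F) (c : Matrix (Fin m) (Fin m) F)
      (c' : Matrix (Fin k) (Fin k) F), IsUnit Q.det ∧ IsUnit c.det ∧ IsUnit c'.det ∧
      dag θ Q * Q = reindex e e (fromBlocks c 0 0 c') ∧
      (∀ a, Q *ᵥ (Sum.elim a 0 ∘ e.symm) ∈ W) ∧ (∀ a, Q *ᵥ (Sum.elim 0 a ∘ e.symm) ∈ orth θ W) := by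
  classical
  have hinf : W ⊓ orth θ W = ⊥ := by
    rw [Submodule.eq_bot_iff]
    intro u hu
    by_contra hu0
    obtain ⟨v, hv, hne'⟩ := hnd u hu.1 hu0
    exact hne' (hu.2 v hv)
  have hc := isCompl_orth W hinf
  have hk' : Module.finrank F (orth θ W) = k := by
    have := Submodule.finrank_add_eq_of_isCompl hc
    rw [hW, Module.finrank_fin_fun] at this
    omega
  let bW := Module.finBasisOfFinrankEq F W hW
  let bO := Module.finBasisOfFinrankEq F (orth θ W) hk'
  let b := (bW.prod bO).map (Submodule.prodEquivOfIsCompl W (orth θ W) hc)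
  let e : Fin m ⊕ Fin k ≃ Fin n := finSumFinEquiv.trans (finCongr hk)
  let v : Fin n → (Fin n → F) := fun l => b (e.symm l)
  obtain ⟨Q, hQ⟩ : ∃ Q : Matrix (Fin n) (Fin n) F, ∀ i l, Q i l = v l i :=
    ⟨Matrix.of fun i l => v l i, fun _ _ => rfl⟩
  have hQu : IsUnit Q.det := by
    rw [← Matrix.isUnit_iff_isUnit_det, ← Matrix.linearIndependent_cols_iff_isUnit]
    have h1 : Q.col = v := funext fun l => funext fun i => hQ i l
    rw [h1]
    exact b.linearIndependent.comp e.symm e.symm.injective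
  have hl : ∀ j, b (Sum.inl j) ∈ W := fun j => by simp [b]
  have hr : ∀ j, b (Sum.inr j) ∈ orth θ W := fun j => by simp [b]
  have hG : dag θ Q * Q = reindex e e (Matrix.of fun s t => herm θ (b s) (b t)) := by
    ext i j
    simp only [Matrix.mul_apply, dag, Matrix.transpose_apply, Matrix.map_apply, hQ, Matrix.reindex_apply,
      Matrix.submatrix_apply, Matrix.of_apply]
    rfl
  obtain ⟨G, hGdef⟩ : ∃ G, G = (Matrix.of fun s t => herm θ (b s) (b t)) := ⟨_, rfl⟩
  have hGb : G = fromBlocks G.toBlocks₁₁ 0 0 G.toBlocks₂₂ := by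
    ext (i | i) (j | j)
    · simp [Matrix.toBlocks₁₁]
    · simp only [Matrix.fromBlocks_apply₁₂, Matrix.zero_apply, hGdef, Matrix.of_apply]
      exact hr j _ (hl i)
    · simp only [Matrix.fromBlocks_apply₂₁, Matrix.zero_apply, hGdef, Matrix.of_apply]
      rw [herm_symm hθ, hr i _ (hl j), map_zero]
    · simp [Matrix.toBlocks₂₂]
  rw [← hGdef, hGb] at hG
  have hdet := congrArg Matrix.det hG
  rw [Matrix.det_reindex_self, Matrix.det_fromBlocks_zero₂₁, Matrix.det_mul] at hdet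
  have hu := (isUnit_det_dag θ hQu).mul hQu
  rw [hdet] at hu
  refine ⟨e, Q, _, _, hQu, isUnit_of_mul_isUnit_left hu, isUnit_of_mul_isUnit_right hu, hG, fun a => ?_, fun a => ?_⟩
  · have : Q *ᵥ (Sum.elim a 0 ∘ e.symm) = ∑ j, a j • b (Sum.inl j) := by
      funext i
      rw [Matrix.mulVec, dotProduct, ← e.sum_comp, Fintype.sum_sum_type, Finset.sum_apply]
      simp [hQ, v, mul_comm]
    rw [this]
    exact Submodule.sum_mem _ fun j _ => Submodule.smul_mem _ _ (hl j)
  · have : Q *ᵥ (Sum.elim 0 a ∘ e.symm) = ∑ j, a j • b (Sum.inr j) := by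
      funext i
      rw [Matrix.mulVec, dotProduct, ← e.sum_comp, Fintype.sum_sum_type, Finset.sum_apply]
      simp [hQ, v, mul_comm]
    rw [this]
    exact Submodule.sum_mem _ fun j _ => Submodule.smul_mem _ _ (hr j)

include hθ in
/-- A unitary matrix with a nondegenerate invariant subspace is similar to a block sum of self-dual matrices. -/
theorem blocks_of_sub {m k : ℕ} (hk : m + k = n) {x : Matrix (Fin n) (Fin n) F} (hx : dag θ x * x = 1)
    (W : Submodule F (Fin n → F)) (hW : Module.finrank F W = m)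
    (hnd : ∀ u ∈ W, u ≠ 0 → ∃ v ∈ W, herm θ v u ≠ 0) (hinv : ∀ v ∈ W, x *ᵥ v ∈ W) :
    ∃ (e : Fin m ⊕ Fin k ≃ Fin n) (A : Matrix (Fin m) (Fin m) F) (D : Matrix (Fin k) (Fin k) F)
      (Q : Matrix (Fin n) (Fin n) F), SelfDual θ A ∧ SelfDual θ D ∧ IsUnit Q.det ∧
      Q * reindex e e (fromBlocks A 0 0 D) = x * Q := by
  classical
  obtain ⟨e, Q, c, c', hQ, hcu, hc'u, hG, hl, hr⟩ := exists_adapted hθ W hnd hW hk
  have hxi : ∀ u v, herm θ (x *ᵥ u) (x *ᵥ v) = herm θ u v := fun u v => by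
    rw [herm_mulVec hθ, Matrix.mulVec_mulVec, hx, Matrix.one_mulVec]
  have hsur : ∀ w ∈ W, ∃ w' ∈ W, x *ᵥ w' = w := fun w hw => by
    let g : W →ₗ[F] W := LinearMap.codRestrict W (x.mulVecLin.comp W.subtype) fun v => hinv v.1 v.2
    have hg : Function.Injective g := fun a b hab => Subtype.ext (by
      have h1 : x *ᵥ a.1 = x *ᵥ b.1 := congrArg Subtype.val hab
      have h2 := congrArg (fun v => dag θ x *ᵥ v) h1
      simpa only [Matrix.mulVec_mulVec, hx, Matrix.one_mulVec] using h2)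
    obtain ⟨w', hw'⟩ := LinearMap.injective_iff_surjective.mp hg ⟨w, hw⟩
    exact ⟨w', w'.2, congrArg Subtype.val hw'⟩
  have hinvO : ∀ v ∈ orth θ W, x *ᵥ v ∈ orth θ W := fun v hv w hw => by
    obtain ⟨w', hw', rfl⟩ := hsur w hw
    rw [hxi]
    exact hv w' hw'
  obtain ⟨N, hN⟩ : ∃ N, N = (reindex e e).symm (Q⁻¹ * x * Q) := ⟨_, rfl⟩
  have hN' : reindex e e N = Q⁻¹ * x * Q := by rw [hN, Equiv.apply_symm_apply]
  have hQN : Q * reindex e e N = x * Q := by
    rw [hN', Matrix.mul_assoc, Matrix.mul_nonsing_inv_cancel_left _ _ hQ]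
  have hsplit : ∀ v : Fin n → F, ∃ (a : Fin m → F) (b : Fin k → F), v = Sum.elim a (0 : Fin k → F) ∘ e.symm + Sum.elim (0 : Fin m → F) b ∘ e.symm := fun v =>
    ⟨fun j => v (e (Sum.inl j)), fun j => v (e (Sum.inr j)), funext fun i => by
      obtain ⟨s, rfl⟩ := e.surjective i
      rcases s with j | j <;> simp⟩
  have hdisj : ∀ v, v ∈ W → v ∈ orth θ W → v = 0 := fun v h1 h2 => by
    by_contra hv
    obtain ⟨w, hw, hne'⟩ := hnd v h1 hv
    exact hne' (h2 w hw)
  have h21 : N.toBlocks₂₁ = 0 := by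
    ext i j
    have h1 : x *ᵥ (Q *ᵥ (Sum.elim (Pi.single j 1) 0 ∘ e.symm)) ∈ W := hinv _ (hl _)
    rw [Matrix.mulVec_mulVec, ← hQN, ← Matrix.mulVec_mulVec] at h1
    obtain ⟨a, b, hab⟩ := hsplit (reindex e e N *ᵥ (Sum.elim (Pi.single j 1) 0 ∘ e.symm))
    rw [hab, Matrix.mulVec_add] at h1
    have h2 := hdisj _ ((Submodule.add_mem_iff_right _ (hl a)).mp h1) (hr b)
    have h3 : Sum.elim (0 : Fin m → F) b ∘ e.symm = 0 := by
      have := congrArg (fun v => Q⁻¹ *ᵥ v) h2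
      simpa only [Matrix.mulVec_mulVec, Matrix.nonsing_inv_mul _ hQ, Matrix.one_mulVec, Matrix.mulVec_zero] using this
    have h4 := congrFun hab (e (Sum.inr i))
    rw [h3, add_zero, Matrix.reindex_apply, Matrix.submatrix_mulVec_equiv] at h4
    simpa [Matrix.toBlocks₂₁, Matrix.toBlocks₁₂, Matrix.mulVec, dotProduct, Fintype.sum_sum_type, Pi.single_apply] using h4
  have h12 : N.toBlocks₁₂ = 0 := by
    ext i j
    have h1 : x *ᵥ (Q *ᵥ (Sum.elim 0 (Pi.single j 1) ∘ e.symm)) ∈ orth θ W := hinvO _ (hr _)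
    rw [Matrix.mulVec_mulVec, ← hQN, ← Matrix.mulVec_mulVec] at h1
    obtain ⟨a, b, hab⟩ := hsplit (reindex e e N *ᵥ (Sum.elim 0 (Pi.single j 1) ∘ e.symm))
    rw [hab, Matrix.mulVec_add] at h1
    have h2 := hdisj _ (hl a) ((Submodule.add_mem_iff_left _ (hr b)).mp h1)
    have h3 : Sum.elim a (0 : Fin k → F) ∘ e.symm = 0 := by
      have := congrArg (fun v => Q⁻¹ *ᵥ v) h2
      simpa only [Matrix.mulVec_mulVec, Matrix.nonsing_inv_mul _ hQ, Matrix.one_mulVec, Matrix.mulVec_zero] using this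
    have h4 := congrFun hab (e (Sum.inl i))
    rw [h3, zero_add, Matrix.reindex_apply, Matrix.submatrix_mulVec_equiv] at h4
    simpa [Matrix.toBlocks₂₁, Matrix.toBlocks₁₂, Matrix.mulVec, dotProduct, Fintype.sum_sum_type, Pi.single_apply] using h4
  have hNb : N = fromBlocks N.toBlocks₁₁ 0 0 N.toBlocks₂₂ := by
    conv_lhs => rw [← Matrix.fromBlocks_toBlocks N, h12, h21]
  rw [hNb] at hQN
  have key := congrArg (fun M => dag θ M * M) hQN
  simp only [dag_mul] at key
  rw [Matrix.mul_assoc, ← Matrix.mul_assoc (dag θ Q), hG, dag_reindex, dag_blocks, reindex_mul', reindex_mul',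
    Matrix.mul_assoc, ← Matrix.mul_assoc (dag θ x), hx, Matrix.one_mul, hG, (reindex e e).injective.eq_iff,
    Matrix.fromBlocks_multiply, Matrix.fromBlocks_multiply] at key
  simp only [Matrix.mul_zero, Matrix.zero_mul, add_zero, zero_add, Matrix.fromBlocks_inj] at key
  exact ⟨e, _, _, Q, ⟨c, hcu, by rw [Matrix.mul_assoc]; exact key.1⟩,
    ⟨c', hc'u, by rw [Matrix.mul_assoc]; exact key.2.2.2⟩, hQ, hQN⟩

end Fin

section Count

variable [Fintype F] {q : ℕ}

/-- The count of nondegenerate subspaces divides the number of unitary frames. -/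
theorem card_nd_dvd (hF : Fintype.card F = q ^ 2) (hq : ∀ x, θ x = x ^ q) (hθ : ∀ a, θ (θ a) = a)
    (hne : θ ≠ RingHom.id F) {m k n : ℕ} (hk : m + k = n) :
    Nat.card {W : Submodule F (Fin n → F) // Module.finrank F W = m ∧
        ∀ u ∈ W, u ≠ 0 → ∃ v ∈ W, Cfsg.hermForm n F q u v ≠ 0} * Nat.card (Cfsg.GU k F q) ∣
      Nat.card (Cfsg.GU n F q) := by
  classical
  have hform : ∀ u v : Fin n → F, Cfsg.hermForm n F q u v = herm θ v u := fun u v => by
    rw [CfsgLib.Unitary.hermForm_eq θ q hq, dotProduct_comm]; rfl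
  have hgu : ∀ g : Cfsg.GU n F q, dag θ g.1.1 * g.1.1 = 1 := fun g => (mem_GU_dag q hq hθ g.1).mp g.2
  let e₀ : Fin m ⊕ Fin k ≃ Fin n := finSumFinEquiv.trans (finCongr hk)
  let ι₀ : (Fin m → F) →ₗ[F] (Fin n → F) :=
    { toFun := fun a => Sum.elim a 0 ∘ e₀.symm
      map_add' := fun a b => funext fun i => by
        simp only [Function.comp_apply, Pi.add_apply]; cases e₀.symm i <;> simp
      map_smul' := fun c a => funext fun i => by
        simp only [Function.comp_apply, Pi.smul_apply, RingHom.id_apply]; cases e₀.symm i <;> simp }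
  have hher : ∀ (g : Cfsg.GU n F q) a b, herm θ (g.1.1 *ᵥ ι₀ a) (g.1.1 *ᵥ ι₀ b) = herm θ a b := fun g a b => by
    rw [herm_mulVec hθ, Matrix.mulVec_mulVec, hgu, Matrix.one_mulVec]
    show dotProduct _ _ = dotProduct _ _
    rw [dotProduct, dotProduct, ← e₀.sum_comp, Fintype.sum_sum_type]
    simp [ι₀]
  let Ω := {W : Submodule F (Fin n → F) // Module.finrank F W = m ∧
    ∀ u ∈ W, u ≠ 0 → ∃ v ∈ W, Cfsg.hermForm n F q u v ≠ 0}
  let Φ : Cfsg.GU n F q → Ω := fun g => ⟨LinearMap.range (g.1.1.mulVecLin.comp ι₀), by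
    constructor
    · rw [LinearMap.finrank_range_of_inj, Module.finrank_fin_fun]
      rw [← LinearMap.ker_eq_bot, LinearMap.ker_eq_bot']
      intro a ha
      refine eq_zero_of_herm hθ fun b => ?_
      rw [← hher g, show g.1.1 *ᵥ ι₀ a = 0 from ha, herm_zero_right]
    · rintro _ ⟨a, rfl⟩ ha
      by_contra hno
      push Not at hno
      refine ha ?_
      rw [eq_zero_of_herm hθ (v := a) fun b => by
        rw [← hher g, ← hform]; exact hno _ ⟨b, rfl⟩, map_zero]⟩
  have hΦ : ∀ g v, v ∈ (Φ g).1 ↔ ∃ a, g.1.1 *ᵥ ι₀ a = v := fun g v => Iff.rfl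
  have hsur : ∀ W : Ω, ∃ g, Φ g = W := by
    intro W
    obtain ⟨e, Q, c, c', hQ, hcu, hc'u, hG, hl, -⟩ := exists_adapted hθ W.1
      (fun u hu hu0 => by simpa only [hform] using W.2.2 u hu hu0) W.2.1 hk
    have hcc : dag θ c = c ∧ dag θ c' = c' := by
      have h1 := congrArg (dag θ) hG
      rw [dag_mul, dag_dag θ hθ, hG, dag_reindex, dag_blocks, (reindex e e).injective.eq_iff,
        Matrix.fromBlocks_inj] at h1
      exact ⟨h1.1.symm, h1.2.2.2.symm⟩
    obtain ⟨P, hP⟩ := CfsgLib.Unitary.exists_congr θ hθ hne m c hcc.1 hcu.ne_zero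
    obtain ⟨P', hP'⟩ := CfsgLib.Unitary.exists_congr θ hθ hne k c' hcc.2 hc'u.ne_zero
    have hPu : IsUnit P.det := by
      rw [← hP, Matrix.det_mul] at hcu; exact isUnit_of_mul_isUnit_right hcu
    have hP'u : IsUnit P'.det := by
      rw [← hP', Matrix.det_mul] at hc'u; exact isUnit_of_mul_isUnit_right hc'u
    obtain ⟨g, hg⟩ : ∃ g, g = Q * (fromBlocks P⁻¹ 0 0 P'⁻¹).submatrix e.symm e₀.symm := ⟨_, rfl⟩
    have hgU : dag θ g * g = 1 := by
      rw [hg, dag_mul, Matrix.mul_assoc, ← Matrix.mul_assoc (dag θ Q), hG,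
        show dag θ ((fromBlocks P⁻¹ 0 0 P'⁻¹).submatrix e.symm e₀.symm) =
          (fromBlocks (dag θ P⁻¹) 0 0 (dag θ P'⁻¹)).submatrix e₀.symm e.symm by
            rw [← dag_blocks]; ext i j; simp [dag],
        Matrix.reindex_apply, Matrix.submatrix_mul_equiv, Matrix.submatrix_mul_equiv, Matrix.fromBlocks_multiply,
        Matrix.fromBlocks_multiply, ← hP, ← hP']
      have e1 : dag θ P⁻¹ * (CfsgLib.Unitary.adj θ P * P * P⁻¹) = 1 := by
        rw [Matrix.mul_nonsing_inv_cancel_right _ _ hPu, show CfsgLib.Unitary.adj θ P = dag θ P from rfl, ← dag_mul,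
          Matrix.mul_nonsing_inv _ hPu, dag_one]
      have e2 : dag θ P'⁻¹ * (CfsgLib.Unitary.adj θ P' * P' * P'⁻¹) = 1 := by
        rw [Matrix.mul_nonsing_inv_cancel_right _ _ hP'u, show CfsgLib.Unitary.adj θ P' = dag θ P' from rfl, ← dag_mul,
          Matrix.mul_nonsing_inv _ hP'u, dag_one]
      simp [e1, e2]
    have hgd : IsUnit g.det := Matrix.isUnit_det_of_left_inverse hgU
    refine ⟨⟨Matrix.GeneralLinearGroup.mk'' g hgd, (mem_GU_dag q hq hθ _).mpr hgU⟩, Subtype.ext ?_⟩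
    refine Submodule.eq_of_le_of_finrank_eq ?_ ((Φ _).2.1.trans W.2.1.symm)
    rintro _ ⟨a, rfl⟩
    have h2 : g *ᵥ ι₀ a = Q *ᵥ (Sum.elim (P⁻¹ *ᵥ a) 0 ∘ e.symm) := by
      rw [hg, ← Matrix.mulVec_mulVec, Matrix.submatrix_mulVec_equiv, Matrix.fromBlocks_mulVec]
      simp [ι₀, Function.comp_assoc]
    show g *ᵥ ι₀ a ∈ W.1
    rw [h2]
    exact hl _
  haveI : Fintype Ω := Fintype.ofFinite _
  have hcomp : ∀ g h v, v ∈ (Φ (g * h)).1 ↔ ∃ w ∈ (Φ h).1, g.1.1 *ᵥ w = v := fun g h v => by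
    rw [hΦ]
    simp only [hΦ]
    constructor
    · rintro ⟨a, rfl⟩; exact ⟨_, ⟨a, rfl⟩, by rw [Matrix.mulVec_mulVec]; rfl⟩
    · rintro ⟨_, ⟨a, rfl⟩, rfl⟩; exact ⟨a, by rw [Matrix.mulVec_mulVec]; rfl⟩
  have hcongr : ∀ g h h', Φ h = Φ h' → Φ (g * h) = Φ (g * h') := fun g h h' e =>
    Subtype.ext (Submodule.ext fun v => by rw [hcomp, hcomp, e])
  have hfib : ∀ W, Nat.card {g // Φ g = W} = Nat.card {g // Φ g = Φ 1} := by
    intro W
    obtain ⟨g₀, rfl⟩ := hsur W
    refine (Nat.card_congr (Equiv.subtypeEquiv (Equiv.mulLeft g₀) fun h => ?_)).symm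
    rw [Equiv.coe_mulLeft]
    constructor
    · intro e
      have := hcongr g₀ h 1 e
      rwa [mul_one] at this
    · intro e
      have := hcongr g₀⁻¹ _ _ e
      rwa [inv_mul_cancel_left, inv_mul_cancel] at this
  let S : Subgroup (Cfsg.GU n F q) :=
    { carrier := {g | Φ g = Φ 1}
      mul_mem' := fun {g h} hg hh => by
        show Φ (g * h) = Φ 1
        rw [hcongr g h 1 hh, mul_one]; exact hg
      one_mem' := rfl
      inv_mem' := fun {g} hg => by
        show Φ g⁻¹ = Φ 1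
        have := hcongr g⁻¹ g 1 hg
        rw [inv_mul_cancel, mul_one] at this
        exact this.symm }
  let ψ₀ : Matrix (Fin k) (Fin k) F →* Matrix (Fin n) (Fin n) F :=
    { toFun := fun D => reindex e₀ e₀ (fromBlocks 1 0 0 D)
      map_one' := by simp [Matrix.fromBlocks_one]
      map_mul' := fun D D' => by rw [reindex_mul', Matrix.fromBlocks_multiply]; simp }
  have hψ : ∀ D : Cfsg.GU k F q, Units.map ψ₀ D.1 ∈ Cfsg.GU n F q := fun D => by
    rw [mem_GU_dag q hq hθ]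
    show dag θ (reindex e₀ e₀ _) * reindex e₀ e₀ _ = 1
    rw [dag_reindex, reindex_mul', dag_blocks, dag_one, Matrix.fromBlocks_multiply]
    simp [(mem_GU_dag q hq hθ D.1).mp D.2, Matrix.fromBlocks_one]
  let ψ : Cfsg.GU k F q →* Cfsg.GU n F q :=
    { toFun := fun D => ⟨Units.map ψ₀ D.1, hψ D⟩
      map_one' := Subtype.ext (map_one _)
      map_mul' := fun D D' => Subtype.ext (map_mul _ _ _) }
  have hψi : Function.Injective ψ := fun D D' h => by
    have h1 : reindex e₀ e₀ (fromBlocks (1 : Matrix (Fin m) (Fin m) F) 0 0 D.1.1) =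
      reindex e₀ e₀ (fromBlocks 1 0 0 D'.1.1) := congrArg (fun g => g.1.1) h
    rw [(reindex e₀ e₀).injective.eq_iff, Matrix.fromBlocks_inj] at h1
    exact Subtype.ext (Units.ext h1.2.2.2)
  have hψS : ∀ D, ψ D ∈ S := fun D => Subtype.ext (Submodule.ext fun v => by
    have h1 : ∀ a, (ψ D).1.1 *ᵥ ι₀ a = ι₀ a := fun a => by
      show reindex e₀ e₀ (fromBlocks (1 : Matrix (Fin m) (Fin m) F) 0 0 D.1.1) *ᵥ _ = _
      rw [Matrix.reindex_apply, Matrix.submatrix_mulVec_equiv, Matrix.fromBlocks_mulVec]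
      simp [ι₀, Function.comp_assoc]
    simp only [hΦ, h1]
    simp)
  have hdvd : Nat.card (Cfsg.GU k F q) ∣ Nat.card {g // Φ g = Φ 1} :=
    (Subgroup.card_dvd_of_injective (ψ.codRestrict S hψS) fun D D' h => hψi (congrArg Subtype.val h)).trans
      (dvd_of_eq (Nat.card_congr (Equiv.refl _) : Nat.card S = Nat.card {g // Φ g = Φ 1}))
  have htot : Nat.card (Cfsg.GU n F q) = Nat.card Ω * Nat.card {g // Φ g = Φ 1} := by
    rw [← Nat.card_congr (Equiv.sigmaFiberEquiv Φ), Nat.card_sigma, Finset.sum_congr rfl fun W _ => hfib W,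
      Finset.sum_const, smul_eq_mul, Finset.card_univ, ← Nat.card_eq_fintype_card]
  rw [htot]
  exact Nat.mul_dvd_mul_left _ hdvd

/-- A prime dividing the number of nondegenerate subspaces gives a multiple of the multiplier order. -/
theorem nd_count_data (hF : Fintype.card F = q ^ 2) (hq : ∀ x, θ x = x ^ q) (hθ : ∀ a, θ (θ a) = a)
    (hne : θ ≠ RingHom.id F) {m k n r : ℕ} (hr : r.Prime) (hrq : ¬ r ∣ q) (hk : m + k = n)
    (h : r ∣ Nat.card {W : Submodule F (Fin n → F) // Module.finrank F W = m ∧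
        ∀ u ∈ W, u ≠ 0 → ∃ v ∈ W, Cfsg.hermForm n F q u v ≠ 0}) :
    ∃ j, k < j ∧ j ≤ n ∧ (-(q : ZMod r)) ^ j = 1 := by
  obtain ⟨C⟩ := CfsgLib.UGeom.nonempty_conj hF
  have h1 := (Nat.mul_dvd_mul_right h _).trans (card_nd_dvd hF hq hθ hne hk)
  rw [CfsgLib.UGeom.card_GU C, CfsgLib.UGeom.card_GU C, add_comm m k] at *
  subst hk
  rw [Finset.prod_range_add] at h1
  obtain ⟨P, hP⟩ : ∃ P, P = ∏ i ∈ Finset.range k, (if Even i then q ^ (i + 1) + 1 else q ^ (i + 1) - 1) := ⟨_, rfl⟩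
  have hPpos : 0 < P := hP ▸ Finset.prod_pos fun i _ => by
    have := Nat.one_lt_pow (show i + 1 ≠ 0 by omega) C.two_le
    split_ifs <;> omega
  rw [← hP] at h1
  have h2 : r ∣ q ^ ((k + m) * (k + m - 1) / 2) *
      ∏ i ∈ Finset.range m, (if Even (k + i) then q ^ (k + i + 1) + 1 else q ^ (k + i + 1) - 1) := by
    refine dvd_trans (dvd_mul_left r (q ^ (k * (k - 1) / 2))) ?_
    refine Nat.dvd_of_mul_dvd_mul_left hPpos ((dvd_of_eq ?_).trans (h1.trans (dvd_of_eq ?_))) <;> ring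
  rcases hr.dvd_mul.mp h2 with hc | hc
  · exact absurd (hr.dvd_of_dvd_pow hc) hrq
  obtain ⟨i, hi, hid⟩ := hr.prime.exists_mem_finset_dvd hc
  rw [Finset.mem_range] at hi
  refine ⟨k + i + 1, by omega, by omega, ?_⟩
  rw [← ZMod.natCast_eq_zero_iff] at hid
  rcases Nat.even_or_odd (k + i) with he | ho
  · rw [if_pos he, Nat.cast_add, Nat.cast_pow, Nat.cast_one] at hid
    rw [he.add_one.neg_pow]
    linear_combination -hid
  · rw [if_neg (Nat.not_even_iff_odd.mpr ho), Nat.cast_sub (Nat.one_le_pow _ _ (by have := C.two_le; omega)),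
      Nat.cast_pow, Nat.cast_one] at hid
    rw [ho.add_one.neg_pow]
    linear_combination hid

end Count

end CfsgLib.SubElusive
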