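import Cfsg.Agent.SubElusive.UnitBase
import Cfsg.Agent.SubElusive.SympPieces
import Cfsg.Agent.NilType.Gen

/-!
Self-dual matrices of prime order up to scalars: semisimple, unipotent, and with a scalar power that is not a power.
-/

set_option autoImplicit false
set_option linter.style.haveILetI false

namespace CfsgLib.SubElusive

open Matrix CfsgLib.FormConj CfsgLib.SemiClasses

section Scalar

variable {F : Type*} [Field F]

/-- Roots inside the subgroup of exponent `r * t`. -/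
theorem exists_root_in [Fintype F] {z : F} {r t : ℕ} (ht : z ^ t = 1) (hz : z ≠ 0) (hr : 0 < r)
    (hdiv : r * t ∣ Fintype.card F - 1) (hpos : 0 < t) : ∃ w : F, w ^ r = z ∧ w ^ (r * t) = 1 := by
  classical
  obtain ⟨g, hg⟩ := IsCyclic.exists_generator (α := Fˣ)
  obtain ⟨e, he⟩ := Submonoid.mem_powers_iff _ _ |>.mp (mem_powers_iff_mem_zpowers.mpr (hg (Units.mk0 z hz)))
  have hord : orderOf g = Fintype.card F - 1 := by
    rw [orderOf_eq_card_of_forall_mem_zpowers hg, Nat.card_units, Nat.card_eq_fintype_card]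
  have h1 : g ^ (e * t) = 1 := by
    rw [pow_mul, he]
    exact Units.ext (by rw [Units.val_pow_eq_pow_val, Units.val_mk0, ht, Units.val_one])
  have h2 : r * t ∣ e * t := hdiv.trans (hord ▸ orderOf_dvd_of_pow_eq_one h1)
  obtain ⟨e', rfl⟩ := Nat.dvd_of_mul_dvd_mul_right hpos h2
  have hz' : ((g ^ e' : Fˣ) : F) ^ r = z := by
    rw [← Units.val_pow_eq_pow_val, ← pow_mul, mul_comm, he, Units.val_mk0]
  exact ⟨_, hz', by rw [pow_mul, hz', ht]⟩

/-- An element of exactly the primary part of `N` as order. -/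
theorem exists_primary [Fintype F] {r N : ℕ} (hr : r.Prime) (hdiv : N ∣ Fintype.card F - 1) (hN : 0 < N)
    (hrN : r ∣ N) : ∃ z : F, z ^ (r ^ padicValNat r N) = 1 ∧ z ^ (N / r) ≠ 1 := by
  classical
  haveI := Fact.mk hr
  obtain ⟨g, hg⟩ := IsCyclic.exists_generator (α := Fˣ)
  have hord : orderOf g = Fintype.card F - 1 := by
    rw [orderOf_eq_card_of_forall_mem_zpowers hg, Nat.card_units, Nat.card_eq_fintype_card]
  obtain ⟨v, hv⟩ : ∃ v, v = padicValNat r N := ⟨_, rfl⟩
  have hvN : r ^ v ∣ N := hv ▸ pow_padicValNat_dvd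
  obtain ⟨e, he⟩ := hvN.trans hdiv
  have hcard : 0 < Fintype.card F - 1 := by
    have := Fintype.one_lt_card (α := F); omega
  have he0 : e ≠ 0 := by
    rintro rfl
    rw [mul_zero] at he
    omega
  have hz : orderOf (g ^ e) = r ^ v := by
    rw [orderOf_pow' g he0, hord, he, Nat.gcd_mul_left_left, Nat.mul_div_cancel _ (Nat.pos_of_ne_zero he0)]
  refine ⟨((g ^ e : Fˣ) : F), ?_, fun h => ?_⟩
  · rw [← hv, ← Units.val_pow_eq_pow_val, ← hz, pow_orderOf_eq_one, Units.val_one]
  · have h1 : r ^ v ∣ N / r := hz ▸ orderOf_dvd_of_pow_eq_one (Units.ext (by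
      rw [Units.val_pow_eq_pow_val, h, Units.val_one]))
    have h2 : r ^ (v + 1) ∣ N := by
      rw [pow_succ, ← Nat.div_mul_cancel hrN]
      exact Nat.mul_dvd_mul_right h1 r
    have := (padicValNat_dvd_iff_le hN.ne').mp h2
    omega

end Scalar

variable {F : Type*} [Field F] {θ : F →+* F} {ι κ : Type} [Fintype ι] [DecidableEq ι] [Fintype κ] [DecidableEq κ]

theorem SelfDual.reindex (e : ι ≃ κ) {A : Matrix ι ι F} (h : SelfDual θ A) :
    SelfDual θ (Matrix.reindex e e A) := by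
  obtain ⟨c, hc, hh⟩ := h
  exact ⟨Matrix.reindex e e c, by rw [Matrix.det_reindex_self]; exact hc,
    by rw [dag_reindex, reindex_mul', reindex_mul', hh]⟩

theorem SelfDual.blocks {A : Matrix ι ι F} {D : Matrix κ κ F} (hA : SelfDual θ A) (hD : SelfDual θ D) :
    SelfDual θ (Matrix.fromBlocks A 0 0 D) := by
  obtain ⟨c, hc, hh⟩ := hA
  obtain ⟨c', hc', hh'⟩ := hD
  exact ⟨Matrix.fromBlocks c 0 0 c', by rw [Matrix.det_fromBlocks_zero₂₁]; exact hc.mul hc',
    by rw [dag_blocks, Matrix.fromBlocks_multiply, Matrix.fromBlocks_multiply]; simp [hh, hh']⟩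

/-- Powers of similar matrices. -/
theorem similar_pow {A B Q : Matrix ι ι F} (h : Q * A = B * Q) (j : ℕ) : Q * A ^ j = B ^ j * Q := by
  induction j with
  | zero => simp
  | succ j ih => rw [pow_succ, pow_succ, ← Matrix.mul_assoc, ih, Matrix.mul_assoc, h, Matrix.mul_assoc]

/-- The blocks of a matrix of finite order have finite order. -/
theorem blocks_pow_eq {n : ℕ} (e : ι ⊕ κ ≃ Fin n) {A : Matrix ι ι F} {D : Matrix κ κ F}
    {x Q : Matrix (Fin n) (Fin n) F} (hQ : IsUnit Q.det)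
    (h : Q * Matrix.reindex e e (Matrix.fromBlocks A 0 0 D) = x * Q) {r : ℕ} {z : F} (hx : x ^ r = z • 1) :
    A ^ r = z • 1 ∧ D ^ r = z • 1 := by
  have h1 := similar_pow h r
  rw [hx, Matrix.smul_mul, Matrix.one_mul, show Matrix.reindex e e (Matrix.fromBlocks A 0 0 D) ^ r =
    Matrix.reindexAlgEquiv F F e (Matrix.fromBlocks A 0 0 D ^ r) by rw [map_pow]; rfl] at h1
  have h2 : Matrix.reindexAlgEquiv F F e (Matrix.fromBlocks A 0 0 D ^ r) = z • (1 : Matrix (Fin n) (Fin n) F) := by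
    have := congrArg (fun M => Q⁻¹ * M) h1
    simp only [Matrix.nonsing_inv_mul_cancel_left _ _ hQ, Matrix.mul_smul, Matrix.nonsing_inv_mul _ hQ] at this
    exact this
  rw [← map_one (Matrix.reindexAlgEquiv F F e), ← map_smul, (Matrix.reindexAlgEquiv F F e).injective.eq_iff,
    CfsgLib.NilType.blocks_pow, ← Matrix.fromBlocks_one, Matrix.fromBlocks_smul, Matrix.fromBlocks_inj] at h2
  exact ⟨h2.1, h2.2.2.2⟩

theorem det_of_similar {A B Q : Matrix ι ι F} (hQ : IsUnit Q.det) (h : Q * A = B * Q) : A.det = B.det := by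
  have := congrArg Matrix.det h
  rw [Matrix.det_mul, Matrix.det_mul, mul_comm] at this
  exact hQ.mul_right_cancel this

/-- The contragredient of a matrix with scalar power. -/
theorem dag_pow_scalar {A D : Matrix ι ι F} {z : F} (hz : θ z * z = 1) {r : ℕ} (hA : A ^ r = z • 1)
    (hD : dag θ A * D = 1) : D ^ r = z • 1 := by
  have hc : Commute (dag θ A) D := by
    show _ = _
    rw [hD, mul_eq_one_comm.mp hD]
  have h1 : (dag θ A) ^ r = θ z • (1 : Matrix ι ι F) := by
    have h2 : ∀ j, dag θ (A ^ j) = dag θ A ^ j := fun j => by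
      induction j with
      | zero => rw [pow_zero, pow_zero, dag_one]
      | succ j ih => rw [pow_succ, pow_succ', dag_mul, ih]
    rw [← h2, hA, dag_smul, dag_one]
  have h3 := hc.mul_pow r
  rw [hD, one_pow, h1, Matrix.smul_mul, Matrix.one_mul] at h3
  have h4 := congrArg (fun M => z • M) h3
  simp only [smul_smul, mul_comm z (θ z), hz, one_smul] at h4
  exact h4.symm

section Semisimple

variable [Fintype F] {L : Type*} [Field L] [Finite L] [Algebra F L] {p r : ℕ} [Fact p.Prime] [CharP F p]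
  [hr : Fact r.Prime] {ζ : L} {q : ℕ}

omit [Fintype ι] [DecidableEq ι] [Fintype κ] [DecidableEq κ] in
theorem card_eq_pow (hq2 : Fintype.card F = q ^ 2) : ∃ k, q = p ^ k := by
  obtain ⟨j, -, hj⟩ := FiniteField.card F p
  obtain ⟨k, -, hk⟩ := (Nat.dvd_prime_pow (Fact.out : p.Prime)).mp (hj ▸ hq2 ▸ dvd_pow_self q two_ne_zero)
  exact ⟨k, hk⟩

omit [Fintype κ] [DecidableEq κ] in
/-- The multiplicities of the contragredient. -/
theorem mult_contragredient (hζ : IsPrimitiveRoot ζ r) (hrp : r ≠ p) (hq2 : Fintype.card F = q ^ 2)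
    (hq : ∀ a, θ a = a ^ q) {A D : Matrix ι ι F} (hA : A ^ r = 1) (hD : dag θ A * D = 1) (x : ZMod r) :
    D ^ r = 1 ∧ mult ζ D (x * -(q : ZMod r)) = mult ζ A x := by
  obtain ⟨k, hk⟩ := card_eq_pow (p := p) hq2
  have hD' : D ^ r = 1 := by
    simpa using dag_pow_scalar (θ := θ) (z := 1) (by simp) (r := r) (by simpa using hA) hD
  have hd : (dag θ A) ^ r = 1 := by
    have := dag_pow_scalar (θ := RingHom.id F) (z := 1) (A := A) (D := (A⁻¹).transpose) (r := r) (by simp)
      (by simpa using hA) (by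
        have hAu : IsUnit A.det := (Matrix.isUnit_iff_isUnit_det A).mp (IsUnit.of_pow_eq_one hA hr.out.ne_zero)
        rw [dag, show A.map (RingHom.id F) = A by ext; simp, ← Matrix.transpose_mul, Matrix.nonsing_inv_mul _ hAu,
          Matrix.transpose_one])
    rw [dag, ← Matrix.transpose_pow]
    have h1 : (A.map θ) ^ r = 1 := by
      show (θ.mapMatrix A) ^ r = 1
      rw [← map_pow, hA, map_one]
    rw [h1, Matrix.transpose_one]
  refine ⟨hD', ?_⟩
  have hDe : D = (dag θ A)⁻¹ := (Matrix.inv_eq_right_inv hD).symm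
  rw [hDe, mul_neg, mult_inv hζ hrp hd, dag, mult_transpose]
  have := mult_map hζ hrp θ k (fun a => by rw [hq, hk]) A x
  rwa [← hk] at this

omit [Fintype κ] [DecidableEq κ] in
/-- Self-dual matrices have invariant multiplicities. -/
theorem SelfDual.mult_inv (hζ : IsPrimitiveRoot ζ r) (hrp : r ≠ p) (hq2 : Fintype.card F = q ^ 2)
    (hq : ∀ a, θ a = a ^ q) {A : Matrix ι ι F} (h : SelfDual θ A) (hA : A ^ r = 1) {h' : (ZMod r)ˣ}
    (hh' : (h' : ZMod r) = -(q : ZMod r)) (x : ZMod r) : mult ζ A (x * (h' : ZMod r)) = mult ζ A x := by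
  have hu : IsUnit (dag θ A).det := by
    rw [dag, Matrix.det_transpose, ← RingHom.mapMatrix_apply, ← RingHom.map_det]
    exact h.isUnit_det.map θ
  obtain ⟨P, hP, hPA⟩ := h.contragredient (Matrix.nonsing_inv_mul _ hu)
  rw [congrFun (mult_of_similar (r := r) (ζ := ζ) hP hPA) (x * (h' : ZMod r)), hh']
  exact (mult_contragredient hζ hrp hq2 hq hA (Matrix.mul_nonsing_inv _ hu) x).2

omit [Fintype κ] [DecidableEq κ] in
/-- Invariant multiplicities give self-dual matrices. -/
theorem selfDual_of_mult (hζ : IsPrimitiveRoot ζ r) (hrp : r ≠ p) (hq2 : Fintype.card F = q ^ 2)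
    (hq : ∀ a, θ a = a ^ q) {A : Matrix ι ι F} (hA : A ^ r = 1) {h' : (ZMod r)ˣ}
    (hh' : (h' : ZMod r) = -(q : ZMod r)) (hinv : ∀ x, mult ζ A (x * (h' : ZMod r)) = mult ζ A x) : SelfDual θ A := by
  have hu : IsUnit (dag θ A).det := by
    rw [dag, Matrix.det_transpose, ← RingHom.mapMatrix_apply, ← RingHom.map_det]
    exact ((Matrix.isUnit_iff_isUnit_det A).mp (IsUnit.of_pow_eq_one hA hr.out.ne_zero)).map θ
  obtain ⟨hD, -⟩ := mult_contragredient hζ hrp hq2 hq hA (Matrix.mul_nonsing_inv _ hu) 0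
  obtain ⟨P, hP, hPA⟩ := exists_similar hζ hrp (Equiv.refl ι) hA hD fun x => by
    obtain ⟨y, rfl⟩ : ∃ y, y * (h' : ZMod r) = x := ⟨x * (h'⁻¹ : (ZMod r)ˣ), by
      rw [mul_assoc, Units.inv_mul, mul_one]⟩
    rw [hinv, hh']
    exact ((mult_contragredient hζ hrp hq2 hq hA (Matrix.mul_nonsing_inv _ hu) y).2).symm
  rw [Matrix.reindex_refl_refl] at hPA
  exact SelfDual.of_contragredient hP (Matrix.mul_nonsing_inv _ hu) hPA

/-- Every invariant multiplicity function occurs on a self-dual matrix. -/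
theorem exists_selfDual_mult (hζ : IsPrimitiveRoot ζ r) (hrp : r ≠ p) (hq2 : Fintype.card F = q ^ 2)
    (hq : ∀ a, θ a = a ^ q) {h' : (ZMod r)ˣ} (hh' : (h' : ZMod r) = -(q : ZMod r)) (f : ZMod r → ℕ)
    (hf : ∀ x, f (x * (h' : ZMod r)) = f x) {n : ℕ} (hn : ∑ x, f x = n) :
    ∃ A : Matrix (Fin n) (Fin n) F, SelfDual θ A ∧ A ^ r = 1 ∧ ∀ x, mult ζ A x = f x := by
  obtain ⟨g, hg, hgm⟩ := exists_of_mult (F := F) hζ hrp f (fun x => by
    rw [show (Fintype.card F : ZMod r) = (h' : ZMod r) * (h' : ZMod r) by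
      rw [hh', hq2, Nat.cast_pow]; ring, ← mul_assoc, hf, hf]) hn
  have hgr : (g : Matrix (Fin n) (Fin n) F) ^ r = 1 := by rw [← Units.val_pow_eq_pow_val, hg, Units.val_one]
  exact ⟨g.1, selfDual_of_mult hζ hrp hq2 hq hgr hh' fun x => by rw [hgm, hgm, hf], hgr, hgm⟩

end Semisimple

section Unipotent

/-- Every partition occurs on a self-dual unipotent matrix. -/
theorem exists_selfDual_unipotent {n : ℕ} (μ : Nat.Partition n) :
    ∃ A : Matrix (Fin n) (Fin n) F, SelfDual θ A ∧ IsNilpotent (A - 1) ∧ CfsgLib.NilType.HasType (A - 1) μ := by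
  obtain ⟨N, hN, hNμ, hNf⟩ := CfsgLib.NilType.exists_matrix (F := F) μ
  have hdag : dag θ (1 + N) = 1 + N.transpose := by
    rw [dag_add, dag_one, dag, hNf θ]
  have hNt : IsNilpotent N.transpose := by
    obtain ⟨k, hk⟩ := hN
    exact ⟨k, by rw [← Matrix.transpose_pow, hk, Matrix.transpose_zero]⟩
  obtain ⟨U, hU⟩ := hNt.isUnit_one_add
  obtain ⟨D, hD⟩ : ∃ D, D = (↑U⁻¹ : Matrix (Fin n) (Fin n) F) := ⟨_, rfl⟩
  have hD1 : D - 1 = -(D * N.transpose) := by
    have h1 : D * (1 + N.transpose) = 1 := by rw [hD, ← hU, Units.inv_mul]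
    rw [Matrix.mul_add, Matrix.mul_one] at h1
    linear_combination (norm := abel) h1
  have hcomm : Commute D N.transpose := by
    rw [hD]
    refine Commute.units_inv_left ?_
    rw [hU]
    exact (Commute.one_left _).add_left (Commute.refl _)
  have hrk : ∀ j, ((D - 1) ^ j).rank = (N ^ j).rank := fun j => by
    rw [hD1, ← Matrix.neg_mul, (hcomm.neg_left).mul_pow, Matrix.rank_mul_eq_right_of_isUnit_det, ← Matrix.transpose_pow,
      Matrix.rank_transpose]
    rw [← Matrix.isUnit_iff_isUnit_det]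
    exact ((hD ▸ U⁻¹.isUnit : IsUnit D).neg).pow j
  have hnil : IsNilpotent (D - 1) := by
    rw [hD1, ← Matrix.neg_mul]
    exact (hcomm.neg_left).isNilpotent_mul_left hNt
  obtain ⟨P, hP⟩ := CfsgLib.NilType.isConj_sub_one_iff.mpr (CfsgLib.NilType.isConj_of_rank (A := 1 + N - 1) (B := D - 1)
    (by rw [add_sub_cancel_left]; exact hN) hnil fun j => by rw [add_sub_cancel_left, hrk])
  refine ⟨1 + N, SelfDual.of_contragredient (Matrix.isUnits_det_units P) ?_ hP.eq, by rwa [add_sub_cancel_left],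
    by rwa [add_sub_cancel_left]⟩
  rw [hdag, hD, ← hU, Units.mul_inv]

end Unipotent

section Power

open Polynomial

variable [Fintype F] {p : ℕ} [Fact p.Prime] [CharP F p]

omit [Fintype ι] [DecidableEq ι] [Fintype κ] [DecidableEq κ] [Fintype F] [CharP F p] in
theorem pow_sub_irreducible {r : ℕ} (hr : r.Prime) {z : F} (hz : ∀ w : F, w ^ r ≠ z) :
    Irreducible (X ^ r - C z : F[X]) :=
  X_pow_sub_C_irreducible_of_prime hr hz

omit [Fintype κ] [DecidableEq κ] [Fintype F] [CharP F p] in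
/-- The characteristic polynomial when the power is a scalar which is not a power. -/
theorem charpoly_of_nonpower {r : ℕ} (hr : r.Prime) {z : F} (hz : ∀ w : F, w ^ r ≠ z) {M : Matrix ι ι F}
    (hM : M ^ r = z • 1) : ∃ s, Fintype.card ι = r * s ∧ M.charpoly = (X ^ r - C z) ^ s := by
  classical
  have hP := pow_sub_irreducible hr hz
  have hPm : (X ^ r - C z : F[X]).Monic := monic_X_pow_sub_C z hr.ne_zero
  have hg : aeval M (X ^ r - C z : F[X]) = 0 := by
    rw [map_sub, map_pow, aeval_X, aeval_C, hM, Algebra.algebraMap_eq_smul_one, sub_self]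
  have hne : M.charpoly ≠ 0 := (Matrix.charpoly_monic M).ne_zero
  have hall : ∀ R ∈ UniqueFactorizationMonoid.normalizedFactors M.charpoly, R = X ^ r - C z := fun R hR => by
    have hi := UniqueFactorizationMonoid.irreducible_of_normalized_factor R hR
    have hd := dvd_of_matrix_aeval_eq_zero M hi (UniqueFactorizationMonoid.dvd_of_mem_normalizedFactors hR) hg
    refine eq_of_monic_of_associated ?_ hPm (hi.associated_of_dvd hP hd)
    rw [← UniqueFactorizationMonoid.normalize_normalized_factor R hR]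
    exact monic_normalize hi.ne_zero
  have h1 := UniqueFactorizationMonoid.prod_normalizedFactors hne
  rw [Multiset.eq_replicate_of_mem hall, Multiset.prod_replicate] at h1
  have h2 := eq_of_monic_of_associated (hPm.pow _) (Matrix.charpoly_monic M) h1
  refine ⟨_, ?_, h2.symm⟩
  have := congrArg natDegree h2
  rw [Matrix.charpoly_natDegree_eq_dim, natDegree_pow, natDegree_X_pow_sub_C] at this
  rw [← this, mul_comm]

omit [Fintype κ] [DecidableEq κ] [Fintype F] [CharP F p] in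
theorem det_of_nonpower {r : ℕ} (hr : r.Prime) (hr2 : r ≠ 2) {z : F} (hz : ∀ w : F, w ^ r ≠ z) {M : Matrix ι ι F}
    (hM : M ^ r = z • 1) {s : ℕ} (hs : Fintype.card ι = r * s) : M.det = z ^ s := by
  obtain ⟨s', hs', hc⟩ := charpoly_of_nonpower hr hz hM
  obtain rfl : s' = s := Nat.eq_of_mul_eq_mul_left hr.pos (hs'.symm.trans hs)
  rw [Matrix.det_eq_sign_charpoly_coeff, hc, coeff_zero_eq_eval_zero, eval_pow, eval_sub, eval_pow, eval_X, eval_C,
    zero_pow hr.ne_zero, zero_sub, hs, pow_mul, (hr.odd_of_ne_two hr2).neg_one_pow, ← mul_pow, neg_one_mul, neg_neg]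

/-- Two matrices of one size with the same non-power scalar as power are similar. -/
theorem similar_of_nonpower {r : ℕ} (hr : r.Prime) (hrp : r ≠ p) {z : F} (hz : ∀ w : F, w ^ r ≠ z) (hz0 : z ≠ 0)
    {n : ℕ} {A B : Matrix (Fin n) (Fin n) F} (hA : A ^ r = z • 1) (hB : B ^ r = z • 1) :
    ∃ P : Matrix (Fin n) (Fin n) F, IsUnit P.det ∧ P * A = B * P := by
  have hN : 0 < Fintype.card F - 1 := by have := Fintype.one_lt_card (α := F); omega
  have hpow : ∀ M : Matrix (Fin n) (Fin n) F, M ^ r = z • 1 →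
      IsUnit M.det ∧ M ^ (r * (Fintype.card F - 1)) = 1 := fun M hM => by
    have h1 : M ^ (r * (Fintype.card F - 1)) = 1 := by
      rw [pow_mul, hM, _root_.smul_pow, one_pow, FiniteField.pow_card_sub_one_eq_one z hz0, one_smul]
    exact ⟨(Matrix.isUnit_iff_isUnit_det M).mp (IsUnit.of_pow_eq_one h1 (Nat.mul_ne_zero hr.ne_zero hN.ne')), h1⟩
  have hcop : (r * (Fintype.card F - 1)).Coprime p := by
    refine Nat.Coprime.mul_left ((Nat.coprime_primes hr Fact.out).mpr hrp) ?_
    refine ((Fact.out : p.Prime).coprime_iff_not_dvd.mpr fun hd => ?_).symm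
    obtain ⟨k, -, hk⟩ := FiniteField.card F p
    have h1 : p ∣ Fintype.card F := hk ▸ dvd_pow_self p k.ne_zero
    have := Nat.dvd_sub h1 hd
    rw [Nat.sub_sub_self Fintype.card_pos] at this
    exact (Fact.out : p.Prime).one_lt.ne' (Nat.dvd_one.mp this)
  obtain ⟨hAu, hA1⟩ := hpow A hA
  obtain ⟨hBu, hB1⟩ := hpow B hB
  obtain ⟨s, hs, hcA⟩ := charpoly_of_nonpower hr hz hA
  obtain ⟨s', hs', hcB⟩ := charpoly_of_nonpower hr hz hB
  obtain rfl : s = s' := Nat.eq_of_mul_eq_mul_left hr.pos (hs.symm.trans hs')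
  obtain ⟨u, hu⟩ := isConj_iff.mp (Cfsg.Agent.H29.Semisimple.gl_conj_of_charpoly
    (Matrix.GeneralLinearGroup.mk'' A hAu) (Matrix.GeneralLinearGroup.mk'' B hBu)
    (hcop.coprime_dvd_left (orderOf_dvd_of_pow_eq_one (Units.ext (by rw [Units.val_pow_eq_pow_val]; exact hA1))))
    (hcop.coprime_dvd_left (orderOf_dvd_of_pow_eq_one (Units.ext (by rw [Units.val_pow_eq_pow_val]; exact hB1))))
    (hcA.trans hcB.symm))
  exact ⟨u.1, Matrix.isUnits_det_units u, congrArg Units.val (mul_inv_eq_iff_eq_mul.mp hu)⟩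

/-- Matrices with a non-power scalar as power are self-dual. -/
theorem selfDual_of_nonpower {r : ℕ} (hr : r.Prime) (hrp : r ≠ p) {z : F} (hz : ∀ w : F, w ^ r ≠ z)
    (hzz : θ z * z = 1) {n : ℕ} {A : Matrix (Fin n) (Fin n) F} (hA : A ^ r = z • 1) : SelfDual θ A := by
  have hz0 : z ≠ 0 := fun h => one_ne_zero (α := F) (by rw [← hzz, h, mul_zero])
  have hAu : IsUnit A.det := by
    have := congrArg Matrix.det hA
    rw [Matrix.det_pow, Matrix.det_smul, Matrix.det_one, mul_one] at this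
    exact IsUnit.mk0 _ fun h => by rw [h, zero_pow hr.ne_zero] at this; exact pow_ne_zero _ hz0 this.symm
  have hu : IsUnit (dag θ A).det := isUnit_det_dag θ hAu
  obtain ⟨P, hP, hPA⟩ := similar_of_nonpower hr hrp hz hz0 hA (dag_pow_scalar hzz hA (Matrix.mul_nonsing_inv _ hu))
  exact SelfDual.of_contragredient hP (Matrix.mul_nonsing_inv _ hu) hPA

omit [Fintype ι] [DecidableEq ι] [Fintype κ] [DecidableEq κ] [Fintype F] [CharP F p] in
/-- Matrices with prescribed scalar power. -/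
theorem exists_nonpower {r : ℕ} (hr : r.Prime) (z : F) (s : ℕ) :
    ∃ M : Matrix (Fin (r * s)) (Fin (r * s)) F, M ^ r = z • 1 := by
  obtain ⟨P, hP⟩ : ∃ P : F[X], P = X ^ r - C z := ⟨_, rfl⟩
  have hPm : P.Monic := hP ▸ monic_X_pow_sub_C z hr.ne_zero
  let pb := AdjoinRoot.powerBasis' hPm
  have hd : pb.dim = r := by
    show P.natDegree = r
    rw [hP, natDegree_X_pow_sub_C]
  obtain ⟨C₀, hC₀⟩ : ∃ C₀, C₀ = Algebra.leftMulMatrix pb.basis (AdjoinRoot.root P) := ⟨_, rfl⟩
  have hC : C₀ ^ r = z • 1 := by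
    have h1 : AdjoinRoot.root P ^ r = algebraMap F (AdjoinRoot P) z := by
      have := AdjoinRoot.eval₂_root P
      rw [hP] at this ⊢
      simp only [eval₂_sub, eval₂_X_pow, eval₂_C, sub_eq_zero] at this
      exact this
    rw [hC₀, ← map_pow, h1, AlgHom.commutes, Algebra.algebraMap_eq_smul_one]
  let e : Fin pb.dim × Fin s ≃ Fin (r * s) := (Equiv.prodCongr (finCongr hd) (Equiv.refl _)).trans finProdFinEquiv
  refine ⟨Matrix.reindexAlgEquiv F F e (Matrix.blockDiagonal fun _ : Fin s => C₀), ?_⟩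
  rw [← map_pow, ← map_one (Matrix.reindexAlgEquiv F F e), ← map_smul, ← Matrix.blockDiagonal_pow]
  congr 1
  rw [show ((fun _ : Fin s => C₀) ^ r) = fun _ : Fin s => C₀ ^ r from rfl, hC,
    show (fun _ : Fin s => z • (1 : Matrix (Fin pb.dim) (Fin pb.dim) F)) = z • (1 : Fin s → _) from rfl,
    Matrix.blockDiagonal_smul, Matrix.blockDiagonal_one]

end Power

end CfsgLib.SubElusive
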